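import Mathlib
import Cfsg.Agent.Max2.TenSL

/-!
# Several tensor structures on one space `U ⊗ W`

A linear automorphism `g` of `U ⊗ W` transports the algebra `1 ⊗ End W`; we compare such algebras.
-/

set_option autoImplicit false

namespace Cfsg.Agent.Max3

open Module Cfsg.Agent.Max Cfsg.Agent.Max2 TensorProduct

variable {F U W : Type*} [Field F] [AddCommGroup U] [Module F U] [AddCommGroup W] [Module F W]

/-- The rank one map `v ↦ φ v • w`. -/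
abbrev r1 (φ : Dual F W) (w : W) : Module.End F W := φ.smulRight w

theorem r1_mul (φ ψ : Dual F W) (w v : W) : r1 φ w * r1 ψ v = φ v • r1 ψ w := by
  ext x; simp [smul_smul, mul_comm]

theorem r1_ne {φ : Dual F W} {w : W} (hφ : φ ≠ 0) (hw : w ≠ 0) : r1 φ w ≠ 0 := by
  obtain ⟨v, hv⟩ := exists_apply_one hφ
  intro e
  have := LinearMap.congr_fun e v
  simp [hv, hw] at this

/-- The algebra `1 ⊗ End W` transported along `g`. -/
noncomputable def rh (g : (U ⊗[F] W) ≃ₗ[F] (U ⊗[F] W)) :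
    Module.End F W →ₐ[F] Module.End F (U ⊗[F] W) :=
  (g.conjAlgEquiv F : _ →ₐ[F] _).comp (Module.End.lTensorAlgHom F W U)

variable {g g' h : (U ⊗[F] W) ≃ₗ[F] (U ⊗[F] W)}

theorem rh_apply (g : (U ⊗[F] W) ≃ₗ[F] (U ⊗[F] W)) (x : Module.End F W) (v : U ⊗[F] W) :
    rh g x v = g (x.lTensor U (g.symm v)) := rfl

theorem rh_tmul (g : (U ⊗[F] W) ≃ₗ[F] (U ⊗[F] W)) (x : Module.End F W) (u : U) (w : W) :
    rh g x (g (u ⊗ₜ w)) = g (u ⊗ₜ x w) := by simp [rh_apply]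

theorem rh_one_tmul (x : Module.End F W) (u : U) (w : W) :
    rh (1 : (U ⊗[F] W) ≃ₗ[F] (U ⊗[F] W)) x (u ⊗ₜ w) = u ⊗ₜ x w := rh_tmul 1 x u w

theorem rh_mul_apply (g h : (U ⊗[F] W) ≃ₗ[F] (U ⊗[F] W)) (x : Module.End F W) (v : U ⊗[F] W) :
    rh (g * h) x (g v) = g (rh h x v) := by
  simp only [rh_apply, LinearEquiv.mul_apply]
  congr 3
  rw [LinearEquiv.symm_apply_eq, LinearEquiv.mul_apply, LinearEquiv.apply_symm_apply]

theorem rh_mul (g h : (U ⊗[F] W) ≃ₗ[F] (U ⊗[F] W)) (x : Module.End F W) :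
    rh (g * h) x * (g : Module.End F (U ⊗[F] W)) = (g : Module.End F (U ⊗[F] W)) * rh h x :=
  LinearMap.ext fun v => rh_mul_apply g h x v

theorem lT_r1 (φ : Dual F W) (w : W) (v : U ⊗[F] W) :
    (r1 φ w).lTensor U v = cW U φ v ⊗ₜ w := by
  induction v with
  | zero => simp
  | tmul u y => simp [smul_tmul]
  | add x y hx hy => simp only [map_add, hx, hy, add_tmul]

theorem rh_r1 (g : (U ⊗[F] W) ≃ₗ[F] (U ⊗[F] W)) (φ : Dual F W) (w : W) (v : U ⊗[F] W) :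
    rh g (r1 φ w) v = g (cW U φ (g.symm v) ⊗ₜ w) := by rw [rh_apply, lT_r1]

theorem rh_one_r1 (φ : Dual F W) (w : W) (v : U ⊗[F] W) :
    rh (1 : (U ⊗[F] W) ≃ₗ[F] (U ⊗[F] W)) (r1 φ w) v = cW U φ v ⊗ₜ w := rh_r1 1 φ w v

theorem ext_g {V' : Type*} [AddCommGroup V'] [Module F V'] (g : (U ⊗[F] W) ≃ₗ[F] (U ⊗[F] W))
    {f f' : U ⊗[F] W →ₗ[F] V'} (h : ∀ u w, f (g (u ⊗ₜ w)) = f' (g (u ⊗ₜ w))) : f = f' := by
  have : f ∘ₗ g.toLinearMap = f' ∘ₗ g.toLinearMap := TensorProduct.ext' h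
  refine LinearMap.ext fun v => ?_
  simpa using LinearMap.congr_fun this (g.symm v)

theorem rh_eq_zero [Nontrivial U] {x : Module.End F W} (h : rh g x = 0) : x = 0 := by
  obtain ⟨u, hu⟩ := exists_ne (0 : U)
  ext w
  by_contra hw
  have := rh_tmul g x u w
  rw [h, LinearMap.zero_apply, eq_comm, g.map_eq_zero_iff] at this
  exact tmul_ne_zero hu hw this

theorem rh_inj [Nontrivial U] {x y : Module.End F W} (h : rh g x = rh g y) : x = y :=
  sub_eq_zero.1 (rh_eq_zero (g := g) (by rw [map_sub, h, sub_self]))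

/-- `y` commutes with the transported algebra. -/
def CA (g : (U ⊗[F] W) ≃ₗ[F] (U ⊗[F] W)) (y : Module.End F (U ⊗[F] W)) : Prop :=
  ∀ x, Commute y (rh g x)

theorem CA.mul {y z : Module.End F (U ⊗[F] W)} (h1 : CA g y) (h2 : CA g z) : CA g (y * z) :=
  fun x => (h1 x).mul_left (h2 x)

theorem CA.add {y z : Module.End F (U ⊗[F] W)} (h1 : CA g y) (h2 : CA g z) : CA g (y + z) :=
  fun x => (h1 x).add_left (h2 x)

theorem CA.sub {y z : Module.End F (U ⊗[F] W)} (h1 : CA g y) (h2 : CA g z) : CA g (y - z) :=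
  fun x => (h1 x).sub_left (h2 x)

theorem CA.one : CA g 1 := fun _ => Commute.one_left _

theorem CA.exists {y : Module.End F (U ⊗[F] W)} (h : CA g y) :
    ∃ α : Module.End F U, ∀ u w, y (g (u ⊗ₜ w)) = g (α u ⊗ₜ w) := by
  by_cases hW : ∀ w : W, w = 0
  · exact ⟨0, fun u w => by simp [hW w]⟩
  push Not at hW
  obtain ⟨w₀, hw₀⟩ := hW
  obtain ⟨χ, hχ⟩ := exists_dual_one (F := F) hw₀
  refine ⟨cW U χ ∘ₗ (g.symm : _ →ₗ[F] _) ∘ₗ y ∘ₗ (g : _ →ₗ[F] _) ∘ₗ inW F U w₀, fun u w => ?_⟩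
  have := LinearMap.congr_fun (h (r1 χ w)).eq (g (u ⊗ₜ w₀))
  rw [Module.End.mul_apply, Module.End.mul_apply, rh_tmul, rh_r1] at this
  simpa [hχ] using this

theorem ca_of {y : Module.End F (U ⊗[F] W)} {α : U → U}
    (h : ∀ u w, y (g (u ⊗ₜ w)) = g (α u ⊗ₜ w)) : CA g y := fun x =>
  ext_g g fun u w => by simp only [Module.End.mul_apply, rh_tmul, h]

theorem CA.eq_zero {y : Module.End F (U ⊗[F] W)} (h : CA g y) {x : Module.End F W} (hx : x ≠ 0)
    (e : y * rh g x = 0) : y = 0 := by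
  obtain ⟨α, hα⟩ := h.exists
  obtain ⟨w, hw⟩ : ∃ w, x w ≠ 0 := by
    by_contra hn; push Not at hn; exact hx (LinearMap.ext hn)
  have : ∀ u, α u = 0 := fun u => by
    by_contra hu
    have := LinearMap.congr_fun e (g (u ⊗ₜ w))
    rw [Module.End.mul_apply, rh_tmul, hα, LinearMap.zero_apply, g.map_eq_zero_iff] at this
    exact tmul_ne_zero hu hw this
  exact ext_g g fun u w => by simp [hα, this]

/-- The decomposable automorphisms. -/
def TG (F U W : Type*) [Field F] [AddCommGroup U] [Module F U] [AddCommGroup W] [Module F W] :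
    Subgroup ((U ⊗[F] W) ≃ₗ[F] (U ⊗[F] W)) where
  carrier := {g | IsT g}
  one_mem' := ⟨1, 1, fun _ _ => rfl⟩
  mul_mem' := by
    rintro g h ⟨a, b, e⟩ ⟨c, d, e'⟩
    exact ⟨a * c, b * d, fun u w => by simp only [LinearEquiv.mul_apply, e, e']⟩
  inv_mem' := by
    rintro g ⟨a, b, e⟩
    exact ⟨a.symm, b.symm, fun u w => by
      rw [LinearEquiv.coe_inv, LinearEquiv.symm_apply_eq, e]; simp⟩

/-- The two structures coincide. -/
def Same (g g' : (U ⊗[F] W) ≃ₗ[F] (U ⊗[F] W)) : Prop := g'⁻¹ * g ∈ TG F U W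

theorem same_iff : Same g g' ↔
    ∃ (a : U ≃ₗ[F] U) (b : W ≃ₗ[F] W), ∀ u w, g (u ⊗ₜ w) = g' (a u ⊗ₜ b w) := by
  refine exists_congr fun a => exists_congr fun b => forall_congr' fun u => forall_congr' fun w => ?_
  rw [LinearEquiv.mul_apply, LinearEquiv.coe_inv, LinearEquiv.symm_apply_eq]

theorem Same.refl (g : (U ⊗[F] W) ≃ₗ[F] (U ⊗[F] W)) : Same g g := by
  rw [Same, inv_mul_cancel]; exact one_mem _

theorem Same.symm (h : Same g g') : Same g' g := by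
  have := inv_mem h
  rwa [mul_inv_rev, inv_inv] at this

theorem Same.trans {g'' : (U ⊗[F] W) ≃ₗ[F] (U ⊗[F] W)} (h1 : Same g g') (h2 : Same g' g'') :
    Same g g'' := by
  have := mul_mem h2 h1
  rwa [mul_assoc, mul_inv_cancel_left] at this

theorem Same.left (h1 : Same g g') (h : (U ⊗[F] W) ≃ₗ[F] (U ⊗[F] W)) :
    Same (h * g) (h * g') := by
  rwa [Same, mul_inv_rev, mul_assoc, inv_mul_cancel_left]

theorem Same.rh (h : Same g g') : ∃ b : W ≃ₗ[F] W, ∀ x, rh g x = rh g' (b.conjAlgEquiv F x) := by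
  obtain ⟨a, b, e⟩ := same_iff.1 h
  exact ⟨b, fun x => ext_g g fun u w => by
    rw [rh_tmul, e, e, rh_tmul]; simp [LinearEquiv.conjAlgEquiv_apply]⟩

theorem Same.ca (h : Same g g') {y : Module.End F (U ⊗[F] W)} (hy : CA g' y) : CA g y := by
  obtain ⟨b, e⟩ := h.rh
  exact fun x => e x ▸ hy _

/-- The two structures commute. -/
def Com (g g' : (U ⊗[F] W) ≃ₗ[F] (U ⊗[F] W)) : Prop := ∀ x, CA g' (rh g x)

theorem Com.symm (h : Com g g') : Com g' g := fun x y => (h y x).symm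

theorem Com.same {g'' : (U ⊗[F] W) ≃ₗ[F] (U ⊗[F] W)} (h1 : Com g g') (h2 : Same g'' g') :
    Com g g'' := fun x => h2.ca (h1 x)

theorem CA.conj {y : Module.End F (U ⊗[F] W)} (hy : CA g y) (h : (U ⊗[F] W) ≃ₗ[F] (U ⊗[F] W)) :
    CA (h * g) (cjm h y) := fun x => ext_g (h * g) fun u w => by
  obtain ⟨α, hα⟩ := hy.exists
  have e : ∀ u w, cjm h y ((h * g) (u ⊗ₜ w)) = (h * g) (α u ⊗ₜ w) := fun u w => by
    simp [cjm_apply, hα]
  simp only [Module.End.mul_apply, rh_tmul, e]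

theorem cjm_rh (h g : (U ⊗[F] W) ≃ₗ[F] (U ⊗[F] W)) (x : Module.End F W) :
    cjm h (rh g x) = rh (h * g) x := LinearMap.ext fun v => by
  rw [cjm_apply, ← rh_mul_apply, LinearEquiv.apply_symm_apply]

theorem Com.left (h1 : Com g g') (h : (U ⊗[F] W) ≃ₗ[F] (U ⊗[F] W)) : Com (h * g) (h * g') :=
  fun x => cjm_rh h g x ▸ (h1 x).conj h

theorem CA.same_mul (hy : CA g (h : Module.End F (U ⊗[F] W))) : Same (h * g) g := by
  obtain ⟨α, hα⟩ := hy.exists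
  have hi : CA g (h.symm : Module.End F (U ⊗[F] W)) := fun x => by
    have := (hy x).eq
    refine LinearMap.ext fun v => h.injective ?_
    have e := LinearMap.congr_fun this (h.symm v)
    simp only [Module.End.mul_apply, LinearEquiv.coe_coe, LinearEquiv.apply_symm_apply] at e ⊢
    exact e.symm
  obtain ⟨β, hβ⟩ := hi.exists
  by_cases hW : ∀ w : W, w = 0
  · exact same_iff.2 ⟨1, 1, fun u w => by simp [hW w]⟩
  push Not at hW
  obtain ⟨w₀, hw₀⟩ := hW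
  refine same_iff.2 ⟨LinearEquiv.ofLinearMap α β (LinearMap.ext fun u => ?_)
    (LinearMap.ext fun u => ?_), 1, fun u w => hα u w⟩
  · refine tmul_left_inj (F := F) hw₀ (g.injective ?_)
    rw [LinearMap.comp_apply, ← hα, ← hβ]; simp
  · refine tmul_left_inj (F := F) hw₀ (g.injective ?_)
    rw [LinearMap.comp_apply, ← hβ, ← hα]; simp

theorem r1_not_central [FiniteDimensional F W] {φ : Dual F W} {w : W} (hφ : φ ≠ 0) (hw : w ≠ 0)
    (h0 : φ w = 0) : ∃ x, ¬ Commute (r1 φ w) x := by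
  obtain ⟨v, hv⟩ := exists_apply_one hφ
  refine ⟨r1 φ v, fun e => r1_ne hφ hw ?_⟩
  have := e.eq
  rwa [r1_mul, r1_mul, hv, h0, one_smul, zero_smul] at this

theorem not_ca_r1 [Nontrivial U] [FiniteDimensional F W] {φ : Dual F W} {w : W} (hφ : φ ≠ 0)
    (hw : w ≠ 0) (h0 : φ w = 0) : ¬ CA g (rh g (r1 φ w)) := fun h => by
  obtain ⟨x, hx⟩ := r1_not_central hφ hw h0
  exact hx (rh_inj (g := g) (by rw [map_mul, map_mul]; exact (h x).eq))

theorem Com.not_same [Nontrivial U] [FiniteDimensional F W] (hn : 2 ≤ finrank F W)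
    (h : Com g g') : ¬ Same g g' := fun e => by
  have : Nontrivial W := Module.nontrivial_of_finrank_pos (R := F) (by omega)
  obtain ⟨w, hw⟩ := exists_ne (0 : W)
  obtain ⟨z, hz⟩ := exists_not_mem_span hn w
  obtain ⟨φ, h1, h2⟩ := exists_dual_two hz
  exact not_ca_r1 (by rintro rfl; simp at h2) hw h1 (h.same e _)

/-- The standard subspace `g (U ⊗ w)`. -/
noncomputable abbrev Lg (g : (U ⊗[F] W) ≃ₗ[F] (U ⊗[F] W)) (w : W) : Submodule F (U ⊗[F] W) :=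
  im (LW F U w) g

theorem mem_Lg {w : W} {v : U ⊗[F] W} : v ∈ Lg g w ↔ ∃ u, g (u ⊗ₜ w) = v := by
  constructor
  · rintro ⟨_, ⟨u, rfl⟩, rfl⟩; exact ⟨u, rfl⟩
  · rintro ⟨u, rfl⟩; exact apply_mem_im.2 (tmul_mem_LW u w)

theorem finrank_Lg {w : W} (hw : w ≠ 0) : finrank F (Lg g w) = finrank F U := by
  rw [finrank_im, finrank_LW hw]

theorem range_rh {φ : Dual F W} (hφ : φ ≠ 0) (w : W) :
    LinearMap.range (rh g (r1 φ w)) = Lg g w := by
  obtain ⟨v, hv⟩ := exists_apply_one hφ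
  ext x
  rw [mem_Lg]
  constructor
  · rintro ⟨y, rfl⟩; exact ⟨_, (rh_r1 g φ w y).symm⟩
  · rintro ⟨u, rfl⟩; exact ⟨g (u ⊗ₜ v), by simp [rh_tmul, hv]⟩

theorem rh_mem (g : (U ⊗[F] W) ≃ₗ[F] (U ⊗[F] W)) (φ : Dual F W) (w : W) (v : U ⊗[F] W) :
    rh g (r1 φ w) v ∈ Lg g w := mem_Lg.2 ⟨_, (rh_r1 g φ w v).symm⟩

theorem rh_Lg {φ : Dual F W} {w : W} (h : φ w = 0) (w' : W) {v : U ⊗[F] W} (hv : v ∈ Lg g w) :
    rh g (r1 φ w') v = 0 := by
  obtain ⟨u, rfl⟩ := mem_Lg.1 hv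
  simp [rh_tmul, h]

/-- A decomposable map that differs from the identity by a map of small rank. -/
theorem dich [FiniteDimensional F U] [FiniteDimensional F W] [Nontrivial U] (hn : 3 ≤ finrank F W)
    (hs : Same (h * g) g) {θ : Module.End F (U ⊗[F] W)} (e : ∀ v, h v = v + θ v)
    (hr : finrank F (LinearMap.range θ) ≤ finrank F U) : CA g θ ∨ ∃ φ w, θ = rh g (r1 φ w) := by
  obtain ⟨a, b, hab⟩ := same_iff.1 hs
  have e1 : ∀ u w, θ (g (u ⊗ₜ w)) = g (a u ⊗ₜ b w - u ⊗ₜ w) := fun u w => by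
    rw [map_sub, ← hab, LinearEquiv.mul_apply, e, add_sub_cancel_left]
  by_cases hb : ∀ c : F, (b : W →ₗ[F] W) ≠ c • LinearMap.id
  swap
  · push Not at hb
    obtain ⟨c, hc⟩ := hb
    refine Or.inl (ca_of (α := fun u => c • a u - u) fun u w => ?_)
    rw [e1, show b w = c • w from LinearMap.congr_fun hc w, sub_tmul, smul_tmul]
  right
  obtain ⟨v₀, hv₀⟩ := exists_not_eigen hb
  replace hv₀ : b v₀ ∉ F ∙ v₀ := hv₀
  let j : U →ₗ[F] U ⊗[F] W := θ ∘ₗ (g : _ →ₗ[F] _) ∘ₗ inW F U v₀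
  have hj : ∀ u, j u = g (a u ⊗ₜ b v₀ - u ⊗ₜ v₀) := fun u => e1 u v₀
  have hji : Function.Injective j := by
    rw [← LinearMap.ker_eq_bot, LinearMap.ker_eq_bot']
    intro u hu
    obtain ⟨φ, h1, h2⟩ := exists_dual_two hv₀
    rw [hj, g.map_eq_zero_iff] at hu
    simpa [h1, h2] using congrArg (cW U φ) hu
  have hrg : LinearMap.range j = LinearMap.range θ :=
    Submodule.eq_of_le_of_finrank_le (by rintro _ ⟨u, rfl⟩; exact ⟨_, rfl⟩)
      (by rw [LinearMap.finrank_range_of_inj hji]; exact hr)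
  have hx : ∀ u w, ∃ u', a u' ⊗ₜ[F] b v₀ - u' ⊗ₜ v₀ = a u ⊗ₜ b w - u ⊗ₜ w := fun u w => by
    obtain ⟨u', hu'⟩ : θ (g (u ⊗ₜ w)) ∈ LinearMap.range j := hrg ▸ ⟨_, rfl⟩
    exact ⟨u', g.injective (by rw [← hj, hu', e1])⟩
  obtain ⟨χ, h0, h1, h2⟩ := exists_dual_pair hn v₀ (b v₀)
  obtain ⟨v₁, hv₁⟩ := exists_apply_one h0
  have ha : ∀ u, a u = χ (b.symm v₁) • u := fun u => by
    obtain ⟨u', hu'⟩ := hx u (b.symm v₁)
    have := congrArg (cW U χ) hu'
    simp only [map_sub, cW_tmul, h1, h2, zero_smul, sub_self, LinearEquiv.apply_symm_apply, hv₁,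
      one_smul] at this
    exact (sub_eq_zero.1 this.symm)
  set c := χ (b.symm v₁)
  have e2 : ∀ u w, a u ⊗ₜ[F] b w - u ⊗ₜ w = u ⊗ₜ (c • b w - w) := fun u w => by
    rw [ha, tmul_sub, smul_tmul]
  obtain ⟨u₀, hu₀⟩ := exists_ne (0 : U)
  have hw : c • b v₀ - v₀ ≠ 0 := fun e' => hu₀ (hji (by rw [hj, e2, e']; simp))
  obtain ⟨ψ, hψ⟩ := exists_dual_one (F := F) hw
  refine ⟨ψ ∘ₗ (c • (b : W →ₗ[F] W) - LinearMap.id), c • b v₀ - v₀, ext_g g fun u w => ?_⟩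
  obtain ⟨u', hu'⟩ := hx u₀ w
  rw [e2, e2] at hu'
  obtain ⟨k, hk⟩ := Submodule.mem_span_singleton.1 (mem_span_of_tmul_eq' hu₀ hu'.symm)
  rw [e1, e2, rh_tmul, LinearMap.smulRight_apply]
  have : (ψ ∘ₗ (c • (b : W →ₗ[F] W) - LinearMap.id)) w = k := by
    change ψ (c • b w - w) = k
    rw [← hk, map_smul, hψ, smul_eq_mul, mul_one]
  rw [this, hk]

end Cfsg.Agent.Max3
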