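import Mathlib
import Cfsg.Agent.Max3.TW1
import Cfsg.Agent.Root.Q3

/-!
# Pairs of quadratic elements: a central involution, or a conjugating element
-/

set_option autoImplicit false

namespace Cfsg.Agent.Max3

open Module Cfsg.Agent.Max Cfsg.Agent.Max2 Polynomial
open scoped MatrixGroups

theorem dihedral {G : Type*} [Group G] [Finite G] (N : Subgroup G) {a b : G} (ha : a ∈ N)
    (hb : b ∈ N) (ha2 : a * a = 1) (hb2 : b * b = 1) :
    (∃ z ∈ N, z ≠ 1 ∧ z * z = 1 ∧ Commute z a ∧ Commute z b) ∨ ∃ y ∈ N, y * a = b * y := by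
  set s := a * b with hs
  have hsN : s ∈ N := N.mul_mem ha hb
  have ia : a⁻¹ = a := inv_eq_of_mul_eq_one_right ha2
  have ib : b⁻¹ = b := inv_eq_of_mul_eq_one_right hb2
  have h1 : a * s * a⁻¹ = s⁻¹ := by
    rw [hs, ← mul_assoc, ha2, one_mul, mul_inv_rev, ia, ib]
  have h2 : ∀ k : ℕ, a * s ^ k * a⁻¹ = (s ^ k)⁻¹ := fun k => by
    rw [← conj_pow, h1, inv_pow]
  have hb' : b = a * s := by rw [hs, ← mul_assoc, ha2, one_mul]
  obtain ⟨k, hk | hk⟩ := Nat.even_or_odd' (orderOf s)
  · have h3 : s ^ k * s ^ k = 1 := by rw [← pow_add, ← two_mul, ← hk, pow_orderOf_eq_one]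
    have h4 : Commute (s ^ k) a := by
      have := h2 k
      rw [inv_eq_of_mul_eq_one_right h3, mul_inv_eq_iff_eq_mul] at this
      exact this.symm
    refine Or.inl ⟨s ^ k, N.pow_mem hsN k, fun e => ?_, h3, h4, ?_⟩
    · have := orderOf_pos s
      have := Nat.le_of_dvd (by omega) (orderOf_dvd_of_pow_eq_one e)
      omega
    · rw [hb']; exact h4.mul_right ((Commute.refl s).pow_left k)
  · refine Or.inr ⟨s ^ k, N.pow_mem hsN k, ?_⟩
    have h3 : s ^ k * s * s ^ k = 1 := by
      rw [← pow_succ, ← pow_add, show k + 1 + k = 2 * k + 1 by ring, ← hk, pow_orderOf_eq_one]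
    have h4 : a * (s * s ^ k) = s ^ k * a := by
      have := h2 (k + 1)
      rw [mul_inv_eq_iff_eq_mul, pow_succ', inv_eq_of_mul_eq_one_left (by rw [← mul_assoc, h3])]
        at this
      exact this
    rw [hb', mul_assoc, h4]

variable {F V : Type*} [Field F] [AddCommGroup V] [Module F V]

/-- The elements acting trivially on `V / Z` and on `K`. -/
def Nz (Z K : Submodule F V) : Subgroup (V ≃ₗ[F] V) where
  carrier := {y | (∀ v, y v - v ∈ Z) ∧ ∀ v ∈ K, y v = v}
  one_mem' := ⟨fun v => by simp, fun _ _ => rfl⟩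
  mul_mem' := by
    rintro y z ⟨h1, h2⟩ ⟨h3, h4⟩
    refine ⟨fun v => ?_, fun v hv => by rw [LinearEquiv.mul_apply, h4 v hv, h2 v hv]⟩
    have := Z.add_mem (h1 (z v)) (h3 v)
    rwa [sub_add_sub_cancel] at this
  inv_mem' := by
    rintro y ⟨h1, h2⟩
    refine ⟨fun v => ?_, fun v hv => ?_⟩
    · have := Z.neg_mem (h1 (y.symm v))
      rwa [LinearEquiv.apply_symm_apply, neg_sub] at this
    · rw [LinearEquiv.coe_inv, LinearEquiv.symm_apply_eq, h2 v hv]

theorem R_inf_Nz {M : Subgroup (V ≃ₗ[F] V)} {θ : V →ₗ[F] V} (h : R M θ) {Z K : Submodule F V}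
    (h1 : ∀ v, θ v ∈ Z) (h2 : ∀ v ∈ K, θ v = 0) : R (M ⊓ Nz Z K) θ := by
  obtain ⟨t, ht, e⟩ := h
  exact ⟨t, ⟨ht, fun v => by simpa [e] using h1 v, fun v hv => by simp [e, h2 v hv]⟩, e⟩

/-- The basic property of a pair of subspaces with maximal intersection. -/
theorem p1 [FiniteDimensional F V] {X : Submodule F V} {t : V ≃ₗ[F] V} {θ : V →ₗ[F] V}
    (e : ∀ v, t v = v + θ v) {S : Submodule F V} (hS : S ≤ X) (h1 : ∀ v ∈ S, θ v = 0)
    (h : finrank F ↥(X ⊓ im X t) ≤ finrank F S) {x : V} (hx : x ∈ X) (hx' : θ x ∈ X) :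
    x ∈ S := by
  have hle : im S t ≤ X ⊓ im X t := by
    rintro _ ⟨s, hs, rfl⟩
    exact ⟨by simpa [e, h1 s hs] using hS hs, apply_mem_im.2 (hS hs)⟩
  have := Submodule.eq_of_le_of_finrank_le hle (by rwa [finrank_im])
  rw [← apply_mem_im (g := t), this]
  exact ⟨by rw [e]; exact X.add_mem hx hx', apply_mem_im.2 hx⟩

open Root in
/-- In odd characteristic a non-nilpotent pair generates a group with a central involution. -/
theorem exists_invol [Finite F] [FiniteDimensional F V] (h2 : (2 : F) ≠ 0)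
    {N : Subgroup (V ≃ₗ[F] V)} {α β : Module.End F V} (ha : α * α = 0) (hb : β * β = 0)
    (hα : R N α) (hβ : R N β) {Y : Submodule F V} (hY : ∀ y ∈ Y, α (β y) ∈ Y)
    (hY' : ∀ y ∈ Y, α y = 0) (hi : ∀ y ∈ Y, α (β y) = 0 → y = 0) {y₀ : V} (hy : y₀ ∈ Y)
    (hy0 : y₀ ≠ 0) : ∃ z ∈ N, z ≠ 1 ∧ z * z = 1 ∧ Commute (z : Module.End F V) α ∧
      Commute (z : Module.End F V) β := by
  classical
  have hg : ∀ y ∈ Y, gam α β y = α (β y) := fun y hy => by simp [gam, hY' y hy]
  obtain ⟨f, hf, v, hv, hv0, hfv⟩ := exists_irred_ker (gam α β) (W := Y)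
    (fun y hy => hg y hy ▸ hY y hy) hy hy0
  have hfX : ¬ f ∣ X := fun e => hv0 (hi v hv (by
    have := ev_ker_of_dvd hfv e
    rwa [aeval_X, hg v hv] at this))
  have : Fact (Irreducible f) := ⟨hf⟩
  let K := AdjoinRoot f
  have : FiniteDimensional F K := (AdjoinRoot.powerBasis hf.ne_zero).finite
  have : Finite K := Module.finite_of_finite F
  obtain ⟨p, hp⟩ := CharP.exists F
  have : Fact p.Prime := ⟨CharP.char_is_prime F p⟩
  have : CharP K p := charP_of_injective_algebraMap (algebraMap F K).injective p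
  have hp2 : p ≠ 2 := by
    rintro rfl
    exact h2 (by exact_mod_cast CharP.cast_eq_zero F 2)
  have h2K : (2 : K) ≠ 0 := fun e => h2 ((algebraMap F K).injective (by rw [map_ofNat, e, map_zero]))
  let l : K := AdjoinRoot.root f
  have hl : l ≠ 0 := fun h => hfX (AdjoinRoot.mk_eq_zero.1 h)
  let D : Subgroup (SL(2, K) × (V ≃ₗ[F] V)) :=
    { carrier := {x | x.2 ∈ N ∧ ∃ z p q r : F[X], z * (z + X * p) - X * q * r = 1 ∧
        x.1.1 0 0 = aeval l (z + X * p) ∧ x.1.1 0 1 = aeval l q ∧ x.1.1 1 0 = aeval l (X * r) ∧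
        x.1.1 1 1 = aeval l z ∧ (x.2 : Module.End F V) = TT α β z p q r}
      one_mem' := ⟨N.one_mem, 1, 0, 0, 0, by simp, by simp, by simp, by simp, by simp,
        by rw [TT_one]; rfl⟩
      mul_mem' := by
        rintro x y ⟨h9, z, p, q, r, h2, h3, h4, h5, h6, h8⟩
          ⟨h9', z', p', q', r', h2', h3', h4', h5', h6', h8'⟩
        refine ⟨N.mul_mem h9 h9', z * z' + X * r * q',
          z * p' + p * z' + X * p * p' + q * r' - r * q',
          (z + X * p) * q' + q * z', r * (z' + X * p') + z * r', ?_, ?_, ?_, ?_, ?_, ?_⟩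
        · linear_combination (z' * (z' + X * p') - X * q' * r') * h2 + h2'
        · simp [Matrix.mul_apply, Fin.sum_univ_two, h3, h4, h3', h5']; ring
        · simp [Matrix.mul_apply, Fin.sum_univ_two, h3, h4, h4', h6']
        · simp [Matrix.mul_apply, Fin.sum_univ_two, h5, h6, h3', h5']; ring
        · simp [Matrix.mul_apply, Fin.sum_univ_two, h5, h6, h4', h6']; ring
        · rw [← TT_mul ha hb, ← h8, ← h8']; rfl
      inv_mem' := by
        rintro x ⟨h9, z, p, q, r, h2, h3, h4, h5, h6, h8⟩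
        refine ⟨N.inv_mem h9, z + X * p, -p, -q, -r, by linear_combination h2, ?_, ?_, ?_, ?_, ?_⟩
        · simp [Matrix.adjugate_fin_two, h6]
        · simp [Matrix.adjugate_fin_two, h4]
        · simp [Matrix.adjugate_fin_two, h5]
        · simp [Matrix.adjugate_fin_two, h3]
        · have e := TT_mul_inv ha hb h2
          rw [← h8] at e
          refine LinearMap.ext fun u => x.2.injective ?_
          have := LinearMap.congr_fun e u
          simp only [Module.End.mul_apply, LinearEquiv.coe_coe, Module.End.one_apply] at this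
          rw [this]
          exact x.2.apply_symm_apply u }
  have hU : mU (1 : K) ∈ D.map (MonoidHom.fst _ _) := by
    obtain ⟨t, ht, e⟩ := hα
    exact ⟨(mU 1, t), ⟨ht, 1, 0, 1, 0, by simp, by simp, by simp, by simp, by simp,
      LinearMap.ext fun u => by simp [TT, e]⟩, rfl⟩
  have hL : mL l ∈ D.map (MonoidHom.fst _ _) := by
    obtain ⟨t, ht, e⟩ := hβ
    exact ⟨(mL l, t), ⟨ht, 1, 0, 0, 1, by simp, by simp, by simp, by simp, by simp,
      LinearMap.ext fun u => by simp [TT, e]⟩, rfl⟩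
  have hsy : Nat.card (Sylow p (D.map (MonoidHom.fst _ _))) ≠ 1 := by
    intro h1
    obtain ⟨P⟩ : Nonempty (Sylow p (D.map (MonoidHom.fst _ _))) := inferInstance
    have pw : ∀ (m : SL(2, K)) (n : Matrix (Fin 2) (Fin 2) K), m.1 = 1 + n → n * n = 0 →
        m ^ p ^ 1 = 1 := fun m n e e' => by
      apply Subtype.ext
      rw [pow_one, Matrix.SpecialLinearGroup.coe_pow, e, add_pow_char_of_commute _ (Commute.one_left n),
        one_pow, pow_eq_zero_of_le (Fact.out : p.Prime).two_le (by rw [sq, e']), add_zero]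
      rfl
    have m1 := Classical.DicksonSL.mem_sylow_of_card_eq_one h1 P (g := ⟨_, hU⟩) (k := 1)
      (Subtype.ext (pw _ !![0, 1; 0, 0] (by ext i j; fin_cases i <;> fin_cases j <;> simp)
        (by ext i j; fin_cases i <;> fin_cases j <;> simp [Matrix.mul_apply, Fin.sum_univ_two])))
    have m2 := Classical.DicksonSL.mem_sylow_of_card_eq_one h1 P (g := ⟨_, hL⟩) (k := 1)
      (Subtype.ext (pw _ !![0, 0; l, 0] (by ext i j; fin_cases i <;> fin_cases j <;> simp)
        (by ext i j; fin_cases i <;> fin_cases j <;> simp [Matrix.mul_apply, Fin.sum_univ_two])))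
    obtain ⟨k, hk⟩ := P.isPGroup' ⟨_, P.mul_mem m1 m2⟩
    have e1 : (mU (1 : K) * mL l).1 ^ p ^ k = 1 := by
      have := congrArg (fun x => x.1.1.1) hk
      simpa using this
    have e2 : IsNilpotent ((mU (1 : K) * mL l).1 - 1) :=
      ⟨p ^ k, by rw [sub_pow_char_pow_of_commute _ _ (Commute.one_right _), e1, one_pow, sub_self]⟩
    have := (Matrix.isNilpotent_trace_of_isNilpotent e2).eq_zero
    simp [Matrix.trace_fin_two] at this
    exact hl (by linear_combination this)
  obtain ⟨φ, hφ, hr⟩ := Classical.DicksonSL.exists_SL2_zmod hp2 _ hsy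
  obtain ⟨⟨m, g⟩, hx, hm⟩ := hr ⟨-1, rfl⟩
  replace hm : m = φ (-1) := hm
  have hm2 : m * m = 1 := by rw [hm, ← map_mul]; simp
  have hm1 : m ≠ 1 := by
    rw [hm, ← map_one φ]
    intro e
    have := congrArg (fun x : SL(2, ZMod p) => x.1 0 0) (hφ e)
    simp only [Matrix.SpecialLinearGroup.coe_neg, Matrix.SpecialLinearGroup.coe_one,
      Matrix.neg_apply, Matrix.one_apply_eq] at this
    have h3 : ((2 : ℕ) : ZMod p) = 0 := by push_cast; linear_combination -this
    rw [ZMod.natCast_eq_zero_iff] at h3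
    exact hp2 ((Nat.prime_dvd_prime_iff_eq Fact.out Nat.prime_two).1 h3)
  have : Finite V := Module.finite_of_finite F
  have : Finite (V ≃ₗ[F] V) := Finite.of_injective _ (DFunLike.coe_injective (F := V ≃ₗ[F] V))
  obtain ⟨k, hk | hk⟩ := Nat.even_or_odd' (orderOf g)
  · obtain ⟨h9, z, p, q, r, h3, -, -, -, -, h8⟩ := D.pow_mem hx k
    replace h9 : g ^ k ∈ N := h9
    replace h8 : ((g ^ k : V ≃ₗ[F] V) : Module.End F V) = TT α β z p q r := h8
    have h4 : g ^ k * g ^ k = 1 := by rw [← pow_add, ← two_mul, ← hk, pow_orderOf_eq_one]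
    have h5 : TT α β z p q r * TT α β z p q r = 1 := by
      rw [← h8]; exact congrArg LinearEquiv.toLinearMap h4
    have h6 : TT α β (z + X * p) (-p) (-q) (-r) = TT α β z p q r := by
      rw [← one_mul (TT α β (z + X * p) _ _ _), ← h5, mul_assoc, TT_mul_inv ha hb h3, mul_one]
    have h7 : (2 : F) • TT α β z p q r = aeval (gam α β) (z + (z + X * p)) := by
      rw [two_smul, ← TT_ev]
      nth_rw 2 [← h6]
      rw [TT_add]
      exact TT_congr rfl (by ring) (by ring) (by ring)
    have h10 : ∀ x : Module.End F V, Commute x (gam α β) → Commute (TT α β z p q r) x :=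
      fun x hx => by
        have := commute_aeval hx (z + (z + X * p))
        rw [← h7] at this
        have := this.smul_right (2 : F)⁻¹
        rw [smul_smul, inv_mul_cancel₀ h2, one_smul] at this
        exact this.symm
    refine ⟨g ^ k, h9, fun e => ?_, h4, h8 ▸ h10 _ (commute_gam_left ha),
      h8 ▸ h10 _ (commute_gam_right hb)⟩
    have := orderOf_pos g
    have := Nat.le_of_dvd (by omega) (orderOf_dvd_of_pow_eq_one e)
    omega
  · exfalso
    obtain ⟨-, z, p, q, r, h3, h4, -, h5, -, h8⟩ := D.pow_mem hx (2 * k + 1)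
    have e1 : ((m, g) ^ (2 * k + 1)).1 = m := by
      rw [Prod.pow_fst, pow_succ, pow_mul, sq, hm2, one_pow, one_mul]
    have e2 : ((m, g) ^ (2 * k + 1)).2 = 1 := by rw [Prod.pow_snd, ← hk, pow_orderOf_eq_one]
    rw [e1] at h4 h5
    rw [e2] at h8
    have e3 : aeval (gam α β) (z + X * p) v + β (aeval (gam α β) r v) = v := by
      have := LinearMap.congr_fun h8 v
      rw [TT, ← mul_ev_right hb] at this
      simp only [LinearMap.add_apply, Module.End.mul_apply, hY' v hv, map_zero, add_zero,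
        ← hg v hv] at this
      rw [mul_comm X, map_add, map_mul, aeval_X, LinearMap.add_apply, Module.End.mul_apply]
      exact this.symm
    have e4 : ∀ u : F[X], α (aeval (gam α β) u v) = 0 := fun u => by
      rw [← Module.End.mul_apply, mul_ev_left ha, Module.End.mul_apply, hY' v hv, map_zero]
    have e5 : f ∣ X * r := dvd_of_ev_ker hf hv0 hfv (by
      have := congrArg α e3
      rw [map_add, e4, zero_add, hY' v hv] at this
      rw [map_mul, aeval_X, Module.End.mul_apply]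
      change α (β _) + β (α _) = 0
      rw [this, e4, map_zero, add_zero])
    have e6 : f ∣ z + X * p - 1 := dvd_of_ev_ker hf hv0 hfv (by
      rw [ev_ker_of_dvd hfv ((hf.prime.dvd_or_dvd e5).resolve_left hfX), map_zero, add_zero] at e3
      rw [map_sub, map_one, LinearMap.sub_apply, e3]; simp)
    rw [AdjoinRoot.aeval_eq] at h4 h5
    rw [AdjoinRoot.mk_eq_zero.2 e5] at h5
    have e7 : m.1 0 0 = 1 := by
      have := AdjoinRoot.mk_eq_zero.2 e6
      rw [map_sub, map_one, sub_eq_zero] at this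
      rw [h4, this]
    have e8 : m.1 1 1 = 1 := by
      have := m.2
      rwa [Matrix.det_fin_two, e7, h5, mul_zero, sub_zero, one_mul] at this
    have e9 : m.1 0 1 = 0 := by
      have := congrArg (fun x : SL(2, K) => x.1 0 1) hm2
      simp only [Matrix.SpecialLinearGroup.coe_mul, Matrix.mul_apply, Fin.sum_univ_two, e7, e8,
        one_mul, mul_one, Matrix.SpecialLinearGroup.coe_one, ← two_mul] at this
      simpa [h2K] using this
    exact hm1 (Subtype.ext (by ext i j; fin_cases i <;> fin_cases j <;> simp [e7, e8, e9, h5]))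

/-- A non-nilpotent pair: a central involution, or (characteristic two) a conjugating element. -/
theorem pair_elt [Finite F] [FiniteDimensional F V]
    {N : Subgroup (V ≃ₗ[F] V)} {α β : Module.End F V} (hα : R N α) (hβ : R N β)
    {L X : Submodule F V} (h1 : ∀ v, α v ∈ L) (h2 : ∀ v ∈ L, α v = 0) (h3 : ∀ v, β v ∈ X)
    (h4 : ∀ v ∈ X, β v = 0) (h5 : ∀ x ∈ X, α x ∈ X → x ∈ L) (h6 : ∀ x ∈ L, β x ∈ L → x ∈ X)
    (h7 : ¬ X ≤ L) :
    (∃ z ∈ N, z ≠ 1 ∧ z * z = 1 ∧ Commute (z : Module.End F V) α ∧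
      Commute (z : Module.End F V) β) ∨ ((2 : F) = 0 ∧ ∃ y ∈ N, ∀ v, y (α v) = β (y v)) := by
  by_cases h2' : (2 : F) = 0
  · have : Finite V := Module.finite_of_finite F
    have : Finite (V ≃ₗ[F] V) := Finite.of_injective _ (DFunLike.coe_injective (F := V ≃ₗ[F] V))
    obtain ⟨a, ha, ea⟩ := hα
    obtain ⟨b, hb, eb⟩ := hβ
    have sq : ∀ x : V, x + x = 0 := fun x => by rw [← two_smul F, h2', zero_smul]
    rcases dihedral N ha hb (LinearEquiv.ext fun v => by
      simp [ea, h2 _ (h1 v), add_assoc, sq]) (LinearEquiv.ext fun v => by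
      simp [eb, h4 _ (h3 v), add_assoc, sq]) with ⟨z, hz, e1, e2, e3, e4⟩ | ⟨y, hy, e⟩
    · refine Or.inl ⟨z, hz, e1, e2, LinearMap.ext fun v => ?_, LinearMap.ext fun v => ?_⟩
      · simpa [ea] using LinearEquiv.congr_fun e3.eq v
      · simpa [eb] using LinearEquiv.congr_fun e4.eq v
    · exact Or.inr ⟨h2', y, hy, fun v => by simpa [ea, eb] using LinearEquiv.congr_fun e v⟩
  obtain ⟨x, hx, hxL⟩ := SetLike.not_le_iff_exists.1 h7
  refine Or.inl (exists_invol h2' (LinearMap.ext fun v => h2 _ (h1 v))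
    (LinearMap.ext fun v => h4 _ (h3 v)) hα hβ (Y := X.map α) (fun y _ => ⟨_, h3 y, rfl⟩)
    ?_ ?_ ⟨x, hx, rfl⟩ fun e => hxL (h5 x hx (e ▸ X.zero_mem)))
  · rintro _ ⟨x, -, rfl⟩; exact h2 _ (h1 x)
  · rintro _ ⟨x, hx, rfl⟩ e
    exact h2 _ (h5 x hx (h6 _ (h1 x) (h5 _ (h3 _) (e ▸ X.zero_mem))))

end Cfsg.Agent.Max3
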