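import Mathlib
import Cfsg.Agent.Max3.TW2

/-!
# A group containing the root elements of commuting tensor factors permutes the factors
-/

set_option autoImplicit false

namespace Cfsg.Agent.Max3

open Module Cfsg.Agent.Max Cfsg.Agent.Max2 TensorProduct

section General

variable {F V : Type*} [Field F] [AddCommGroup V] [Module F V]

/-- The group `g⁻¹ M g`. -/
def cM (g : V ≃ₗ[F] V) (M : Subgroup (V ≃ₗ[F] V)) : Subgroup (V ≃ₗ[F] V) :=
  M.comap (MulAut.conj g).toMonoidHom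

variable {M : Subgroup (V ≃ₗ[F] V)} {g h : V ≃ₗ[F] V}

theorem mem_cM : h ∈ cM g M ↔ g * h * g⁻¹ ∈ M := Iff.rfl

theorem cM_cM : cM h (cM g M) = cM (g * h) M := by
  ext x; simp only [mem_cM, mul_inv_rev, mul_assoc]

theorem cM_of_mem (hg : g ∈ M) : cM g M = M := by
  ext x; rw [mem_cM, M.mul_mem_cancel_right (M.inv_mem hg), M.mul_mem_cancel_left hg]

theorem cM_one : cM 1 M = M := cM_of_mem M.one_mem

theorem R_cM {N : V →ₗ[F] V} : R (cM g M) N ↔ R M (cjm g N) := by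
  constructor
  · rintro ⟨t, ht, e⟩
    exact ⟨_, ht, fun x => by simp [e, cjm_apply, LinearEquiv.coe_inv]⟩
  · rintro ⟨t, ht, e⟩
    exact ⟨g⁻¹ * t * g, by simpa [mem_cM, mul_assoc] using ht,
      fun x => by simp [e, cjm_apply, LinearEquiv.coe_inv]⟩

/-- The vectors of `X` mapped into `X`. -/
abbrev DD (θ : V →ₗ[F] V) (X : Submodule F V) : Submodule F V := X ⊓ X.comap θ

theorem DD_le [FiniteDimensional F V] {X : Submodule F V} {t : V ≃ₗ[F] V} {θ : V →ₗ[F] V}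
    (e : ∀ v, t v = v + θ v) : finrank F (DD θ X) ≤ finrank F ↥(im X t ⊓ X) := by
  rw [← finrank_im _ t]
  refine Submodule.finrank_mono ?_
  rintro _ ⟨x, ⟨h1, h2⟩, rfl⟩
  exact ⟨apply_mem_im.2 h1, by simpa [e] using X.add_mem h1 h2⟩

theorem DD_mem [FiniteDimensional F V] {X S : Submodule F V} {θ : V →ₗ[F] V} (hS : S ≤ X)
    (h1 : ∀ v ∈ S, θ v = 0) (h : finrank F (DD θ X) ≤ finrank F S) {x : V} (hx : x ∈ X)
    (hx' : θ x ∈ X) : x ∈ S := by
  have hle : S ≤ DD θ X := fun s hs => ⟨hS hs, by simp [h1 s hs]⟩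
  rw [Submodule.eq_of_le_of_finrank_le hle h]
  exact ⟨hx, hx'⟩

theorem DD_cjm (g : V ≃ₗ[F] V) (θ : V →ₗ[F] V) (X : Submodule F V) :
    DD (cjm g θ) (im X g) = im (DD θ X) g := by
  ext v
  rw [Submodule.mem_inf, Submodule.mem_comap, cjm_apply, apply_mem_im, mem_im, mem_im]
  rfl

theorem im_eq_of [FiniteDimensional F V] {X : Submodule F V} (h : ∀ x ∈ X, g x ∈ X) :
    im X g = X :=
  Submodule.eq_of_le_of_finrank_eq (by rintro _ ⟨x, hx, rfl⟩; exact h x hx) (finrank_im _ _)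

end General

variable {F U W : Type*} [Field F] [AddCommGroup U] [Module F U] [AddCommGroup W] [Module F W]
  {M : Subgroup ((U ⊗[F] W) ≃ₗ[F] (U ⊗[F] W))} {g g' h : (U ⊗[F] W) ≃ₗ[F] (U ⊗[F] W)}

/-- A root element of `M` in the structure `g`. -/
structure Rt (M : Subgroup ((U ⊗[F] W) ≃ₗ[F] (U ⊗[F] W))) (g : (U ⊗[F] W) ≃ₗ[F] (U ⊗[F] W))
    (φ : Dual F W) (w : W) : Prop where
  φ0 : φ ≠ 0
  w0 : w ≠ 0
  nil : φ w = 0
  mem : R M (rh g (r1 φ w))

variable {φ φ' : Dual F W} {w w' : W}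

theorem Rt_cM : Rt (cM g M) h φ w ↔ Rt M (g * h) φ w :=
  ⟨fun e => ⟨e.1, e.2, e.3, cjm_rh g h _ ▸ R_cM.1 e.4⟩,
    fun e => ⟨e.1, e.2, e.3, R_cM.2 (cjm_rh g h _ ▸ e.4)⟩⟩

theorem Rt.conj (e : Rt M g φ w) (hh : h ∈ M) : Rt M (h * g) φ w :=
  ⟨e.1, e.2, e.3, cjm_rh h g _ ▸ e.4.conj hh⟩

theorem Rt.sq (e : Rt M g φ w) (v : U ⊗[F] W) : rh g (r1 φ w) (rh g (r1 φ w) v) = 0 :=
  rh_Lg e.nil _ (rh_mem _ _ _ _)

theorem Lg_mul (h g : (U ⊗[F] W) ≃ₗ[F] (U ⊗[F] W)) (w : W) : Lg (h * g) w = im (Lg g w) h :=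
  im_mul _ _ _

theorem Lg_one (w : W) : Lg (1 : (U ⊗[F] W) ≃ₗ[F] (U ⊗[F] W)) w = LW F U w := im_one _

/-- The standard subspaces of two structures meet maximally. -/
structure MaxP (M : Subgroup ((U ⊗[F] W) ≃ₗ[F] (U ⊗[F] W)))
    (g g' : (U ⊗[F] W) ≃ₗ[F] (U ⊗[F] W)) (s : ℕ) : Prop where
  a : ∀ ψ v ψ' v', Rt M g ψ v → Rt M g' ψ' v' → finrank F (DD (rh g (r1 ψ v)) (Lg g' v')) ≤ s
  b : ∀ ψ v ψ' v', Rt M g ψ v → Rt M g' ψ' v' → finrank F (DD (rh g' (r1 ψ' v')) (Lg g v)) ≤ s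
  c : ∀ ψ v ψ' v', Rt M g ψ v → Rt M g' ψ' v' → finrank F ↥(Lg g v ⊓ Lg g' v') ≤ s

theorem MaxP.cM {s : ℕ} (e : MaxP M (h * g) (h * g') s) : MaxP (cM h M) g g' s where
  a ψ v ψ' v' h1 h2 := by
    have := e.a ψ v ψ' v' (Rt_cM.1 h1) (Rt_cM.1 h2)
    rwa [← cjm_rh, Lg_mul, DD_cjm, finrank_im] at this
  b ψ v ψ' v' h1 h2 := by
    have := e.b ψ v ψ' v' (Rt_cM.1 h1) (Rt_cM.1 h2)
    rwa [← cjm_rh, Lg_mul, DD_cjm, finrank_im] at this
  c ψ v ψ' v' h1 h2 := by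
    have := e.c ψ v ψ' v' (Rt_cM.1 h1) (Rt_cM.1 h2)
    rwa [Lg_mul, Lg_mul, ← im_inf, finrank_im] at this

/-- The hypotheses of the main theorem. -/
structure Hyp {I : Type*} (M : Subgroup ((U ⊗[F] W) ≃ₗ[F] (U ⊗[F] W)))
    (s : I → (U ⊗[F] W) ≃ₗ[F] (U ⊗[F] W)) (Iso : Subgroup ((U ⊗[F] W) ≃ₗ[F] (U ⊗[F] W)))
    (Good : Subgroup ((U ⊗[F] W) ≃ₗ[F] (U ⊗[F] W)) → Prop) : Prop where
  dim : 3 ≤ finrank F W
  le : M ≤ Iso
  iso : ∀ i, s i ∈ Iso
  good : ∀ i, Good (cM (s i) M)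
  com : ∀ i j, i ≠ j → Com (s i) (s j)
  cent : ∀ y, (∀ i, CA (s i) y) → ∃ c : F, y = c • 1
  root : ∀ i, ∃ φ w, Rt M (s i) φ w
  odd : (2 : F) = 0 → ∀ i, ∃ l : List (Dual F W × W), Odd l.length ∧
    (∀ r ∈ l, Rt M (s i) r.1 r.2) ∧ (l.map fun r => 1 + r1 r.1 r.2).prod = 1
  b1 : ∀ M h, h ∈ Iso → Good M → Good (cM h M) → ∀ φ w φ' w', Rt M 1 φ w → Rt M h φ' w' →
    Lg h w' = LW F U w → h ∈ TG F U W
  np : ∀ M h, h ∈ Iso → Good M → Good (cM h M) → ∀ φ w φ' w', Rt M 1 φ w → Rt M h φ' w' →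
    h ∉ TG F U W → ¬ MaxP M 1 h (finrank F ↥(LW F U w ⊓ Lg h w'))

variable {I : Type*} {s : I → (U ⊗[F] W) ≃ₗ[F] (U ⊗[F] W)}
  {Iso : Subgroup ((U ⊗[F] W) ≃ₗ[F] (U ⊗[F] W))}
  {Good : Subgroup ((U ⊗[F] W) ≃ₗ[F] (U ⊗[F] W)) → Prop}

/-- The conjugates of the given structures. -/
def Fam (M : Subgroup ((U ⊗[F] W) ≃ₗ[F] (U ⊗[F] W))) (s : I → (U ⊗[F] W) ≃ₗ[F] (U ⊗[F] W))
    (g : (U ⊗[F] W) ≃ₗ[F] (U ⊗[F] W)) : Prop := ∃ m ∈ M, ∃ i, g = m * s i

theorem Fam.std (i : I) : Fam M s (s i) := ⟨1, M.one_mem, i, (one_mul _).symm⟩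

theorem Fam.mul (e : Fam M s g) (hh : h ∈ M) : Fam M s (h * g) := by
  obtain ⟨m, hm, i, rfl⟩ := e
  exact ⟨h * m, M.mul_mem hh hm, i, (mul_assoc _ _ _).symm⟩

theorem coe_eq_one_add {V : Type*} [AddCommGroup V] [Module F V] {t : V ≃ₗ[F] V}
    {θ : Module.End F V} (e : ∀ v, t v = v + θ v) : (t : Module.End F V) = 1 + θ :=
  LinearMap.ext e

namespace Hyp

variable (H : Hyp M s Iso Good)
include H

theorem fam_iso (e : Fam M s g) : g ∈ Iso := by
  obtain ⟨m, hm, i, rfl⟩ := e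
  exact Iso.mul_mem (H.le hm) (H.iso i)

theorem fam_good (e : Fam M s g) : Good (cM g M) := by
  obtain ⟨m, hm, i, rfl⟩ := e
  rw [← cM_cM, cM_of_mem hm]
  exact H.good i

theorem fam_root (e : Fam M s g) : ∃ φ w, Rt M g φ w := by
  obtain ⟨m, hm, i, rfl⟩ := e
  obtain ⟨φ, w, h⟩ := H.root i
  exact ⟨φ, w, h.conj hm⟩

theorem b1' (e : Fam M s g) (e' : Fam M s g') (h1 : Rt M g φ w) (h2 : Rt M g' φ' w')
    (h3 : Lg g' w' = Lg g w) : Same g' g :=
  H.b1 (cM g M) (g⁻¹ * g') (Iso.mul_mem (Iso.inv_mem (H.fam_iso e)) (H.fam_iso e'))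
    (H.fam_good e) (by rw [cM_cM, mul_inv_cancel_left]; exact H.fam_good e') φ w φ' w'
    (Rt_cM.2 (by rwa [mul_one])) (Rt_cM.2 (by rwa [mul_inv_cancel_left]))
    (by rw [Lg_mul, h3, ← Lg_mul, inv_mul_cancel, Lg_one])

theorem np' (e : Fam M s g) (e' : Fam M s g') (h1 : Rt M g φ w) (h2 : Rt M g' φ' w')
    (h3 : ¬ Same g' g) : ¬ MaxP M g g' (finrank F ↥(Lg g w ⊓ Lg g' w')) := fun h4 =>
  H.np (cM g M) (g⁻¹ * g') (Iso.mul_mem (Iso.inv_mem (H.fam_iso e)) (H.fam_iso e'))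
    (H.fam_good e) (by rw [cM_cM, mul_inv_cancel_left]; exact H.fam_good e') φ w φ' w'
    (Rt_cM.2 (by rwa [mul_one])) (Rt_cM.2 (by rwa [mul_inv_cancel_left])) h3 (MaxP.cM (by
      rw [mul_one, mul_inv_cancel_left, ← finrank_im _ g, im_inf, ← Lg_mul, mul_inv_cancel_left]
      exact h4))

variable [Finite F] [FiniteDimensional F U] [FiniteDimensional F W] [Nontrivial U]

omit [Finite F] in
/-- In characteristic two a root element does not swap two factors. -/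
theorem no_swap (h2 : (2 : F) = 0) (e : Fam M s g) (hr : Rt M g φ w)
    {b : (U ⊗[F] W) ≃ₗ[F] (U ⊗[F] W)} (hb : b ∈ M) (eb : ∀ v, b v = v + rh g (r1 φ w) v)
    {i : I} (hc : Com (b * s i) (s i)) : False := by
  have sq : ∀ x : Module.End F (U ⊗[F] W), x + x = 0 := fun x => by
    rw [← two_smul F, h2, zero_smul]
  set N := rh g (r1 φ w) with hN
  have hN2 : N * N = 0 := LinearMap.ext hr.sq
  have eB := coe_eq_one_add eb
  set B : Module.End F (U ⊗[F] W) := b.toLinearMap with hB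
  have hB2 : B * B = 1 := by
    rw [eB, add_mul, mul_add, mul_add, hN2]; simp [add_assoc, sq]
  have hb2 : b * b = 1 := LinearEquiv.toLinearMap_injective hB2
  let Z : Module.End F W → Module.End F (U ⊗[F] W) := fun β => rh (s i) β * rh (b * s i) β
  have c1 : ∀ x, B * rh (s i) x = rh (b * s i) x * B := fun x => (rh_mul b (s i) x).symm
  have c2 : ∀ x, B * rh (b * s i) x = rh (s i) x * B := fun x => by
    rw [← rh_mul b (b * s i) x, ← mul_assoc, hb2, one_mul]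
  have Zb : ∀ β, B * Z β = Z β * B := fun β => by
    simp only [Z]
    rw [← mul_assoc, c1, mul_assoc, c2, ← mul_assoc, (hc β β).eq]
  have Zm : ∀ β β', Z (β * β') = Z β * Z β' := fun β β' => by
    simp only [Z, map_mul]
    rw [mul_assoc, mul_assoc, ← mul_assoc (rh (s i) β'), ← (hc β β').eq, mul_assoc]
  have key : ∀ ψ v, Rt M (s i) ψ v → CA g (Z (1 + r1 ψ v) * B) := by
    intro ψ v hv
    obtain ⟨a, ha, ea⟩ := hv.mem
    have eA := coe_eq_one_add ea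
    have hA2 : rh (s i) (r1 ψ v) * rh (s i) (r1 ψ v) = 0 := LinearMap.ext hv.sq
    have ha2 : a * a = 1 := LinearEquiv.toLinearMap_injective (by
      change (a : Module.End F (U ⊗[F] W)) * a = 1
      rw [eA, add_mul, mul_add, mul_add, hA2]; simp [add_assoc, sq])
    have ec : ((a * b * a⁻¹ : (U ⊗[F] W) ≃ₗ[F] (U ⊗[F] W)) : Module.End F (U ⊗[F] W)) =
        Z (1 + r1 ψ v) * B := by
      rw [inv_eq_of_mul_eq_one_right ha2]
      change (a : Module.End F (U ⊗[F] W)) * B * a = _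
      simp only [Z]
      rw [mul_assoc, mul_assoc, ← c1, map_add, map_one, eA]
    have ec' : ∀ x, (a * b * a⁻¹) x = x + rh (a * g) (r1 φ w) x := fun x => by
      rw [← cjm_rh]; simp [eb, cjm_apply, LinearEquiv.coe_inv, hN]
    have hcN : Commute (Z (1 + r1 ψ v) * B) N := by
      have : N = B - 1 := by rw [eB, add_sub_cancel_left]
      rw [this]
      exact Commute.sub_right (Commute.mul_left (Zb _).symm (Commute.refl B)) (Commute.one_right _)
    have hm : a * b * a⁻¹ ∈ M := M.mul_mem (M.mul_mem ha hb) (M.inv_mem ha)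
    have hs : Same (a * b * a⁻¹ * g) g := H.b1' e (e.mul hm) hr (hr.conj hm) (by
      rw [Lg_mul]
      refine im_eq_of fun x hx => ?_
      rw [← range_rh hr.φ0] at hx ⊢
      obtain ⟨y, rfl⟩ := hx
      exact ⟨(a * b * a⁻¹) y, (LinearMap.congr_fun (ec ▸ hcN).eq y).symm⟩)
    have eθ : Z (1 + r1 ψ v) * B = 1 + rh (a * g) (r1 φ w) := by rw [← ec, coe_eq_one_add ec']
    rcases dich H.dim hs ec' (by rw [range_rh hr.φ0, finrank_Lg hr.w0]) with h | ⟨χ, y, h⟩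
    · rw [eθ]; exact CA.one.add h
    exfalso
    have h3 : rh (a * g) (r1 φ w) * N = 0 := by
      have h4 : Commute (rh (a * g) (r1 φ w)) N := by
        have := hcN.sub_left (Commute.one_left N)
        rwa [eθ, add_sub_cancel_left] at this
      rw [h, hN] at h4 ⊢
      have h5 := rh_inj (g := g) (x := r1 χ y * r1 φ w) (y := r1 φ w * r1 χ y)
        (by rw [map_mul, map_mul]; exact h4.eq)
      have h6 := LinearMap.congr_fun h5 w
      rw [← map_mul, r1_mul]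
      by_cases h7 : χ w = 0
      · rw [h7, zero_smul, map_zero]
      have h8 : φ y = 0 := by simpa [hr.nil, h7, hr.w0] using h6.symm
      rw [r1_mul, r1_mul, h8, zero_smul] at h5
      rw [h5, map_zero]
    set A := rh (s i) (r1 ψ v) with hA
    set A' := rh (b * s i) (r1 ψ v) with hA'
    have hA'2 : A' * A' = 0 := LinearMap.ext (hv.conj hb).sq
    have hAA : A' * A = A * A' := (hc _ _).eq
    have h4 : (A + A' + A * A') * N = 0 := by
      have e1 : B * N = N := by rw [eB, add_mul, hN2, one_mul, add_zero]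
      have e2 := congrArg (· * N) eθ
      simp only [Z, map_add, map_one, ← hA, ← hA'] at e2
      rw [mul_assoc, e1, add_mul 1 _ N, h3, add_zero, one_mul] at e2
      have e3 : (1 + A) * (1 + A') * N = N + (A + A' + A * A') * N := by noncomm_ring
      rwa [e3, add_eq_left] at e2
    have h5 : A * A' * N = 0 := by
      have := congrArg (A' * ·) h4
      simp only [add_mul, mul_add, ← mul_assoc, hA'2, hAA, mul_zero, zero_mul, add_zero] at this
      rwa [mul_assoc A A' A', hA'2, mul_zero, zero_mul, add_zero] at this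
    rw [add_mul, h5, add_zero] at h4
    obtain ⟨v₃, hv₃⟩ := exists_apply_one hv.φ0
    obtain ⟨χ₂, k0, k1, k2⟩ := exists_dual_pair H.dim v v₃
    have eN : N = B + 1 := by rw [eB, add_right_comm, sq, zero_add]
    have h6 : rh (b * s i) (r1 χ₂ v) * A * (B + 1) = 0 := by
      have := congrArg (rh (b * s i) (r1 χ₂ v) * ·) h4
      simp only [← mul_assoc, mul_add, mul_zero] at this
      rwa [hA', ← map_mul, r1_mul, k1, zero_smul, map_zero, add_zero, eN] at this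
    have h7 := congrArg (· * rh (s i) (r1 ψ v₃)) h6
    simp only [mul_add, add_mul, mul_one, zero_mul] at h7
    rw [mul_assoc _ B, c1, (hc _ _).eq, mul_assoc A, ← mul_assoc (rh (b * s i) _), ← map_mul,
      r1_mul, k2, zero_smul, map_zero, zero_mul, mul_zero, zero_add, ← (hc _ _).eq, mul_assoc,
      ← map_mul, r1_mul, hv₃, one_smul] at h7
    exact r1_ne k0 hv.w0 (rh_eq_zero ((hc _).eq_zero (r1_ne hv.φ0 hv.w0) h7))
  obtain ⟨l, hl, h1, h3⟩ := H.odd h2 i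
  have ind : ∀ l : List (Dual F W × W), (∀ r ∈ l, Rt M (s i) r.1 r.2) →
      CA g (Z (l.map fun r => 1 + r1 r.1 r.2).prod * B ^ l.length) := by
    intro l
    induction l with
    | nil => intro _; simpa [Z] using CA.one
    | cons r l ih =>
      intro h
      have := (key _ _ (h r List.mem_cons_self)).mul (ih fun r hr => h r (List.mem_cons_of_mem _ hr))
      rw [List.map_cons, List.prod_cons, Zm, List.length_cons, pow_succ']
      rwa [mul_assoc (Z _), ← mul_assoc B, Zb, mul_assoc (Z _), ← mul_assoc (Z _)] at this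
  have := ind l h1
  obtain ⟨k, hk⟩ := hl
  rw [h3, hk, pow_succ, pow_mul, pow_two, hB2, one_pow, one_mul] at this
  simp only [Z, map_one, one_mul] at this
  have h4 := this.sub CA.one
  rw [eB, add_sub_cancel_left] at h4
  exact not_ca_r1 hr.φ0 hr.w0 hr.nil h4

/-- A root element permuting the factors belongs to one of them. -/
theorem std_of_perm {J : Set I} (e : Fam M s g) (hJ : ∀ i ∉ J, Com g (s i)) (hr : Rt M g φ w)
    {b : (U ⊗[F] W) ≃ₗ[F] (U ⊗[F] W)} (hb : b ∈ M) (eb : ∀ v, b v = v + rh g (r1 φ w) v)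
    (hp : ∀ i ∈ J, ∃ j ∈ J, Same (b * s i) (s j)) : ∃ j ∈ J, Same g (s j) := by
  by_contra hn
  push Not at hn
  have hd : 2 ≤ finrank F W := by have := H.dim; omega
  have hN2 : rh g (r1 φ w) * rh g (r1 φ w) = 0 := LinearMap.ext hr.sq
  have hN0 : rh g (r1 φ w) ≠ 0 := fun h => r1_ne hr.φ0 hr.w0 (rh_eq_zero h)
  have eB := coe_eq_one_add eb
  obtain ⟨c, hc⟩ := H.cent (rh g (r1 φ w)) fun i => by
    by_cases hi : i ∈ J
    swap
    · exact hJ i hi _
    by_cases hs : Same (b * s i) (s i)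
    · rcases dich H.dim hs eb (by rw [range_rh hr.φ0, finrank_Lg hr.w0]) with h | ⟨χ, y, h⟩
      · exact h
      have h1 : χ ≠ 0 := by rintro rfl; exact hN0 (by rw [h]; simp [r1])
      have h2 : y ≠ 0 := by rintro rfl; exact hN0 (by rw [h]; simp [r1])
      have h3 : χ y = 0 := by
        rw [h, ← map_mul, r1_mul, map_smul, smul_eq_zero, ← h] at hN2
        exact hN2.resolve_right hN0
      exact (hn i hi (H.b1' (Fam.std i) e ⟨h1, h2, h3, h ▸ hr.mem⟩ hr (by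
        rw [← range_rh hr.φ0, h, range_rh h1]))).elim
    exfalso
    obtain ⟨j, hj, h1⟩ := hp i hi
    have hij : j ≠ i := by rintro rfl; exact hs h1
    obtain ⟨k, -, h2⟩ := hp j hj
    have h3 : Same (b * (b * s i)) (s k) := (h1.left b).trans h2
    have hc : Com (b * s i) (s i) := ((H.com i j hij.symm).same h1).symm
    by_cases hki : k = i
    · subst hki
      by_cases h2' : (2 : F) = 0
      · exact H.no_swap h2' e hr hb eb hc
      obtain ⟨p, hp'⟩ := CharP.exists F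
      have hpp : p.Prime := CharP.char_is_prime F p
      obtain ⟨n, hn'⟩ := hpp.odd_of_ne_two (by
        rintro rfl; exact h2' (by exact_mod_cast CharP.cast_eq_zero F 2))
      have h4 : ∀ n : ℕ, Same ((b * b) ^ n * s k) (s k) := fun n => by
        induction n with
        | zero => simpa using Same.refl _
        | succ n ih =>
          rw [pow_succ', mul_assoc]
          exact (ih.left _).trans (by rwa [mul_assoc])
      have h5 : ∀ (n : ℕ) v, (b ^ n) v = v + (n : F) • rh g (r1 φ w) v := fun n v => by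
        induction n with
        | zero => simp
        | succ n ih =>
          rw [pow_succ', LinearEquiv.mul_apply, ih, eb, map_add, map_smul, hr.sq]
          push_cast; module
      have h6 : (b * b) ^ (n + 1) = b := LinearEquiv.ext fun v => by
        rw [← pow_two, ← pow_mul, h5, eb, show 2 * (n + 1) = p + 1 by omega]
        simp
      exact hs (h6 ▸ h4 (n + 1))
    have hkj : k ≠ j := by
      rintro rfl
      exact (H.com i k hij.symm).not_same hd (by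
        simpa using (h1.trans h2.symm).left b⁻¹)
    have c1 : Com (b * (b * s i)) (s i) := ((H.com i k (Ne.symm hki)).same h3).symm
    have c2 : Com (b * (b * s i)) (b * s i) := hc.left b
    have h7 : rh (s i) (r1 φ w) * (rh (b * s i) (r1 φ w) * rh (b * (b * s i)) (r1 φ w)) = 0 := by
      refine ext_g (b * (b * s i)) fun u v => ?_
      have e1 : ∀ x, b (b x) = b x + b x - x := fun x => by
        simp only [eb, map_add, hr.sq]; abel
      rw [Module.End.mul_apply, Module.End.mul_apply, rh_tmul, LinearEquiv.mul_apply,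
        LinearEquiv.mul_apply, e1, map_sub, map_add, rh_mul_apply, rh_tmul, map_sub,
        ← Module.End.mul_apply (rh (s i) _) (rh _ _), ← (hc _ _).eq, Module.End.mul_apply, rh_tmul]
      simp [hr.nil]
    rw [← ((hc _).mul (c1 _) _).eq] at h7
    have h8 := ((hc _).mul (c1 _)).eq_zero (r1_ne hr.φ0 hr.w0) h7
    rw [← (c2 _ _).eq] at h8
    exact r1_ne hr.φ0 hr.w0 (rh_eq_zero ((c2 _).eq_zero (r1_ne hr.φ0 hr.w0) h8))
  rw [hc, smul_mul_smul_comm, one_mul, smul_eq_zero, mul_self_eq_zero] at hN2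
  rcases hN2 with h | h
  · exact hN0 (by rw [hc, h, zero_smul])
  · exact hN0 (by rw [← mul_one (rh g _), h, mul_zero])

theorem core_ind [DecidableEq I] (J : Finset I) :
    ∀ g, Fam M s g → (∀ i ∉ J, Com g (s i)) → ∃ j ∈ J, Same g (s j) := by
  induction J using Finset.strongInduction with
  | H J ih =>
  have ih' : ∀ g, Fam M s g → (∀ i ∉ J, Com g (s i)) → ∀ i ∈ J, Same g (s i) ∨ Com g (s i) →
      ∃ j ∈ J, Same g (s j) := by
    rintro g e hJ i hi (h | h)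
    · exact ⟨i, hi, h⟩
    obtain ⟨j, hj, h'⟩ := ih _ (Finset.erase_ssubset hi) g e fun k hk => by
      by_cases hki : k = i
      · exact hki ▸ h
      · exact hJ k fun hk' => hk (Finset.mem_erase.2 ⟨hki, hk'⟩)
    exact ⟨j, Finset.mem_of_mem_erase hj, h'⟩
  let MJ : Subgroup ((U ⊗[F] W) ≃ₗ[F] (U ⊗[F] W)) :=
    { carrier := {m | m ∈ M ∧ ∀ i ∉ J, Same (m * s i) (s i)}
      one_mem' := ⟨M.one_mem, fun i _ => by simpa using Same.refl _⟩
      mul_mem' := fun {a b} ha hb => ⟨M.mul_mem ha.1 hb.1, fun i hi => by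
        rw [mul_assoc]; exact ((hb.2 i hi).left a).trans (ha.2 i hi)⟩
      inv_mem' := fun {a} ha => ⟨M.inv_mem ha.1, fun i hi => by
        simpa using ((ha.2 i hi).left a⁻¹).symm⟩ }
  have comJ : ∀ m ∈ MJ, ∀ g, (∀ i ∉ J, Com g (s i)) → ∀ i ∉ J, Com (m * g) (s i) :=
    fun m hm g h i hi => ((h i hi).left m).same (hm.2 i hi).symm
  have comS : ∀ j ∈ J, ∀ i ∉ J, Com (s j) (s i) := fun j hj i hi =>
    H.com j i (by rintro rfl; exact hi hj)
  have star : ∀ m ∈ MJ, ∀ i ∈ J, Same (m * s i) (s i) ∨ Com (m * s i) (s i) →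
      ∀ k ∈ J, ∃ l ∈ J, Same (m * s k) (s l) := by
    intro m hm i hi h k hk
    obtain ⟨j, hj, h1⟩ := ih' _ ((Fam.std i).mul hm.1) (comJ m hm _ (comS i hi)) i hi h
    by_cases hki : k = i
    · exact ⟨j, hj, hki ▸ h1⟩
    exact ih' _ ((Fam.std k).mul hm.1) (comJ m hm _ (comS k hk)) j hj
      (Or.inr (((H.com k i hki).left m).same h1.symm))
  have rootJ : ∀ g, (∀ i ∉ J, Com g (s i)) → ∀ φ w, ∀ t ∈ M,
      (∀ v, t v = v + rh g (r1 φ w) v) → t ∈ MJ := fun g hJ φ w t ht e =>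
    ⟨ht, fun i hi => CA.same_mul (by rw [coe_eq_one_add e]; exact CA.one.add (hJ i hi _))⟩
  let FJ : ((U ⊗[F] W) ≃ₗ[F] (U ⊗[F] W)) → Prop := fun g => ∃ m ∈ MJ, ∃ i ∈ J, g = m * s i
  have f1 : ∀ g, FJ g → Fam M s g := by
    rintro _ ⟨m, hm, i, -, rfl⟩; exact ⟨m, hm.1, i, rfl⟩
  have f2 : ∀ g, FJ g → ∀ i ∉ J, Com g (s i) := by
    rintro _ ⟨m, hm, i, hi, rfl⟩; exact comJ m hm _ (comS i hi)
  have f3 : ∀ g, FJ g → ∀ t ∈ MJ, FJ (t * g) := by
    rintro _ ⟨m, hm, i, hi, rfl⟩ t ht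
    exact ⟨t * m, MJ.mul_mem ht hm, i, hi, (mul_assoc _ _ _).symm⟩
  have key : ∀ g g', FJ g → FJ g' → ∀ φ w, Rt M g φ w → ∀ t ∈ M,
      (∀ v, t v = v + rh g (r1 φ w) v) → Same (t * g') g' ∨ Com (t * g') g' →
      Same g g' ∨ Com g g' := by
    rintro g _ hg ⟨m, hm, i, hi, rfl⟩ φ w hr t ht e h
    have hm' := MJ.inv_mem hm
    have h1 : m⁻¹ * t * m ∈ MJ := MJ.mul_mem (MJ.mul_mem hm' (rootJ g (f2 g hg) φ w t ht e)) hm
    obtain ⟨j, hj, h2⟩ := H.std_of_perm (J := J) ((f1 g hg).mul hm'.1) (comJ _ hm' _ (f2 g hg))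
      (hr.conj hm'.1) h1.1 (fun v => by
        rw [← cjm_rh]; simp [e, cjm_apply, LinearEquiv.coe_inv]; rfl)
      (star _ h1 i hi (h.imp (fun h => by simpa [mul_assoc] using h.left m⁻¹)
        fun h => by simpa [mul_assoc] using h.left m⁻¹))
    by_cases hji : j = i
    · exact Or.inl (by simpa [hji] using h2.left m)
    · exact Or.inr (by simpa using ((H.com i j (Ne.symm hji)).same h2).symm.left m)
  intro g e hJ
  obtain ⟨φ, w, hr⟩ := H.fam_root e
  obtain ⟨t, ht, et⟩ := hr.mem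
  have htJ := rootJ g hJ φ w t ht et
  by_cases hall : ∀ i ∈ J, Same (t * s i) (s i) ∨ Com (t * s i) (s i)
  · exact H.std_of_perm (J := J) e hJ hr ht et fun i hi =>
      star t htJ i hi (hall i hi) i hi
  exfalso
  push Not at hall
  obtain ⟨i, hi, hne⟩ := hall
  let P : ℕ → Prop := fun k => ∃ g g', FJ g ∧ FJ g' ∧ ¬ (Same g g' ∨ Com g g') ∧
    ∃ φ w φ' w', Rt M g φ w ∧ Rt M g' φ' w' ∧ finrank F ↥(Lg g w ⊓ Lg g' w') = k
  have hb : ∀ k, P k → k ≤ finrank F (U ⊗[F] W) := by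
    rintro k ⟨_, _, -, -, -, _, _, _, _, -, -, rfl⟩; exact Submodule.finrank_le _
  obtain ⟨ψ, v, hv⟩ := H.root i
  have hP : P _ := ⟨t * s i, s i, ⟨t, htJ, i, hi, rfl⟩, ⟨1, MJ.one_mem, i, hi, (one_mul _).symm⟩,
    not_or.2 hne, ψ, v, ψ, v, hv.conj ht, hv, rfl⟩
  classical
  obtain ⟨g₁, g₂, e1, e2, hn, φ₁, w₁, φ₂, w₂, r₁, r₂, hk⟩ := Nat.findGreatest_spec (hb _ hP) hP
  have mx : ∀ k, P k → k ≤ finrank F ↥(Lg g₁ w₁ ⊓ Lg g₂ w₂) := fun k h =>
    hk ▸ Nat.le_findGreatest (hb k h) h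
  have aux : ∀ g g', FJ g → FJ g' → ¬ (Same g g' ∨ Com g g') → ∀ ψ v ψ' v', Rt M g ψ v →
      Rt M g' ψ' v' → finrank F (DD (rh g (r1 ψ v)) (Lg g' v')) ≤
        finrank F ↥(Lg g₁ w₁ ⊓ Lg g₂ w₂) := by
    intro g g' hg hg' hn ψ v ψ' v' h1 h2
    obtain ⟨t, ht, et⟩ := h1.mem
    refine (DD_le et).trans (mx _ ⟨t * g', g', f3 _ hg' t (rootJ g (f2 g hg) ψ v t ht et), hg',
      fun h => hn (key g g' hg hg' ψ v h1 t ht et h), ψ', v', ψ', v', h2.conj ht, h2, ?_⟩)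
    rw [Lg_mul]
  exact H.np' (f1 _ e1) (f1 _ e2) r₁ r₂ (fun h => hn (Or.inl h.symm))
    ⟨aux _ _ e1 e2 hn, fun ψ v ψ' v' h1 h2 => aux _ _ e2 e1
      (fun h => hn (h.imp Same.symm Com.symm)) _ _ _ _ h2 h1,
      fun ψ v ψ' v' h1 h2 => mx _ ⟨_, _, e1, e2, hn, _, _, _, _, h1, h2, rfl⟩⟩

theorem core [Finite I] {g : (U ⊗[F] W) ≃ₗ[F] (U ⊗[F] W)} (hg : g ∈ M) (i : I) :
    ∃ j, Same (g * s i) (s j) := by
  classical
  have := Fintype.ofFinite I
  obtain ⟨j, -, h⟩ := H.core_ind Finset.univ _ ((Fam.std i).mul hg) (by simp)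
  exact ⟨j, h⟩

end Hyp

end Cfsg.Agent.Max3
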