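import Mathlib
import Cfsg.Agent.Max3.TW3

/-!
# Tensor powers presented as `U ⊗ W`
-/

set_option autoImplicit false

namespace Cfsg.Agent.Max3

open Module Cfsg.Agent.Max Cfsg.Agent.Max2 TensorProduct Function

variable {F U W : Type*} [Field F] [AddCommGroup U] [Module F U] [AddCommGroup W] [Module F W]

theorem same_of_rh [FiniteDimensional F U] [FiniteDimensional F W] [Nontrivial U]
    (hn : 2 ≤ finrank F W) {g g' : (U ⊗[F] W) ≃ₗ[F] (U ⊗[F] W)}
    (h : ∀ x, ∃ y, rh g x = rh g' y) : Same g g' := by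
  refine isT_of_lines hn fun w => ?_
  by_cases hw : w = 0
  · exact ⟨0, fun u => by simp [hw]⟩
  obtain ⟨χ, hχ⟩ := exists_dual_one (F := F) hw
  have hχ0 : χ ≠ 0 := by rintro rfl; simp at hχ
  obtain ⟨y, hy⟩ := h (r1 χ w)
  obtain ⟨v, hv⟩ : ∃ v, y v ≠ 0 := by
    by_contra hn'; push Not at hn'
    rw [show y = 0 from LinearMap.ext hn', map_zero] at hy
    exact r1_ne hχ0 hw (rh_eq_zero hy)
  have : Lg g' (y v) = Lg g w := Submodule.eq_of_le_of_finrank_eq (by
    intro x hx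
    obtain ⟨u, rfl⟩ := mem_Lg.1 hx
    rw [← range_rh hχ0, hy]
    exact ⟨_, rh_tmul g' y u v⟩) (by rw [finrank_Lg hv, finrank_Lg hw])
  refine ⟨y v, fun u => ?_⟩
  have h1 : g (u ⊗ₜ w) ∈ Lg g' (y v) := by rw [this]; exact mem_Lg.2 ⟨u, rfl⟩
  exact mem_im.1 h1

/-- A presentation of `U ⊗ W` as a tensor power of `W`. -/
structure TP (I : Type) [DecidableEq I] (F U W : Type*) [Field F] [AddCommGroup U] [Module F U]
    [AddCommGroup W] [Module F W] where
  pt : MultilinearMap F (fun _ : I => W) (U ⊗[F] W)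
  s : I → (U ⊗[F] W) ≃ₗ[F] (U ⊗[F] W)
  PM : (I → Module.End F W) → Module.End F (U ⊗[F] W)
  PP : Equiv.Perm I → (U ⊗[F] W) ≃ₗ[F] (U ⊗[F] W)
  span : Submodule.span F (Set.range pt) = ⊤
  PM_pt : ∀ x ws, PM x (pt ws) = pt fun i => x i (ws i)
  PP_pt : ∀ σ ws, PP σ (pt ws) = pt fun i => ws (σ⁻¹ i)
  rh_pt : ∀ i x ws, rh (s i) x (pt ws) = pt (update ws i (x (ws i)))
  s_eq : ∀ i, ∃ σ, s i = PP σ

namespace TP

variable {I : Type} [DecidableEq I] (T : TP I F U W)

theorem ext {V' : Type*} [AddCommGroup V'] [Module F V'] {f g : U ⊗[F] W →ₗ[F] V'}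
    (h : ∀ ws, f (T.pt ws) = g (T.pt ws)) : f = g :=
  LinearMap.ext_on T.span (by rintro _ ⟨ws, rfl⟩; exact h ws)

theorem ext' {V' : Type*} [AddCommGroup V'] [Module F V'] (k : (U ⊗[F] W) ≃ₗ[F] (U ⊗[F] W))
    {f g : U ⊗[F] W →ₗ[F] V'} (h : ∀ ws, f (k (T.pt ws)) = g (k (T.pt ws))) : f = g := by
  have : f ∘ₗ k.toLinearMap = g ∘ₗ k.toLinearMap := T.ext h
  refine LinearMap.ext fun v => ?_
  simpa using LinearMap.congr_fun this (k.symm v)

theorem mem_of_pt {S : Submodule F (U ⊗[F] W)} (h : ∀ ws, T.pt ws ∈ S) (x : U ⊗[F] W) : x ∈ S := by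
  have : Submodule.span F (Set.range T.pt) ≤ S :=
    Submodule.span_le.2 (by rintro _ ⟨ws, rfl⟩; exact h ws)
  exact this (T.span ▸ Submodule.mem_top)

theorem PM_mul (x y : I → Module.End F W) : T.PM (x * y) = T.PM x * T.PM y :=
  T.ext fun ws => by simp [T.PM_pt]

theorem PM_one : T.PM 1 = 1 := T.ext fun ws => by simp [T.PM_pt]

theorem PM_update (x : I → Module.End F W) (i : I) (y : Module.End F W) :
    T.PM (update x i (y * x i)) = rh (T.s i) y * T.PM x :=
  T.ext fun ws => by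
    rw [Module.End.mul_apply, T.PM_pt, T.PM_pt, T.rh_pt]
    congr 1
    funext j
    by_cases h : j = i
    · subst h; simp
    · simp [h]

theorem PM_zero {x : I → Module.End F W} {i : I} (h : x i = 0) : T.PM x = 0 :=
  T.ext fun ws => by rw [T.PM_pt]; exact T.pt.map_coord_zero i (by simp [h])

theorem PM_smul [Fintype I] (c : I → F) (x : I → Module.End F W) :
    T.PM (fun i => c i • x i) = (∏ i, c i) • T.PM x :=
  T.ext fun ws => by
    simp only [T.PM_pt, LinearMap.smul_apply]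
    exact T.pt.map_smul_univ c _

theorem com (i j : I) (h : i ≠ j) : Com (T.s i) (T.s j) := fun x y =>
  T.ext fun ws => by
    simp only [Module.End.mul_apply, T.rh_pt]
    rw [update_of_ne h, update_of_ne h.symm, update_comm h]

theorem ca_PM {x : I → Module.End F W} {i : I} (h : x i = 1) : CA (T.s i) (T.PM x) := fun y =>
  T.ext fun ws => by
    simp only [Module.End.mul_apply, T.rh_pt, T.PM_pt]
    congr 1
    funext j
    by_cases e : j = i
    · subst e; simp [h]
    · simp [e]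

theorem PM_ind [Finite I] (P : Module.End F (U ⊗[F] W) → Prop) (h1 : P 1)
    (x : I → Module.End F W) (h : ∀ i y, P y → P (rh (T.s i) (x i) * y)) : P (T.PM x) := by
  have := Fintype.ofFinite I
  have : ∀ S : Finset I, P (T.PM fun i => if i ∈ S then x i else 1) := by
    intro S
    induction S using Finset.induction_on with
    | empty => simpa [← Pi.one_def, T.PM_one] using h1
    | insert i S hi ih =>
      have := h i _ ih
      rw [← T.PM_update] at this
      convert this using 2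
      funext j
      by_cases e : j = i
      · subst e; simp [hi]
      · simp [e]
  simpa using this Finset.univ

theorem PM_r1 [Fintype I] (φ : I → Dual F W) (vs ws : I → W) :
    T.PM (fun i => r1 (φ i) (vs i)) (T.pt ws) = (∏ i, φ i (ws i)) • T.pt vs := by
  rw [T.PM_pt]; exact T.pt.map_smul_univ _ _

theorem cent [Finite I] [Nontrivial W] (y : Module.End F (U ⊗[F] W)) (h : ∀ i, CA (T.s i) y) :
    ∃ c : F, y = c • 1 := by
  have := Fintype.ofFinite I
  have hc : ∀ x, Commute y (T.PM x) := fun x =>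
    T.PM_ind (Commute y) (Commute.one_right y) x fun i z hz => (h i _).mul_right hz
  obtain ⟨w, hw⟩ := exists_ne (0 : W)
  obtain ⟨χ, hχ⟩ := exists_dual_one (F := F) hw
  obtain ⟨c, e⟩ := Submodule.mem_span_singleton.1 (T.mem_of_pt
    (S := (F ∙ T.pt fun _ => w).comap (T.PM fun _ => r1 χ w)) (fun ws => by
      rw [Submodule.mem_comap, T.PM_r1 (fun _ => χ) (fun _ => w)]
      exact Submodule.smul_mem _ _ (Submodule.mem_span_singleton_self _)) (y (T.pt fun _ => w)))
  refine ⟨c, T.ext fun vs => ?_⟩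
  have e1 : T.PM (fun i => r1 χ (vs i)) (T.pt fun _ => w) = T.pt vs := by
    rw [T.PM_r1 (fun _ => χ)]; simp [hχ]
  have e2 : T.PM (fun i => r1 χ (vs i)) * T.PM (fun _ => r1 χ w) =
      T.PM (fun i => r1 χ (vs i)) := by
    rw [← T.PM_mul]; congr 1; funext i; simp [r1_mul, hχ]
  rw [← e1, ← Module.End.mul_apply, (hc _).eq, ← e2, Module.End.mul_apply, Module.End.mul_apply,
    ← e, map_smul, e2]
  rfl

/-- The tensor product of automorphisms. -/
noncomputable def PE (β : I → W ≃ₗ[F] W) : (U ⊗[F] W) ≃ₗ[F] (U ⊗[F] W) :=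
  LinearEquiv.ofLinearMap (T.PM fun i => β i) (T.PM fun i => (β i).symm)
    (T.ext fun ws => by simp [T.PM_pt]) (T.ext fun ws => by simp [T.PM_pt])

theorem PE_pt (β : I → W ≃ₗ[F] W) (ws : I → W) : T.PE β (T.pt ws) = T.pt fun i => β i (ws i) :=
  T.PM_pt _ _

theorem rh_PE (β : I → W ≃ₗ[F] W) (i : I) (x : Module.End F W) :
    rh (T.PE β * T.s i) x = rh (T.s i) ((β i).conjAlgEquiv F x) :=
  T.ext' (T.PE β) fun ws => by
    rw [rh_mul_apply, T.rh_pt, T.PE_pt, T.PE_pt, T.rh_pt]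
    congr 1
    funext j
    by_cases e : j = i
    · subst e; simp [LinearEquiv.conjAlgEquiv_apply]
    · simp [e]

theorem rh_PP (σ : Equiv.Perm I) (i : I) (x : Module.End F W) :
    rh (T.PP σ * T.s i) x = rh (T.s (σ i)) x :=
  T.ext' (T.PP σ) fun ws => by
    rw [rh_mul_apply, T.rh_pt, T.PP_pt, T.PP_pt, T.rh_pt]
    congr 1
    funext j
    by_cases e : j = σ i
    · subst e; simp
    · rw [update_of_ne e, update_of_ne (by rwa [Ne, Equiv.Perm.inv_eq_iff_eq])]

theorem PP_mul (σ τ : Equiv.Perm I) : T.PP (σ * τ) = T.PP σ * T.PP τ :=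
  LinearEquiv.toLinearMap_injective (T.ext fun ws => by simp [T.PP_pt])

theorem PP_one : T.PP 1 = 1 := LinearEquiv.toLinearMap_injective (T.ext fun ws => by simp [T.PP_pt])

theorem cjm_PP (σ : Equiv.Perm I) (x : I → Module.End F W) :
    cjm (T.PP σ) (T.PM x) = T.PM fun i => x (σ⁻¹ i) :=
  T.ext' (T.PP σ) fun ws => by
    rw [cjm_apply, LinearEquiv.symm_apply_apply]; simp [T.PP_pt, T.PM_pt]

theorem det_three {i j k : I} (h : i ≠ j) (h2 : k ≠ j) :
    LinearEquiv.det (T.PP (Equiv.swap i j * Equiv.swap j k)) = 1 := by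
  have h3 : Equiv.swap j k = Equiv.swap i k * Equiv.swap i j * (Equiv.swap i k)⁻¹ := by
    rw [← Equiv.swap_apply_apply, Equiv.swap_apply_left,
      Equiv.swap_apply_of_ne_of_ne (Ne.symm h) h2.symm, Equiv.swap_comm]
  have h4 : ∀ a b : I, LinearEquiv.det (T.PP (Equiv.swap a b)) *
      LinearEquiv.det (T.PP (Equiv.swap a b)) = 1 := fun a b => by
    rw [← map_mul, ← T.PP_mul, Equiv.swap_mul_self, T.PP_one, map_one]
  rw [h3, Equiv.swap_inv]
  simp only [T.PP_mul, map_mul]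
  rw [mul_comm (LinearEquiv.det (T.PP (Equiv.swap i k))), mul_assoc, h4, mul_one, h4]

/-- The stabiliser of the tensor decomposition. -/
def Wr : Subgroup ((U ⊗[F] W) ≃ₗ[F] (U ⊗[F] W)) where
  carrier := {g | ∃ σ : Equiv.Perm I, ∀ i, Same (g * T.s i) (T.s (σ i))}
  one_mem' := ⟨1, fun i => by simpa using Same.refl _⟩
  mul_mem' := by
    rintro g h ⟨σ, e⟩ ⟨τ, e'⟩
    exact ⟨σ * τ, fun i => by rw [mul_assoc]; exact ((e' i).left g).trans (e _)⟩
  inv_mem' := by
    rintro g ⟨σ, e⟩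
    exact ⟨σ⁻¹, fun i => by simpa using ((e (σ⁻¹ i)).left g⁻¹).symm⟩

variable [FiniteDimensional F U] [FiniteDimensional F W] [Nontrivial U]

theorem PE_mem (hn : 2 ≤ finrank F W) (β : I → W ≃ₗ[F] W) : T.PE β ∈ T.Wr :=
  ⟨1, fun i => same_of_rh hn fun x => ⟨_, T.rh_PE β i x⟩⟩

theorem PP_mem (hn : 2 ≤ finrank F W) (σ : Equiv.Perm I) : T.PP σ ∈ T.Wr :=
  ⟨σ, fun i => same_of_rh hn fun x => ⟨_, T.rh_PP σ i x⟩⟩

theorem mem_Wr [Finite I] (hn : 2 ≤ finrank F W) {g : (U ⊗[F] W) ≃ₗ[F] (U ⊗[F] W)}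
    (h : ∀ i, ∃ j, Same (g * T.s i) (T.s j)) : g ∈ T.Wr := by
  choose σ hσ using h
  have hi : Injective σ := fun i j e => by
    by_contra hij
    have := ((hσ i).trans (e ▸ (hσ j).symm : Same _ (g * T.s j))).left g⁻¹
    rw [inv_mul_cancel_left, inv_mul_cancel_left] at this
    exact (T.com i j hij).not_same hn this
  exact ⟨Equiv.ofBijective σ hi.bijective_of_finite, hσ⟩

omit [FiniteDimensional F U] [FiniteDimensional F W] in
theorem eq_of_mem_Wr [Finite I] [Nonempty I] [Nontrivial W] {g : (U ⊗[F] W) ≃ₗ[F] (U ⊗[F] W)}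
    (h : g ∈ T.Wr) : ∃ β σ, g = T.PE β * T.PP σ := by
  obtain ⟨σ, e⟩ := h
  have e1 : ∀ i, ∃ b : W ≃ₗ[F] W, ∀ x,
      rh (g * T.PP σ⁻¹ * T.s i) x = rh (T.s i) (b.conjAlgEquiv F x) := fun i => by
    obtain ⟨b, hb⟩ := (e (σ⁻¹ i)).rh
    refine ⟨b, fun x => ?_⟩
    rw [mul_assoc, ← cjm_rh, T.rh_PP, cjm_rh, hb]
    simp
  choose β hβ using e1
  obtain ⟨c, hc⟩ := T.cent (((T.PE β)⁻¹ * (g * T.PP σ⁻¹) : _ ≃ₗ[F] _) : Module.End F (U ⊗[F] W))
    fun i x => LinearMap.ext fun v => by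
      simp only [Module.End.mul_apply, LinearEquiv.coe_coe]
      rw [← rh_mul_apply, mul_assoc, ← cjm_rh, hβ, ← T.rh_PE, cjm_rh, inv_mul_cancel_left]
  have hc0 : c ≠ 0 := by
    rintro rfl
    obtain ⟨u, hu⟩ := exists_ne (0 : U)
    obtain ⟨w, hw⟩ := exists_ne (0 : W)
    have := LinearMap.congr_fun hc (u ⊗ₜ w)
    rw [zero_smul, LinearMap.zero_apply, LinearEquiv.coe_coe, LinearEquiv.map_eq_zero_iff] at this
    exact tmul_ne_zero hu hw this
  obtain ⟨i⟩ := ‹Nonempty I›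
  refine ⟨update β i (LinearEquiv.smulOfNeZero F W c hc0 * β i), σ, ?_⟩
  rw [← mul_inv_eq_iff_eq_mul, show (T.PP σ)⁻¹ = T.PP σ⁻¹ from
    inv_eq_of_mul_eq_one_right (by rw [← T.PP_mul, mul_inv_cancel, T.PP_one])]
  refine LinearEquiv.toLinearMap_injective (T.ext fun ws => ?_)
  have := LinearMap.congr_fun hc (T.pt ws)
  rw [LinearEquiv.coe_coe, LinearEquiv.mul_apply, LinearEquiv.coe_inv,
    LinearEquiv.symm_apply_eq] at this
  rw [LinearEquiv.coe_coe, LinearEquiv.coe_coe, this, T.PE_pt]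
  change T.PE β (c • T.pt ws) = _
  rw [map_smul, T.PE_pt, ← update_eq_self i fun i => β i (ws i), ← T.pt.map_update_smul]
  congr 1
  funext j
  by_cases e : j = i
  · subst e; simp
  · simp [e]

end TP

section Mat

open Geo Asch Matrix

variable (F) (m : ℕ)

/-- Pure tensors in coordinates. -/
noncomputable def pt0 (I : Type) [Fintype I] [DecidableEq I] :
    MultilinearMap F (fun _ : I => Fin m → F) ((I → Fin m) → F) :=
  MultilinearMap.pi fun a => (MultilinearMap.mkPiAlgebra F I F).compLinearMap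
    fun i => LinearMap.proj (a i)

variable {F m}

theorem pt0_apply {I : Type} [Fintype I] [DecidableEq I] (ws : I → Fin m → F) (a : I → Fin m) :
    pt0 F m I ws a = ∏ i, ws i (a i) := by simp [pt0]

theorem pt0_single {I : Type} [Fintype I] [DecidableEq I] (a : I → Fin m) :
    pt0 F m I (fun i => Pi.single (a i) 1) = Pi.single a 1 := by
  funext b
  rw [pt0_apply]
  by_cases h : b = a
  · simp [h]
  · obtain ⟨i, hi⟩ := Function.ne_iff.1 h
    rw [Finset.prod_eq_zero (Finset.mem_univ i) (by simp [hi]), Pi.single_eq_of_ne h]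

theorem mulVec_pt0 {I : Type} [Fintype I] [DecidableEq I] (x : I → Matrix (Fin m) (Fin m) F)
    (ws : I → Fin m → F) :
    (Matrix.of fun a b : I → Fin m => ∏ i, x i (a i) (b i)) *ᵥ pt0 F m I ws =
      pt0 F m I fun i => x i *ᵥ ws i := by
  funext a
  simp only [mulVec, dotProduct, of_apply, pt0_apply, Finset.prod_univ_sum,
    Fintype.piFinset_univ, Finset.prod_mul_distrib]

variable (F m) (t : ℕ)

/-- Splitting off the first factor. -/
noncomputable def E0 :
    ((Fin (t + 1) → Fin m) → F) ≃ₗ[F] ((Fin t → Fin m) → F) ⊗[F] (Fin m → F) :=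
  (((Pi.basisFun F (Fin t → Fin m)).tensorProduct (Pi.basisFun F (Fin m))).equivFun.trans
    (LinearEquiv.funCongrLeft F F
      ((Fin.consEquiv fun _ => Fin m).symm.trans (Equiv.prodComm _ _)))).symm

variable {F m t}

theorem E0_pt0 (ws : Fin (t + 1) → Fin m → F) :
    E0 F m t (pt0 F m _ ws) = pt0 F m _ (Fin.tail ws) ⊗ₜ ws 0 := by
  rw [E0, LinearEquiv.symm_apply_eq]
  funext a
  have := ((Pi.basisFun F (Fin t → Fin m)).tensorProduct_repr_tmul_apply (Pi.basisFun F (Fin m))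
    (pt0 F m _ (Fin.tail ws)) (ws 0) (Fin.tail a) (a 0))
  simp only [LinearEquiv.trans_apply, LinearEquiv.funCongrLeft_apply, LinearMap.funLeft_apply,
    Basis.equivFun_apply]
  refine Eq.trans ?_ this.symm
  simp [pt0_apply, Fin.prod_univ_succ, Fin.tail]

/-- Permuting the factors in coordinates. -/
def PP0 {I : Type} (σ : Equiv.Perm I) : ((I → Fin m) → F) ≃ₗ[F] ((I → Fin m) → F) :=
  LinearEquiv.funCongrLeft F F (Equiv.arrowCongr σ⁻¹ (Equiv.refl _))

theorem PP0_apply {I : Type} (σ : Equiv.Perm I) (v : (I → Fin m) → F) (a : I → Fin m) :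
    PP0 σ v a = v (a ∘ σ) := rfl

theorem PP0_pt0 {I : Type} [Fintype I] [DecidableEq I] (σ : Equiv.Perm I) (ws : I → Fin m → F) :
    PP0 σ (pt0 F m I ws) = pt0 F m I fun i => ws (σ⁻¹ i) := by
  funext a
  rw [PP0_apply, pt0_apply, pt0_apply, ← Equiv.prod_comp σ fun i => ws (σ⁻¹ i) (a i)]
  simp

variable (F m t) in
/-- The standard tensor power. -/
noncomputable def tp0 : TP (Fin (t + 1)) F ((Fin t → Fin m) → F) (Fin m → F) where
  pt := (E0 F m t).toLinearMap.compMultilinearMap (pt0 F m _)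
  s i := cong (E0 F m t) (PP0 (Equiv.swap 0 i))
  PM x := (E0 F m t).conjAlgEquiv F (Matrix.toLin'
    (Matrix.of fun a b => ∏ i, LinearMap.toMatrix' (x i) (a i) (b i)))
  PP σ := cong (E0 F m t) (PP0 σ)
  span := by
    rw [eq_top_iff, ← ((Pi.basisFun F _).map (E0 F m t)).span_eq]
    refine Submodule.span_mono ?_
    rintro _ ⟨a, rfl⟩
    exact ⟨fun i => Pi.single (a i) 1, by simp [pt0_single]⟩
  PM_pt x ws := by
    simp only [LinearEquiv.conjAlgEquiv_apply, LinearMap.compMultilinearMap_apply,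
      LinearEquiv.coe_coe, LinearMap.comp_apply, LinearEquiv.symm_apply_apply, toLin'_apply,
      mulVec_pt0, LinearMap.toMatrix'_mulVec]
  PP_pt σ ws := by simp [cong_apply, PP0_pt0]
  rh_pt i x ws := by
    have e : ∀ ws : Fin (t + 1) → Fin m → F, E0 F m t (pt0 F m _ ws) =
        cong (E0 F m t) (PP0 (Equiv.swap 0 i))
          (pt0 F m _ (Fin.tail fun j => ws (Equiv.swap 0 i j)) ⊗ₜ ws i) := fun ws => by
      have := E0_pt0 fun j => ws (Equiv.swap 0 i j)
      simp only [Equiv.swap_apply_left] at this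
      rw [← this, cong_apply, LinearEquiv.symm_apply_apply, PP0_pt0]
      simp
    simp only [LinearMap.compMultilinearMap_apply, LinearEquiv.coe_coe]
    rw [e, rh_tmul, e (update _ _ _), update_self]
    congr 3
    funext j
    have : Equiv.swap 0 i j.succ ≠ i := by
      rw [Ne, Equiv.swap_apply_eq_iff, Equiv.swap_apply_right]; simp
    exact (update_of_ne this _ _).symm
  s_eq i := ⟨_, rfl⟩

variable {ι : Type} [Fintype ι] [DecidableEq ι]

/-- The tensor structure given by a frame. -/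
noncomputable def powE (e : ι ≃ (Fin (t + 1) → Fin m)) (P : GL ι F) :
    (ι → F) ≃ₗ[F] ((Fin t → Fin m) → F) ⊗[F] (Fin m → F) :=
  ((LinearEquiv.funCongrLeft F F e).trans (Orth.glEquiv ι F P)).symm.trans (E0 F m t)

theorem powE_symm (e : ι ≃ (Fin (t + 1) → Fin m)) (P : GL ι F) (x : (Fin (t + 1) → Fin m) → F) :
    (powE e P).symm (E0 F m t x) = P.1 *ᵥ (x ∘ e) := by
  simp [powE, Orth.glEquiv_apply]; rfl

theorem cong_powE (e : ι ≃ (Fin (t + 1) → Fin m)) (P : GL ι F) (g : GL (Fin (t + 1) → Fin m) F) :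
    cong (powE e P) (Orth.glEquiv ι F (frG e P g)) = cong (E0 F m t) (Orth.glEquiv _ F g) := by
  refine LinearEquiv.ext fun v => ?_
  obtain ⟨x, rfl⟩ := (E0 F m t).surjective v
  rw [cong_apply, powE_symm, Orth.glEquiv_apply, frG_coe, fr_mulVec, ← powE_symm,
    LinearEquiv.apply_symm_apply, cong_apply, LinearEquiv.symm_apply_apply, Orth.glEquiv_apply]

theorem mem_wreath_iff (hm : 2 ≤ m) (e : ι ≃ (Fin (t + 1) → Fin m)) (P g : GL ι F) :
    g ∈ tensorWreathSubgroup m (t + 1) e P ↔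
      cong (powE e P) (Orth.glEquiv ι F g) ∈ (tp0 F m t).Wr := by
  have : Nonempty (Fin m) := ⟨⟨0, by omega⟩⟩
  obtain ⟨g, rfl⟩ := (frG e P).surjective g
  have h0 : frG e P g ∈ tensorWreathSubgroup m (t + 1) e P ↔ g ∈ tensorWreathStandard m (t + 1) F := by
    constructor
    · rintro ⟨_, ⟨k, hk, rfl⟩, h⟩
      rwa [← (frG e P).injective (a₁ := k) h]
    · exact fun h => ⟨_, ⟨g, h, rfl⟩, rfl⟩
  have h1 : ∀ (g : GL (Fin (t + 1) → Fin m) F) (gs : Fin (t + 1) → GL (Fin m) F),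
      (∀ x y, g.1 x y = ∏ i, (gs i).1 (x i) (y i)) ↔
      cong (E0 F m t) (Orth.glEquiv _ F g) = (tp0 F m t).PE fun i => Orth.glEquiv _ F (gs i) := by
    intro g gs
    have e1 : ∀ ws, (tp0 F m t).PE (fun i => Orth.glEquiv _ F (gs i)) ((tp0 F m t).pt ws) =
        E0 F m t ((Matrix.of fun a b => ∏ i, (gs i).1 (a i) (b i)) *ᵥ pt0 F m _ ws) := fun ws => by
      rw [TP.PE_pt, mulVec_pt0]; rfl
    have e2 : ∀ ws, cong (E0 F m t) (Orth.glEquiv _ F g) ((tp0 F m t).pt ws) =
        E0 F m t (g.1 *ᵥ pt0 F m _ ws) := fun ws => by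
      rw [cong_apply, Orth.glEquiv_apply]
      congr 2
      exact (E0 F m t).symm_apply_apply _
    constructor
    · intro h
      refine LinearEquiv.toLinearMap_injective ((tp0 F m t).ext fun ws => ?_)
      rw [LinearEquiv.coe_coe, LinearEquiv.coe_coe, e1, e2]
      congr 2
      ext x y; exact h x y
    · intro h x y
      have := e2 fun i => Pi.single (y i) 1
      rw [h, e1, pt0_single] at this
      simpa using (congrFun ((E0 F m t).injective this) x).symm
  have h2 : ∀ (g : GL (Fin (t + 1) → Fin m) F) (σ : Equiv.Perm (Fin (t + 1))),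
      (∀ x y, g.1 x y = if y = x ∘ σ then 1 else 0) ↔
      cong (E0 F m t) (Orth.glEquiv _ F g) = (tp0 F m t).PP σ := by
    intro g σ
    refine Iff.trans ?_ (cong (E0 F m t)).injective.eq_iff.symm
    constructor
    · intro h
      ext v x
      simp [Orth.glEquiv_apply, PP0_apply, mulVec, dotProduct, h]
    · intro h x y
      have := congrFun (LinearEquiv.congr_fun h (Pi.single y 1)) x
      simpa [Orth.glEquiv_apply, PP0_apply, Pi.single_apply, eq_comm] using this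
  rw [h0, cong_powE]
  let ρ := (Orth.glEquiv (Fin (t + 1) → Fin m) F).trans (cong (E0 F m t))
  constructor
  · intro h
    refine (Subgroup.closure_le ((tp0 F m t).Wr.comap ρ.toMonoidHom)).2 ?_ h
    rintro k (⟨gs, hk⟩ | ⟨σ, hk⟩)
    · change cong (E0 F m t) (Orth.glEquiv _ F k) ∈ (tp0 F m t).Wr
      exact (h1 k gs).1 hk ▸ (tp0 F m t).PE_mem (by simpa) _
    · change cong (E0 F m t) (Orth.glEquiv _ F k) ∈ (tp0 F m t).Wr
      exact (h2 k σ).1 hk ▸ (tp0 F m t).PP_mem (by simpa) _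
  · intro h
    obtain ⟨β, σ, e⟩ := (tp0 F m t).eq_of_mem_Wr h
    obtain ⟨a, ha⟩ := ρ.surjective ((tp0 F m t).PE β)
    obtain ⟨b, hb⟩ := ρ.surjective ((tp0 F m t).PP σ)
    rw [show g = a * b from ρ.injective (by rw [map_mul, ha, hb]; exact e)]
    exact Subgroup.mul_mem _ (Subgroup.subset_closure (Or.inl
      ⟨fun i => (Orth.glEquiv _ F).symm (β i), (h1 a _).2 (ha.trans (by simp))⟩))
      (Subgroup.subset_closure (Or.inr ⟨σ, (h2 b σ).2 hb⟩))

end Mat

end Cfsg.Agent.Max3
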