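import Mathlib
import Cfsg.Agent.Max3.TW4

/-!
# Tools shared by the linear and the form cases
-/

set_option autoImplicit false

namespace Cfsg.Agent.Max3

open Module Cfsg.Agent.Max Cfsg.Agent.Max2 TensorProduct Function

section Ring

variable {F V : Type*} [Field F] [AddCommGroup V] [Module F V] {M : Subgroup (V ≃ₗ[F] V)}
  {N N' : Module.End F V}

theorem R_comm (h : R M N) (h' : R M N') (e : N * N = 0) (e' : N' * N' = 0) (e'' : N' * N = 0) :
    R M (N * N') :=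
  h.comm h' (LinearMap.congr_fun e) (LinearMap.congr_fun e') (LinearMap.congr_fun e'')

theorem R_add (h : R M N) (h' : R M N') (e : N * N' = 0) : R M (N + N') :=
  h.add h' (LinearMap.congr_fun e)

theorem R_sub (h : R M N) (h' : R M N') (e' : N' * N' = 0) (e : N * N' = 0) : R M (N - N') :=
  h.sub h' (LinearMap.congr_fun e') (LinearMap.congr_fun e)

theorem R_conj (h : R M N) (h' : R M N') (e' : N' * N' = 0) : R M ((1 + N') * N * (1 - N')) := by
  obtain ⟨t, ht, e⟩ := h'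
  refine h.conj' ht fun x => ?_
  have : N' (N' x) = 0 := LinearMap.congr_fun e' x
  simp [e, this]

open Polynomial in
theorem odd_root [FiniteDimensional F V] (hV : Odd (finrank F V)) {α : Module.End F V} {e f : F}
    (h : ∀ v, e • α (α v) + f • α v = v) : ∃ l : F, e * l ^ 2 + f * l = 1 := by
  by_contra hn
  push Not at hn
  have : Nontrivial V := Module.nontrivial_of_finrank_pos (R := F) hV.pos
  have he : e ≠ 0 := by
    rintro rfl
    by_cases hf : f = 0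
    · obtain ⟨v, hv⟩ := exists_ne (0 : V)
      exact hv (by simpa [hf] using (h v).symm)
    · exact hn f⁻¹ (by simp [hf])
  let p : F[X] := C e * X ^ 2 + C f * X + C (-1)
  have hd : p.natDegree = 2 := natDegree_quadratic he
  have hp : Irreducible p := irreducible_of_degree_le_three_of_not_isRoot (by simp [hd])
    fun l hl => hn l (by
      simp only [p, IsRoot.def, eval_add, eval_mul, eval_C, eval_pow, eval_X] at hl
      linear_combination hl)
  have : Fact (Irreducible p) := ⟨hp⟩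
  have ht : Module.IsTorsionBy F[X] (Module.AEval' α) p := fun v => by
    obtain ⟨v, rfl⟩ := (Module.AEval'.of α).surjective v
    rw [← Module.AEval.of_aeval_smul, LinearEquiv.map_eq_zero_iff]
    simp [p, sq, h]
  let _ : Module (AdjoinRoot p) (Module.AEval' α) := ht.module
  have : IsScalarTower F (AdjoinRoot p) (Module.AEval' α) := ⟨fun c x v => by
    obtain ⟨x, rfl⟩ := AdjoinRoot.mk_surjective x
    rw [AdjoinRoot.smul_mk]
    exact smul_assoc c x v⟩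
  have h1 := Module.finrank_mul_finrank F (AdjoinRoot p) (Module.AEval' α)
  rw [(AdjoinRoot.powerBasis hp.ne_zero).finrank, AdjoinRoot.powerBasis_dim, hd,
    ← (Module.AEval'.of α).finrank_eq] at h1
  exact (Nat.not_even_iff_odd.2 hV) ⟨_, by rw [← h1, two_mul]⟩

end Ring

variable {F U W : Type*} [Field F] [AddCommGroup U] [Module F U] [AddCommGroup W] [Module F W]
  {M : Subgroup ((U ⊗[F] W) ≃ₗ[F] (U ⊗[F] W))} {g g' h : (U ⊗[F] W) ≃ₗ[F] (U ⊗[F] W)}
  {γ γ' : Module.End F (U ⊗[F] W)}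

theorem CA.mul_rh (h : CA g γ') (γ : Module.End F (U ⊗[F] W)) (x y : Module.End F W) :
    γ * rh g x * (γ' * rh g y) = γ * γ' * rh g (x * y) := by
  rw [map_mul, mul_assoc, ← mul_assoc (rh g x), ← (h x).eq]; simp only [mul_assoc]

theorem CA.mul_r1 (h : CA g γ') (γ : Module.End F (U ⊗[F] W)) {φ : Dual F W} (φ' : Dual F W)
    (w : W) {w' : W} (e : φ w' = 0) : γ * rh g (r1 φ w) * (γ' * rh g (r1 φ' w')) = 0 := by
  rw [h.mul_rh, r1_mul, e, zero_smul, map_zero, mul_zero]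

theorem rh_r1_mul {φ : Dual F W} (φ' : Dual F W) (w : W) {w' : W} (e : φ w' = 0) :
    rh g (r1 φ w) * rh g (r1 φ' w') = 0 := by rw [← map_mul, r1_mul, e, zero_smul, map_zero]

theorem ca_of_lines [FiniteDimensional F W] (h : ∀ u w, γ (g (u ⊗ₜ w)) ∈ Lg g w) : CA g γ := by
  simp only [mem_Lg] at h
  choose α hα using h
  by_cases hW : ∀ w : W, w = 0
  · exact ca_of (α := id) fun u w => by simp [hW w]
  push Not at hW
  obtain ⟨w₀, hw₀⟩ := hW
  refine ca_of (α := fun u => α u w₀) fun u w => ?_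
  by_cases hw : w ∈ F ∙ w₀
  · obtain ⟨c, rfl⟩ := Submodule.mem_span_singleton.1 hw
    simp only [tmul_smul, map_smul, hα]
  have hw0 : w ≠ 0 := by rintro rfl; exact hw (Submodule.zero_mem _)
  obtain ⟨φ, h1, h2⟩ := exists_dual_two hw
  obtain ⟨ψ, h3, h4⟩ := exists_dual_two (not_mem_span_symm hw hw₀)
  have e := hα u (w₀ + w)
  rw [tmul_add u, map_add, map_add, ← hα, ← hα, ← map_add, g.injective.eq_iff] at e
  have e1 := congrArg (cW U φ) e
  have e2 := congrArg (cW U ψ) e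
  simp only [cW_tmul, map_add, h1, h2, h3, h4, zero_add, add_zero, one_smul, zero_smul] at e1 e2
  rw [← hα, ← e1, e2]

theorem exists_sand (g : (U ⊗[F] W) ≃ₗ[F] (U ⊗[F] W)) (γ : Module.End F (U ⊗[F] W))
    (φ : Dual F W) (w : W) : ∃ γ', CA g γ' ∧ (∀ u, γ' (g (u ⊗ₜ w)) =
      g (cW U φ (g.symm (γ (g (u ⊗ₜ w)))) ⊗ₜ w)) ∧
      rh g (r1 φ w) * γ * rh g (r1 φ w) = γ' * rh g (r1 φ w) := by
  let α : Module.End F U := cW U φ ∘ₗ g.symm.toLinearMap ∘ₗ γ ∘ₗ g.toLinearMap ∘ₗ inW F U w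
  have e : ∀ u v, cjm g (α.rTensor W) (g (u ⊗ₜ v)) = g (α u ⊗ₜ v) := fun u v => by
    simp [cjm_apply]
  refine ⟨cjm g (α.rTensor W), ca_of e, fun u => e u w, ext_g g fun u v => ?_⟩
  simp only [Module.End.mul_apply, rh_tmul, LinearMap.smulRight_apply, tmul_smul, map_smul, e]
  rw [rh_r1]; rfl

theorem ca_of_sand [FiniteDimensional F W]
    (h : ∀ φ w, φ w = 0 → rh g (r1 φ w) * γ * rh g (r1 φ w) = 0) : CA g γ := by
  refine ca_of_lines fun u w => ?_
  by_cases hw : w = 0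
  · simp [hw]
  refine mem_im.2 (mem_LW_of hw fun φ hφ => ?_)
  by_cases h0 : φ = 0
  · simp [h0]
  obtain ⟨v, hv⟩ := exists_apply_one h0
  have := LinearMap.congr_fun (h φ w hφ) (g (u ⊗ₜ v))
  simp only [Module.End.mul_apply, rh_tmul, LinearMap.smulRight_apply, hv, one_smul,
    LinearMap.zero_apply] at this
  rw [rh_r1, g.map_eq_zero_iff] at this
  by_contra hne
  exact tmul_ne_zero hne hw this

theorem Com.Lg_ne [Nontrivial U] [FiniteDimensional F W] (hn : 2 ≤ finrank F W) (h : Com g g')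
    (w : W) {w' : W} (hw' : w' ≠ 0) : Lg g w ≠ Lg g' w' := fun e => by
  obtain ⟨u, hu⟩ := exists_ne (0 : U)
  obtain ⟨z, hz⟩ := exists_not_mem_span hn w'
  obtain ⟨χ, hχ⟩ := exists_dual_one (F := F) hw'
  obtain ⟨u', h1⟩ := mem_Lg.1 (e ▸ mem_Lg.2 ⟨u, rfl⟩ : g' (u ⊗ₜ w') ∈ Lg g w)
  obtain ⟨α, hα⟩ := (h.symm (r1 χ z)).exists
  have h2 := hα u' w
  rw [h1, rh_tmul, LinearMap.smulRight_apply, hχ, one_smul] at h2
  obtain ⟨u'', h3⟩ := mem_Lg.1 (e ▸ mem_Lg.2 ⟨_, h2.symm⟩ : g' (u ⊗ₜ z) ∈ Lg g' w')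
  exact hz (mem_span_of_tmul_eq' hu (g'.injective h3).symm)

theorem TP.not_mem_Wr [Nontrivial U] [FiniteDimensional F W] (hn : 2 ≤ finrank F W) {I : Type}
    [DecidableEq I] (T : TP I F U W) {i : I} (h : CA (T.s i) γ) (hγ : ∀ c : F, γ ≠ c • 1)
    {φ : Dual F W} {w : W} (hφ : φ ≠ 0) (hw : w ≠ 0) (h0 : φ w = 0)
    (e : ∀ x, g x = x + γ (rh (T.s i) (r1 φ w) x)) : g ∉ T.Wr := by
  rintro ⟨σ, hσ⟩
  obtain ⟨α, hα⟩ := h.exists
  obtain ⟨a, b, hab⟩ := same_iff.1 (hσ i)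
  have e1 : ∀ u v, g (T.s i (u ⊗ₜ v)) = T.s i (u ⊗ₜ v + φ v • α u ⊗ₜ w) := fun u v => by
    rw [e, rh_tmul, hα]; simp
  by_cases hi : σ i = i
  · rw [hi] at hab
    refine not_isT_Dm hn (γ := α) (fun c hc => hγ c (ext_g (T.s i) fun u v => ?_)) hφ hw
      (g := (T.s i)⁻¹ * g * T.s i) (fun x => ?_) ⟨a, b, fun u v => ?_⟩
    · simp [hα, hc, ← smul_tmul']
    · have : ((T.s i)⁻¹ * g * T.s i).toLinearMap = 1 + Dm α φ w := TensorProduct.ext' fun u v => by
        simp [e1, Dm_apply, LinearEquiv.coe_inv, smul_tmul']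
      exact LinearMap.congr_fun this x
    · rw [mul_assoc, LinearEquiv.mul_apply, hab, LinearEquiv.coe_inv, LinearEquiv.symm_apply_apply]
  refine (T.com i _ (Ne.symm hi)).Lg_ne hn w (w' := b w) (by simpa using hw) ?_
  ext x
  simp only [mem_Lg]
  have e2 : ∀ u, T.s i (u ⊗ₜ w) = T.s (σ i) (a u ⊗ₜ b w) := fun u => by
    rw [← hab, LinearEquiv.mul_apply, e1]; simp [h0]
  constructor
  · rintro ⟨u, rfl⟩; exact ⟨_, (e2 u).symm⟩
  · rintro ⟨u, rfl⟩; exact ⟨a.symm u, by simp [e2]⟩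

/-- If `α ⊗ β` is the identity modulo `U ⊗ w` on some `U ⊗ v`, then `α` is a scalar. -/
theorem scalar_of {y : (U ⊗[F] W) ≃ₗ[F] (U ⊗[F] W)} (hy : y ∈ TG F U W) {χ : Dual F W} {v : W}
    (hv : χ v = 1) (h : ∀ u, cW U χ (y (u ⊗ₜ v) - u ⊗ₜ v) = 0) :
    ∃ b : W ≃ₗ[F] W, ∀ u x, y (u ⊗ₜ x) = u ⊗ₜ b x := by
  obtain ⟨a, b, e⟩ := hy
  simp only [e, map_sub, cW_tmul, hv, one_smul, sub_eq_zero] at h
  by_cases hc : χ (b v) = 0
  · exact ⟨1, fun u x => by rw [← h u]; simp [hc]⟩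
  refine ⟨LinearEquiv.smulOfNeZero F W _ (inv_ne_zero hc) * b, fun u x => ?_⟩
  rw [e]
  conv_rhs => rw [← h u]
  simp [smul_tmul, smul_smul, hc]

end Cfsg.Agent.Max3
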