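import Mathlib
import Cfsg.Agent.Max3.TW5

/-!
# Maximality of the stabiliser of a tensor power decomposition in `SL`
-/

set_option autoImplicit false
set_option linter.unusedSectionVars false
set_option linter.unusedSimpArgs false

namespace Cfsg.Agent.Max3

open Module Cfsg.Agent.Max Cfsg.Agent.Max2 TensorProduct Function

variable {F U W : Type*} [Field F] [AddCommGroup U] [Module F U] [AddCommGroup W] [Module F W]
  [FiniteDimensional F W] {M : Subgroup ((U ⊗[F] W) ≃ₗ[F] (U ⊗[F] W))}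
  {g h : (U ⊗[F] W) ≃ₗ[F] (U ⊗[F] W)} {γ : Module.End F (U ⊗[F] W)}

namespace SL

/-- All transvections of the factor lie in `M`. -/
def Rts (M : Subgroup ((U ⊗[F] W) ≃ₗ[F] (U ⊗[F] W))) (g : (U ⊗[F] W) ≃ₗ[F] (U ⊗[F] W)) : Prop :=
  ∀ (φ : Dual F W) w, φ w = 0 → R M (rh g (r1 φ w))

/-- The local hypothesis. -/
def Good (M : Subgroup ((U ⊗[F] W) ≃ₗ[F] (U ⊗[F] W))) : Prop := Rts M 1 ∧ Std M

omit [FiniteDimensional F W] in
theorem rts_cM : Rts (cM g M) h ↔ Rts M (g * h) :=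
  forall_congr' fun _ => forall_congr' fun _ => forall_congr' fun _ => by rw [R_cM, cjm_rh]

theorem b1 [FiniteDimensional F U] [Nontrivial U] (hn : 3 ≤ finrank F W) (h1 : Good M)
    (h2 : Good (cM h M)) {w w' : W} (hw : w ≠ 0) (hw' : w' ≠ 0) (e : Lg h w' = LW F U w) :
    h ∈ TG F U W := by
  have r2 : Rts M h := by simpa using rts_cM.1 h2.1
  obtain ⟨χ, hχ⟩ := exists_dual_one (F := F) hw
  have hα : ∀ u, cW U χ (h (u ⊗ₜ w')) ⊗ₜ w = h (u ⊗ₜ w') := fun u =>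
    eq_of_mem_LW hχ (e ▸ mem_Lg.2 ⟨u, rfl⟩)
  let α : U → U := fun u => cW U χ (h (u ⊗ₜ w'))
  have f1 : ∀ φ' : Dual F W, φ' w' = 0 → ∃ φ : Dual F W, φ w = 0 ∧
      ∀ x, cW U φ (h x) = α (cW U φ' x) := fun φ' hφ => by
    obtain ⟨φ, e1⟩ := h1.2 w hw (rh h (r1 φ' w')) ⟨r2 _ _ hφ,
      fun x hx => rh_Lg hφ _ (e ▸ hx), fun x => e ▸ rh_mem _ _ _ _⟩
    have e2 : ∀ x, cW U φ (h x) = α (cW U φ' x) := fun x => tmul_left_inj (F := F) hw (by
      rw [← e1, hα, rh_r1, LinearEquiv.symm_apply_apply])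
    refine ⟨φ, ?_, e2⟩
    obtain ⟨u, hu⟩ := exists_ne (0 : U)
    have := e2 (u ⊗ₜ w')
    rw [← hα, cW_tmul, cW_tmul, hφ, zero_smul] at this
    simp only [α, zero_tmul, map_zero, smul_eq_zero] at this
    refine this.resolve_right fun e3 => tmul_ne_zero (F := F) hu hw' (h.map_eq_zero_iff.1 ?_)
    rw [← hα, e3, zero_tmul]
  have f2 : ∀ φ : Dual F W, φ w = 0 → ∃ φ' : Dual F W, ∀ x, cW U φ (h x) = α (cW U φ' x) :=
    fun φ hφ => by
    obtain ⟨φ', e1⟩ := h2.2 w' hw' (rh h⁻¹ (r1 φ w)) ⟨R_cM.2 (by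
        rw [cjm_rh, mul_inv_cancel]; exact h1.1 _ _ hφ),
      fun x hx => rh_Lg hφ _ (by
        rw [mem_im]; exact e ▸ apply_mem_im.2 hx), fun x => by
        rw [← apply_mem_im (g := h), ← rh_mul_apply, mul_inv_cancel]
        change _ ∈ Lg h w'
        rw [e, rh_one_r1]; exact tmul_mem_LW _ _⟩
    refine ⟨φ', fun x => tmul_left_inj (F := F) hw ?_⟩
    rw [hα, ← e1, ← rh_mul_apply, mul_inv_cancel, rh_one_r1]
  obtain ⟨u₀, hu₀⟩ := exists_ne (0 : U)
  have hu₁ : α u₀ ≠ 0 := fun e3 => tmul_ne_zero (F := F) hu₀ hw' (h.map_eq_zero_iff.1 (by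
    rw [← hα]; exact (congrArg (· ⊗ₜ[F] w) e3).trans (zero_tmul _ _)))
  obtain ⟨τ, hτ⟩ := exists_dual_one (F := F) hu₁
  have hαs : ∀ (c : F) u, α (c • u) = c • α u := fun c u => by simp [α, ← smul_tmul']
  refine isT_of_lines (by omega) fun v' => ?_
  let v := cU W τ (h (u₀ ⊗ₜ v'))
  have f3 : ∀ φ φ' : Dual F W, (∀ x, cW U φ (h x) = α (cW U φ' x)) → φ v = φ' v' :=
    fun φ φ' e1 => by rw [dual_cU, e1, cW_tmul, hαs, map_smul, hτ, smul_eq_mul, mul_one]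
  have f4 : ∀ u, h (u ⊗ₜ v') - α u ⊗ₜ v ∈ LW F U w := fun u => mem_LW_of hw fun φ hφ => by
    obtain ⟨φ', e1⟩ := f2 φ hφ
    rw [map_sub, e1, cW_tmul, cW_tmul, f3 _ _ e1, hαs, sub_self]
  obtain ⟨ψ', k0, k1, k2⟩ := exists_dual_pair hn w' v'
  obtain ⟨ψ, k3, k4⟩ := f1 ψ' k1
  have k5 : ψ v = 0 := by rw [f3 _ _ k4, k2]
  let θ : Module.End F (U ⊗[F] W) := rh h (r1 ψ' v') - rh 1 (r1 ψ v)
  have f5 : ∀ x, θ (h x) =
      h (cW U ψ' x ⊗ₜ v') - α (cW U ψ' x) ⊗ₜ v := fun x => by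
    rw [LinearMap.sub_apply, rh_r1, rh_one_r1, LinearEquiv.symm_apply_apply, k4]
  have f6 : ∀ x, cW U ψ (h x) = 0 → θ (h x) = 0 := fun x hx => by
    have : cW U ψ' x = 0 := by
      by_contra hne
      rw [k4] at hx
      refine tmul_ne_zero (F := F) hne hw' (h.map_eq_zero_iff.1 ?_)
      rw [← hα]; exact (congrArg (· ⊗ₜ[F] w) hx).trans (zero_tmul _ _)
    simp [f5, this, α]
  obtain ⟨φ, e1⟩ := h1.2 w hw θ ⟨(r2 _ _ k2).sub (h1.1 _ _ k5)
    (fun x => by simp [rh_one_r1, k5]) (fun x => by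
      obtain ⟨y, hy⟩ := h.surjective (rh 1 (r1 ψ v) x)
      have := f6 y (by simp [hy, rh_one_r1, k5])
      simpa [θ, hy, rh_one_r1, k5] using this), fun x hx => by
      obtain ⟨y, rfl⟩ := h.surjective x
      exact f6 y (cW_LW k3 hx), fun x => by
      obtain ⟨y, rfl⟩ := h.surjective x
      exact f5 y ▸ f4 _⟩
  have k6 : φ w = 0 := by
    have := e1 (α u₀ ⊗ₜ w)
    rw [hα, f6 _ (by rw [← hα]; simp [k3]), ← hα, cW_tmul] at this
    by_contra hne
    exact tmul_ne_zero (smul_ne_zero hne hu₁) hw this.symm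
  obtain ⟨φ', e2⟩ := f2 φ k6
  obtain ⟨v₃, hv₃⟩ := exists_apply_one k0
  refine ⟨v + φ' v₃ • w, fun u => mem_LW.2 ⟨α u, ?_⟩⟩
  have := e1 (h (u ⊗ₜ v₃))
  rw [f5, e2] at this
  simp only [cW_tmul, hv₃, one_smul, hαs] at this
  rw [tmul_add, ← smul_tmul, ← this, add_sub_cancel]

theorem ylem [FiniteDimensional F U] [Nontrivial U] (hn : 3 ≤ finrank F W)
    (hodd : finrank F W = 3 → Odd (finrank F U)) {y : (U ⊗[F] W) ≃ₗ[F] (U ⊗[F] W)}
    (hy : y ∈ TG F U W) {w : W} (hw : w ≠ 0)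
    (h : ∀ x, ∀ φ : Dual F W, φ ≠ 0 → φ w = 0 → cW U φ (y x - x) = 0 → y x - x ∈ LW F U w) :
    ∃ ψ : Dual F W, ∀ u v, y (u ⊗ₜ v) = u ⊗ₜ (v + ψ v • w) := by
  classical
  obtain ⟨a, b, e⟩ := id hy
  obtain ⟨u₀, hu₀⟩ := exists_ne (0 : U)
  obtain ⟨v, φ, h1, h2, h3, h4, h5⟩ : ∃ (v : W) (φ : Dual F W), v ∉ F ∙ w ∧ φ ≠ 0 ∧ φ w = 0 ∧
      φ v = 0 ∧ φ (b v) = 0 := by
    obtain ⟨v, hv⟩ := exists_not_mem_span (K := F) (V := W) (by omega) w
    by_cases h3 : finrank F W = 3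
    swap
    · obtain ⟨z, -, hz⟩ := exists_not_mem_of_finrank_lt (W := Submodule.span F {w, v, b v})
        (U := ⊤) (lt_of_le_of_lt (finrank_span_le_card _) (by
          rw [finrank_top]
          refine lt_of_le_of_lt ?_ (show 3 < finrank F W by omega)
          simp only [Set.toFinset_insert, Set.toFinset_singleton]
          exact Finset.card_le_three))
      obtain ⟨φ, k1, k2⟩ := exists_dual _ hz
      exact ⟨v, φ, hv, by rintro rfl; simp at k2, k1 _ (Submodule.subset_span (by simp)),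
        k1 _ (Submodule.subset_span (by simp)), k1 _ (Submodule.subset_span (by simp))⟩
    obtain ⟨φ₂, k0, k1, k2⟩ := exists_dual_pair hn w v
    by_cases k3 : φ₂ (b v) = 0
    · exact ⟨v, φ₂, hv, k0, k1, k2, k3⟩
    replace k1 : ((φ₂ (b v))⁻¹ • φ₂) w = 0 := by simp [k1]
    replace k2 : ((φ₂ (b v))⁻¹ • φ₂) v = 0 := by simp [k2]
    replace k3 : ((φ₂ (b v))⁻¹ • φ₂) (b v) = 1 := by simp [k3]
    generalize (φ₂ (b v))⁻¹ • φ₂ = φ₂ at k1 k2 k3
    obtain ⟨χ, k4, k5⟩ := exists_dual_two hv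
    let φ₁ := χ - χ (b v) • φ₂
    have k6 : φ₁ w = 0 := by simp [φ₁, k4, k1]
    have k7 : φ₁ v = 1 := by simp [φ₁, k5, k2]
    have k8 : φ₁ (b v) = 0 := by simp [φ₁, k3]
    obtain ⟨l, hl⟩ := odd_root (hodd h3) (α := a.toLinearMap) (e := φ₁ (b (b v)))
      (f := φ₂ (b (b v))) fun u => by
      have := cW_LW k1 (h ((φ₁ (b (b v)) • a u) ⊗ₜ v + u ⊗ₜ b v) φ₁ (by rintro h; simp [h] at k7) k6
        (by simp [e, k7, k8]))
      simpa [e, k2, k3, sub_eq_zero] using this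
    refine ⟨v - l • b v, l • φ₁ + φ₂, fun h => ?_, fun h => ?_, by simp [k6, k1],
      by simp [k7, k8, k2, k3], ?_⟩
    · obtain ⟨c, hc⟩ := Submodule.mem_span_singleton.1 h
      simpa [k6, k7, k8] using congrArg φ₁ hc
    · simpa [k8, k3] using LinearMap.congr_fun h (b v)
    · simp only [map_sub, map_smul, LinearMap.add_apply, LinearMap.smul_apply, k8, k3, smul_eq_mul]
      linear_combination -hl
  obtain ⟨χ, k1, k2⟩ := exists_dual_two h1
  obtain ⟨b', e'⟩ := scalar_of hy k2 fun u => cW_LW k1 (h _ φ h2 h3 (by simp [e, h4, h5]))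
  obtain ⟨τ, hτ⟩ := exists_dual_one (F := F) hw
  refine ⟨τ ∘ₗ (b'.toLinearMap - LinearMap.id), fun u x => ?_⟩
  obtain ⟨φ', k3, k4, k5⟩ := exists_dual_pair hn w (b' x - x)
  obtain ⟨u', hu'⟩ := mem_LW.1 (h (u₀ ⊗ₜ x) φ' k3 k4 (by rw [e', ← tmul_sub, cW_tmul, k5, zero_smul]))
  rw [e', ← tmul_sub] at hu'
  obtain ⟨c, hc⟩ := Submodule.mem_span_singleton.1 (mem_span_of_tmul_eq' hu₀ hu'.symm)
  have : (τ ∘ₗ (b'.toLinearMap - LinearMap.id)) x = c := by
    change τ (b' x - x) = c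
    rw [← hc, map_smul, hτ, smul_eq_mul, mul_one]
  rw [e', this, hc, add_sub_cancel]

theorem np [Finite F] [FiniteDimensional F U] [Nontrivial U] (hn : 3 ≤ finrank F W)
    (hodd : finrank F W = 3 → Odd (finrank F U)) (h1 : Good M) (h2 : Good (cM h M))
    {φ φ' : Dual F W} {w w' : W} (r : Rt M 1 φ w) (r' : Rt M h φ' w') (hT : h ∉ TG F U W) :
    ¬ MaxP M 1 h (finrank F ↥(LW F U w ⊓ Lg h w')) := fun hm => by
  set L := LW F U w
  set X := Lg h w'
  set θ' := rh h (r1 φ' w')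
  have hXL : ¬ X ≤ L := fun e => hT (b1 hn h1 h2 r.w0 r'.w0 (Submodule.eq_of_le_of_finrank_eq e
    (by rw [finrank_Lg r'.w0, finrank_LW r.w0])))
  have t1 : ∀ (ψ : Dual F W) x, rh 1 (r1 ψ w) x ∈ L := fun ψ x => rh_one_r1 ψ w x ▸ tmul_mem_LW _ _
  have t2 : ∀ ψ : Dual F W, ψ w = 0 → ∀ x ∈ L, rh 1 (r1 ψ w) x = 0 := fun ψ hψ x hx => by
    rw [rh_one_r1, cW_LW hψ hx, zero_tmul]
  have P1 : ∀ ψ : Dual F W, ψ ≠ 0 → ψ w = 0 → ∀ x ∈ X, rh 1 (r1 ψ w) x ∈ X → x ∈ L :=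
    fun ψ k1 k2 x hx hx' => (DD_mem inf_le_right (fun v hv => t2 ψ k2 v hv.1)
      (hm.a ψ w φ' w' ⟨k1, r.w0, k2, h1.1 _ _ k2⟩ r') hx hx').1
  have P2 : ∀ x ∈ L, θ' x ∈ L → x ∈ X := fun x hx hx' =>
    (DD_mem inf_le_left (fun v hv => rh_Lg r'.nil _ hv.2)
      (by have := hm.b φ w φ' w' r r'; rwa [Lg_one] at this) hx hx').2
  let N := M ⊓ Nz (L ⊔ X) ⊥
  have Y : ∀ y ∈ N, (∀ x ∈ L, y x ∈ L) → ∃ ψ : Dual F W, ∀ u v, y (u ⊗ₜ v) = u ⊗ₜ (v + ψ v • w) :=
    fun y hy hL => ylem hn hodd (b1 hn h1 (by rwa [cM_of_mem hy.1]) r.w0 r.w0 (im_eq_of hL))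
      r.w0 fun x ψ k1 k2 k3 => by
        obtain ⟨l, hl, z, hz, e⟩ := Submodule.mem_sup.1 (hy.2.1 x)
        rw [← e] at k3 ⊢
        rw [map_add, cW_LW k2 hl, zero_add] at k3
        exact L.add_mem hl (P1 ψ k1 k2 z hz (by rw [rh_one_r1, k3, zero_tmul]; exact X.zero_mem))
  have sj : ∀ ψ : Dual F W, ψ ≠ 0 → ∀ x ∈ L, ∃ z, rh 1 (r1 ψ w) z = x := fun ψ hψ x hx => by
    rwa [← LinearMap.mem_range, range_rh hψ, Lg_one]
  have key : ∀ ψ : Dual F W, ψ ≠ 0 → ψ w = 0 → ∃ y ∈ N, ∀ v, y (rh 1 (r1 ψ w) v) = θ' (y v) := by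
    intro ψ k1 k2
    rcases pair_elt (N := N) (R_inf_Nz (h1.1 _ _ k2) (fun v => Submodule.mem_sup_left (t1 ψ v))
      (by simp)) (R_inf_Nz r'.mem (fun v => Submodule.mem_sup_right (rh_mem _ _ _ v)) (by simp))
      (t1 ψ) (t2 ψ k2) (rh_mem _ _ _) (fun v => rh_Lg r'.nil _) (P1 ψ k1 k2) P2 hXL with
      ⟨z, hz, e1, -, e3, e4⟩ | ⟨-, hy⟩
    swap
    · exact hy
    exfalso
    obtain ⟨χ, hχ⟩ := Y z hz fun x hx => by
      obtain ⟨v, rfl⟩ := sj ψ k1 x hx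
      exact (LinearMap.congr_fun e3.eq v) ▸ t1 ψ _
    have e5 : ∀ x, z x = x + rh 1 (r1 χ w) x := fun x =>
      LinearMap.congr_fun (show z.toLinearMap = 1 + rh 1 (r1 χ w) from TensorProduct.ext'
        fun u v => by simp [hχ, rh_one_tmul, tmul_add]) x
    have k3 : χ ≠ 0 := by
      rintro rfl; exact e1 (LinearEquiv.ext fun x => by simp [e5])
    have k4 : χ w = 0 := by
      obtain ⟨u, hu⟩ := exists_ne (0 : U)
      obtain ⟨v, hv⟩ := exists_apply_one k1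
      have := LinearMap.congr_fun e3.eq (u ⊗ₜ v)
      simp only [Module.End.mul_apply, LinearEquiv.coe_coe, rh_one_tmul, hχ,
        LinearMap.smulRight_apply, map_add, map_smul, hv, k2, one_smul, smul_zero, add_zero,
        zero_smul] at this
      simpa [r.w0] using tmul_right_inj hu this
    refine hXL fun x hx => P1 χ k3 k4 x hx ?_
    have hx' : x ∈ LinearMap.range θ' := by rwa [range_rh r'.φ0]
    obtain ⟨v, rfl⟩ := hx'
    have : z (θ' v) ∈ X := (LinearMap.congr_fun e4.eq v) ▸ rh_mem _ _ _ _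
    rw [e5] at this
    exact (X.add_mem_iff_right hx).1 this
  obtain ⟨v, hv1, hv2⟩ := exists_ker_not_mem hn φ w
  obtain ⟨ψ, k1, k2⟩ := exists_dual_two hv2
  have k0 : ψ ≠ 0 := by rintro rfl; simp at k2
  obtain ⟨y₁, hy₁, e1⟩ := key φ r.φ0 r.nil
  obtain ⟨y₂, hy₂, e2⟩ := key ψ k0 k1
  have e3 : ∀ x, (y₂⁻¹ * y₁) (rh 1 (r1 φ w) x) = rh 1 (r1 ψ w) ((y₂⁻¹ * y₁) x) := fun x => by
    apply y₂.injective
    rw [e2]; simp [e1, LinearEquiv.coe_inv]
  obtain ⟨χ, hχ⟩ := Y _ (N.mul_mem (N.inv_mem hy₂) hy₁) fun x hx => by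
    obtain ⟨v, rfl⟩ := sj φ r.φ0 x hx
    exact e3 v ▸ t1 ψ _
  obtain ⟨u, hu⟩ := exists_ne (0 : U)
  have := e3 (u ⊗ₜ v)
  rw [hχ, rh_one_tmul, rh_one_tmul] at this
  simp only [LinearMap.smulRight_apply, hv1, zero_smul, tmul_zero, map_zero, map_add, map_smul, k1,
    k2, smul_zero, add_zero, one_smul] at this
  exact tmul_ne_zero hu r.w0 this.symm

theorem exists_nonstd (hn : 3 ≤ finrank F W) [Nontrivial U] (hH : Rts M 1) (hS : ¬ Std M) :
    ∃ γ, CA 1 γ ∧ (∀ c : F, γ ≠ c • 1) ∧ ∃ (φ : Dual F W) (w : W), φ ≠ 0 ∧ w ≠ 0 ∧ φ w = 0 ∧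
      R M (γ * rh 1 (r1 φ w)) := by
  simp only [Std, not_forall, not_exists] at hS
  obtain ⟨w₀, hw₀, θ, hθ, hS⟩ := hS
  obtain ⟨χ, hχ⟩ := exists_dual_one (F := F) hw₀
  have hθ' : ∀ x, cW U χ (θ x) ⊗ₜ w₀ = θ x := fun x => eq_of_mem_LW hχ (hθ.rg x)
  obtain ⟨u₀, hu₀⟩ := exists_ne (0 : U)
  obtain ⟨w, hw⟩ : ∃ w, ∀ c : F, cW U χ ∘ₗ θ ∘ₗ inW F U w ≠ c • LinearMap.id := by
    by_contra hn'
    push Not at hn'
    obtain ⟨ψ, hψ⟩ := exists_dual_one (F := F) hu₀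
    obtain ⟨x, hx⟩ := hS (ψ ∘ₗ cW U χ ∘ₗ θ ∘ₗ TensorProduct.mk F U W u₀)
    apply hx
    rw [← hθ']
    congr 1
    rw [← LinearMap.comp_apply]
    congr 1
    refine TensorProduct.ext' fun u w => ?_
    obtain ⟨c, hc⟩ := hn' w
    have e : ∀ u, cW U χ (θ (u ⊗ₜ w)) = c • u := fun u => LinearMap.congr_fun hc u
    simp [e, hψ]
  obtain ⟨φ, h0, h1, h2⟩ := exists_dual_pair hn w₀ w
  refine ⟨(cW U χ ∘ₗ θ ∘ₗ inW F U w).rTensor W, ca_of (α := cW U χ ∘ₗ θ ∘ₗ inW F U w)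
    fun u v => rfl, fun c hc => hw c (LinearMap.ext fun u => tmul_left_inj (F := F) hw₀ ?_),
    φ, w₀, h0, hw₀, h1, (hθ.mem.comm (hH _ _ h2) hθ.sq (fun x => by simp [rh_one_r1, h2])
      fun x => by rw [rh_one_r1, cW_LW h1 (hθ.rg x), zero_tmul]).congr
      fun x => by simp [rh_one_r1, hθ']⟩
  simpa [smul_tmul'] using LinearMap.congr_fun hc (u ⊗ₜ w₀)

theorem all_of_one (hn : 3 ≤ finrank F W) (hH : Rts M g) (hγ : CA g γ) {φ : Dual F W} {w : W}
    (hφ : φ ≠ 0) (hw : w ≠ 0) (h0 : φ w = 0) (h : R M (γ * rh g (r1 φ w))) (φ' : Dual F W) (w' : W)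
    (h' : φ' w' = 0) : R M (γ * rh g (r1 φ' w')) := by
  have step : ∀ (φ χ : Dual F W) v, φ w = 0 → R M (γ * rh g (r1 φ w)) → φ v = 1 → χ v = 0 →
      χ w = 0 → R M (γ * rh g (r1 χ w)) := fun φ χ v h0 h h1 h2 h3 => by
    have := R_comm h (hH _ _ h2) (hγ.mul_r1 _ _ _ h0) (rh_r1_mul _ _ h2)
      (by simpa using hγ.mul_r1 1 φ v h3)
    rwa [mul_assoc, ← map_mul, r1_mul, h1, one_smul] at this
  obtain ⟨v, hv⟩ := exists_apply_one hφ
  have hP : ∀ χ : Dual F W, χ w = 0 → R M (γ * rh g (r1 χ w)) := by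
    intro χ hχ
    obtain ⟨χ₁, e0, e1, e2⟩ := exists_dual_pair hn w v
    obtain ⟨v', hv'⟩ := exists_apply_one e0
    have h1 := step χ₁ (χ v • φ) (v' - φ v' • v) e1 (step φ χ₁ v h0 h hv e2 e1)
      (by simp [hv', e2]) (by simp [hv]) (by simp [h0])
    have h2 := step φ (χ - χ v • φ) v h0 h hv (by simp [hv]) (by simp [h0, hχ])
    have := R_add h1 h2 (hγ.mul_r1 _ _ _ (by simp [h0]))
    rwa [← mul_add, ← map_add, show r1 (χ v • φ) w + r1 (χ - χ v • φ) w = r1 χ w by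
      ext; simp [sub_smul]] at this
  by_cases hw' : w' = 0
  · exact R.zero.congr fun x => by simp [hw']
  refine move_ind (K := F) (by omega)
    (P := fun w => ∀ χ : Dual F W, χ w = 0 → R M (γ * rh g (r1 χ w))) ?_ hw hP hw' φ' h'
  intro s χ v hχ hP ψ hψ
  have := R_conj (hP (ψ + ψ v • χ) (by simpa [mul_comm] using hψ)) (hH _ _ hχ) (rh_r1_mul _ _ hχ)
  rw [← map_one (rh g), ← map_add, ← map_sub, ← mul_assoc, ← (hγ _).eq, mul_assoc, mul_assoc,
    ← map_mul, ← map_mul] at this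
  convert this using 3
  ext x
  simp [hχ, add_smul, sub_smul, smul_smul]
  module

theorem sandwich (hn : 3 ≤ finrank F W) (P : Module.End F (U ⊗[F] W) → Prop)
    (hsub : ∀ a b, P a → P b → P (a - b))
    (hcj : ∀ (φ : Dual F W) w a, φ w = 0 → P a →
      P ((1 + rh g (r1 φ w)) * a * (1 - rh g (r1 φ w))))
    (hγ : P γ) {φ : Dual F W} {w : W} (h0 : φ w = 0) :
    P (rh g (r1 φ w) * γ * rh g (r1 φ w)) := by
  obtain ⟨v, h1, h2⟩ := exists_ker_not_mem hn φ w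
  obtain ⟨ψ, h3, h4⟩ := exists_dual_two h2
  have k1 := hsub _ _ (hcj ψ w _ h3 hγ) hγ
  have k2 := hsub _ _ (hcj φ w _ h0 k1) k1
  have k3 := hsub _ _ (hcj φ v _ h1 k2) k2
  have e11 : rh g (r1 ψ w) * rh g (r1 φ w) = 0 := rh_r1_mul _ _ h3
  have e21 : rh g (r1 φ w) * rh g (r1 ψ w) = 0 := rh_r1_mul _ _ h0
  have e31 : rh g (r1 φ v) * rh g (r1 ψ w) = 0 := rh_r1_mul _ _ h0
  have e32 : rh g (r1 φ v) * rh g (r1 φ w) = 0 := rh_r1_mul _ _ h0
  have e23 : rh g (r1 φ w) * rh g (r1 φ v) = 0 := rh_r1_mul _ _ h1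
  have e13 : rh g (r1 ψ w) * rh g (r1 φ v) = rh g (r1 φ w) := by
    rw [← map_mul, r1_mul, h4, one_smul]
  generalize rh g (r1 ψ w) = A at *
  generalize rh g (r1 φ w) = B at *
  generalize rh g (r1 φ v) = C at *
  have f2 : (1 + B) * ((1 + A) * γ * (1 - A) - γ) * (1 - B) - ((1 + A) * γ * (1 - A) - γ) =
      0 - B * γ * A - A * γ * B := by
    have : (1 + B) * ((1 + A) * γ * (1 - A) - γ) * (1 - B) - ((1 + A) * γ * (1 - A) - γ) =
      0 - B * γ * A - A * γ * B + (B * A) * (γ - γ * A - γ * B + γ * A * B) +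
        (γ + A * γ + B * γ) * (A * B) := by
      simp only [mul_add, add_mul, mul_sub, sub_mul, mul_one, one_mul, mul_assoc, zero_mul, mul_zero]
      abel
    rw [this, e21, e11]; simp
  rw [f2] at k3
  convert k3 using 1
  have : (1 + C) * (0 - B * γ * A - A * γ * B) * (1 - C) - (0 - B * γ * A - A * γ * B) =
      B * γ * (A * C) + A * γ * (B * C) - (C * B) * (γ * A * (1 - C)) -
        (C * A) * (γ * B * (1 - C)) := by
      simp only [mul_add, add_mul, mul_sub, sub_mul, mul_one, one_mul, mul_assoc, zero_mul, mul_zero]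
      abel
  rw [this, e13, e23, e32, e31]; simp

variable {I : Type} [DecidableEq I] (T : TP I F U W)

/-- The tensor product of rank one maps in the factors of `S`. -/
noncomputable def nS (S : Finset I) (φ : I → Dual F W) (w : I → W) : Module.End F (U ⊗[F] W) :=
  T.PM fun j => if j ∈ S then r1 (φ j) (w j) else 1

/-- `M` contains the elements `1 + γ ⊗ n_S`. -/
def PS (M : Subgroup ((U ⊗[F] W) ≃ₗ[F] (U ⊗[F] W))) (S : Finset I)
    (γ : Module.End F (U ⊗[F] W)) : Prop :=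
  (∀ j ∈ S, CA (T.s j) γ) ∧ ∀ φ w, (∀ j ∈ S, φ j (w j) = 0) → R M (γ * nS T S φ w)

omit [FiniteDimensional F W] in
theorem nS_mul {S S' : Finset I} {i : I} (hi : i ∈ S) (hi' : i ∈ S') {φ φ' : I → Dual F W}
    {w w' : I → W} (h : φ i (w' i) = 0) : nS T S φ w * nS T S' φ' w' = 0 := by
  rw [nS, nS, ← T.PM_mul]
  exact T.PM_zero (i := i) (by simp [hi, hi', r1_mul, h])

omit [FiniteDimensional F W] in
theorem nS_comm [Finite I] {S : Finset I} (h : ∀ j ∈ S, CA (T.s j) γ) (φ : I → Dual F W)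
    (w : I → W) : Commute γ (nS T S φ w) :=
  T.PM_ind (Commute γ) (Commute.one_right γ) _ fun j z hz => Commute.mul_right (by
    by_cases hj : j ∈ S
    · exact h j hj _
    · simp [hj]) hz

omit [FiniteDimensional F W] in
theorem nS_insert {S : Finset I} {j : I} (hj : j ∉ S) (φ : I → Dual F W) (w : I → W) :
    nS T (insert j S) φ w = rh (T.s j) (r1 (φ j) (w j)) * nS T S φ w := by
  rw [nS, nS, ← T.PM_update]
  congr 1
  funext k
  by_cases e : k = j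
  · subst e; simp [hj]
  · simp [e]

variable {T} [Finite I] (hn : 3 ≤ finrank F W) (hH : ∀ i, Rts M (T.s i))
include hn hH

theorem PS.step {S : Finset I} (h : PS T M S γ) {i j : I} (hi : i ∈ S) (hj : j ∉ S)
    (hc : ¬ CA (T.s j) γ) : ∃ γ', γ' ≠ 0 ∧ PS T M (insert j S) γ' := by
  obtain ⟨φ, w, h0, h1⟩ : ∃ (φ : Dual F W) (w : W), φ w = 0 ∧
      rh (T.s j) (r1 φ w) * γ * rh (T.s j) (r1 φ w) ≠ 0 := by
    by_contra hn'; push Not at hn'; exact hc (ca_of_sand hn')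
  have hφ : φ ≠ 0 := by rintro rfl; simp [r1] at h1
  have hw : w ≠ 0 := by rintro rfl; simp [r1] at h1
  have c1 : ∀ l ∈ S, ∀ x, CA (T.s l) (rh (T.s j) x) := fun l hl =>
    T.com j l (by rintro rfl; exact hj hl)
  have c2 : ∀ φ w, CA (T.s j) (nS T S φ w) := fun φ w => T.ca_PM (by simp [hj])
  have h2 := sandwich hn (PS T M S) (fun a b ha hb => ⟨fun l hl => (ha.1 l hl).sub (hb.1 l hl),
    fun φ w e => by
      have k : ∀ a b, PS T M S b → a * nS T S φ w * (b * nS T S φ w) = 0 := fun a b hb => by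
        rw [mul_assoc, ← mul_assoc _ b, ← (nS_comm T hb.1 φ w).eq, mul_assoc,
          nS_mul T hi hi (e i hi), mul_zero, mul_zero]
      rw [sub_mul]
      exact R_sub (ha.2 φ w e) (hb.2 φ w e) (k b b hb) (k a b hb)⟩)
    (fun χ v a hv ha => ⟨fun l hl => ((CA.one.add (c1 l hl _)).mul (ha.1 l hl)).mul
      (CA.one.sub (c1 l hl _)), fun φ w e => by
      have := R_conj (ha.2 φ w e) (hH j χ v hv) (rh_r1_mul _ _ hv)
      rwa [mul_assoc, mul_assoc a, ((Commute.one_right _).sub_right (c2 φ w _)).eq,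
        ← mul_assoc, ← mul_assoc] at this⟩) h h0
  obtain ⟨γ', k1, -, k2⟩ := exists_sand (T.s j) γ φ w
  rw [k2] at h1 h2
  refine ⟨γ', by rintro rfl; simp at h1, fun l hl => ?_, fun φ' w' e => ?_⟩
  · rcases Finset.mem_insert.1 hl with rfl | hl
    · exact k1
    intro x
    have c3 := (c1 l hl (r1 φ w) x).symm
    refine sub_eq_zero.1 (((k1.mul ((T.com j l (by rintro rfl; exact hj hl)).symm x)).sub
      (((T.com j l (by rintro rfl; exact hj hl)).symm x).mul k1)).eq_zero (r1_ne hφ hw) ?_)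
    rw [sub_mul, mul_assoc, c3.eq, ← mul_assoc, (h2.1 l hl x).eq, mul_assoc, sub_self]
  have := h2.2 φ' w' fun l hl => e l (Finset.mem_insert_of_mem hl)
  rw [mul_assoc, ← (c2 _ _ _).eq, ← mul_assoc] at this
  have := all_of_one hn (hH j) (k1.mul (c2 _ _)) hφ hw h0 this _ _ (e j (Finset.mem_insert_self _ _))
  rwa [nS_insert T hj, ← (c2 _ _ _).eq, ← mul_assoc]

omit hn hH in
theorem PS.one {S : Finset I} (h : PS T M S γ) {i : I} (hi : i ∈ S) {c : F} (hc : γ = c • 1)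
    (h0 : γ ≠ 0) : PS T M S 1 := by
  have := Fintype.ofFinite I
  have hc0 : c ≠ 0 := by rintro rfl; simp at hc; exact h0 hc
  refine ⟨fun _ _ => CA.one, fun φ w e => ?_⟩
  have := h.2 (update φ i (c⁻¹ • φ i)) w fun j hj => by
    by_cases e' : j = i
    · subst e'; simp [e j hj]
    · simp [e', e j hj]
  convert this using 1
  have k := T.PM_smul (update 1 i c⁻¹) fun j => if j ∈ S then r1 (φ j) (w j) else 1
  rw [Finset.prod_update_of_mem (Finset.mem_univ i)] at k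
  simp only [Pi.one_apply, Finset.prod_const_one, mul_one] at k
  rw [hc, one_mul, smul_mul_assoc, one_mul, eq_comm, ← eq_inv_smul_iff₀ hc0, nS, nS, ← k]
  congr 1
  funext j
  by_cases e' : j = i
  · subst e'; ext; simp [hi, smul_smul]
  · simp [e']

omit hn hH [FiniteDimensional F W] [Finite I] in
theorem PS.perm {S : Finset I} (h : PS T M S 1) {σ : Equiv.Perm I} (hσ : T.PP σ ∈ M) :
    PS T M (S.map σ.toEmbedding) 1 := ⟨fun _ _ => CA.one, fun φ w e => by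
  have := (h.2 (φ ∘ σ) (w ∘ σ) fun j hj => e _ (Finset.mem_map_of_mem _ hj)).conj hσ
  rw [one_mul] at this ⊢
  convert this using 1
  change _ = cjm _ _
  rw [nS, nS, T.cjm_PP]
  congr 1
  funext j
  simp [Finset.mem_map_equiv]⟩

omit hH [Finite I] in
theorem PS.union {S S' : Finset I} (h : PS T M S 1) (h' : PS T M S' 1) {i : I} (hi : i ∈ S)
    (hi' : i ∈ S') : PS T M (S ∪ S') 1 := ⟨fun _ _ => CA.one, fun φ w e => by
  choose v hv hv' using fun j => exists_ker_not_mem hn (φ j) (w j)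
  choose ψ hψ hψ' using fun j => exists_dual_two (hv' j)
  have k1 : ∀ j ∈ S, (if j ∈ S' then ψ j else φ j) (w j) = 0 := fun j hj => by
    split_ifs
    exacts [hψ j, e j (Finset.mem_union_left _ hj)]
  have k2 : ∀ j ∈ S', φ j (if j ∈ S then v j else w j) = 0 := fun j hj => by
    split_ifs
    exacts [hv j, e j (Finset.mem_union_right _ hj)]
  have a1 := h.2 _ _ k1
  have a2 := h'.2 _ _ k2
  rw [one_mul] at a1 a2 ⊢
  convert R_comm a1 a2 (nS_mul T hi hi (k1 i hi)) (nS_mul T hi' hi' (k2 i hi'))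
    (nS_mul T hi' hi (e i (Finset.mem_union_left _ hi))) using 1
  rw [nS, nS, nS, ← T.PM_mul]
  congr 1
  funext j
  by_cases b1 : j ∈ S <;> by_cases b2 : j ∈ S' <;> simp [b1, b2, r1_mul, hψ']⟩

theorem PS.univ [Fintype I]
    (hP : ∀ i j k : I, i ≠ j → k ≠ j → T.PP (Equiv.swap i j * Equiv.swap j k) ∈ M) (n : ℕ) :
    ∀ S : Finset I, Fintype.card I - S.card = n → 2 ≤ S.card → ∀ γ, γ ≠ 0 → PS T M S γ →
      PS T M Finset.univ 1 := by
  have : Nontrivial W := Module.nontrivial_of_finrank_pos (R := F) (by omega)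
  induction n using Nat.strong_induction_on with
  | _ n ih =>
  intro S hS h2 γ h0 h
  obtain ⟨i, hi, i', hi', hii⟩ := Finset.one_lt_card.1 h2
  have lt : ∀ S' : Finset I, S ⊂ S' → ∀ γ, γ ≠ 0 → PS T M S' γ → PS T M Finset.univ 1 :=
    fun S' hS' => ih _ (by
      have := Finset.card_lt_card hS'
      have := Finset.card_le_univ S'
      omega) S' rfl (h2.trans (Finset.card_le_card hS'.1))
  by_cases hc : ∃ j ∉ S, ¬ CA (T.s j) γ
  · obtain ⟨j, hj, hc⟩ := hc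
    obtain ⟨γ', k1, k2⟩ := h.step hn hH hi hj hc
    exact lt _ (Finset.ssubset_insert hj) _ k1 k2
  push Not at hc
  obtain ⟨c, e⟩ := T.cent γ fun j => by
    by_cases hj : j ∈ S
    exacts [h.1 j hj, hc j hj]
  have h1 := h.one hi e h0
  by_cases hu : S = Finset.univ
  · exact hu ▸ h1
  obtain ⟨j, hj⟩ : ∃ j, j ∉ S := by
    by_contra hn'; push Not at hn'; exact hu (Finset.eq_univ_of_forall hn')
  have hij : i ≠ j := by rintro rfl; exact hj hi
  have hij' : i' ≠ j := by rintro rfl; exact hj hi'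
  refine lt _ ?_ 1 (fun e' => h0 (by rw [← mul_one γ, e', mul_zero]))
    (h1.union hn (h1.perm (hP i' j i hij' hij)) hi' (Finset.mem_map.2 ⟨i, hi, by simp⟩))
  refine Finset.ssubset_iff_of_subset Finset.subset_union_left |>.2 ⟨j, Finset.mem_union_right _
    (Finset.mem_map.2 ⟨i', hi', ?_⟩), hj⟩
  simp [Equiv.swap_apply_of_ne_of_ne hij' hii.symm]

omit hH in
theorem PS.all [Fintype I] (h : PS T M Finset.univ 1) (φ : I → Dual F W) (w : I → W) {i : I}
    (h0 : φ i (w i) = 0) : R M (T.PM fun j => r1 (φ j) (w j)) := by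
  choose v hv hv' using fun j => exists_ker_not_mem hn (φ j) (w j)
  choose ψ hψ hψ' using fun j => exists_dual_two (hv' j)
  have a1 := h.2 ψ w fun j _ => hψ j
  have a2 := h.2 φ v fun j _ => hv j
  have hi := Finset.mem_univ i
  rw [one_mul] at a1 a2
  convert R_comm a1 a2 (nS_mul T hi hi (hψ i)) (nS_mul T hi hi (hv i)) (nS_mul T hi hi h0) using 1
  rw [nS, nS, ← T.PM_mul]
  congr 1
  funext j
  simp [r1_mul, hψ']

theorem main [Finite F] [FiniteDimensional F U] [Nontrivial U] [Fintype I]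
    (hodd : finrank F W = 3 → Odd (finrank F U))
    (hP : ∀ i j k : I, i ≠ j → k ≠ j → T.PP (Equiv.swap i j * Equiv.swap j k) ∈ M)
    (hg : g ∈ M) (hg' : g ∉ T.Wr) : PS T M Finset.univ 1 := by
  have : Nontrivial W := Module.nontrivial_of_finrank_pos (R := F) (by omega)
  obtain ⟨w, hw⟩ := exists_ne (0 : W)
  obtain ⟨φ, h0, h1, -⟩ := exists_dual_pair hn w w
  have hH' : ∀ i, Rts (cM (T.s i) M) 1 := fun i => rts_cM.2 (by simpa using hH i)
  by_cases hS : ∀ i, Std (cM (T.s i) M)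
  · refine (hg' (T.mem_Wr (by omega) (Hyp.core (Iso := ⊤) (Good := Good) ⟨hn, le_top,
      fun _ => trivial, fun i => ⟨hH' i, hS i⟩, T.com, T.cent,
      fun i => ⟨φ, w, h0, hw, h1, hH i _ _ h1⟩, fun h2 i => ?_,
      fun M h _ a b φ w φ' w' r r' e => b1 hn a b r.w0 r'.w0 e,
      fun M h _ a b φ w φ' w' r r' e => np hn hodd a b r r' e⟩ hg))).elim
    obtain ⟨v, h3, h4⟩ := exists_ker_not_mem hn φ w
    obtain ⟨ψ, h5, h6⟩ := exists_dual_two h4
    refine ⟨[(φ, w), (ψ, w), (φ + ψ, w)], ⟨1, rfl⟩, ?_, ?_⟩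
    · simp only [List.mem_cons, List.not_mem_nil, or_false]
      rintro _ (rfl | rfl | rfl)
      · exact ⟨h0, hw, h1, hH i _ _ h1⟩
      · exact ⟨by rintro rfl; simp at h6, hw, h5, hH i _ _ h5⟩
      · exact ⟨fun e => by simpa [h3, h6] using LinearMap.congr_fun e v, hw, by simp [h1, h5],
          hH i _ _ (by simp [h1, h5])⟩
    · ext x
      simp [h1, h5, add_smul]
      linear_combination (norm := module) ((φ x + ψ x) * h2) • w
  push Not at hS
  obtain ⟨i, hS⟩ := hS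
  obtain ⟨γ, k1, k2, χ, v, k3, k4, k5, k6⟩ := exists_nonstd hn (hH' i) hS
  have c1 : CA (T.s i) (cjm (T.s i) γ) := by simpa using k1.conj (T.s i)
  have c2 : R M (cjm (T.s i) γ * rh (T.s i) (r1 χ v)) := (R_cM.1 k6).congr fun x => by
    simp [cjm_apply, rh_apply]; rfl
  have c3 : PS T M {i} (cjm (T.s i) γ) := ⟨by simpa using c1, fun φ w e => by
    rw [← Finset.insert_empty, nS_insert T (by simp), nS]
    simpa [← Pi.one_def, T.PM_one] using
      all_of_one hn (hH i) c1 k3 k4 k5 c2 _ _ (e i (by simp))⟩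
  obtain ⟨j, hj⟩ : ∃ j, ¬ CA (T.s j) (cjm (T.s i) γ) := by
    by_contra hn'; push Not at hn'
    obtain ⟨c, e⟩ := T.cent _ hn'
    exact k2 c (LinearMap.ext fun x => (T.s i).injective (by
      simpa [cjm_apply] using LinearMap.congr_fun e (T.s i x)))
  have hji : j ∉ ({i} : Finset I) := by rw [Finset.mem_singleton]; rintro rfl; exact hj c1
  obtain ⟨γ', k7, k8⟩ := c3.step hn hH (Finset.mem_singleton_self i) hji hj
  exact PS.univ hn hH hP _ _ rfl (by simp [Finset.card_insert_of_notMem hji]) _ k7 k8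

end SL

theorem TP.root_mem [FiniteDimensional F U] [Nontrivial U] (hn : 2 ≤ finrank F W) {I : Type}
    [DecidableEq I] (T : TP I F U W) (i : I) {x : Module.End F W}
    (e : ∀ v, g v = v + rh (T.s i) x v) : g ∈ T.Wr := by
  refine ⟨1, fun j => ?_⟩
  by_cases hj : j = i
  · subst hj
    have e1 : g.toLinearMap = rh (T.s j) (1 + x) := by rw [map_add, map_one]; exact LinearMap.ext e
    refine isT_of_lines hn fun w => ⟨(1 + x) w, fun u => ?_⟩
    have : g (T.s j (u ⊗ₜ w)) = T.s j (u ⊗ₜ (1 + x) w) := by rw [← rh_tmul, ← e1]; rfl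
    simp only [LinearEquiv.mul_apply, Equiv.Perm.coe_one, id, this, LinearEquiv.coe_inv,
      LinearEquiv.symm_apply_apply]
    exact tmul_mem_LW _ _
  · exact CA.same_mul (by rw [coe_eq_one_add e]; exact CA.one.add (T.com i j (Ne.symm hj) _))

theorem TP.exists_not_scalar [Nontrivial U] {I : Type}
    [DecidableEq I] (T : TP I F U W) (i : I) {φ : Dual F W} {w : W} (hφ : φ ≠ 0) (hw : w ≠ 0)
    (h0 : φ w = 0) (c : F) : rh (T.s i) (r1 φ w) ≠ c • 1 := fun e =>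
  not_ca_r1 (g := T.s i) hφ hw h0 fun x => by
    rw [e]; exact (Commute.one_left _).smul_left c

theorem TP.exists_SL [FiniteDimensional F U] [Nontrivial U] (hn : 3 ≤ finrank F W) {I : Type}
    [DecidableEq I] (T : TP I F U W) {i j : I} (hij : i ≠ j) :
    ∃ g, LinearEquiv.det g = 1 ∧ g ∉ T.Wr := by
  have : Nontrivial W := Module.nontrivial_of_finrank_pos (R := F) (by omega)
  obtain ⟨w, hw⟩ := exists_ne (0 : W)
  obtain ⟨φ, h0, h1, -⟩ := exists_dual_pair hn w w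
  have c : CA (T.s j) (rh (T.s i) (r1 φ w)) := T.com i j hij _
  exact ⟨uni (rh (T.s i) (r1 φ w) * rh (T.s j) (r1 φ w))
    (LinearMap.congr_fun (c.mul_r1 (rh (T.s i) (r1 φ w)) φ w h1)), det_uni _ _,
    T.not_mem_Wr (by omega) c (T.exists_not_scalar i h0 hw h1) h0 hw h1 fun _ => rfl⟩

theorem TP.rts_of [FiniteDimensional F U] [Nontrivial U] (hn : 3 ≤ finrank F W) {I : Type}
    [DecidableEq I] (T : TP I F U W) (h : ∀ g, LinearEquiv.det g = 1 → g ∈ T.Wr → g ∈ M) (i : I) :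
    SL.Rts M (T.s i) := fun χ v hv =>
  R.of_uni (h := fun x => rh_Lg hv v (rh_mem _ _ _ x))
    (h _ (det_uni _ _) (T.root_mem (by omega) i (x := r1 χ v) fun _ => uni_apply _ _ _))

open Geo in
theorem max_wreath_SL [Fintype F] {ι : Type} [Fintype ι] [DecidableEq ι] {m t : ℕ}
    (hm : 3 ≤ m) (ht : 2 ≤ t) (e : ι ≃ (Fin t → Fin m)) (P : GL ι F) :
    IsMaximalIn (specialLinear ι F) (tensorWreathSubgroup m t e P ⊓ specialLinear ι F) := by
  obtain ⟨t, rfl⟩ : ∃ t', t = t' + 2 := ⟨t - 2, by omega⟩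
  have : Nonempty (Fin m) := ⟨⟨0, by omega⟩⟩
  let T := tp0 F m (t + 1)
  have hn : 3 ≤ finrank F (Fin m → F) := by simpa
  refine isMaximalIn_SL (powE e P) (· ∈ T.Wr) (mem_wreath_iff (by omega) e P) ?_
    fun M h _ ⟨g, hg, h2⟩ => ?_
  · exact T.exists_SL hn (zero_ne_one (α := Fin (t + 2)))
  have hH := T.rts_of hn h
  have k := SL.main hn hH (fun h3 => by
    have : m = 3 := by simpa using h3
    simp [this, Nat.odd_pow_iff]; decide)
    (fun i j k a b => h _ (T.det_three a b) (T.PP_mem (by omega) _)) hg h2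
  refine sl_of_basis ((Pi.basisFun F _).map (E0 F m (t + 1))) fun a b hab c => ?_
  obtain ⟨i, hi⟩ := Function.ne_iff.1 hab
  have e1 : T.pt (update (fun j => Pi.single (a j) 1) 0 (c • Pi.single (a 0) 1)) =
      c • ((Pi.basisFun F _).map (E0 F m (t + 1))) a := by
    rw [T.pt.map_update_smul, update_eq_self]
    simp [T, tp0, pt0_single]
  refine Max.T.of_R (k.all hn (fun j => LinearMap.proj (b j))
    (update (fun j => Pi.single (a j) 1) 0 (c • Pi.single (a 0) 1)) (i := i) ?_) (by simp [hab])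
    fun x => ?_
  · by_cases h : i = 0
    · subst h; simp [Pi.single_eq_of_ne' hi]
    · simp [h, Pi.single_eq_of_ne' hi]
  refine LinearMap.congr_fun (T.ext (g := (((Pi.basisFun F _).map (E0 F m (t + 1))).coord b).smulRight
    (c • ((Pi.basisFun F _).map (E0 F m (t + 1))) a)) fun ws => ?_) x
  rw [T.PM_r1, e1, LinearMap.smulRight_apply]
  congr 1
  simp [T, tp0, pt0_apply]

end Cfsg.Agent.Max3
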