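import Mathlib
import Cfsg.Agent.Max3.TWSL
import Cfsg.Agent.Max2.SS1

/-!
# Tensor structures with a symplectic factor: the local analysis
-/

set_option autoImplicit false
set_option linter.unusedSectionVars false
set_option linter.unusedSimpArgs false

namespace Cfsg.Agent.Max3

open Module Cfsg.Agent.Max Cfsg.Agent.Max2 TensorProduct Function Classical.SpWitt

theorem pair_two {F V : Type*} [Field F] [AddCommGroup V] [Module F V] [Finite F]
    [FiniteDimensional F V] (h2 : (2 : F) = 0) {N : Subgroup (V ≃ₗ[F] V)} {α β : Module.End F V}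
    (hα : R N α) (hβ : R N β) (h1 : ∀ v, α (α v) = 0) (h3 : ∀ v, β (β v) = 0) :
    (∃ z ∈ N, z ≠ 1 ∧ Commute (z : Module.End F V) α ∧ Commute (z : Module.End F V) β) ∨
      ∃ y ∈ N, ∀ v, y (α v) = β (y v) := by
  have : Finite V := Module.finite_of_finite F
  have : Finite (V ≃ₗ[F] V) := Finite.of_injective _ (DFunLike.coe_injective (F := V ≃ₗ[F] V))
  obtain ⟨a, ha, ea⟩ := hα
  obtain ⟨b, hb, eb⟩ := hβ
  have sq : ∀ x : V, x + x = 0 := fun x => by rw [← two_smul F, h2, zero_smul]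
  rcases dihedral N ha hb (LinearEquiv.ext fun v => by simp [ea, h1, add_assoc, sq])
    (LinearEquiv.ext fun v => by simp [eb, h3, add_assoc, sq]) with
    ⟨z, hz, e1, -, e3, e4⟩ | ⟨y, hy, e⟩
  · refine Or.inl ⟨z, hz, e1, LinearMap.ext fun v => ?_, LinearMap.ext fun v => ?_⟩
    · simpa [ea] using LinearEquiv.congr_fun e3.eq v
    · simpa [eb] using LinearEquiv.congr_fun e4.eq v
  · exact Or.inr ⟨y, hy, fun v => by simpa [ea, eb] using LinearEquiv.congr_fun e v⟩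

variable {F U W : Type*} [Field F] [AddCommGroup U] [Module F U] [AddCommGroup W] [Module F W]

/-- The rank one map `v ↦ β a v • b`. -/
abbrev rr (β : LinearMap.BilinForm F W) (a b : W) : Module.End F W := r1 (β a) b

variable {B : LinearMap.BilinForm F (U ⊗[F] W)} {p : LinearMap.BilinForm F U}
  {β : LinearMap.BilinForm F W} {M : Subgroup ((U ⊗[F] W) ≃ₗ[F] (U ⊗[F] W))}
  {g g' h y : (U ⊗[F] W) ≃ₗ[F] (U ⊗[F] W)}

theorem rr_mul (a b c d : W) : rr β a b * rr β c d = β a d • rr β c b := r1_mul _ _ _ _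

theorem rr_apply (a b v : W) : rr β a b v = β a v • b := rfl

/-- The element `1 ⊗ σ` of the structure `g`. -/
noncomputable def fE (g : (U ⊗[F] W) ≃ₗ[F] (U ⊗[F] W)) :
    (W ≃ₗ[F] W) →* ((U ⊗[F] W) ≃ₗ[F] (U ⊗[F] W)) where
  toFun σ := g * TensorProduct.congr (1 : U ≃ₗ[F] U) σ * g⁻¹
  map_one' := LinearEquiv.toLinearMap_injective (ext_g g fun u w => by simp)
  map_mul' σ τ := LinearEquiv.toLinearMap_injective (ext_g g fun u w => by simp)

theorem fE_tmul (g : (U ⊗[F] W) ≃ₗ[F] (U ⊗[F] W)) (σ : W ≃ₗ[F] W) (u : U) (w : W) :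
    fE g σ (g (u ⊗ₜ w)) = g (u ⊗ₜ σ w) := by simp [fE]

theorem fE_coe (g : (U ⊗[F] W) ≃ₗ[F] (U ⊗[F] W)) (σ : W ≃ₗ[F] W) :
    (fE g σ).toLinearMap = rh g σ.toLinearMap :=
  ext_g g fun u w => by rw [rh_tmul]; exact fE_tmul g σ u w

theorem fE_apply (g : (U ⊗[F] W) ≃ₗ[F] (U ⊗[F] W)) (σ : W ≃ₗ[F] W) (x : U ⊗[F] W) :
    fE g σ x = rh g σ.toLinearMap x := LinearMap.congr_fun (fE_coe g σ) x

theorem fE_mul (h g : (U ⊗[F] W) ≃ₗ[F] (U ⊗[F] W)) (σ : W ≃ₗ[F] W) :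
    fE (h * g) σ = h * fE g σ * h⁻¹ := by simp [fE, mul_assoc]

/-- `M` contains the symplectic group of the factor. -/
def Fac (β : LinearMap.BilinForm F W) (M : Subgroup ((U ⊗[F] W) ≃ₗ[F] (U ⊗[F] W)))
    (g : (U ⊗[F] W) ≃ₗ[F] (U ⊗[F] W)) : Prop := ∀ σ ∈ SG β, fE g σ ∈ M

/-- The unipotent radical of the stabiliser of `g (U ⊗ w)` in `M` lies in the factor. -/
def StdG (β : LinearMap.BilinForm F W) (M : Subgroup ((U ⊗[F] W) ≃ₗ[F] (U ⊗[F] W)))
    (g : (U ⊗[F] W) ≃ₗ[F] (U ⊗[F] W)) : Prop :=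
  ∀ w ≠ 0, ∀ y ∈ M, (∀ x ∈ Lg g w, y x = x) → (∀ x, rh g (rr β w w) x = 0 → y x - x ∈ Lg g w) →
    ∃ z, ∃ c : F, β w z = 0 ∧ ∀ x, y x = x + rh g (rr β z w + rr β w z + c • rr β w w) x

theorem fac_cM : Fac β (cM h M) g ↔ Fac β M (h * g) := by simp only [Fac, mem_cM, fE_mul]

theorem std_cM : StdG β (cM h M) g ↔ StdG β M (h * g) := by
  refine forall_congr' fun w => forall_congr' fun _ => ⟨fun e y hy h1 h2 => ?_, fun e y hy h1 h2 => ?_⟩
  · obtain ⟨z, c, h3, h4⟩ := e (h⁻¹ * y * h) (by simpa [mem_cM, mul_assoc] using hy)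
      (fun x hx => by
        simp [h1 (h x) (by rw [Lg_mul]; exact apply_mem_im.2 hx), LinearEquiv.coe_inv])
      fun x hx => by
        have := h2 (h x) (by rw [rh_mul_apply, hx, map_zero])
        rw [Lg_mul, mem_im] at this
        simpa [LinearEquiv.coe_inv] using this
    refine ⟨z, c, h3, fun x => ?_⟩
    obtain ⟨x, rfl⟩ := h.surjective x
    have := congrArg h (h4 x)
    rw [map_add, ← rh_mul_apply] at this
    simpa [LinearEquiv.coe_inv] using this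
  · obtain ⟨z, c, h3, h4⟩ := e _ (mem_cM.1 hy) (fun x hx => by
        rw [Lg_mul, mem_im] at hx
        simp [h1 _ hx, LinearEquiv.coe_inv]) fun x hx => by
        obtain ⟨x, rfl⟩ := h.surjective x
        rw [rh_mul_apply, h.map_eq_zero_iff] at hx
        rw [Lg_mul]
        simpa [LinearEquiv.coe_inv] using (apply_mem_im (g := h)).2 (h2 x hx)
    refine ⟨z, c, h3, fun x => h.injective ?_⟩
    have := h4 (h x)
    rw [rh_mul_apply] at this
    simpa [LinearEquiv.coe_inv] using this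

theorem Fac.toR (e : Fac β M g) {σ : W ≃ₗ[F] W} (hσ : σ ∈ SG β) {x : Module.End F W}
    (h : ∀ v, σ v = v + x v) : R M (rh g x) :=
  ⟨_, e σ hσ, fun v => by rw [fE_apply, coe_eq_one_add h, map_add, map_one]; rfl⟩

theorem Fac.root (e : Fac β M g) (hA : β.IsAlt) (c : F) (a : W) : R M (rh g (c • rr β a a)) :=
  e.toR (tv_mem_SG hA a c (by simp [hA a])) fun v => by simp [Max.tv_apply, smul_smul]

theorem Fac.root1 (e : Fac β M g) (hA : β.IsAlt) (a : W) : R M (rh g (rr β a a)) := by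
  simpa using e.root hA 1 a

theorem Fac.eP (e : Fac β M g) (hA : β.IsAlt) {a b : W} (h : β a b = 0) :
    R M (rh g (rr β a b + rr β b a)) :=
  e.toR (uni_sS_mem hA h (sS_sq hA h)) fun v => by simp [sS_apply, add_comm]

theorem rh_ker {a b : W} (hb : b ≠ 0) {x : U ⊗[F] W} :
    rh g (rr β a b) x = 0 ↔ cW U (β a) (g.symm x) = 0 := by
  rw [rh_r1, g.map_eq_zero_iff]
  exact ⟨fun e => by_contra fun e' => tmul_ne_zero e' hb e, fun e => by rw [e, zero_tmul]⟩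

theorem Lg_eq_of_rh [FiniteDimensional F U] [FiniteDimensional F W] [Nontrivial U]
    {χ : Dual F W} {w : W} (hχ : χ ≠ 0) (hw : w ≠ 0) {ν : Module.End F W}
    (e : rh g (r1 χ w) = rh g' ν) : ∃ v, v ≠ 0 ∧ Lg g' v = Lg g w := by
  obtain ⟨v, hv⟩ : ∃ v, ν v ≠ 0 := by
    by_contra hn'; push Not at hn'
    rw [show ν = 0 from LinearMap.ext hn', map_zero] at e
    exact r1_ne hχ hw (rh_eq_zero e)
  refine ⟨ν v, hv, Submodule.eq_of_le_of_finrank_eq (fun x hx => ?_)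
    (by rw [finrank_Lg hv, finrank_Lg hw])⟩
  obtain ⟨u, rfl⟩ := mem_Lg.1 hx
  rw [← range_rh hχ, e]
  exact ⟨_, rh_tmul g' ν u v⟩

theorem lemZ [FiniteDimensional F W] (hy : y ∈ TG F U W) (φ : Dual F W) {W₀ : Submodule F W}
    (hd : finrank F W₀ + 2 < finrank F W) (h : ∀ x, cW U φ (y x - x) = 0 →
      ∀ χ : Dual F W, (∀ a ∈ W₀, χ a = 0) → cW U χ (y x - x) = 0) :
    ∃ σ : W ≃ₗ[F] W, ∀ u x, y (u ⊗ₜ x) = u ⊗ₜ σ x := by
  obtain ⟨a, b, e⟩ := id hy
  have d1 := finrank_le_inf_ker (⊤ : Submodule F W) φ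
  have d2 := finrank_le_inf_ker (LinearMap.ker φ) (φ ∘ₗ b.toLinearMap)
  rw [top_inf_eq, finrank_top] at d1
  obtain ⟨x, ⟨h1, h2⟩, h3⟩ := exists_not_mem_of_finrank_lt (W := W₀)
    (U := LinearMap.ker φ ⊓ LinearMap.ker (φ ∘ₗ b.toLinearMap)) (by omega)
  obtain ⟨χ, k1, k2⟩ := exists_dual _ h3
  exact scalar_of hy k2 fun u => h _ (by
    simp [e, show φ x = 0 from h1, show φ (b x) = 0 from h2]) χ k1

theorem lemZ2 [FiniteDimensional F U] [FiniteDimensional F W] {X : Submodule F (U ⊗[F] W)}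
    (hX : finrank F X ≤ finrank F U) {v w z : W} (h : ∀ u, u ⊗ₜ z ∈ LW F U v ⊔ LW F U w ⊔ X)
    (hz : z ∉ Submodule.span F {v, w}) {x : U ⊗[F] W} (hx : x ∈ X) {ψ : Dual F W} (h1 : ψ v = 0)
    (h2 : ψ w = 0) (h3 : ψ z = 0) : cW U ψ x = 0 := by
  obtain ⟨χ, k1, k2, k3⟩ := exists_dual_three hz
  have a : ∀ χ : Dual F W, χ v = 0 → χ w = 0 → ∀ t ∈ LW F U v ⊔ LW F U w, cW U χ t = 0 :=
    fun χ e1 e2 t ht => by
      obtain ⟨a, ha, b, hb, rfl⟩ := Submodule.mem_sup.1 ht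
      rw [map_add, cW_LW e1 ha, cW_LW e2 hb, add_zero]
  have b : ∀ u, ∃ x' : X, cW U χ x' = u ∧ cW U ψ x' = 0 := fun u => by
    obtain ⟨t, ht, x', hx', e⟩ := Submodule.mem_sup.1 (h u)
    exact ⟨⟨x', hx'⟩, by simpa [a χ k1 k2 t ht, k3] using congrArg (cW U χ) e,
      by simpa [a ψ h1 h2 t ht, h3] using congrArg (cW U ψ) e⟩
  have c := LinearMap.finrank_range_add_finrank_ker (cW U χ ∘ₗ X.subtype)
  rw [(LinearMap.range_eq_top (f := cW U χ ∘ₗ X.subtype)).2 fun u => ⟨_, (b u).choose_spec.1⟩,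
    finrank_top] at c
  obtain ⟨x', e1, e2⟩ := b (cW U χ x)
  rwa [(LinearMap.ker_eq_bot (f := cW U χ ∘ₗ X.subtype)).1 (Submodule.finrank_eq_zero.1 (by omega))
    (a₁ := x') (a₂ := ⟨x, hx⟩) e1] at e2

/-- The form is a tensor product with a symplectic form. -/
structure SF (B : LinearMap.BilinForm F (U ⊗[F] W)) (p : LinearMap.BilinForm F U)
    (β : LinearMap.BilinForm F W) : Prop where
  tb : TB B p β
  ndU : p.Nondegenerate
  ndW : β.Nondegenerate
  alt : β.IsAlt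

/-- The local hypotheses on a structure. -/
structure Loc (B : LinearMap.BilinForm F (U ⊗[F] W)) (β : LinearMap.BilinForm F W)
    (M : Subgroup ((U ⊗[F] W) ≃ₗ[F] (U ⊗[F] W))) (g : (U ⊗[F] W) ≃ₗ[F] (U ⊗[F] W)) : Prop where
  le : M ≤ SG B
  iso : g ∈ SG B
  fac : Fac β M g
  std : StdG β M g

theorem Loc.of_cM (e : Loc B β (cM h M) 1) (hM : M ≤ SG B) (hh : h ∈ SG B) : Loc B β M h :=
  ⟨hM, hh, by simpa using fac_cM.1 e.fac, by simpa using std_cM.1 e.std⟩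

theorem Loc.cM (e : Loc B β M h) : Loc B β (cM h M) 1 :=
  ⟨fun x hx => by
    have := e.le (mem_cM.1 hx)
    rwa [(SG B).mul_mem_cancel_right ((SG B).inv_mem e.iso), (SG B).mul_mem_cancel_left e.iso]
      at this, (SG B).one_mem, fac_cM.2 (by simpa using e.fac), std_cM.2 (by simpa using e.std)⟩

theorem Loc.mem (e : Loc B β M 1) (hy : y ∈ M) : Loc B β M y :=
  Loc.of_cM (by rwa [cM_of_mem hy]) e.le (e.le hy)

namespace SF

variable (H : SF B p β) [FiniteDimensional F W]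
include H

theorem rW {a b : W} (h : β a b = 0) : β b a = 0 := H.alt.isRefl _ _ h

theorem ne {a : W} (ha : a ≠ 0) : β a ≠ 0 := fun e => ha (H.ndW.1 a fun y => by simp [e])

theorem ker_iff (hg : g ∈ SG B) {w : W} (hw : w ≠ 0) {x : U ⊗[F] W} :
    rh g (rr β w w) x = 0 ↔ ∀ l ∈ Lg g w, B l x = 0 := by
  obtain ⟨x, rfl⟩ := g.surjective x
  rw [rh_ker hw, LinearEquiv.symm_apply_apply]
  refine ⟨fun e l hl => ?_, fun e => H.ndU.2 _ fun u => ?_⟩
  · obtain ⟨u, rfl⟩ := mem_Lg.1 hl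
    rw [hg, H.tb.left, e, map_zero]
  · rw [← H.tb.left, ← hg]; exact e _ (mem_Lg.2 ⟨u, rfl⟩)

theorem memL {w : W} (hw : w ≠ 0) {x : U ⊗[F] W}
    (e : ∀ v, β w v = 0 → rh g (rr β v w) x = 0) : x ∈ Lg g w :=
  mem_im.2 (mem_LW_of hw fun φ hφ => by
    obtain ⟨v, rfl⟩ := sp_exists_dual H.ndW φ
    exact (rh_ker hw).1 (e v (H.rW hφ)))

theorem rt (e : Fac β M g) {v : W} (hv : v ≠ 0) : Rt M g (β v) v :=
  ⟨H.ne hv, hv, H.alt v, e.root1 H.alt v⟩

theorem trans (h1 : Loc B β M g) (h2 : Loc B β M g') {w w' : W} (hw : w ≠ 0) (hw' : w' ≠ 0)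
    (e : Lg g w = Lg g' w') {x : Module.End F W} (hx : R M (rh g x)) (e1 : x w = 0)
    (e2 : ∀ v, β w v = 0 → x v ∈ F ∙ w) : ∃ z, ∃ c : F, β w' z = 0 ∧
      rh g x = rh g' (rr β z w' + rr β w' z + c • rr β w' w') := by
  obtain ⟨t, ht, et⟩ := hx
  obtain ⟨z, c, h3, h4⟩ := h2.std w' hw' t ht (fun x hx => by
    obtain ⟨u, rfl⟩ := mem_Lg.1 (e ▸ hx); simp [et, rh_tmul, e1]) fun v hv => by
    rw [H.ker_iff h2.iso hw', ← e, ← H.ker_iff h1.iso hw, rh_ker hw] at hv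
    rw [et, add_sub_cancel_left, ← e, ← Submodule.Quotient.mk_eq_zero]
    simpa using eq_zero_of_ker (f := (Lg g w).mkQ ∘ₗ rh g x ∘ₗ g.toLinearMap) (H.ne hw)
      (fun u v hv => by
        obtain ⟨c, hc⟩ := Submodule.mem_span_singleton.1 (e2 v hv)
        refine (Submodule.Quotient.mk_eq_zero _).2 (mem_Lg.2 ⟨c • u, ?_⟩)
        simp [rh_tmul, ← hc, smul_tmul]) hv
  exact ⟨z, c, h3, LinearMap.ext fun x => add_left_cancel ((et x).symm.trans (h4 x))⟩

theorem step [Nontrivial U] (h1 : Loc B β M g) (h2 : Loc B β M g') {w w' : W} (hw : w ≠ 0)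
    (hw' : w' ≠ 0) (e : Lg g w = Lg g' w') {v' : W} (hv' : β w' v' = 0) :
    ∃ ν, rh g' (rr β v' v') = rh g ν := by
  have aa := H.alt.self_eq_zero
  have hK : ∀ x, rh g (rr β w w) x = 0 ↔ rh g' (rr β w' w') x = 0 := fun x => by
    rw [H.ker_iff h1.iso hw, H.ker_iff h2.iso hw', e]
  obtain ⟨c₀, h0⟩ : ∃ c₀ : F, rh g (rr β w w) = rh g' (c₀ • rr β w' w') := by
    obtain ⟨z, c, h3, h4⟩ := H.trans h1 h2 hw hw' e (h1.fac.root1 H.alt w) (by simp [aa])
      fun v hv => by simp [hv]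
    obtain ⟨f, hf⟩ := exists_one H.ndW H.alt.isRefl hw'
    obtain ⟨u, hu⟩ := exists_ne (0 : U)
    obtain ⟨u', hu'⟩ := mem_Lg.1 (e ▸ rh_mem g (β w) w (g' (u ⊗ₜ f)))
    rw [h4, rh_tmul] at hu'
    obtain ⟨k, hk⟩ := Submodule.mem_span_singleton.1
      (mem_span_of_tmul_eq' hu (g'.injective hu').symm)
    obtain ⟨a, rfl⟩ : ∃ a : F, z = a • w' := ⟨k - β z f - c, by
      simp only [LinearMap.add_apply, LinearMap.smul_apply, rr_apply, hf, one_smul] at hk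
      linear_combination (norm := module) (-1 : F) • hk⟩
    refine ⟨2 * a + c, h4.trans (congrArg _ (LinearMap.ext fun v => ?_))⟩
    simp only [LinearMap.add_apply, LinearMap.smul_apply, rr_apply, map_smul, smul_eq_mul]
    module
  obtain ⟨v, c, hv, ev⟩ := H.trans h2 h1 hw' hw e.symm (h2.fac.eP H.alt (H.rW hv'))
    (by simp [aa, H.rW hv']) fun x hx => by
      simpa [hx] using Submodule.smul_mem _ _ (Submodule.mem_span_singleton_self w')
  have k1 : ∀ x, rh g (rr β w w) x = 0 →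
      rh g' (rr β v' v') x - rh g (c₀ • rr β v v) x ∈ Lg g w := fun x hx => H.memL hw fun z hz => by
    obtain ⟨z', c₁, hz', ez⟩ := H.trans h1 h2 hw hw' e (h1.fac.eP H.alt (H.rW hz))
      (by simp [aa, H.rW hz]) fun x hx => by
        simpa [hx] using Submodule.smul_mem _ _ (Submodule.mem_span_singleton_self w)
    have a1 : β z' v' = β z v * c₀ := by
      have b1 := congrArg (· * rh g' (rr β v' w' + rr β w' v')) ez
      simp only [← map_mul] at b1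
      rw [ev, ← map_mul] at b1
      simp only [mul_add, add_mul, mul_smul_comm, smul_mul_assoc, rr_mul, aa, hv, hv', H.rW hz,
        H.rW hz', zero_smul, smul_zero, add_zero, zero_add] at b1
      rw [map_smul, h0, ← map_smul] at b1
      have := LinearMap.congr_fun (rh_inj b1)
      obtain ⟨f, hf⟩ := exists_one H.ndW H.alt.isRefl hw'
      simpa [hf, smul_smul, smul_left_inj hw', eq_comm] using this f
    have a2 : ∀ y, rh g (rr β w w) y = 0 → ∀ a, rh g (rr β w a) y = 0 := fun y hy a => by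
      rw [rh_r1, (rh_ker hw).1 hy, zero_tmul, map_zero]
    have a3 : rh g' (rr β v' w') x = rh g (rr β v w) x := by
      have := LinearMap.congr_fun ev x
      simp only [map_add, map_smul, LinearMap.add_apply, LinearMap.smul_apply, a2 x hx] at this
      rw [rh_r1 g' (β w'), (rh_ker hw').1 ((hK x).1 hx)] at this
      simpa using this
    have a4 : rh g (rr β w w) (rh g' (rr β v' v') x) = 0 :=
      (hK _).2 (LinearMap.congr_fun (rh_r1_mul _ _ hv') x)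
    have a5 := LinearMap.congr_fun (congrArg (· * rh g' (rr β v' v')) ez) x
    simp only [← map_mul] at a5
    simp only [add_mul, smul_mul_assoc, rr_mul, hv', zero_smul, smul_zero, add_zero, map_add,
      map_smul, LinearMap.add_apply, LinearMap.smul_apply, Module.End.mul_apply, a2 _ a4, a3] at a5
    rw [map_sub, a5, ← Module.End.mul_apply, ← map_mul, mul_smul_comm, rr_mul, a1, smul_smul,
      map_smul, mul_comm c₀]
    simp
  have k2 : ∀ x ∈ Lg g w, rh g' (rr β v' v') x = 0 := fun x hx => rh_Lg (H.rW hv') _ (e ▸ hx)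
  have k3 : rh g' (rr β v' v') * rh g (c₀ • rr β v v) = 0 := by
    obtain ⟨f, hf⟩ := exists_one H.ndW H.alt.isRefl hw
    have b1 : rh g' (rr β v' v') * rh g (rr β v w + rr β w v + c • rr β w w) = 0 := by
      rw [← ev, ← map_mul]; simp [mul_add, rr_mul, aa, H.rW hv']
    refine ext_g g fun u a => ?_
    have b2 := LinearMap.congr_fun b1 (g (u ⊗ₜ f))
    simp only [Module.End.mul_apply, rh_tmul, LinearMap.add_apply, LinearMap.smul_apply, rr_apply,
      hf, one_smul, tmul_add, tmul_smul, map_add, map_smul, k2 _ (mem_Lg.2 ⟨u, rfl⟩), smul_zero,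
      zero_add, add_zero, LinearMap.zero_apply] at b2
    simp [rh_tmul, b2]
  obtain ⟨t, ht, et⟩ := R_sub (h2.fac.root1 H.alt v') (h1.fac.root H.alt c₀ v)
    (by simp [← map_mul, rr_mul, aa]) k3
  obtain ⟨z, d, -, ez⟩ := h1.std w hw t ht (fun x hx => by
    rw [et, LinearMap.sub_apply, k2 x hx, map_smul, LinearMap.smul_apply, rh_Lg (H.rW hv) _ hx]
    simp) fun x hx => by rw [et, add_sub_cancel_left]; exact k1 x hx
  refine ⟨(rr β z w + rr β w z + d • rr β w w) + c₀ • rr β v v, ?_⟩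
  rw [map_add _ _ (c₀ • _), ← sub_eq_iff_eq_add]
  exact LinearMap.ext fun x => add_left_cancel ((et x).symm.trans (ez x))

variable [FiniteDimensional F U] [Nontrivial U]

theorem b1 (hn : 3 ≤ finrank F W) (h1 : Loc B β M 1) (h2 : Loc B β M h) {w w' : W} (hw : w ≠ 0)
    (hw' : w' ≠ 0) (e : Lg h w' = LW F U w) : h ∈ TG F U W := by
  have st : ∀ w' ≠ 0, (∃ w, w ≠ 0 ∧ Lg 1 w = Lg h w') → ∀ v' ≠ 0, β w' v' = 0 →
      ∃ v, v ≠ 0 ∧ Lg 1 v = Lg h v' := by
    rintro w' hw' ⟨w, hw, e⟩ v' h0 hv'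
    obtain ⟨ν, hν⟩ := H.step h1 h2 hw hw' e hv'
    exact Lg_eq_of_rh (H.ne h0) h0 hν
  refine isT_of_lines (by omega) fun v => ?_
  by_cases hv : v = 0
  · exact ⟨0, fun u => by simp [hv]⟩
  obtain ⟨a, -, a0, a1, a2⟩ := exists_ne_zero_two_ker (U := (⊤ : Submodule F W))
    (by rwa [finrank_top]) (β w') (β v)
  obtain ⟨b, -, hb⟩ := st a a0 (st w' hw' ⟨w, hw, by rw [e, Lg_one]⟩ a a0 a1) v hv (H.rW a2)
  exact ⟨b, fun u => by rw [← Lg_one, hb]; exact mem_Lg.2 ⟨u, rfl⟩⟩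

theorem np [Finite F] (hn : 4 ≤ finrank F W) (h5 : (2 : F) = 0 → 5 ≤ finrank F W)
    (h1 : Loc B β M 1) (h2 : Loc B β M h) {φ' : Dual F W} {w w' : W} (hw : w ≠ 0)
    (r' : Rt M h φ' w') (hT : h ∉ TG F U W) :
    ¬ MaxP M 1 h (finrank F ↥(LW F U w ⊓ Lg h w')) := fun hm => by
  have aa := H.alt.self_eq_zero
  set X := Lg h w'
  set θ' := rh h (r1 φ' w')
  have dX : finrank F X = finrank F U := finrank_Lg r'.w0
  have hXL : ¬ X ≤ LW F U w := fun e => hT (H.b1 (by omega) h1 h2 hw r'.w0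
    (Submodule.eq_of_le_of_finrank_eq e (by rw [dX, finrank_LW hw])))
  have noI : ∀ ψ u, Rt M 1 ψ u → ¬ ∀ x ∈ X, rh 1 (r1 ψ u) x ∈ X := fun ψ u r e => by
    have a1 := Submodule.finrank_lt_finrank_of_lt (inf_lt_right.2 hXL)
    exact a1.not_ge ((Submodule.finrank_mono (t := DD _ X) fun x hx => ⟨hx, e x hx⟩).trans (hm.a ψ u φ' w' r r'))
  have t1 : ∀ (ψ : Dual F W) v x, rh 1 (r1 ψ v) x ∈ LW F U v := fun ψ v x =>
    rh_one_r1 ψ v x ▸ tmul_mem_LW _ _
  have t2 : ∀ (ψ : Dual F W) v, ψ w = 0 → ∀ x ∈ LW F U w, rh 1 (r1 ψ v) x = 0 :=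
    fun ψ v hψ x hx => by rw [rh_one_r1, cW_LW hψ hx, zero_tmul]
  have P1 : ∀ v ≠ 0, β v w = 0 → ∀ x ∈ X, rh 1 (rr β v v) x ∈ X → x ∈ LW F U w :=
    fun v k1 k2 x hx hx' => (DD_mem inf_le_right (fun a ha => t2 _ v k2 a ha.1)
      (hm.a _ v φ' w' (H.rt h1.fac k1) r') hx hx').1
  have z2 : ∀ v a z, (∀ u, u ⊗ₜ z ∈ LW F U v ⊔ LW F U a ⊔ X) → z ∈ Submodule.span F {v, a} :=
    fun v a z e => by_contra fun hz => by
      have d1 := finrank_le_inf_ker (⊤ : Submodule F W) (β v)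
      rw [top_inf_eq, finrank_top] at d1
      obtain ⟨b, b1, b0, b2, b3⟩ := exists_ne_zero_two_ker (U := LinearMap.ker (β v)) (by omega)
        (β a) (β z)
      exact noI _ b (H.rt h1.fac b0) fun x hx => by
        rw [rh_one_r1, lemZ2 dX.le e hz hx (H.rW b1) (H.rW b2) (H.rW b3), zero_tmul]
        exact X.zero_mem
  have sc : ∀ v ≠ 0, β v w = 0 → finrank F (Submodule.span F {v, w}) + 2 < finrank F W →
      ∀ y ∈ M, ∀ a ≠ 0, ∀ b ≠ 0, (∀ x, y (rh 1 (rr β a a) x) = rh 1 (rr β b b) (y x)) →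
      (∀ x, y x - x ∈ LW F U v ⊔ LW F U w ⊔ X) → ∃ σ : W ≃ₗ[F] W, ∀ u x, y (u ⊗ₜ x) = u ⊗ₜ σ x := by
    intro v k1 k2 k3 y hy a ha b hb e1 e2
    refine lemZ (H.b1 (by omega) h1 (h1.mem hy) hb ha (Submodule.eq_of_le_of_finrank_eq ?_
      (by rw [finrank_Lg ha, finrank_LW hb]))) (β v) k3 fun x hx χ hχ => ?_
    · rintro _ ⟨x, hx, rfl⟩
      rw [← Lg_one, ← range_rh (H.ne ha)] at hx
      obtain ⟨x, rfl⟩ := hx
      exact e1 x ▸ t1 _ _ _
    obtain ⟨t, ht, x', hx', e⟩ := Submodule.mem_sup.1 (e2 x)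
    obtain ⟨a, ha, b, hb, rfl⟩ := Submodule.mem_sup.1 ht
    rw [← e, map_add, map_add, cW_LW (aa v) ha, cW_LW k2 hb, zero_add, zero_add] at hx
    have c2 : χ w = 0 := hχ _ (Submodule.subset_span (by simp))
    rw [← e, map_add, map_add, cW_LW (hχ _ (Submodule.subset_span (by simp))) ha, cW_LW c2 hb,
      cW_LW c2 (P1 v k1 k2 x' hx' (by rw [rh_one_r1, hx, zero_tmul]; exact X.zero_mem))]
    simp
  have cen : ∀ v ≠ 0, β v w = 0 → finrank F (Submodule.span F {v, w}) + 2 < finrank F W →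
      ∀ z ∈ M ⊓ Nz (LW F U v ⊔ X) ⊥, z ≠ 1 → Commute z.toLinearMap (rh 1 (rr β v v)) →
      ¬ Commute z.toLinearMap θ' := by
    intro v k1 k2 k3 z hz e1 e3 e4
    obtain ⟨σ, hσ⟩ := sc v k1 k2 k3 z hz.1 v k1 v k1 (LinearMap.congr_fun e3.eq) fun x =>
      sup_le_sup_right le_sup_left X (hz.2.1 x)
    obtain ⟨τ, hτ⟩ := exists_dual_one (F := F) k1
    have e5 : ∀ x, z x = x + rh 1 (r1 (τ ∘ₗ (σ.toLinearMap - LinearMap.id)) v) x := fun x =>
      LinearMap.congr_fun (show z.toLinearMap = 1 + rh 1 (r1 _ v) from TensorProduct.ext'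
        fun u a => by
          obtain ⟨c, hc⟩ := Submodule.mem_span_singleton.1 (by
            simpa using z2 v v (σ a - a) fun u => by simpa [hσ, tmul_sub] using hz.2.1 (u ⊗ₜ a) :
              σ a - a ∈ F ∙ v)
          have : τ (σ a - a) = c := by rw [← hc, map_smul, hτ, smul_eq_mul, mul_one]
          simp [hσ, rh_one_tmul, this, ← tmul_add, hc]) x
    generalize τ ∘ₗ (σ.toLinearMap - LinearMap.id) = χ at e5
    refine noI χ v ⟨?_, k1, ?_, z, hz.1, e5⟩ fun x hx => ?_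
    · rintro rfl; exact e1 (LinearEquiv.ext fun x => by simp [e5])
    · obtain ⟨u, hu⟩ := exists_ne (0 : U)
      obtain ⟨a, ha⟩ := exists_apply_one (H.ne k1)
      have := LinearMap.congr_fun e3.eq (u ⊗ₜ a)
      simp only [Module.End.mul_apply, LinearEquiv.coe_coe, rh_one_tmul, e5, map_add,
        LinearMap.smulRight_apply, map_smul, ha, aa, one_smul, smul_zero, add_zero, zero_smul,
        tmul_zero, add_eq_left] at this
      by_contra hne
      exact tmul_ne_zero hu (smul_ne_zero hne k1) this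
    have hx' : x ∈ LinearMap.range θ' := by rwa [range_rh r'.φ0]
    obtain ⟨a, rfl⟩ := hx'
    have : z (θ' a) ∈ X := (LinearMap.congr_fun e4.eq a) ▸ rh_mem _ _ _ _
    rw [e5] at this
    exact (X.add_mem_iff_right hx).1 this
  have r1' : ∀ v, R (M ⊓ Nz (LW F U v ⊔ X) ⊥) (rh 1 (rr β v v)) := fun v =>
    R_inf_Nz (h1.fac.root1 H.alt v) (fun x => Submodule.mem_sup_left (t1 _ _ x)) (by simp)
  have r2' : ∀ v, R (M ⊓ Nz (LW F U v ⊔ X) ⊥) θ' := fun v =>
    R_inf_Nz r'.mem (fun v => Submodule.mem_sup_right (rh_mem _ _ _ v)) (by simp)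
  by_cases h2' : (2 : F) = 0
  swap
  · rcases pair_elt (r1' w) (r2' w) (t1 _ w) (t2 _ w (aa w)) (rh_mem _ _ _)
      (fun v => rh_Lg r'.nil _) (P1 w hw (aa w)) (fun x hx hx' =>
        (DD_mem inf_le_left (fun v hv => rh_Lg r'.nil _ hv.2)
          (by have := hm.b _ w φ' w' (H.rt h1.fac hw) r'; rwa [Lg_one] at this) hx hx').2) hXL with
      ⟨z, hz, e1, -, e3, e4⟩ | ⟨e, -⟩
    · exact cen w hw (aa w) (by
        have := finrank_span_one_le (F := F) w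
        rw [Set.pair_eq_singleton]; omega) z hz e1 e3 e4
    · exact h2' e
  have dd : ∀ v, finrank F (Submodule.span F {v, w}) + 2 < finrank F W := fun v => by
    have := Max.finrank_span_pair_le (F := F) v w
    have := h5 h2'
    omega
  have key : ∀ v ≠ 0, β v w = 0 → ∃ y ∈ M ⊓ Nz (LW F U v ⊔ X) ⊥,
      ∀ x, y (rh 1 (rr β v v) x) = θ' (y x) := fun v k1 k2 =>
    (pair_two h2' (r1' v) (r2' v) (H.rt h1.fac k1).sq r'.sq).resolve_left
      fun ⟨z, hz, e1, e3, e4⟩ => cen v k1 k2 (dd v) z hz e1 e3 e4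
  obtain ⟨v, hv1, hv2⟩ := exists_ker_not_mem (F := F) (W := W) (by omega) (β w) w
  have hv0 : v ≠ 0 := by rintro rfl; simp at hv2
  obtain ⟨y₁, hy₁, e1⟩ := key w hw (aa w)
  obtain ⟨y₂, hy₂, e2⟩ := key v hv0 (H.rW hv1)
  have e3 : ∀ x, (y₂⁻¹ * y₁) (rh 1 (rr β w w) x) = rh 1 (rr β v v) ((y₂⁻¹ * y₁) x) := fun x => by
    apply y₂.injective
    rw [e2]; simp [e1, LinearEquiv.coe_inv]
  have hy := M.mul_mem (M.inv_mem hy₂.1) hy₁.1
  have e4 : y₂⁻¹ * y₁ ∈ Nz (LW F U v ⊔ LW F U w ⊔ X) ⊥ := mul_mem (inv_mem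
    ⟨fun x => sup_le_sup_right le_sup_left X (hy₂.2.1 x), hy₂.2.2⟩)
    ⟨fun x => sup_le_sup_right le_sup_right X (hy₁.2.1 x), hy₁.2.2⟩
  obtain ⟨σ, hσ⟩ := sc v hv0 (H.rW hv1) (dd v) _ hy w hw v hv0 e3 e4.1
  obtain ⟨u, hu⟩ := exists_ne (0 : U)
  obtain ⟨u', hu'⟩ : ∃ u', p u u' ≠ 0 := by
    by_contra hn'; push Not at hn'; exact hu (H.ndU.1 u hn')
  have e5 : σ w = w := sub_eq_zero.1 (H.ndW.1 _ fun x => by
    obtain ⟨x, rfl⟩ := σ.surjective x
    have a1 := h1.le hy (u ⊗ₜ w) (u' ⊗ₜ x)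
    rw [hσ, hσ, H.tb, H.tb, mul_right_inj' hu'] at a1
    obtain ⟨a, b, e⟩ := Submodule.mem_span_pair.1 (z2 v w (σ x - x) fun u => by
      simpa [hσ, tmul_sub] using e4.1 (u ⊗ₜ x))
    have := congrArg (β w) e
    simp only [map_add, map_smul, hv1, aa, smul_zero, add_zero, map_sub] at this
    rw [map_sub, LinearMap.sub_apply, a1]
    linear_combination this)
  obtain ⟨a, ha⟩ := exists_apply_one (H.ne hw)
  have := e3 (u ⊗ₜ a)
  rw [hσ, rh_one_tmul, rh_one_tmul, hσ, rr_apply, ha, one_smul, e5] at this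
  have e6 := tmul_right_inj hu this
  rw [rr_apply] at e6
  exact not_mem_span_symm hv2 hw (Submodule.mem_span_singleton.2 ⟨_, e6.symm⟩)

end SF

end Cfsg.Agent.Max3
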