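import Mathlib
import Cfsg.Agent.Max3.SW1
import Cfsg.Agent.Root.Q9

/-!
# Tensor powers of a symplectic space: groups with standard root subgroups permute the factors
-/

set_option autoImplicit false
set_option linter.unusedSectionVars false
set_option linter.unusedSimpArgs false

namespace Cfsg.Agent.Max3

open Module Cfsg.Agent.Max Cfsg.Agent.Max2 TensorProduct Function Classical.SpWitt

section General

variable {F V : Type*} [Field F] [AddCommGroup V] [Module F V] {M : Subgroup (V ≃ₗ[F] V)}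
  {B : LinearMap.BilinForm F V}

theorem skew_of_R (hM : M ≤ SG B) {N : Module.End F V} (h : R M N) (e : N * N = 0) (u v : V) :
    B (N u) v = -B u (N v) := by
  obtain ⟨t, ht, et⟩ := h
  have h1 := hM ht u v
  have h2 := hM ht (N u) v
  have h3 : N (N u) = 0 := LinearMap.congr_fun e u
  simp only [et, h3, map_add, LinearMap.add_apply, add_zero] at h1 h2
  linear_combination h1 - h2

/-- `M` as a subgroup of the general linear group. -/
def GM (M : Subgroup (V ≃ₗ[F] V)) : Subgroup (LinearMap.GeneralLinearGroup F V) :=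
  M.comap (LinearMap.GeneralLinearGroup.generalLinearEquiv F V).toMonoidHom

theorem nn_iff {x : Module.End F V} : Root.NN (GM M) x ↔ x * x = 0 ∧ ∀ c : F, R M (c • x) := by
  refine and_congr_right fun _ => forall_congr' fun c => ⟨?_, ?_⟩
  · rintro ⟨g, hg, e⟩
    exact ⟨_, hg, fun v => LinearMap.congr_fun e v⟩
  · rintro ⟨g, hg, e⟩
    exact ⟨(LinearMap.GeneralLinearGroup.generalLinearEquiv F V).symm g, by simpa [GM] using hg,
      LinearMap.ext e⟩

theorem hyp5 [FiniteDimensional F V] (hB : B.Nondegenerate) (hA : B.IsAlt) (hn : 5 ≤ finrank F V)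
    (w t : V) : ∃ b v, B w b = 0 ∧ B t b = 0 ∧ B w v = 0 ∧ B t v = 0 ∧ B b v = 1 ∧
      b ∉ Submodule.span F {w, t} := by
  have d1 := finrank_le_inf_ker (⊤ : Submodule F V) (B w)
  have d2 := finrank_le_inf_ker (LinearMap.ker (B w)) (B t)
  have := Max.finrank_span_pair_le (F := F) w t
  rw [top_inf_eq, finrank_top] at d1
  obtain ⟨b, hb, hb'⟩ := exists_not_mem_of_finrank_lt (W := Submodule.span F {w, t})
    (U := LinearMap.ker (B w) ⊓ LinearMap.ker (B t)) (by omega)
  obtain ⟨v, e1, e2⟩ := exists_orth_one hB hA.isRefl _ hb'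
  exact ⟨b, v, hb.1, hb.2, e1 w (Submodule.subset_span (by simp)),
    e1 t (Submodule.subset_span (by simp)), e2, hb'⟩

theorem prod_iso {Y : Submodule F V} (hY : ∀ a ∈ Y, ∀ b ∈ Y, B a b = 0) (l : List V)
    (hl : ∀ a ∈ l, a ∈ Y) (x : V) : (l.map fun a => B a x • a).sum ∈ Y ∧
      (l.map fun a => 1 + rr B a a).prod x = x + (l.map fun a => B a x • a).sum := by
  induction l with
  | nil => simp
  | cons a l ih =>
    obtain ⟨h1, h2⟩ := ih fun b hb => hl b (List.mem_cons_of_mem _ hb)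
    have ha := hl a List.mem_cons_self
    refine ⟨Y.add_mem (Y.smul_mem _ ha) h1, ?_⟩
    simp only [List.map_cons, List.prod_cons, List.sum_cons, Module.End.mul_apply, h2,
      LinearMap.add_apply, Module.End.one_apply, rr_apply, map_add, hY a ha _ h1]
    module

theorem alg_ind [FiniteDimensional F V] (hB : B.Nondegenerate) (hA : B.IsAlt)
    (S : Submodule F (Module.End F V)) (hm : ∀ x ∈ S, ∀ y ∈ S, x * y ∈ S)
    (h : ∀ a, rr B a a ∈ S) (x : Module.End F V) : x ∈ S := by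
  have h1 : ∀ a b, B b a ≠ 0 → rr B a b ∈ S := fun a b e => by
    simpa only [rr_mul, S.smul_mem_iff e] using hm _ (h b) _ (h a)
  have h2 : ∀ a b, rr B a b ∈ S := fun a b => by
    by_cases e : B b a = 0
    swap
    · exact h1 a b e
    by_cases hb : b = 0
    · simp [hb, rr, r1]
    obtain ⟨c, hc⟩ := exists_one hB hA.isRefl hb
    convert S.sub_mem (h1 (a + c) b (by simp [e, hc])) (h1 c b (by simp [hc])) using 1
    ext; simp [add_smul]
  let b := Module.finBasis F V
  rw [show x = ∑ i, r1 (b.coord i) (x (b i)) from b.ext fun i => by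
    simp [LinearMap.sum_apply, Finsupp.single_apply]]
  refine S.sum_mem fun i _ => ?_
  obtain ⟨a, ha⟩ := sp_exists_dual hB (b.coord i)
  exact ha ▸ h2 a _

end General

variable {F U W : Type*} [Field F] [AddCommGroup U] [Module F U] [AddCommGroup W] [Module F W]
  {B : LinearMap.BilinForm F (U ⊗[F] W)} {β : LinearMap.BilinForm F W} {κ : F}
  {M : Subgroup ((U ⊗[F] W) ≃ₗ[F] (U ⊗[F] W))} {g h y : (U ⊗[F] W) ≃ₗ[F] (U ⊗[F] W)}
  {I : Type} [DecidableEq I] [Fintype I]

theorem ca_of_roots [FiniteDimensional F W] (hB : β.Nondegenerate) (hA : β.IsAlt)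
    {γ : Module.End F (U ⊗[F] W)} (e : ∀ a, Commute γ (rh g (rr β a a))) : CA g γ :=
  alg_ind hB hA
    { carrier := {x | Commute γ (rh g x)}
      add_mem' := fun ha hb => by simpa using ha.add_right hb
      zero_mem' := by simp
      smul_mem' := fun c x hx => by simpa using hx.smul_right c }
    (fun x hx y hy => by simpa using hx.mul_right hy) e

/-- `B` is a multiple of the tensor power of `β`. -/
structure TF (T : TP I F U W) (B : LinearMap.BilinForm F (U ⊗[F] W))
    (β : LinearMap.BilinForm F W) (κ : F) : Prop where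
  pure : ∀ a b, B (T.pt a) (T.pt b) = κ * ∏ j, β (a j) (b j)
  k0 : κ ≠ 0
  nd : B.Nondegenerate
  ndW : β.Nondegenerate
  alt : β.IsAlt

namespace TF

variable {T : TP I F U W} (H : TF T B β κ)
include H

theorem iso (e : ∀ a, ∃ a', g (T.pt a) = T.pt a' ∧ ∀ b b', g (T.pt b) = T.pt b' →
    ∏ j, β (a' j) (b' j) = ∏ j, β (a j) (b j)) : g ∈ SG B := fun u v =>
  LinearMap.congr_fun₂ (show B.compl₁₂ g.toLinearMap g.toLinearMap = B from
    T.ext fun a => T.ext fun b => by
      obtain ⟨a', h1, h2⟩ := e a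
      obtain ⟨b', h3, -⟩ := e b
      simp only [LinearMap.compl₁₂_apply, LinearEquiv.coe_coe, h1, h3, H.pure, h2 b b' h3]) u v

theorem adj {x x' : I → Module.End F W} {ε : I → F}
    (e : ∀ j a b, β (x j a) b = ε j * β a (x' j b)) (u v : U ⊗[F] W) :
    B (T.PM x u) v = (∏ j, ε j) * B u (T.PM x' v) :=
  LinearMap.congr_fun₂ (show B ∘ₗ T.PM x = (∏ j, ε j) • B.compl₂ (T.PM x') from
    T.ext fun a => T.ext fun b => by
      simp [T.PM_pt, H.pure, e, Finset.prod_mul_distrib, mul_left_comm]) u v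

theorem PP_iso (σ : Equiv.Perm I) : T.PP σ ∈ SG B := fun u v =>
  LinearMap.congr_fun₂ (show B.compl₁₂ (T.PP σ).toLinearMap (T.PP σ).toLinearMap = B from
    T.ext fun a => T.ext fun b => by
      simp only [LinearMap.compl₁₂_apply, LinearEquiv.coe_coe, T.PP_pt, H.pure]
      rw [Equiv.prod_comp σ⁻¹ fun j => β (a j) (b j)]) u v

theorem s_iso (i : I) : T.s i ∈ SG B := by
  obtain ⟨σ, e⟩ := T.s_eq i
  exact e ▸ H.PP_iso σ

theorem fE_iso (i : I) {σ : W ≃ₗ[F] W} (hσ : σ ∈ SG β) : fE (T.s i) σ ∈ SG B := fun u v =>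
  LinearMap.congr_fun₂ (show B.compl₁₂ (fE (T.s i) σ).toLinearMap (fE (T.s i) σ).toLinearMap = B
    from T.ext fun a => T.ext fun b => by
      simp only [LinearMap.compl₁₂_apply, fE_coe, T.rh_pt, H.pure]
      congr 1
      refine Finset.prod_congr rfl fun j _ => ?_
      by_cases e : j = i
      · subst e; simp [hσ _ _]
      · simp [e]) u v

theorem zall (a b : I → W) (v : U ⊗[F] W) :
    T.PM (fun j => rr β (a j) (b j)) v = (κ⁻¹ * B (T.pt a) v) • T.pt b :=
  LinearMap.congr_fun (show T.PM (fun j => rr β (a j) (b j)) =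
      (κ⁻¹ • B (T.pt a)).smulRight (T.pt b) from T.ext fun c => by
    rw [T.PM_r1]; simp [H.pure, H.k0]) v

omit H in
theorem rh_eq (T : TP I F U W) (i : I) (x : Module.End F W) :
    rh (T.s i) x = T.PM (update 1 i x) := by
  simpa [T.PM_one] using (T.PM_update 1 i x).symm

variable [FiniteDimensional F W]

theorem sf [Nonempty I] [Nontrivial W] : ∃ p, SF B p β := by
  obtain ⟨i⟩ := ‹Nonempty I›
  obtain ⟨e, he⟩ := exists_ne (0 : W)
  obtain ⟨f, hf⟩ := exists_one H.ndW H.alt.isRefl he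
  have hf' : β f e = -1 := by rw [← H.alt.neg_eq, hf]
  have tb : TB B (B.compl₁₂ (inW F U e) (inW F U f)) β := fun u w u' w' => by
    have := H.adj (x := update 1 i (rr β f w)) (x' := update 1 i (rr β w f)) (ε := update 1 i (-1))
      (fun j a b => by
        by_cases e : j = i
        · subst e; simp [← H.alt.neg_eq f a, mul_comm]
        · simp [e]) (T.s i (u ⊗ₜ e)) (T.s i (u' ⊗ₜ w'))
    rw [← rh_eq, ← rh_eq, rh_tmul, rh_tmul, H.s_iso, H.s_iso,
      Finset.prod_update_of_mem (Finset.mem_univ i)] at this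
    simpa [hf', tmul_neg, mul_comm] using this
  refine ⟨_, tb, ⟨fun u hu => ?_, fun u hu => ?_⟩, H.ndW, H.alt⟩
  · exact by_contra fun h0 => tmul_ne_zero h0 he (H.nd.1 _ fun x => by rw [tb.left, hu])
  · refine by_contra fun h0 => tmul_ne_zero h0 he (H.nd.2 _ fun x => ?_)
    induction x with
    | zero => simp
    | tmul a b => rw [tb, hu, zero_mul]
    | add a b ha hb => simp [ha, hb]

theorem irred [Nontrivial W] (hF : ∀ i, Fac β M (T.s i)) {Y : Submodule F (U ⊗[F] W)}
    (hY : ∀ g ∈ M, ∀ v ∈ Y, g v ∈ Y) : Y = ⊥ ∨ Y = ⊤ := by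
  refine or_iff_not_imp_left.2 fun h0 => ?_
  obtain ⟨v, hv, hv0⟩ := Submodule.exists_mem_ne_zero_of_ne_bot h0
  have h1 : ∀ i x, ∀ v ∈ Y, rh (T.s i) x v ∈ Y := fun i => alg_ind H.ndW H.alt
    { carrier := {x | ∀ v ∈ Y, rh (T.s i) x v ∈ Y}
      add_mem' := fun ha hb v hv => by simpa using Y.add_mem (ha v hv) (hb v hv)
      zero_mem' := by simp
      smul_mem' := fun c x hx v hv => by simpa using Y.smul_mem c (hx v hv) }
    (fun x hx y hy v hv => by simpa using hx _ (hy v hv)) fun a v hv => by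
      obtain ⟨t, ht, et⟩ := (hF i).root1 H.alt a
      simpa [et] using Y.sub_mem (hY t ht v hv) hv
  obtain ⟨a, ha⟩ : ∃ a, B (T.pt a) v ≠ 0 := by
    by_contra hn; push Not at hn
    exact hv0 (H.nd.2 v fun x => LinearMap.congr_fun (T.ext (f := B.flip v) (g := 0) hn) x)
  refine eq_top_iff.2 fun x _ => T.mem_of_pt (fun b => ?_) x
  have := T.PM_ind (fun z => z v ∈ Y) hv (fun j => rr β (a j) (b j)) fun i z hz => h1 i _ _ hz
  rwa [H.zall, Y.smul_mem_iff (by simp [H.k0, ha])] at this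

variable [Finite F] [FiniteDimensional F U] [Nontrivial U] [Nonempty I]

theorem wr_big (hn : 4 ≤ finrank F W) (h5 : (2 : F) = 0 → 5 ≤ finrank F W) (hM : M ≤ SG B)
    (hF : ∀ i, Fac β M (T.s i)) (hS : ∀ i, StdG β M (T.s i)) (hg : g ∈ M) : g ∈ T.Wr := by
  have : Nontrivial W := Module.nontrivial_of_finrank_pos (R := F) (by omega)
  obtain ⟨p, S⟩ := H.sf
  obtain ⟨w, hw⟩ := exists_ne (0 : W)
  refine T.mem_Wr (by omega) (Hyp.core (Iso := SG B) (Good := fun M => Loc B β M 1)
    ⟨by omega, hM, H.s_iso, fun i => Loc.cM ⟨hM, H.s_iso i, hF i, hS i⟩, T.com, T.cent,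
      fun i => ⟨_, w, S.rt (hF i) hw⟩, fun h2 i => ?_,
      fun M h hh a b φ w φ' w' r r' e => S.b1 (by omega) a (b.of_cM a.le hh) r.w0 r'.w0 e,
      fun M h hh a b φ w φ' w' r r' e => S.np hn h5 a (b.of_cM a.le hh) r.w0 r' e⟩ hg)
  obtain ⟨v, h3, h4⟩ := exists_ker_not_mem (F := F) (W := W) (by omega) (β w) w
  obtain ⟨z, -, h6, h7, -, -, -, h8⟩ := hyp5 H.ndW H.alt (h5 h2) w v
  obtain ⟨χ, c1, c2⟩ := exists_dual_two h4
  obtain ⟨ψ, c3, c4, c5⟩ := exists_dual_three h8
  refine ⟨[w, v, w + v, z, w + z, v + z, w + v + z].map fun a => (β a, a), ⟨3, rfl⟩, ?_, ?_⟩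
  · simp only [List.mem_map, List.mem_cons, List.not_mem_nil, or_false]
    rintro _ ⟨a, ha, rfl⟩
    refine S.rt (hF i) fun e => ?_
    rcases ha with rfl | rfl | rfl | rfl | rfl | rfl | rfl
    exacts [hw e, by simpa [c1, c2] using congrArg χ e, by simpa [c1, c2] using congrArg χ e,
      by simpa [c3, c4, c5] using congrArg ψ e, by simpa [c3, c4, c5] using congrArg ψ e,
      by simpa [c3, c4, c5] using congrArg ψ e, by simpa [c3, c4, c5] using congrArg ψ e]
  · rw [List.map_map]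
    ext x
    have m1 : w ∈ Submodule.span F {w, v, z} := Submodule.subset_span (by simp)
    have m2 : v ∈ Submodule.span F {w, v, z} := Submodule.subset_span (by simp)
    have m3 : z ∈ Submodule.span F {w, v, z} := Submodule.subset_span (by simp)
    refine (prod_iso (B := β) (Y := Submodule.span F {w, v, z}) (fun a ha b hb => ?_) _
      (by simp [add_mem, m1, m2, m3]) x).2.trans ?_
    · obtain ⟨a1, a2, a3, rfl⟩ := Submodule.mem_span_triple.1 ha
      obtain ⟨b1, b2, b3, rfl⟩ := Submodule.mem_span_triple.1 hb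
      simp [H.alt.self_eq_zero, h3, h6, h7, S.rW h3, S.rW h6, S.rW h7]
    · simp only [List.map_cons, List.map_nil, List.sum_cons, List.sum_nil, map_add,
        LinearMap.add_apply, Module.End.one_apply]
      linear_combination (norm := module) ((2 * β w x + β v x + β z x) * h2) • w +
        ((β w x + 2 * β v x + β z x) * h2) • v + ((β w x + β v x + 2 * β z x) * h2) • z

theorem one_factor (hk : finrank F W = 2) (h2 : (2 : F) ≠ 0) {N : Module.End F (U ⊗[F] W)}
    (h0 : N ≠ 0) (hN : N * N = 0) (e : ∀ i a, ∃ c : F,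
      rh (T.s i) (rr β a a) * N * rh (T.s i) (rr β a a) = c • rh (T.s i) (rr β a a)) :
    ∃ i y, N = rh (T.s i) y := by
  have : Nontrivial W := Module.nontrivial_of_finrank_pos (R := F) (by omega)
  obtain ⟨i, hi⟩ : ∃ i, ¬ CA (T.s i) N := by
    by_contra hn; push Not at hn
    obtain ⟨c, rfl⟩ := T.cent N hn
    rw [smul_mul_smul_comm, one_mul, smul_eq_zero, mul_self_eq_zero] at hN
    exact h0 (hN.elim (by rintro rfl; simp) fun e => by rw [e, smul_zero])
  obtain ⟨u, hu⟩ := exists_ne (0 : U)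
  obtain ⟨ψ, hψ⟩ := exists_dual_one (F := F) hu
  obtain ⟨x, c1⟩ : ∃ x, CA (T.s i) (N - rh (T.s i) x) := by
    let x : Module.End F W := cU W ψ ∘ₗ (T.s i).symm.toLinearMap ∘ₗ N ∘ₗ (T.s i).toLinearMap ∘ₗ
      TensorProduct.mk F U W u
    refine ⟨x, ca_of_sand fun φ w hw => ?_⟩
    by_cases hw0 : w = 0
    · simp [hw0, r1]
    obtain ⟨f, hf⟩ := exists_one H.ndW H.alt.isRefl hw0
    obtain ⟨d, rfl⟩ : ∃ d : F, φ = d • β w := ⟨φ f, LinearMap.ext fun v => by
      conv_lhs => rw [span_two H.alt hk.le hf v]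
      simp [hw, mul_comm]⟩
    obtain ⟨c, hc⟩ := e i w
    have k1 : β w (x w) = c := by
      have := LinearMap.congr_fun hc (T.s i (u ⊗ₜ f))
      simp only [Module.End.mul_apply, rh_tmul, LinearMap.smul_apply, rr_apply, hf, one_smul] at this
      rw [rh_r1, ← map_smul, (T.s i).injective.eq_iff, smul_tmul'] at this
      simp [x, dual_cU, tmul_left_inj hw0 this, hψ]
    have k2 : r1 (d • β w) w = d • rr β w w := by ext; simp [smul_smul]
    rw [k2, map_smul, smul_mul_assoc, smul_mul_smul_comm, mul_sub, sub_mul, hc, ← map_mul,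
      ← map_mul, ← map_smul, ← map_sub, show rr β w w * x * rr β w w = c • rr β w w by
        ext; simp [k1, smul_smul, mul_comm], sub_self, map_zero, smul_zero]
  obtain ⟨y, hy⟩ : ∃ y, y * x - x * y ≠ 0 := by
    by_contra hn; push Not at hn
    refine hi fun y => ?_
    simpa using (c1 y).add_left (show Commute (rh (T.s i) x) (rh (T.s i) y) by
      rw [Commute, SemiconjBy, ← map_mul, ← map_mul, sub_eq_zero.1 (hn y)])
  obtain ⟨C, hC⟩ : ∃ C, C = N - rh (T.s i) x := ⟨_, rfl⟩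
  rw [← hC] at c1
  obtain rfl : N = rh (T.s i) x + C := by rw [hC, add_sub_cancel]
  obtain ⟨c, hc⟩ := T.cent C fun j => by
    by_cases hj : j = i
    · exact hj ▸ c1
    intro z
    have c2 := T.com j i hj z
    refine sub_eq_zero.1 (((c1.mul c2).sub (c2.mul c1)).eq_zero hy ?_)
    have a1 := (c1 x).eq
    have a2 := (c1 y).eq
    have a3 := (c2 x).eq
    have a4 := (c2 y).eq
    rw [map_sub, map_mul, map_mul]
    generalize rh (T.s i) x = A at *
    generalize rh (T.s i) y = Y at *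
    generalize rh (T.s j) z = Z at *
    have b1 : ∀ D, C * (A * D) = A * (C * D) := fun D => by rw [← mul_assoc, a1, mul_assoc]
    have b2 : ∀ D, C * (Y * D) = Y * (C * D) := fun D => by rw [← mul_assoc, a2, mul_assoc]
    have b3 : ∀ D, Z * (A * D) = A * (Z * D) := fun D => by rw [← mul_assoc, a3, mul_assoc]
    have b4 : ∀ D, Z * (Y * D) = Y * (Z * D) := fun D => by rw [← mul_assoc, a4, mul_assoc]
    have := congrArg (fun D => (Y * D - D * Y) * Z - Z * (Y * D - D * Y)) hN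
    simp only [mul_add, add_mul, mul_sub, sub_mul, mul_assoc, zero_mul, mul_zero, sub_zero, a1, a2,
      a3, a4, b1, b2, b3, b4] at this ⊢
    rw [← smul_eq_zero_iff_right h2, two_smul, ← this]; abel
  exact ⟨i, x + c • 1, by rw [hc]; simp⟩

theorem wr_two (hk : finrank F W = 2) (h2 : (2 : F) ≠ 0) (h3 : Nat.card F ≠ 3) (hM : M ≤ SG B)
    (hF : ∀ i, Fac β M (T.s i)) (hS : ∀ i, StdG β M (T.s i)) (hg : g ∈ M) : g ∈ T.Wr := by
  have : Nontrivial W := Module.nontrivial_of_finrank_pos (R := F) (by omega)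
  obtain ⟨p, S⟩ := H.sf
  have aa := H.alt.self_eq_zero
  have two : ∀ w ≠ 0, ∀ z, β w z = 0 → ∃ c : F, z = c • w := fun w hw z hz => by
    obtain ⟨f, hf⟩ := exists_one H.ndW H.alt.isRefl hw
    exact ⟨-β f z, by simpa [hz] using span_two H.alt hk.le hf z⟩
  have nn : ∀ m ∈ M, ∀ i a, Root.NN (GM M) (rh (m * T.s i) (rr β a a)) := fun m hm i a =>
    nn_iff.2 ⟨rh_r1_mul _ _ (aa a), fun c => by
      rw [← map_smul, ← cjm_rh]; exact ((hF i).root H.alt c a).conj hm⟩
  have nn1 : ∀ i a, Root.NN (GM M) (rh (T.s i) (rr β a a)) := fun i a => by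
    simpa using nn 1 M.one_mem i a
  have ne : ∀ g : (U ⊗[F] W) ≃ₗ[F] (U ⊗[F] W), ∀ a ≠ 0, rh g (rr β a a) ≠ 0 := fun g a ha e =>
    r1_ne (S.ne ha) ha (rh_eq_zero e)
  have st : ∀ i, ∀ w ≠ 0, ∀ ξ, Root.NN (GM M) ξ → rh (T.s i) (rr β w w) * ξ = 0 →
      ∃ c : F, ξ = c • rh (T.s i) (rr β w w) := fun i w hw ξ hξ e => by
    have r : R M ξ := by simpa using (nn_iff.1 hξ).2 1
    have k0 : ∀ x, rh (T.s i) (rr β w w) (ξ x) = 0 := LinearMap.congr_fun e
    obtain ⟨t, ht, et⟩ := id r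
    obtain ⟨z, c, h4, h5⟩ := hS i w hw t ht (fun x hx => by
      rw [et, H.nd.1 (ξ x) fun v => by
        rw [skew_of_R hM r hξ.1, (S.ker_iff (H.s_iso i) hw).1 (k0 v) x hx, neg_zero], add_zero])
      fun x _ => S.memL hw fun v hv => by
        obtain ⟨c, rfl⟩ := two w hw v hv
        rw [et, add_sub_cancel_left, rh_ker hw, map_smul, cW_smul, (rh_ker hw).1 (k0 x), smul_zero]
    obtain ⟨d, rfl⟩ := two w hw z h4
    refine ⟨2 * d + c, LinearMap.ext fun x => (add_left_cancel ((et x).symm.trans (h5 x))).trans ?_⟩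
    rw [← map_smul]
    congr 2
    ext v
    simp only [LinearMap.add_apply, LinearMap.smul_apply, rr_apply, map_smul, smul_eq_mul]
    module
  have rk : ∀ g : (U ⊗[F] W) ≃ₗ[F] (U ⊗[F] W), ∀ a ≠ 0, Root.rk (rh g (rr β a a)) = finrank F U :=
    fun g a ha => by rw [Root.rk, range_rh (S.ne ha), finrank_Lg ha]
  obtain ⟨w, hw⟩ := exists_ne (0 : W)
  obtain ⟨i₀⟩ := ‹Nonempty I›
  obtain ⟨i, a, ha⟩ : ∃ i a, ¬ Root.NR (GM M) (rh (T.s i) (rr β a a)) := by
    by_contra hn; push Not at hn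
    obtain ⟨α, ⟨h4, h5⟩, h6⟩ := (measure Root.rk).wf.has_min
      {α : Module.End F (U ⊗[F] W) | Root.NN (GM M) α ∧ α ≠ 0} ⟨_, nn1 i₀ w, ne _ w hw⟩
    have hα : Root.ND (GM M) α := ⟨h4, h5, fun β e1 e2 => not_lt.1 (h6 β ⟨e1, e2⟩)⟩
    have := Root.com_DG h2 h3 (Root.noUnip_of_irred (G := GM M) ⟨exists_ne 0, fun Y hY =>
      H.irred hF fun g hg v hv => hY ((LinearMap.GeneralLinearGroup.generalLinearEquiv F _).symm g)
        (by simpa [GM] using hg) v hv⟩)
    obtain ⟨c, rfl⟩ := T.cent α fun i => ca_of_roots H.ndW H.alt fun a =>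
      (Root.comm_of_un (this _ (hn i a).un_mem _ (Subgroup.mem_iSup_of_mem _
        (Subgroup.mem_iSup_of_mem (Root.mem_qrs.2 ⟨α, hα, rfl⟩)
          (Root.un_mem_EG (Root.sm_self h4)))))).symm
    have := h4.1
    rw [smul_mul_smul_comm, one_mul, smul_eq_zero, mul_self_eq_zero] at this
    exact h5 (this.elim (by rintro rfl; simp) fun e => by rw [e, smul_zero])
  have nd : ∀ j, ∀ b ≠ 0, Root.ND (GM M) (rh (T.s j) (rr β b b)) := fun j b hb => by
    obtain ⟨ξ₁, ξ₀, k1, k2, k3, k4, k5⟩ := Root.split_off h2 h3 (nn1 i a) ha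
    have a0 : a ≠ 0 := by
      rintro rfl
      rw [show rr β 0 0 = 0 by simp [rr, r1], map_zero] at k5
      exact absurd k5 (not_lt.2 (zero_mul ξ₀ ▸ Root.rk_mul_le_right 0 ξ₀))
    obtain ⟨c, hc⟩ := st i a a0 ξ₁ k1.nn (by rw [k3, add_mul, k4, k1.nn.1, add_zero])
    have c0 : c ≠ 0 := by rintro rfl; exact k1.ne (by simpa using hc)
    have := k1.smul (inv_ne_zero c0)
    rw [hc, inv_smul_smul₀ c0] at this
    exact this.of_rk_le (nn1 j b) (ne _ b hb) (by rw [rk _ b hb, rk _ a a0])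
  refine T.mem_Wr (by omega) fun j => ?_
  have one : ∀ b ≠ 0, ∃ i y, rh (g * T.s j) (rr β b b) = rh (T.s i) y := fun b hb =>
    H.one_factor hk h2 (ne _ b hb) (nn g hg j b).1 fun i a => by
      by_cases a0 : a = 0
      · exact ⟨0, by simp [a0, rr, r1]⟩
      by_cases e : Root.gam (rh (T.s i) (rr β a a)) (rh (g * T.s j) (rr β b b)) *
        rh (T.s i) (rr β a a) = 0
      · exact ⟨0, by rwa [Root.gam_mul_left (nn1 i a).1, ← zero_smul F (rh (T.s i) _)] at e⟩
      obtain ⟨-, -, -, -, k⟩ := Root.pair_main h2 h3 (nd i a a0) (nn g hg j b) e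
      have := k Polynomial.X
      rw [Polynomial.aeval_X, Root.gam_mul_left (nn1 i a).1] at this
      exact st i a a0 _ this (by rw [← mul_assoc, ← mul_assoc, (nn1 i a).1, zero_mul, zero_mul])
  have same : ∀ b c i i' y y', β b c ≠ 0 → rh (g * T.s j) (rr β b b) = rh (T.s i) y →
      rh (g * T.s j) (rr β c c) = rh (T.s i') y' → i = i' := fun b c i i' y y' e e1 e2 =>
    by_contra fun hi => by
      have := (T.com i i' hi y y').eq
      rw [← e1, ← e2, ← map_mul, ← map_mul] at this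
      have := LinearMap.congr_fun (rh_inj this) c
      have b0 : b ≠ 0 := by rintro rfl; simp at e
      have c0 : c ≠ 0 := by rintro rfl; simp at e
      exact c0 (by simpa [aa, e, show β c b ≠ 0 from fun e' => e (S.rW e')] using this.symm)
  obtain ⟨f, hf⟩ := exists_one H.ndW H.alt.isRefl hw
  obtain ⟨i, y, e1⟩ := one w hw
  obtain ⟨i', y', e2⟩ := one f (by rintro rfl; simp at hf)
  obtain rfl := same _ _ _ _ _ _ (by simp [hf]) e1 e2
  refine ⟨i, same_of_rh (by omega) fun x => alg_ind H.ndW H.alt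
    (((rh (T.s i)).range.toSubmodule).comap (rh (g * T.s j)).toLinearMap)
    (fun x hx y hy => by simpa using (rh (T.s i)).range.mul_mem hx hy) (fun b => ?_) x |>.imp fun _ => Eq.symm⟩
  by_cases hb : b = 0
  · simp [hb, rr, r1]
  obtain ⟨i', y'', e3⟩ := one b hb
  by_cases e : β w b = 0
  · obtain ⟨c, rfl⟩ := two w hw b e
    obtain rfl := same _ _ _ _ _ _ (by simpa [hf] using left_ne_zero_of_smul hb) e3 e2
    exact ⟨_, e3.symm⟩
  · obtain rfl := same _ _ _ _ _ _ e e1 e3
    exact ⟨_, e3.symm⟩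

end TF

end Cfsg.Agent.Max3
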