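import Mathlib
import Cfsg.Agent.Max3.SW2

/-!
# Tensor powers of a symplectic space: extracting pure tensors
-/

set_option autoImplicit false
set_option linter.unusedSectionVars false
set_option linter.unusedSimpArgs false

namespace Cfsg.Agent.Max3

open Module Cfsg.Agent.Max Cfsg.Agent.Max2 TensorProduct Function Classical.SpWitt

theorem opop {A : Type*} [Ring A] {P : A → Prop} (hs : ∀ x y, P x → P y → P (x - y)) {a b : A}
    (ha : ∀ x, P x → P ((1 + a) * x * (1 - a))) (hb : ∀ x, P x → P ((1 + b) * x * (1 - b)))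
    (e1 : a * b = 0) (e2 : b * a = 0) {γ : A} (h : P γ) : P (b * γ * a + a * γ * b) := by
  have h1 := hs _ _ (ha _ h) h
  convert hs _ _ h1 (hb _ h1) using 1
  have : ((1 + a) * γ * (1 - a) - γ) - (1 + b) * ((1 + a) * γ * (1 - a) - γ) * (1 - b) =
      b * γ * a + a * γ * b - (b * a) * (γ - γ * a - γ * b + γ * a * b) -
        (γ + a * γ + b * γ) * (a * b) := by noncomm_ring
  rw [this, e1, e2]; simp

theorem R_comm2 {F V : Type*} [Field F] [AddCommGroup V] [Module F V] {M : Subgroup (V ≃ₗ[F] V)}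
    {N N' : Module.End F V} (h : R M N) (h' : R M N') (e : N * N = 0) (e' : N' * N' = 0)
    (h1 : N * N' * N = 0) (h2 : N' * N * N' = 0) : R M (N * N' - N' * N) := by
  have a1 : ∀ x, N (N x) = 0 := LinearMap.congr_fun e
  have a2 : ∀ x, N' (N' x) = 0 := LinearMap.congr_fun e'
  have a3 : ∀ x, N (N' (N x)) = 0 := LinearMap.congr_fun h1
  have a4 : ∀ x, N' (N (N' x)) = 0 := LinearMap.congr_fun h2
  exact ((h.mul h').mul ((h.neg a1).mul (h'.neg a2))).congr fun x => by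
    simp [a1, a2, a3, a4]; abel

variable {F U W : Type*} [Field F] [AddCommGroup U] [Module F U] [AddCommGroup W] [Module F W]
  {B : LinearMap.BilinForm F (U ⊗[F] W)} {β : LinearMap.BilinForm F W} {κ : F}
  {p : LinearMap.BilinForm F U}
  {M : Subgroup ((U ⊗[F] W) ≃ₗ[F] (U ⊗[F] W))} {g g' h y : (U ⊗[F] W) ≃ₗ[F] (U ⊗[F] W)}
  {A C D γ : Module.End F (U ⊗[F] W)}

/-- A symmetric or alternating combination of two rank one maps. -/
abbrev eT (β : LinearMap.BilinForm F W) (τ : F) (a b : W) : Module.End F W :=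
  rr β a b + τ • rr β b a

/-- A non-trivial type. -/
def Gd (β : LinearMap.BilinForm F W) (τ : F) : Prop :=
  (τ = 1 ∨ τ = -1) ∧ ∃ a b, β a b = 0 ∧ eT β τ a b ≠ 0

/-- The map `A ⊗ (a ↦ b) + C ⊗ (b ↦ a)`. -/
noncomputable abbrev XX (β : LinearMap.BilinForm F W) (g : (U ⊗[F] W) ≃ₗ[F] (U ⊗[F] W))
    (A C : Module.End F (U ⊗[F] W)) (a b : W) : Module.End F (U ⊗[F] W) :=
  A * rh g (rr β a b) + C * rh g (rr β b a)

theorem rr_add_left (a a' b : W) : rr β (a + a') b = rr β a b + rr β a' b := by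
  ext; simp [add_smul]

theorem rr_add_right (a b b' : W) : rr β a (b + b') = rr β a b + rr β a b' := by ext; simp

theorem rr_smul_left (c : F) (a b : W) : rr β (c • a) b = c • rr β a b := by
  ext; simp [smul_smul]

theorem rr_smul_right (c : F) (a b : W) : rr β a (c • b) = c • rr β a b := by
  ext; simp [smul_smul, mul_comm]

theorem rr_zero_left (b : W) : rr β 0 b = 0 := by ext; simp

theorem rr_zero_right (b : W) : rr β b 0 = 0 := by ext; simp

theorem eT_mul {τ τ' : F} {a b c d : W} (h1 : β a c = 0) (h2 : β a d = 0) (h3 : β b c = 0)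
    (h4 : β b d = 0) : eT β τ a b * eT β τ' c d = 0 := by
  simp [add_mul, mul_add, rr_mul, h1, h2, h3, h4]

theorem eT_sq (hA : β.IsAlt) (τ : F) {a b : W} (h : β a b = 0) : eT β τ a b * eT β τ a b = 0 :=
  eT_mul (hA a) h (hA.isRefl _ _ h) (hA b)

theorem XX_mul {A' C' : Module.End F (U ⊗[F] W)} (hA : CA g A') (hC : CA g C') {a b c d : W}
    (h1 : β a c = 0) (h2 : β a d = 0) (h3 : β b c = 0) (h4 : β b d = 0) :
    XX β g A C a b * XX β g A' C' c d = 0 := by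
  simp only [add_mul, mul_add, hA.mul_r1 _ _ _ h2, hA.mul_r1 _ _ _ h4, hC.mul_r1 _ _ _ h1,
    hC.mul_r1 _ _ _ h3, add_zero]

theorem Fac.cj (e : Fac β M g) {σ : W ≃ₗ[F] W} (hσ : σ ∈ SG β) {x : Module.End F (U ⊗[F] W)}
    (h : R M x) : R M (rh g σ.toLinearMap * x * rh g σ.symm.toLinearMap) :=
  h.conj' (e σ hσ) fun v => by
    simp only [fE_apply, Module.End.mul_apply]
    rw [← Module.End.mul_apply (rh g σ.symm.toLinearMap), ← map_mul,
      show σ.symm.toLinearMap * σ.toLinearMap = 1 by ext; simp, map_one]; rfl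

theorem cj_rr (hA : CA g A) {σ : W ≃ₗ[F] W} (hσ : σ ∈ SG β) (a b : W) :
    rh g σ.toLinearMap * (A * rh g (rr β a b)) * rh g σ.symm.toLinearMap =
      A * rh g (rr β (σ a) (σ b)) := by
  rw [← mul_assoc, ← (hA _).eq, mul_assoc, mul_assoc, ← map_mul, ← map_mul]
  congr 2
  ext v
  obtain ⟨v, rfl⟩ := σ.surjective v
  simp [hσ _ _]

theorem CA.of_mul (hA : CA g A) (hc : Com g g') {x : Module.End F W} (hx : x ≠ 0)
    (h : CA g' (A * rh g x)) : CA g' A := fun z =>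
  sub_eq_zero.1 (((hA.mul (hc.symm z)).sub ((hc.symm z).mul hA)).eq_zero hx (by
    rw [sub_mul, mul_assoc, ← (hc x z).eq, ← mul_assoc, (h z).eq, mul_assoc, sub_self]))

theorem exists_sand2 (g : (U ⊗[F] W) ≃ₗ[F] (U ⊗[F] W)) (γ : Module.End F (U ⊗[F] W))
    (φ ψ : Dual F W) (a b : W) :
    ∃ A, CA g A ∧ rh g (r1 φ b) * γ * rh g (r1 ψ a) = A * rh g (r1 ψ b) := by
  let α : Module.End F U := cW U φ ∘ₗ g.symm.toLinearMap ∘ₗ γ ∘ₗ g.toLinearMap ∘ₗ inW F U a
  have e : ∀ u v, cjm g (α.rTensor W) (g (u ⊗ₜ v)) = g (α u ⊗ₜ v) := fun u v => by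
    simp [cjm_apply]
  refine ⟨cjm g (α.rTensor W), ca_of e, ext_g g fun u v => ?_⟩
  simp only [Module.End.mul_apply, rh_tmul, LinearMap.smulRight_apply, tmul_smul, map_smul, e]
  rw [rh_r1]; rfl

section Cls

variable [FiniteDimensional F W] (hB : β.Nondegenerate) (hA : β.IsAlt)
include hB hA

theorem eT_ne (τ : F) {a b : W} (hb : b ≠ 0) (ha : a ∉ F ∙ b) : eT β τ a b ≠ 0 := fun e => by
  obtain ⟨f, h1, h2⟩ := exists_orth_one hB hA.isRefl _ ha
  simpa [h1 b (Submodule.mem_span_singleton_self b), h2, hb] using LinearMap.congr_fun e f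

theorem gd_one [Nontrivial W] (h : (2 : F) ≠ 0 ∨ 3 ≤ finrank F W) : Gd β 1 := by
  obtain ⟨w, hw⟩ := exists_ne (0 : W)
  refine ⟨Or.inl rfl, h.elim (fun h => ⟨w, w, hA w, fun e => ?_⟩) fun h => ?_⟩
  · obtain ⟨f, hf⟩ := exists_one hB hA.isRefl hw
    simpa [hf, ← two_smul F, h, hw] using LinearMap.congr_fun e f
  · obtain ⟨v, h1, h2⟩ := exists_ker_not_mem h (β w) w
    exact ⟨v, w, hA.isRefl _ _ h1, eT_ne hB hA _ hw h2⟩

theorem exists_opop (h : (2 : F) ≠ 0 ∨ 3 ≤ finrank F W) (hc : ¬ CA g γ) : ∃ a b, β a b = 0 ∧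
    rh g (rr β b b) * γ * rh g (rr β a a) + rh g (rr β a a) * γ * rh g (rr β b b) ≠ 0 := by
  by_contra hn
  push Not at hn
  have h1 : ∀ a b, β a b = 0 → b ∉ F ∙ a → cW U (β b) ∘ₗ g.symm.toLinearMap ∘ₗ γ ∘ₗ
      g.toLinearMap ∘ₗ inW F U a = 0 := fun a b e hb => LinearMap.ext fun u => by
    by_cases a0 : a = 0
    · simp [a0]
    obtain ⟨f, h1, h2⟩ := exists_orth_one hB hA.isRefl _ (not_mem_span_symm hb a0)
    have := LinearMap.congr_fun (hn a b e) (g (u ⊗ₜ f))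
    simp only [LinearMap.add_apply, Module.End.mul_apply, rh_tmul, rr_apply, h2, one_smul,
      h1 b (Submodule.mem_span_singleton_self b), zero_smul, tmul_zero, map_zero, add_zero,
      LinearMap.zero_apply] at this
    exact (rh_ker (b := b) (by rintro rfl; simp at hb)).1 this
  refine hc (ca_of_lines fun u a => ?_)
  by_cases a0 : a = 0
  · simp [a0]
  refine mem_im.2 (mem_LW_of a0 fun φ hφ => ?_)
  obtain ⟨b, rfl⟩ := sp_exists_dual hB φ
  by_cases hb : b ∈ F ∙ a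
  swap
  · exact LinearMap.congr_fun (h1 a b (hA.isRefl _ _ hφ) hb) u
  obtain ⟨c, rfl⟩ := Submodule.mem_span_singleton.1 hb
  rw [map_smul, cW_smul]
  refine smul_eq_zero_of_right _ (h.elim (fun h => ?_) fun h => ?_)
  · obtain ⟨f, hf⟩ := exists_one hB hA.isRefl a0
    have := LinearMap.congr_fun (hn a a (hA a)) (g (u ⊗ₜ f))
    simp only [LinearMap.add_apply, Module.End.mul_apply, rh_tmul, rr_apply, hf, one_smul,
      LinearMap.zero_apply] at this
    rw [← two_smul F, smul_eq_zero_iff_right h] at this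
    exact (rh_ker a0).1 this
  · obtain ⟨v, h2, h3⟩ := exists_ker_not_mem h (β a) a
    have := h1 a (v + a) (by simp [h2, hA a]) (by
      rwa [Submodule.add_mem_iff_left _ (Submodule.mem_span_singleton_self a)])
    simpa [cW_add, show cW U (β v) (g.symm (γ (g (u ⊗ₜ a)))) = 0 from
      LinearMap.congr_fun (h1 a v h2 h3) u] using LinearMap.congr_fun this u

variable {P : Module.End F (U ⊗[F] W) → Prop}
  (hs : ∀ x y, P x → P y → x * y = 0 → y * y = 0 → P (x - y))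
  (hj : ∀ σ ∈ SG β, ∀ x, P x → P (rh g σ.toLinearMap * x * rh g σ.symm.toLinearMap))
  (h1 : CA g A)
include hs hj h1

theorem cls0 (h2 : CA g C) (h3 : CA g D) (h : (2 : F) ≠ 0 ∨ 5 ≤ finrank F W) {a b : W}
    (hb : b ≠ 0) (ha : a ∉ F ∙ b) (e : β b a = 0) (hP : P (XX β g A C a b + D * rh g (rr β b b))) :
    ∃ a, a ∉ F ∙ b ∧ β b a = 0 ∧ P (XX β g A C a b) := by
  obtain ⟨c, c1, c2, c3, c4⟩ : ∃ c, β b c = 0 ∧ β a c = 0 ∧ c ∉ F ∙ b ∧ a + c ∉ F ∙ b := by
    rcases h with h | h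
    · exact ⟨a, e, hA a, ha, by rwa [← two_smul F, Submodule.smul_mem_iff _ h]⟩
    obtain ⟨c, -, c1, c2, -, -, -, c3⟩ := hyp5 hB hA h b a
    have : (F ∙ b) ≤ Submodule.span F {b, a} := Submodule.span_mono (by simp)
    exact ⟨c, c1, c2, fun e => c3 (this e), fun e => c3 ((Submodule.add_mem_iff_right _
      (Submodule.subset_span (by simp))).1 (this e))⟩
  obtain ⟨σ, -, s1, s2⟩ := witt_two hB hA ⊤ (fun _ _ => trivial)
    (Orth.linearIndependent_pair_of_notMem hb ha) (Orth.linearIndependent_pair_of_notMem hb c4)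
    (by simp [e, c1])
  have k := hj _ σ.2 _ hP
  simp only [mul_add, add_mul, cj_rr h1 σ.2, cj_rr h2 σ.2, cj_rr h3 σ.2, s1, s2] at k
  have z : ∀ a', β a' a = 0 → β a' b = 0 → (XX β g A C a' b + D * rh g (rr β b b)) *
      (XX β g A C a b + D * rh g (rr β b b)) = 0 := fun a' e1 e2 => by
    simp only [add_mul, mul_add, h1.mul_r1 _ _ _ e2, h1.mul_r1 _ _ _ (hA b), h2.mul_r1 _ _ _ e1,
      h2.mul_r1 _ _ _ e, h3.mul_r1 _ _ _ e2, h3.mul_r1 _ _ _ (hA b), add_zero]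
  refine ⟨c, c3, c1, ?_⟩
  convert hs _ _ k hP (z _ (by simp [hA a, hA.isRefl _ _ c2])
    (by simp [hA.isRefl _ _ e, hA.isRefl _ _ c1])) (z _ (hA a) (hA.isRefl _ _ e)) using 1
  simp only [XX, rr_add_left, rr_add_right, map_add, mul_add]; abel

theorem cls1 (h2 : CA g C) {a₀ b₀ : W} (hb : b₀ ≠ 0) (ha : a₀ ∉ F ∙ b₀) (e : β b₀ a₀ = 0)
    (hP : P (XX β g A C a₀ b₀)) (a b : W) (h : β a b = 0) : P (XX β g A C a b) := by
  have h' := hA.isRefl _ _ h
  have k : ∀ a b, b ≠ 0 → a ∉ F ∙ b → β b a = 0 → P (XX β g A C a b) := fun a b hb' ha' e' => by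
    obtain ⟨σ, -, s1, s2⟩ := witt_two hB hA ⊤ (fun _ _ => trivial)
      (Orth.linearIndependent_pair_of_notMem hb ha) (Orth.linearIndependent_pair_of_notMem hb' ha')
      (by rw [e, e'])
    simpa only [mul_add, add_mul, cj_rr h1 σ.2, cj_rr h2 σ.2, s1, s2] using hj _ σ.2 _ hP
  by_cases b0 : b = 0
  · have := XX_mul (A := A) (C := C) h1 h2 (hA a₀) (hA.isRefl _ _ e) e (hA b₀)
    simpa [XX, b0, rr_zero_left, rr_zero_right] using hs _ _ hP hP this this
  by_cases hab : a ∈ F ∙ b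
  swap
  · exact k a b b0 hab h'
  obtain ⟨σ, hσ⟩ := witt_one hB hA hb b0
  have k1 : σ.1 a₀ ∉ F ∙ b := fun e' => by
    obtain ⟨c, hc⟩ := Submodule.mem_span_singleton.1 e'
    rw [← hσ, ← map_smul, σ.1.injective.eq_iff] at hc
    exact ha (Submodule.mem_span_singleton.2 ⟨c, hc⟩)
  have k2 : β b (σ.1 a₀) = 0 := by rw [← hσ, σ.2, e]
  have k3 : β a (σ.1 a₀) = 0 := by
    obtain ⟨c, rfl⟩ := Submodule.mem_span_singleton.1 hab; simp [k2]
  convert hs _ _ (k (σ.1 a₀ + a) b b0 (by rwa [Submodule.add_mem_iff_left _ hab]) (by simp [k2, h']))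
    (k _ b b0 k1 k2) (XX_mul h1 h2 (by simp [hA.self_eq_zero, k3]) (by simp [h, hA.isRefl _ _ k2])
      k2 (hA b)) (XX_mul h1 h2 (hA _) (hA.isRefl _ _ k2) k2 (hA b)) using 1
  simp only [XX, rr_add_left, rr_add_right, map_add, mul_add]; abel

theorem cls2 {a₀ : W} (ha : a₀ ≠ 0) (hP : P (A * rh g (rr β a₀ a₀))) (a b : W) (h : β a b = 0) :
    P (A * rh g (eT β 1 a b)) := by
  have h' := hA.isRefl _ _ h
  have k : ∀ a, P (A * rh g (rr β a a)) := fun a => by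
    by_cases a0 : a = 0
    · have := h1.mul_r1 A (β a₀) a₀ (hA a₀)
      simpa [a0, rr_zero_left] using hs _ _ hP hP this this
    obtain ⟨σ, hσ⟩ := witt_one hB hA ha a0
    simpa only [cj_rr h1 σ.2, hσ] using hj _ σ.2 _ hP
  convert hs _ _ (hs _ _ (k (a + b)) (k a) (h1.mul_r1 _ _ _ (by simp [hA a, h']))
    (h1.mul_r1 _ _ _ (hA a))) (k b) (by
      rw [sub_mul, h1.mul_r1 _ _ _ h, h1.mul_r1 _ _ _ (by simp [hA b, h]), sub_zero])
    (h1.mul_r1 _ _ _ (hA b)) using 1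
  simp only [rr_add_left, rr_add_right, map_add, mul_add, one_smul]; abel

theorem cls3 (h2 : CA g C) (h : (2 : F) ≠ 0 ∨ 3 ≤ finrank F W) {a₀ b₀ : W} (e : β a₀ b₀ = 0)
    (h0 : XX β g A C a₀ b₀ ≠ 0) (hP : P (XX β g A C a₀ b₀)) : ∃ τ c d : F, Gd β τ ∧
      c • A + d • C ≠ 0 ∧ ∀ a b, β a b = 0 → P ((c • A + d • C) * rh g (eT β τ a b)) := by
  have b0 : b₀ ≠ 0 := by rintro rfl; simp [XX, rr_zero_left, rr_zero_right] at h0
  have : Nontrivial W := ⟨_, _, b0⟩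
  by_cases hab : a₀ ∈ F ∙ b₀
  · obtain ⟨c, rfl⟩ := Submodule.mem_span_singleton.1 hab
    have e1 : XX β g A C (c • b₀) b₀ = (c • A + c • C) * rh g (rr β b₀ b₀) := by
      simp [XX, rr_smul_left, rr_smul_right, add_mul]
    rw [e1] at h0 hP
    exact ⟨1, c, c, gd_one hB hA h, left_ne_zero_of_mul h0, cls2 hB hA hs hj
      (fun x => ((h1 x).smul_left c).add_left ((h2 x).smul_left c)) b0 hP⟩
  have k := cls1 hB hA hs hj h1 h2 b0 hab (hA.isRefl _ _ e) hP
  by_cases hAC : A + C = 0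
  · obtain rfl := eq_neg_of_add_eq_zero_right hAC
    refine ⟨-1, 1, 0, ⟨Or.inr rfl, a₀, b₀, e, eT_ne hB hA _ b0 hab⟩, ?_, fun a b e' => ?_⟩
    · rintro e'; simp [XX, show A = 0 by simpa using e'] at h0
    · convert k a b e' using 1
      ext x; simp
  refine ⟨1, 1, 1, gd_one hB hA h, by simpa using hAC, fun a b e' => ?_⟩
  have e'' := hA.isRefl _ _ e'
  convert hs _ _ (k a b e') (k ((-1 : F) • b) a (by simp [e'']))
    (XX_mul h1 h2 (by simp [e']) (hA a) (by simp [hA b]) e'')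
    (XX_mul h1 h2 (by simp [hA b]) (by simp [e'']) (by simp [e']) (hA a)) using 1
  simp only [XX, rr_smul_left, rr_smul_right, map_add, map_smul, mul_add, add_mul, one_smul,
    mul_smul_comm]
  module

end Cls

theorem SF.not_std (H : SF B p β) [FiniteDimensional F W] [Nontrivial U] (hM : M ≤ SG B)
    (hF : Fac β M 1) (hS : ¬ StdG β M 1) : ∃ A C D a b, CA 1 A ∧ CA 1 C ∧ CA 1 D ∧ b ≠ 0 ∧
      β b a = 0 ∧ R M (XX β 1 A C a b + D * rh 1 (rr β b b)) ∧
      ((a = 0 ∧ ∀ c : F, D ≠ c • 1) ∨ (a ∉ F ∙ b ∧ ∀ c : F, A ≠ c • 1)) := by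
  simp only [StdG, not_forall, not_exists, not_and, Lg_one] at hS
  obtain ⟨w, hw, y, hy, h1, h2, hS⟩ := hS
  replace h2 : ∀ x, cW U (β w) x = 0 → y x - x ∈ LW F U w := fun x hx => h2 x ((rh_ker hw).2 hx)
  have f : ∀ u, y (u ⊗ₜ w) = u ⊗ₜ w := fun u => h1 _ (tmul_mem_LW u w)
  have aa := H.alt.self_eq_zero
  obtain ⟨χ, hχ⟩ := exists_dual_one (F := F) hw
  obtain ⟨t, ht⟩ := exists_one H.ndW H.alt.isRefl hw
  have ca : ∀ α : Module.End F U, CA (W := W) 1 (α.rTensor W) := fun α => ca_of (α := α) fun _ _ => rfl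
  have ns : ∀ α : Module.End F U, (∀ c : F, α ≠ c • 1) → ∀ c : F, α.rTensor W ≠ c • 1 :=
    fun α h c hc => h c (LinearMap.ext fun u => tmul_left_inj (F := F) hw (by
      simpa [smul_tmul'] using LinearMap.congr_fun hc (u ⊗ₜ w)))
  by_cases hz : ∃ z, β w z = 0 ∧ ∀ c : F,
    cW U χ ∘ₗ (y.toLinearMap - LinearMap.id) ∘ₗ inW F U z ≠ c • 1
  · obtain ⟨z, z1, z2⟩ := hz
    set α := cW U χ ∘ₗ (y.toLinearMap - LinearMap.id) ∘ₗ inW F U z
    have e1 : ∀ u, y (u ⊗ₜ z) = u ⊗ₜ z + α u ⊗ₜ w := fun u => by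
      rw [← sub_eq_iff_eq_add', ← eq_of_mem_LW hχ (h2 _ (by simp [z1]))]; rfl
    let α' := cW U (β z) ∘ₗ (y.symm.toLinearMap - LinearMap.id) ∘ₗ inW F U t
    have e2 : ∀ x, cW U (β z) (y.symm x) = cW U (β z) x + α' (cW U (β w) x) := fun x => by
      have := cW_LW (H.rW z1) (h2 (y.symm (x - cW U (β w) x ⊗ₜ t)) (H.ndU.2 _ fun u => by
        rw [← H.tb.left, ← hM hy, f, LinearEquiv.apply_symm_apply, H.tb.left]; simp [ht]))
      simp only [LinearEquiv.apply_symm_apply, map_sub] at this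
      simp only [α', LinearMap.comp_apply, LinearMap.sub_apply, LinearEquiv.coe_coe, inW_apply,
        LinearMap.id_apply, map_sub]
      linear_combination (norm := module) (-1 : F) • this
    refine ⟨_, _, _, z, w, ca α, ca α', ca (α * α'), hw, z1, (R_sub ((hF.root1 H.alt z).conj hy)
      (hF.root1 H.alt z) (rh_r1_mul _ _ (aa z)) (LinearMap.ext fun x => ?_)).congr fun x => ?_,
      Or.inr ⟨fun e => ?_, ns _ z2⟩⟩
    · simp [rh_one_r1, e2, aa, z1]
    · simp [rh_one_r1, e1, e2, add_tmul]; abel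
    · obtain ⟨c, rfl⟩ := Submodule.mem_span_singleton.1 e
      exact z2 0 (by ext u; simp [α, f])
  push Not at hz
  obtain ⟨u₀, hu₀⟩ := exists_ne (0 : U)
  obtain ⟨ψ, hψ⟩ := exists_dual_one (F := F) hu₀
  obtain ⟨v, hv⟩ := sp_exists_dual H.ndW
    (ψ ∘ₗ cW U χ ∘ₗ (y.toLinearMap - LinearMap.id) ∘ₗ TensorProduct.mk F U W u₀)
  have hv0 : β v w = 0 := by simp [hv, f]
  have e1 : ∀ x, cW U (β w) x = 0 → y x = x + rh 1 (rr β v w) x := fun x hx => by
    have := eq_zero_of_ker (f := y.toLinearMap - LinearMap.id - rh 1 (rr β v w))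
      (H.ne hw) (fun u z hz' => ?_) hx
    · rw [← sub_eq_iff_eq_add']; exact sub_eq_zero.1 this
    obtain ⟨c, hc⟩ := hz z hz'
    have h3 : ∀ u, cW U χ (y (u ⊗ₜ z) - u ⊗ₜ z) = c • u := fun u => LinearMap.congr_fun hc u
    have h4 : β v z = c := by rw [hv]; exact (congrArg ψ (h3 u₀)).trans (by simp [hψ])
    simp only [LinearMap.sub_apply, LinearEquiv.coe_coe, LinearMap.id_apply, rh_one_tmul, rr_apply,
      h4]
    rw [← eq_of_mem_LW hχ (h2 (u ⊗ₜ z) (by simp [hz'])), h3, smul_tmul, sub_self]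
  obtain ⟨q, hq, eq⟩ := hF.eP H.alt hv0
  have e2 : ∀ x, cW U (β w) x = 0 → (y * q⁻¹) x = x := fun x hx => by
    have : q.symm x = x - rh 1 (rr β v w) x := by
      rw [LinearEquiv.symm_apply_eq, eq]
      simp [rh_one_r1, hx, aa, hv0]
    rw [LinearEquiv.mul_apply, LinearEquiv.coe_inv, this, map_sub, e1 x hx, rh_one_r1, f]; simp
  have hk := M.mul_mem hy (M.inv_mem hq)
  let δ := cW U χ ∘ₗ ((y * q⁻¹).toLinearMap - LinearMap.id) ∘ₗ inW F U t
  have e3 : ∀ x, (y * q⁻¹) x = x + δ (cW U (β w) x) ⊗ₜ w := fun x => by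
    have a1 : (y * q⁻¹) (cW U (β w) x ⊗ₜ t) - cW U (β w) x ⊗ₜ t ∈ LW F U w := by
      rw [← Lg_one]
      refine H.memL hw fun a ha => (rh_ker hw).2 (H.ndU.2 _ fun u => ?_)
      have := hM hk (u ⊗ₜ a) (cW U (β w) x ⊗ₜ t)
      rw [e2 _ (by simp [ha])] at this
      rw [← H.tb.left]
      exact (map_sub _ _ _).trans (sub_eq_zero.2 this)
    have a2 := e2 (x - cW U (β w) x ⊗ₜ t) (by simp [ht])
    rw [map_sub, sub_eq_iff_eq_add] at a2
    rw [a2, show δ (cW U (β w) x) ⊗ₜ w = (y * q⁻¹) (cW U (β w) x ⊗ₜ t) - cW U (β w) x ⊗ₜ t from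
      eq_of_mem_LW hχ a1]
    abel
  refine ⟨0, 0, _, 0, w, by simpa using ca 0, by simpa using ca 0, ca δ, hw, by simp,
    ⟨_, hk, fun x => by simp [e3, rh_one_r1]⟩, Or.inl ⟨rfl, ns _ fun c hc => ?_⟩⟩
  obtain ⟨x, hx⟩ := hS v c (H.rW hv0)
  have := e3 (q x)
  rw [LinearEquiv.mul_apply, LinearEquiv.coe_inv, LinearEquiv.symm_apply_apply, eq, hc] at this
  exact hx (by simp [this, rh_one_r1, aa, H.rW hv0, smul_tmul', add_assoc])

end Cfsg.Agent.Max3
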