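import Mathlib
import Cfsg.Agent.Max3.SW3

/-!
# Tensor powers of a symplectic space: pure tensors on a set of factors
-/

set_option autoImplicit false
set_option linter.unusedSectionVars false
set_option linter.unusedSimpArgs false

namespace Cfsg.Agent.Max3

open Module Cfsg.Agent.Max Cfsg.Agent.Max2 TensorProduct Function Classical.SpWitt

variable {F U W : Type*} [Field F] [AddCommGroup U] [Module F U] [AddCommGroup W] [Module F W]
  {B : LinearMap.BilinForm F (U ⊗[F] W)} {β : LinearMap.BilinForm F W} {κ : F}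
  {M : Subgroup ((U ⊗[F] W) ≃ₗ[F] (U ⊗[F] W))} {g : (U ⊗[F] W) ≃ₗ[F] (U ⊗[F] W)}
  {A C γ : Module.End F (U ⊗[F] W)} {I : Type} [DecidableEq I] [Fintype I]

theorem free_ind {T : Finset I} {f : I → Dual F W} {P : (I → W) → Prop}
    (hP : ∀ ws, ∀ j ∈ T, ∀ a b (c : F), P (update ws j a) → P (update ws j b) →
      P (update ws j (a - c • b))) (hf : ∀ j ∈ T, f j ≠ 0)
    (h : ∀ ws, (∀ j ∈ T, f j (ws j) = 1) → P ws) (ws : I → W) : P ws := by
  induction T using Finset.induction_on generalizing ws with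
  | empty => exact h ws (by simp)
  | insert j T hj ih =>
    refine ih (fun ws l hl => hP ws l (Finset.mem_insert_of_mem hl))
      (fun l hl => hf l (Finset.mem_insert_of_mem hl)) (fun ws e => ?_) ws
    obtain ⟨a, ha⟩ := exists_apply_one (hf j (Finset.mem_insert_self _ _))
    have k : ∀ b, f j b = 1 → P (update ws j b) := fun b hb => h _ fun l hl => by
      rcases Finset.mem_insert.1 hl with rfl | hl'
      · simpa using hb
      · rw [update_of_ne (by rintro rfl; exact hj hl')]; exact e l hl'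
    simpa using hP ws j (Finset.mem_insert_self _ _) _ _ (1 - f j (ws j))
      (k (ws j + (1 - f j (ws j)) • a) (by simp [ha])) (k a ha)

theorem TP.PM_upd (T : TP I F U W) (x : I → Module.End F W) (i : I) (z : Module.End F W) :
    T.PM (update x i z) = rh (T.s i) z * T.PM (update x i 1) := by
  simpa using T.PM_update (update x i 1) i z

theorem TP.comm_PM (T : TP I F U W) {x : I → Module.End F W} (h : ∀ j, x j = 1 ∨ CA (T.s j) γ) :
    Commute γ (T.PM x) :=
  T.PM_ind (Commute γ) (Commute.one_right γ) _ fun j z hz => Commute.mul_right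
    ((h j).elim (fun e => by simp [e]) fun e => e _) hz

theorem TP.PM_mul_zero (T : TP I F U W) {x y : I → Module.End F W} {i : I} (h : x i * y i = 0) :
    T.PM x * T.PM y = 0 := by rw [← T.PM_mul]; exact T.PM_zero (i := i) h

/-- All tensor products of maps from the given sets are roots of `M`. -/
def Fm (T : TP I F U W) (M : Subgroup ((U ⊗[F] W) ≃ₗ[F] (U ⊗[F] W)))
    (X : I → Set (Module.End F W)) : Prop := ∀ x, (∀ j, x j ∈ X j) → R M (T.PM x)

theorem Fm.clo {T : TP I F U W} {X Y : I → Set (Module.End F W)} (h : Fm T M X) {i : I}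
    (hi : ∀ z ∈ X i, z * z = 0) (h1 : Y i ⊆ X i)
    (h2 : ∀ j ≠ i, Y j ⊆ AddSubgroup.closure (X j)) : Fm T M Y := by
  have : ∀ S : Finset I, i ∉ S → ∀ x, (∀ j ∈ S, x j ∈ AddSubgroup.closure (X j)) →
      (∀ j ∉ S, x j ∈ X j) → R M (T.PM x) := by
    intro S
    induction S using Finset.induction_on with
    | empty => exact fun _ x _ e => h x fun j => e j (by simp)
    | insert j S hj ih =>
      intro hi' x e1 e2
      have hij : i ≠ j := by rintro rfl; simp at hi'
      have z : ∀ a b, T.PM (update x j a) * T.PM (update x j b) = 0 := fun a b =>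
        T.PM_mul_zero (i := i) (by simpa [hij] using hi _ (e2 i hi'))
      rw [← update_eq_self j x]
      refine AddSubgroup.closure_induction (p := fun a _ => R M (T.PM (update x j a)))
        (fun a ha => ih (fun e => hi' (Finset.mem_insert_of_mem e)) _ (fun l hl => ?_) fun l hl => ?_)
        ?_ (fun a b _ _ ha hb => ?_) (fun a _ ha => ?_) (e1 j (Finset.mem_insert_self _ _))
      · rw [update_of_ne (by rintro rfl; exact hj hl)]; exact e1 l (Finset.mem_insert_of_mem hl)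
      · by_cases e : l = j
        · subst e; simpa using ha
        · rw [update_of_ne e]; exact e2 l (by simp [e, hl])
      · rw [T.PM_zero (i := j) (by simp)]; exact R.zero
      · have := R_add ha hb (z a b)
        rwa [T.PM_upd, T.PM_upd x j b, ← add_mul, ← map_add, ← T.PM_upd] at this
      · have := R_sub R.zero ha (z a a) (zero_mul _)
        rwa [T.PM_upd, ← zero_mul (T.PM (update x j 1)), ← sub_mul, ← map_zero (rh (T.s j)),
          ← map_sub, ← T.PM_upd, zero_sub] at this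
  exact fun x hx => this (Finset.univ.erase i) (by simp) x
    (fun j hj => h2 j (Finset.ne_of_mem_erase hj) (hx j)) fun j hj => by
      obtain rfl : j = i := by simpa using hj
      exact h1 (hx j)

/-- The tensor product of maps of the given types in the factors of `S`. -/
noncomputable def eS (T : TP I F U W) (β : LinearMap.BilinForm F W) (S : Finset I) (τ : I → F)
    (a b : I → W) : Module.End F (U ⊗[F] W) :=
  T.PM fun j => if j ∈ S then eT β (τ j) (a j) (b j) else 1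

/-- `M` contains the elements `1 + γ ⊗ e_S`. -/
def PT (T : TP I F U W) (β : LinearMap.BilinForm F W)
    (M : Subgroup ((U ⊗[F] W) ≃ₗ[F] (U ⊗[F] W))) (S : Finset I) (τ : I → F)
    (γ : Module.End F (U ⊗[F] W)) : Prop :=
  (∀ j ∈ S, CA (T.s j) γ) ∧ ∀ a b, (∀ j ∈ S, β (a j) (b j) = 0) → R M (γ * eS T β S τ a b)

variable {T : TP I F U W} {S S' : Finset I} {τ τ' : I → F}

theorem eS_insert {j : I} (hj : j ∉ S) (t : F) (a b : I → W) :
    eS T β (insert j S) (update τ j t) a b = rh (T.s j) (eT β t (a j) (b j)) * eS T β S τ a b := by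
  rw [eS, eS, ← T.PM_update]
  congr 1
  funext k
  by_cases e : k = j
  · subst e; simp [hj]
  · simp [e]

theorem PT.perm (h : PT T β M S τ 1) {σ : Equiv.Perm I} (hσ : T.PP σ ∈ M) :
    PT T β M (S.map σ.toEmbedding) (τ ∘ σ.symm) 1 := ⟨fun _ _ => CA.one, fun a b e => by
  have := (h.2 (a ∘ σ) (b ∘ σ) fun j hj => e _ (Finset.mem_map_of_mem _ hj)).conj hσ
  rw [one_mul] at this ⊢
  convert this using 1
  change _ = cjm _ _
  rw [eS, eS, T.cjm_PP]
  congr 1
  funext j
  simp [Finset.mem_map_equiv]⟩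

theorem PT.one (h : PT T β M S τ γ) {i : I} (hi : i ∈ S) {c : F} (hc : γ = c • 1) (h0 : γ ≠ 0) :
    PT T β M S τ 1 := by
  have hc0 : c ≠ 0 := by rintro rfl; simp at hc; exact h0 hc
  refine ⟨fun _ _ => CA.one, fun a b e => ?_⟩
  have := h.2 (update a i (c⁻¹ • a i)) b fun j hj => by
    by_cases e' : j = i
    · subst e'; simp [e j hj]
    · simp [e', e j hj]
  convert this using 1
  have k := T.PM_smul (update 1 i c⁻¹) fun j => if j ∈ S then eT β (τ j) (a j) (b j) else 1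
  rw [Finset.prod_update_of_mem (Finset.mem_univ i)] at k
  simp only [Pi.one_apply, Finset.prod_const_one, mul_one] at k
  rw [hc, one_mul, smul_mul_assoc, one_mul, eq_comm, ← eq_inv_smul_iff₀ hc0, eS, eS, ← k]
  congr 1
  funext j
  by_cases e' : j = i
  · subst e'; simp [hi, eT, rr_smul_left, rr_smul_right, smul_comm c⁻¹]
  · simp [e']

theorem pt_iff : PT T β M S τ 1 ↔
    Fm T M fun j => if j ∈ S then {x | ∃ a b, β a b = 0 ∧ x = eT β (τ j) a b} else {1} := by
  refine ⟨fun h x hx => ?_, fun h => ⟨fun _ _ => CA.one, fun a b e => ?_⟩⟩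
  · have : ∀ j, ∃ a b, j ∈ S → β a b = 0 ∧ x j = eT β (τ j) a b := fun j => by
      by_cases hj : j ∈ S
      · obtain ⟨a, b, e⟩ := (by simpa [hj] using hx j : ∃ a b, β a b = 0 ∧ x j = eT β (τ j) a b)
        exact ⟨a, b, fun _ => e⟩
      · exact ⟨0, 0, fun e => (hj e).elim⟩
    choose a b e using this
    convert h.2 a b fun j hj => (e j hj).1 using 1
    rw [one_mul, eS]
    congr 1
    funext j
    by_cases hj : j ∈ S
    · simp [hj, (e j hj).2]
    · simpa [hj] using hx j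
  · rw [one_mul]
    refine h _ fun j => ?_
    by_cases hj : j ∈ S
    · simp only [hj, if_true]; exact ⟨_, _, e j hj, rfl⟩
    · simp [hj]

namespace TF

variable (H : TF T B β κ) [FiniteDimensional F W]
include H

theorem pt_ne {a : I → W} (h : ∀ j, a j ≠ 0) : T.pt a ≠ 0 := fun e => by
  choose b hb using fun j => exists_one H.ndW H.alt.isRefl (h j)
  exact H.k0 (by simpa [e, hb] using (H.pure a b).symm)

theorem PM_ne {x : I → Module.End F W} (h : ∀ j, x j ≠ 0) : T.PM x ≠ 0 := fun e => by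
  choose a ha using fun j => DFunLike.ne_iff.1 (h j)
  exact H.pt_ne ha (by rw [← T.PM_pt, e]; rfl)

theorem parity (h2 : (2 : F) ≠ 0) (hM : M ≤ SG B) (h : PT T β M S τ 1) {i : I} (hi : i ∈ S)
    (hG : ∀ j ∈ S, Gd β (τ j)) : ∃ j ∈ S, τ j = 1 := by
  by_contra hn
  push Not at hn
  have : ∀ j, ∃ a b, j ∈ S → β a b = 0 ∧ eT β (τ j) a b ≠ 0 := fun j => by
    by_cases hj : j ∈ S
    · obtain ⟨a, b, e⟩ := (hG j hj).2
      exact ⟨a, b, fun _ => e⟩
    · exact ⟨0, 0, fun e => (hj e).elim⟩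
  choose a b e using this
  have k := h.2 a b fun j hj => (e j hj).1
  rw [one_mul] at k
  refine H.PM_ne (x := fun j => if j ∈ S then eT β (τ j) (a j) (b j) else 1) (fun j => ?_)
    (LinearMap.ext fun u => H.nd.1 _ fun v => mul_left_cancel₀ h2 ?_)
  · by_cases hj : j ∈ S
    · simpa only [hj, if_true] using (e j hj).2
    · intro e'
      exact (e i hi).2 (by rw [← mul_one (eT _ _ _ _), show (1 : Module.End F W) = 0 by
        simpa [hj] using e', mul_zero])
  have a1 := skew_of_R hM k (T.PM_mul_zero (i := i) (by simpa [hi] using eT_sq H.alt _ (e i hi).1))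
    u v
  have a2 := H.adj (x := fun j => if j ∈ S then eT β (τ j) (a j) (b j) else 1) (ε := 1)
    (x' := fun j => if j ∈ S then eT β (τ j) (a j) (b j) else 1) (fun j c d => by
      by_cases hj : j ∈ S
      · simp [hj, (hG j hj).1.resolve_left (hn j hj), ← H.alt.neg_eq (a j) c,
          ← H.alt.neg_eq (b j) c]
        ring
      · simp [hj]) u v
  simp only [eS, Pi.one_apply, Finset.prod_const_one] at a1 a2
  linear_combination a1 + a2

variable (h5 : (2 : F) ≠ 0 ∨ 5 ≤ finrank F W) (hF : ∀ i, Fac β M (T.s i))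
include h5 hF

omit h5 in
theorem tv_cj {P : Module.End F (U ⊗[F] W) → Prop} (j : I) (hj : ∀ σ ∈ SG β, ∀ x, P x →
    P (rh (T.s j) σ.toLinearMap * x * rh (T.s j) σ.symm.toLinearMap)) (a : W) (x) (h : P x) :
    P ((1 + rh (T.s j) (rr β a a)) * x * (1 - rh (T.s j) (rr β a a))) := by
  have := hj _ (tv_mem_SG H.alt a 1 (by simp [H.alt a])) x h
  rwa [show (Max.tv a ((1 : F) • β a) _).toLinearMap = 1 + rr β a a by ext; simp,
    show (Max.tv a ((1 : F) • β a) _).symm.toLinearMap = 1 - rr β a a by ext; simp, map_add,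
    map_sub, map_one] at this

theorem step (h : PT T β M S τ γ) {i j : I} (hi : i ∈ S) (hj : j ∉ S) (hc : ¬ CA (T.s j) γ) :
    ∃ t γ', γ' ≠ 0 ∧ Gd β t ∧ PT T β M (insert j S) (update τ j t) γ' := by
  have h3 : (2 : F) ≠ 0 ∨ 3 ≤ finrank F W := h5.imp_right (by omega)
  have c0 : ∀ l ∈ S, Com (T.s j) (T.s l) := fun l hl => T.com j l (by rintro rfl; exact hj hl)
  have c2 : ∀ a b, CA (T.s j) (eS T β S τ a b) := fun a b => T.ca_PM (by simp [hj])
  have hs : ∀ x y, PT T β M S τ x → PT T β M S τ y → PT T β M S τ (x - y) := fun x y hx hy =>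
    ⟨fun l hl => (hx.1 l hl).sub (hy.1 l hl), fun a b e => by
      have k : ∀ x y, PT T β M S τ y → x * eS T β S τ a b * (y * eS T β S τ a b) = 0 :=
        fun x y hy => by
        rw [mul_assoc, ← mul_assoc _ y, eS, ← (T.comm_PM fun l => by
          by_cases hl : l ∈ S
          exacts [Or.inr (hy.1 l hl), Or.inl (by simp [hl])]).eq, mul_assoc,
          T.PM_mul_zero (i := i) (by simpa [hi] using eT_sq H.alt _ (e i hi)), mul_zero, mul_zero]
      rw [sub_mul]
      exact R_sub (hx.2 a b e) (hy.2 a b e) (k y y hy) (k x y hy)⟩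
  have hcj : ∀ σ ∈ SG β, ∀ x, PT T β M S τ x →
      PT T β M S τ (rh (T.s j) σ.toLinearMap * x * rh (T.s j) σ.symm.toLinearMap) :=
    fun σ hσ x hx => ⟨fun l hl => ((c0 l hl _).mul (hx.1 l hl)).mul (c0 l hl _), fun a b e => by
      have := (hF j).cj hσ (hx.2 a b e)
      rwa [mul_assoc, mul_assoc x, (c2 a b _).eq, ← mul_assoc, ← mul_assoc] at this⟩
  obtain ⟨a, b, e, h0⟩ := exists_opop H.ndW H.alt h3 hc
  have k := opop hs (H.tv_cj hF j hcj a) (H.tv_cj hF j hcj b) (rh_r1_mul _ _ e)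
    (rh_r1_mul _ _ (H.alt.isRefl _ _ e)) h
  obtain ⟨A, a1, a2⟩ := exists_sand2 (T.s j) γ (β b) (β a) a b
  obtain ⟨C, b1, b2⟩ := exists_sand2 (T.s j) γ (β a) (β b) b a
  have a0 : a ≠ 0 := by rintro rfl; simp [rr_zero_left] at h0
  have b0 : b ≠ 0 := by rintro rfl; simp [rr_zero_left] at h0
  have ne : ∀ a ≠ 0, β a ≠ 0 := fun a ha e => ha (H.ndW.1 a fun y => by simp [e])
  have a3 : ∀ l ∈ S, CA (T.s l) A := fun l hl => a1.of_mul (c0 l hl) (r1_ne (ne a a0) b0)
    (a2 ▸ ((c0 l hl _).mul (h.1 l hl)).mul (c0 l hl _))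
  have b3 : ∀ l ∈ S, CA (T.s l) C := fun l hl => b1.of_mul (c0 l hl) (r1_ne (ne b b0) a0)
    (b2 ▸ ((c0 l hl _).mul (h.1 l hl)).mul (c0 l hl _))
  rw [a2, b2] at k h0
  obtain ⟨t, c, d, k1, k2, k3⟩ := cls3 H.ndW H.alt (fun x y hx hy _ _ => hs x y hx hy) hcj a1 b1 h3
    e h0 k
  refine ⟨t, _, k2, k1, fun l hl x => ?_, fun a b e => ?_⟩
  · rcases Finset.mem_insert.1 hl with rfl | hl
    · exact ((a1 x).smul_left c).add_left ((b1 x).smul_left d)
    · exact ((a3 l hl x).smul_left c).add_left ((b3 l hl x).smul_left d)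
  rw [eS_insert hj, ← mul_assoc]
  exact (k3 _ _ (e j (Finset.mem_insert_self _ _))).2 a b fun l hl => e l (Finset.mem_insert_of_mem hl)

theorem start [Nontrivial U] [Nontrivial W] (hM : M ≤ SG B) {i : I} (hS : ¬ StdG β M (T.s i)) :
    ∃ t γ, Gd β t ∧ (∀ c : F, γ ≠ c • 1) ∧ PT T β M {i} (fun _ => t) γ := by
  have h3 : (2 : F) ≠ 0 ∨ 3 ≤ finrank F W := h5.imp_right (by omega)
  have : Nonempty I := ⟨i⟩
  obtain ⟨p, SS⟩ := H.sf
  have aa := H.alt.self_eq_zero
  obtain ⟨A, C, D, a, b, c1, c2, c3, b0, e, k, k'⟩ := SS.not_std (M := cM (T.s i) M)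
    (fun x hx => by
      have := hM (mem_cM.1 hx)
      rwa [(SG B).mul_mem_cancel_right ((SG B).inv_mem (H.s_iso i)),
        (SG B).mul_mem_cancel_left (H.s_iso i)] at this)
    (fac_cM.2 (by simpa using hF i)) (by rwa [std_cM, mul_one])
  have ns : ∀ A : Module.End F (U ⊗[F] W), (∀ c : F, A ≠ c • 1) → ∀ c : F, cjm (T.s i) A ≠ c • 1 :=
    fun A h c e => h c (LinearMap.ext fun x => (T.s i).injective (by
      simpa [cjm_apply] using LinearMap.congr_fun e (T.s i x)))
  replace k : R M (XX β (T.s i) (cjm (T.s i) A) (cjm (T.s i) C) a b +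
      cjm (T.s i) D * rh (T.s i) (rr β b b)) := (R_cM.1 k).congr fun x => by
    simp [cjm_apply, rh_apply]; rfl
  replace c1 : CA (T.s i) (cjm (T.s i) A) := by simpa using c1.conj (T.s i)
  replace c2 : CA (T.s i) (cjm (T.s i) C) := by simpa using c2.conj (T.s i)
  replace c3 : CA (T.s i) (cjm (T.s i) D) := by simpa using c3.conj (T.s i)
  replace k' := k'.imp (And.imp_right (ns D)) (And.imp_right (ns A))
  generalize cjm (T.s i) A = A at *
  generalize cjm (T.s i) C = C at *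
  generalize cjm (T.s i) D = D at *
  have hs : ∀ x y, R M x → R M y → x * y = 0 → y * y = 0 → R M (x - y) :=
    fun x y hx hy e e' => R_sub hx hy e' e
  have fin : ∀ t γ, CA (T.s i) γ → (∀ a b, β a b = 0 → R M (γ * rh (T.s i) (eT β t a b))) →
      PT T β M {i} (fun _ => t) γ := fun t γ h1 h2 => ⟨by simpa using h1, fun a b e => by
    have := eS_insert (T := T) (β := β) (τ := fun _ => t) (Finset.notMem_empty i) t a b
    rw [update_eq_self, eS.eq_1 T β ∅] at this
    simp only [Finset.notMem_empty, if_false, ← Pi.one_def, T.PM_one, mul_one] at this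
    exact this ▸ h2 _ _ (e i (by simp))⟩
  rcases k' with ⟨rfl, k'⟩ | ⟨ha, k'⟩
  · refine ⟨1, D, gd_one H.ndW H.alt h3, k', fin _ _ c3 (cls2 H.ndW H.alt hs
      (fun σ hσ x => (hF i).cj hσ) c3 b0 ?_)⟩
    simpa [XX, rr_zero_left, rr_zero_right] using k
  obtain ⟨a', ha', e', k⟩ := cls0 H.ndW H.alt hs (fun σ hσ x => (hF i).cj hσ) c1 c2 c3 h5 b0 ha e k
  replace k := cls1 H.ndW H.alt hs (fun σ hσ x => (hF i).cj hσ) c1 c2 b0 ha' e' k
  obtain ⟨j, hj⟩ : ∃ j, ¬ CA (T.s j) A := by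
    by_contra hn; push Not at hn
    obtain ⟨c, e⟩ := T.cent _ hn
    exact k' c e
  have c0 : Com (T.s j) (T.s i) := T.com j i (by rintro rfl; exact hj c1)
  obtain ⟨x, y, e1, h0⟩ := exists_opop H.ndW H.alt h3 hj
  have hcj : ∀ z, ∀ γ : Module.End F (U ⊗[F] W) × Module.End F (U ⊗[F] W),
      (CA (T.s i) γ.1 ∧ CA (T.s i) γ.2 ∧ ∀ a b, β a b = 0 → R M (XX β (T.s i) γ.1 γ.2 a b)) →
      let γ' := (1 + (rh (T.s j) (rr β z z), rh (T.s j) (rr β z z))) * γ *
        (1 - (rh (T.s j) (rr β z z), rh (T.s j) (rr β z z)))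
      CA (T.s i) γ'.1 ∧ CA (T.s i) γ'.2 ∧ ∀ a b, β a b = 0 → R M (XX β (T.s i) γ'.1 γ'.2 a b) :=
    fun z γ h => ⟨((CA.one.add (c0 _)).mul h.1).mul (CA.one.sub (c0 _)),
      ((CA.one.add (c0 _)).mul h.2.1).mul (CA.one.sub (c0 _)), fun a b e => by
      convert R_conj (h.2.2 a b e) ((hF j).root1 H.alt z) (rh_r1_mul _ _ (aa z)) using 1
      simp only [XX, Prod.fst_mul, Prod.snd_mul, Prod.fst_add, Prod.snd_add, Prod.fst_sub,
        Prod.snd_sub, Prod.fst_one, Prod.snd_one, mul_add _ (γ.1 * _), add_mul (_ * (γ.1 * _)),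
        mul_assoc, (CA.one.sub (c0 _) _).eq]⟩
  obtain ⟨d1, d2, d3⟩ := opop (P := fun γ : Module.End F (U ⊗[F] W) × Module.End F (U ⊗[F] W) =>
      CA (T.s i) γ.1 ∧ CA (T.s i) γ.2 ∧ ∀ a b, β a b = 0 → R M (XX β (T.s i) γ.1 γ.2 a b))
    (fun γ γ' h h' => ⟨h.1.sub h'.1, h.2.1.sub h'.2.1, fun a b e => by
      have z := fun A C => XX_mul (A := A) (C := C) h'.1 h'.2.1 (aa a) e (SS.rW e) (aa b)
      convert R_sub (h.2.2 a b e) (h'.2.2 a b e) (z _ _) (z _ _) using 1
      simp only [XX, Prod.fst_sub, Prod.snd_sub, sub_mul]; abel⟩) (hcj x) (hcj y)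
    (Prod.ext (rh_r1_mul _ _ e1) (rh_r1_mul _ _ e1))
    (Prod.ext (rh_r1_mul _ _ (SS.rW e1)) (rh_r1_mul _ _ (SS.rW e1))) (γ := (A, C)) ⟨c1, c2, k⟩
  obtain ⟨t, c, d, k1, k2, k3⟩ := cls3 H.ndW H.alt hs (fun σ hσ x => (hF i).cj hσ) d1 d2 h3
    (SS.rW e) (fun e2 => by
      obtain ⟨f, f1, f2⟩ := exists_orth_one H.ndW H.alt.isRefl _ ha
      replace f1 := f1 b (Submodule.mem_span_singleton_self b)
      have := congrArg (· * rh (T.s i) (rr β f f)) e2
      simp only [XX, add_mul _ _ (rh (T.s i) _), mul_assoc _ (rh (T.s i) _), ← map_mul, rr_mul, f1,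
        f2, zero_smul, one_smul, map_zero, mul_zero, add_zero, zero_mul] at this
      exact h0 (d1.eq_zero (r1_ne (SS.ne (by rintro rfl; simp at f2)) b0) this)) (d3 _ _ (SS.rW e))
  refine ⟨t, _, k1, fun c' e2 => k2 ?_, fin _ _
    (fun z => ((d1 z).smul_left c).add_left ((d2 z).smul_left d)) k3⟩
  have := congrArg (rh (T.s j) (rr β x x) * ·) e2
  simp only [Prod.fst_mul, Prod.snd_mul, Prod.fst_add, Prod.snd_add, mul_add, mul_smul_comm,
    ← mul_assoc, rh_r1_mul _ _ e1, rh_r1_mul _ _ (aa x), zero_mul, smul_zero, add_zero,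
    mul_one] at this
  rw [e2, (smul_eq_zero.1 this.symm).resolve_right fun e3 => h0 (by rw [e3]; simp), zero_smul]

theorem loop [Nontrivial W] (n : ℕ) : ∀ (S : Finset I) τ γ, Fintype.card I - S.card = n →
    2 ≤ S.card → γ ≠ 0 → (∀ j ∈ S, Gd β (τ j)) → PT T β M S τ γ →
    ∃ (S : Finset I) (τ : I → F), 2 ≤ S.card ∧ (∀ j ∈ S, Gd β (τ j)) ∧ PT T β M S τ 1 := by
  induction n using Nat.strong_induction_on with
  | _ n ih =>
  intro S τ γ hS h2 h0 hG h
  obtain ⟨i, hi⟩ := Finset.card_pos.1 (show 0 < S.card by omega)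
  by_cases hc : ∃ j ∉ S, ¬ CA (T.s j) γ
  · obtain ⟨j, hj, hc⟩ := hc
    obtain ⟨t, γ', k1, k2, k3⟩ := H.step h5 hF h hi hj hc
    have := Finset.card_insert_of_notMem hj
    have := Finset.card_le_univ (insert j S)
    refine ih _ (by omega) _ _ _ rfl (by omega) k1 (fun l hl => ?_) k3
    by_cases e : l = j
    · simpa [e] using k2
    · simpa [e] using hG l (by simpa [e] using hl)
  push Not at hc
  obtain ⟨c, e⟩ := T.cent γ fun j => by
    by_cases hj : j ∈ S
    exacts [h.1 j hj, hc j hj]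
  exact ⟨S, τ, h2, hG, h.one hi e h0⟩

theorem extract [Nontrivial U] [Nontrivial W] (hM : M ≤ SG B) {i : I} (hS : ¬ StdG β M (T.s i)) :
    ∃ (S : Finset I) (τ : I → F), 2 ≤ S.card ∧ (∀ j ∈ S, Gd β (τ j)) ∧ PT T β M S τ 1 := by
  obtain ⟨t, γ, k1, k2, k3⟩ := H.start h5 hF hM hS
  obtain ⟨j, hj⟩ : ∃ j, ¬ CA (T.s j) γ := by
    by_contra hn; push Not at hn
    obtain ⟨c, e⟩ := T.cent _ hn
    exact k2 c e
  have hji : j ∉ ({i} : Finset I) := fun e => hj (k3.1 j e)
  obtain ⟨t', γ', k4, k5, k6⟩ := H.step h5 hF k3 (Finset.mem_singleton_self i) hji hj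
  refine H.loop h5 hF _ _ _ _ rfl (by simp [Finset.card_insert_of_notMem hji]) k4 (fun l _ => ?_) k6
  by_cases e : l = j
  · simpa [e] using k5
  · simpa [e] using k1

end TF

end Cfsg.Agent.Max3
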