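import Mathlib
import Cfsg.Agent.Max3.SW4

/-!
# Tensor powers of a symplectic space: growing the set of factors
-/

set_option autoImplicit false
set_option linter.unusedSectionVars false
set_option linter.unusedSimpArgs false

namespace Cfsg.Agent.Max3

open Module Cfsg.Agent.Max Cfsg.Agent.Max2 TensorProduct Function Classical.SpWitt

variable {F U W : Type*} [Field F] [AddCommGroup U] [Module F U] [AddCommGroup W] [Module F W]
  {B : LinearMap.BilinForm F (U ⊗[F] W)} {β : LinearMap.BilinForm F W} {κ : F}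
  {M : Subgroup ((U ⊗[F] W) ≃ₗ[F] (U ⊗[F] W))} {g : (U ⊗[F] W) ≃ₗ[F] (U ⊗[F] W)}
  {I : Type} [DecidableEq I] [Fintype I] {T : TP I F U W} {S S' : Finset I} {τ τ' : I → F}

/-- The maps of type `τ`. -/
abbrev ES (β : LinearMap.BilinForm F W) (τ : F) : Set (Module.End F W) :=
  {x | ∃ a b, β a b = 0 ∧ x = eT β τ a b}

/-- The tensor product of the maps `p j ↦ q j` in the factors of `S`. -/
noncomputable def ZZ (T : TP I F U W) (β : LinearMap.BilinForm F W) (S : Finset I) (p q : I → W) :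
    Module.End F (U ⊗[F] W) := T.PM fun j => if j ∈ S then rr β (p j) (q j) else 1

/-- `M` contains the elements `1 + c n_S`. -/
def PN (T : TP I F U W) (β : LinearMap.BilinForm F W)
    (M : Subgroup ((U ⊗[F] W) ≃ₗ[F] (U ⊗[F] W))) (S : Finset I) : Prop :=
  ∀ (c : F) b, R M (c • ZZ T β S b b)

theorem clo1 : ES β 1 ⊆ AddSubgroup.closure {x | ∃ b, x = rr β b b} := by
  rintro _ ⟨a, b, -, rfl⟩
  have k : ∀ b, rr β b b ∈ AddSubgroup.closure {x | ∃ b, x = rr β b b} :=
    fun b => AddSubgroup.subset_closure ⟨b, rfl⟩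
  convert sub_mem (sub_mem (k (a + b)) (k a)) (k b) using 1
  simp only [eT, rr_add_left, rr_add_right, one_smul]; abel_nf; rfl

theorem ZZ_upd {j : I} (hj : j ∈ S) (p q : I → W) (a b : W) :
    ZZ T β S (update p j a) (update q j b) = rh (T.s j) (rr β a b) *
      T.PM (update (fun j => if j ∈ S then rr β (p j) (q j) else 1) j 1) := by
  rw [← T.PM_upd, ZZ]
  congr 1
  funext l
  by_cases e : l = j
  · subst e; simp [hj]
  · simp [e]

theorem ZZ_mul (hA : β.IsAlt) {i : I} (hi : i ∈ S) {p q p' q' : I → W} (h : p i = q' i) :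
    ZZ T β S p q * ZZ T β S p' q' = 0 :=
  T.PM_mul_zero (i := i) (by simp [hi, rr_mul, h, hA (q' i)])

theorem PN.perm (h : PN T β M S) {σ : Equiv.Perm I} (hσ : T.PP σ ∈ M) :
    PN T β M (S.map σ.toEmbedding) := fun c b => by
  convert (h c (b ∘ σ)).conj hσ using 1
  change _ = cjm _ _
  have : cjm (T.PP σ) (c • ZZ T β S (b ∘ σ) (b ∘ σ)) = c • cjm (T.PP σ) (ZZ T β S (b ∘ σ) (b ∘ σ)) :=
    by ext; simp [cjm_apply]
  rw [this, ZZ, ZZ, T.cjm_PP]
  congr 2
  funext j
  simp [Finset.mem_map_equiv]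

theorem map_three {i l j : I} (hi : i ∈ S) (hl : l ∈ S) (h : i ≠ l) (hj : j ∉ S) :
    S.map (Equiv.swap l j * Equiv.swap j i).toEmbedding = insert j (S.erase i) := by
  have a : i ≠ j := by rintro rfl; exact hj hi
  have b : l ≠ j := by rintro rfl; exact hj hl
  ext x
  simp only [Finset.mem_map_equiv, Finset.mem_insert, Finset.mem_erase]
  change (Equiv.swap l j * Equiv.swap j i)⁻¹ x ∈ S ↔ _
  simp only [mul_inv_rev, Equiv.swap_inv, Equiv.Perm.mul_apply, Equiv.swap_apply_def]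
  have := h.symm
  split_ifs <;> simp_all

theorem PN.of_pt (h2 : (2 : F) ≠ 0) (hA : β.IsAlt) (h : PT T β M S τ 1) (e : ∀ j ∈ S, τ j = 1)
    {i : I} (hi : i ∈ S) : PN T β M S := fun c b => by
  have := h.2 (fun j => (update (1 : I → F) i c j / 2) • b j) b fun j _ => by simp [hA (b j)]
  have k := T.PM_smul (update 1 i c) fun j => if j ∈ S then rr β (b j) (b j) else 1
  rw [Finset.prod_update_of_mem (Finset.mem_univ i)] at k
  simp only [Pi.one_apply, Finset.prod_const_one, mul_one] at k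
  rw [ZZ, ← k]
  convert this using 1
  rw [one_mul, eS]
  congr 1
  funext j
  by_cases hj : j ∈ S
  · simp only [hj, if_true, eT, e j hj, rr_smul_left, rr_smul_right, one_smul, ← add_smul]
    congr 1; field_simp; ring
  · simp [hj, update_of_ne (show j ≠ i by rintro rfl; exact hj hi)]

variable [FiniteDimensional F W] (hB : β.Nondegenerate) (hA : β.IsAlt)
include hB hA

theorem PN.comm (h : PN T β M S) (h' : PN T β M S') {i i' : I} (hi : i ∈ S) (hi1 : i ∉ S')
    (hi' : i' ∈ S') (hi2 : i' ∉ S) (p q : I → W) (e : ∀ j ∉ S ∩ S', p j = q j) (c : F) :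
    R M (c • (ZZ T β (S ∪ S') p q - (-1 : F) ^ (S ∩ S').card • ZZ T β (S ∪ S') q p)) := by
  have aa := hA.self_eq_zero
  by_cases h0 : ∃ j ∈ S ∩ S', q j = 0
  · obtain ⟨j, hj, h0⟩ := h0
    have hj' : j ∈ S ∪ S' := Finset.inter_subset_union hj
    rw [ZZ, ZZ, T.PM_zero (i := j) (by simp only [hj', if_true, h0, rr_zero_right]),
      T.PM_zero (i := j) (by simp only [hj', if_true, h0, rr_zero_left])]
    simpa using R.zero
  push Not at h0
  have iS : i ∉ S ∩ S' := by simp [hi1]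
  have iU : i ∈ S ∪ S' := by simp [hi]
  revert e c
  refine free_ind (T := S ∩ S') (f := fun j => β (q j)) (P := fun p => (∀ j ∉ S ∩ S', p j = q j) →
    ∀ c : F, R M (c • (ZZ T β (S ∪ S') p q - (-1 : F) ^ (S ∩ S').card • ZZ T β (S ∪ S') q p)))
    (fun p j hj a b d ha hb e c => ?_) (fun j hj e => h0 j hj (hB.1 _ fun y => by simp [e]))
    (fun p hp e c => ?_) p
  · have e' : ∀ a, ∀ l ∉ S ∩ S', update p j a l = q l := fun a l hl => by
      have : l ≠ j := by rintro rfl; exact hl hj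
      simpa [this] using e l hl
    have hj' : j ∈ S ∪ S' := Finset.inter_subset_union hj
    have z := fun a b => ZZ_mul (T := T) hA iU (p := update p j a) (q := q) (p' := update p j b)
      (q' := q) (e' a i iS)
    have z1 := fun a b => ZZ_mul (T := T) hA iU (p := update p j a) (q := q) (p' := q)
      (q' := update p j b) ((e' a i iS).trans (e' b i iS).symm)
    have z2 := fun a b => ZZ_mul (T := T) hA iU (p := q) (q := update p j a) (p' := update p j b)
      (q' := q) rfl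
    have z3 := fun a b => ZZ_mul (T := T) hA iU (p := q) (q := update p j a) (p' := q)
      (q' := update p j b) (e' b i iS).symm
    convert R_sub (ha (e' a) c) (hb (e' b) (c * d))
      (by simp [mul_sub, sub_mul, z, z1, z2, z3]) (by simp [mul_sub, sub_mul, z, z1, z2, z3]) using 1
    have u1 := fun a => ZZ_upd (T := T) (β := β) hj' p q a (q j)
    have u2 := fun a => ZZ_upd (T := T) (β := β) hj' q p (q j) a
    simp only [update_eq_self] at u1 u2
    simp only [u1, u2, sub_eq_add_neg a, ← neg_smul, rr_add_left, rr_add_right, rr_smul_left,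
      rr_smul_right, map_add, map_smul, add_mul, smul_mul_assoc]
    module
  have k1 : ZZ T β S q q * ZZ T β S' p p = ZZ T β (S ∪ S') p q := by
    rw [ZZ, ZZ, ZZ, ← T.PM_mul]
    congr 1
    funext j
    by_cases b1 : j ∈ S <;> by_cases b2 : j ∈ S' <;> simp [b1, b2, rr_mul, hp, e]
  have k2 : ZZ T β S' p p * ZZ T β S q q = (-1 : F) ^ (S ∩ S').card • ZZ T β (S ∪ S') q p := by
    rw [ZZ, ZZ, ZZ, ← T.PM_mul, ← Finset.prod_const, ← Finset.prod_ite_mem_eq, ← T.PM_smul]
    congr 1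
    funext j
    by_cases b1 : j ∈ S <;> by_cases b2 : j ∈ S' <;> simp [b1, b2, rr_mul, ← hA.neg_eq (q j), hp, e]
  have := R_comm2 (h c q) (h' 1 p) (by simp [ZZ_mul hA hi]) (by simp [ZZ_mul hA hi'])
    (by
      simp only [smul_mul_assoc, mul_smul_comm, one_smul, k1]
      rw [ZZ, ZZ, T.PM_mul_zero (i := i) (by simp [hi, rr_mul, e i iS, aa])]; simp)
    (by
      simp only [smul_mul_assoc, mul_smul_comm, one_smul, k2]
      rw [ZZ, ZZ, T.PM_mul_zero (i := i') (by simp [hi', rr_mul, e i' (by simp [hi2]), aa])]; simp)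
  simpa only [smul_mul_assoc, mul_smul_comm, one_smul, k1, k2, smul_sub] using this

theorem clo2 (h3 : 3 ≤ finrank F W) (t : F) :
    ES β t ⊆ AddSubgroup.closure {x | ∃ b c, β c b = 0 ∧ c ∉ F ∙ b ∧ x = eT β t c b} := by
  rintro _ ⟨a, b, e, rfl⟩
  by_cases h : a ∈ F ∙ b
  swap
  · exact AddSubgroup.subset_closure ⟨b, a, e, h, rfl⟩
  obtain ⟨c, h1, h2⟩ := exists_ker_not_mem h3 (β b) b
  replace h1 := hA.isRefl _ _ h1
  convert sub_mem (AddSubgroup.subset_closure (k := {x | ∃ b c, β c b = 0 ∧ c ∉ F ∙ b ∧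
    x = eT β t c b}) ⟨b, a + c, by simp [e, h1], by rwa [Submodule.add_mem_iff_right _ h], rfl⟩)
    (AddSubgroup.subset_closure ⟨b, c, h1, h2, rfl⟩) using 1
  simp only [eT, rr_add_left, rr_add_right, smul_add]; abel_nf; rfl

theorem gd_of (h3 : 3 ≤ finrank F W) {t : F} (h : t * t = 1) : Gd β t := by
  have : Nontrivial W := Module.nontrivial_of_finrank_pos (R := F) (by omega)
  obtain ⟨b, hb⟩ := exists_ne (0 : W)
  obtain ⟨c, h1, h2⟩ := exists_ker_not_mem h3 (β b) b
  exact ⟨mul_self_eq_one_iff.1 h, c, b, hA.isRefl _ _ h1, eT_ne hB hA t hb h2⟩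

theorem pair_ns (h3 : 3 ≤ finrank F W) (t t' : F) (b : W) : ∃ x ∈ ES β t, ∃ x' ∈ ES β t',
    x * x' = rr β b b ∧ x' * x = -(t * t') • rr β b b ∧ x * x' * x = 0 ∧ x' * x * x' = 0 := by
  obtain ⟨a, h1, h2⟩ := exists_ker_not_mem h3 (β b) b
  obtain ⟨d, h3, h4⟩ := exists_orth_one hB hA.isRefl _ h2
  replace h3 := h3 b (Submodule.mem_span_singleton_self b)
  have h5 := hA.isRefl _ _ h1
  have h6 := hA.isRefl _ _ h3
  have h7 : β d a = -1 := by rw [← hA.neg_eq, h4]
  have e1 : eT β t a b * eT β t' b d = rr β b b := by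
    simp [eT, mul_add, add_mul, rr_mul, hA b, *]
  have e2 : eT β t' b d * eT β t a b = -(t * t') • rr β b b := by
    simp [eT, mul_add, add_mul, rr_mul, hA b, smul_smul, *]
  refine ⟨_, ⟨a, b, h5, rfl⟩, _, ⟨b, d, h3, rfl⟩, e1, e2, ?_, ?_⟩
  · rw [e1]; simp [eT, mul_add, rr_mul, hA b, *]
  · rw [e2]; simp [eT, mul_add, rr_mul, hA b, *]

theorem pair_sp {t t' : F} (h5 : 5 ≤ finrank F W ∨ (2 : F) ≠ 0 ∧ t' = 1) (ht : t * t = 1) {b c : W}
    (e : β c b = 0) (hc : c ∉ F ∙ b) : ∃ x ∈ ES β t, ∃ x' ∈ ES β t',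
    x * x' = rr β c b ∧ x' * x = -(t * t') • rr β b c := by
  have e' := hA.isRefl _ _ e
  rcases h5 with h5 | ⟨h2, rfl⟩
  · obtain ⟨a, d, h1, h2, h3, h4, h5, -⟩ := hyp5 hB hA h5 b c
    have h7 : β d a = -1 := by rw [← hA.neg_eq, h5]
    have h8 := hA.isRefl _ _ h1
    have h9 := hA.isRefl _ _ h2
    have h10 := hA.isRefl _ _ h3
    refine ⟨_, ⟨a, b, h8, rfl⟩, _, ⟨c, d, h4, rfl⟩, ?_, ?_⟩ <;>
      simp [eT, mul_add, add_mul, rr_mul, smul_smul, *]
  obtain ⟨d, h3, h4⟩ := exists_orth_one hB hA.isRefl _ hc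
  replace h3 := h3 b (Submodule.mem_span_singleton_self b)
  have h7 : β d c = -1 := by rw [← hA.neg_eq, h4]
  have h8 : eT β 1 ((2 : F)⁻¹ • c) c = rr β c c := by
    simp only [eT, rr_smul_left, rr_smul_right, one_smul, ← add_smul]
    rw [show (2 : F)⁻¹ + 2⁻¹ = 1 by field_simp; norm_num, one_smul]
  refine ⟨_, ⟨b, -t • d, by simp [h3], rfl⟩, _, ⟨(2 : F)⁻¹ • c, c, by simp [hA c], rfl⟩, ?_, ?_⟩ <;>
    rw [h8] <;> simp [eT, mul_add, add_mul, rr_mul, smul_smul, rr_smul_left, rr_smul_right, -neg_smul, *]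

theorem PT.comm (h3 : 3 ≤ finrank F W) (h : PT T β M S τ 1) (h' : PT T β M S' τ' 1) {l i i' : I}
    (hl : l ∈ S) (hl' : l ∈ S') (h5 : 5 ≤ finrank F W ∨ (2 : F) ≠ 0 ∧ τ' l = 1)
    (hτ : τ l * τ l = 1) (hi : i ∈ S) (hil : i ≠ l) (hi' : i' ∈ S') (hil' : i' ≠ l) :
    Fm T M fun j => if j = l then {x | ∃ b c, β c b = 0 ∧ c ∉ F ∙ b ∧
        x = eT β (-∏ j ∈ S ∩ S', -(τ j * τ' j)) c b}
      else if j ∈ S then (if j ∈ S' then {x | ∃ b, x = rr β b b} else ES β (τ j))
      else if j ∈ S' then ES β (τ' j) else {1} := by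
  intro y hy
  obtain ⟨b, c, e1, e2, e3⟩ : ∃ b c, β c b = 0 ∧ c ∉ F ∙ b ∧
    y l = eT β (-∏ j ∈ S ∩ S', -(τ j * τ' j)) c b := by simpa using hy l
  have : ∀ j, ∃ x x', x ∈ (if j ∈ S then ES β (τ j) else {1}) ∧
      x' ∈ (if j ∈ S' then ES β (τ' j) else {1}) ∧ x * x' = update y l (rr β c b) j ∧
      x' * x = (if j ∈ S ∩ S' then -(τ j * τ' j) else 1) • update y l (rr β b c) j ∧
      (j ≠ l → j ∈ S → x * x' * x = 0) ∧ (j ≠ l → j ∈ S' → x' * x * x' = 0) := fun j => by
    by_cases e : j = l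
    · subst e
      obtain ⟨x, a1, x', a2, a3, a4⟩ := pair_sp hB hA h5 hτ e1 e2
      exact ⟨x, x', by simpa only [hl, if_true], by simpa only [hl', if_true], by simpa,
        by simpa [hl, hl'] using a4, by simp, by simp⟩
    have k := hy j
    simp only [e, if_false] at k
    by_cases b1 : j ∈ S <;> by_cases b2 : j ∈ S' <;> simp only [b1, b2, if_true, if_false] at k ⊢
    · obtain ⟨w, hw⟩ := k
      obtain ⟨x, a1, x', a2, a3, a4, a5, a6⟩ := pair_ns hB hA h3 (τ j) (τ' j) w
      exact ⟨x, x', a1, a2, by simpa [e, hw], by simpa [e, hw, b1, b2] using a4, fun _ _ => a5,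
        fun _ _ => a6⟩
    · refine ⟨y j, 1, k, rfl, by simp [e], by simp [e, b2], fun _ _ => ?_, by simp⟩
      obtain ⟨a, a', k1, k2⟩ := k
      rw [mul_one, k2, eT_sq hA _ k1]
    · refine ⟨1, y j, rfl, k, by simp [e], by simp [e, b1], by simp, fun _ _ => ?_⟩
      obtain ⟨a, a', k1, k2⟩ := k
      rw [mul_one, k2, eT_sq hA _ k1]
    · exact ⟨1, 1, rfl, rfl, by simpa [e] using k.symm, by simpa [e, b1] using k.symm, by simp,
        by simp⟩
  choose x x' a1 a2 a3 a4 a5 a6 using this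
  have sq : ∀ {t} {z}, z ∈ ES β t → z * z = 0 := by
    rintro _ _ ⟨a, b, e, rfl⟩; exact eT_sq hA _ e
  convert R_comm2 (pt_iff.1 h x a1) (pt_iff.1 h' x' a2)
    (T.PM_mul_zero (i := l) (sq (by simpa only [hl, if_true] using a1 l)))
    (T.PM_mul_zero (i := l) (sq (by simpa only [hl', if_true] using a2 l)))
    (by rw [← T.PM_mul]; exact T.PM_mul_zero (i := i) (a5 i hil hi))
    (by rw [← T.PM_mul]; exact T.PM_mul_zero (i := i') (a6 i' hil' hi')) using 1
  rw [← T.PM_mul, ← T.PM_mul, show x * x' = _ from funext a3, show x' * x = _ from funext a4,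
    T.PM_smul, Finset.prod_ite_mem_eq, T.PM_upd, T.PM_upd y l (rr β b c), ← smul_mul_assoc,
    ← sub_mul, ← map_smul, ← map_sub, ← T.PM_upd, sub_eq_add_neg, ← neg_smul]
  exact congrArg _ (eq_update_self_iff.2 e3)

theorem PT.union (h3 : 3 ≤ finrank F W) (h : PT T β M S τ 1) (h' : PT T β M S' τ' 1) {l i i' : I}
    (hl : l ∈ S) (hl' : l ∈ S') (h5 : 5 ≤ finrank F W ∨ (2 : F) ≠ 0 ∧ τ' l = 1)
    (hτ : ∀ j ∈ S, τ j * τ j = 1) (hτ' : ∀ j ∈ S', τ' j * τ' j = 1) (hi : i ∈ S) (hi1 : i ∉ S')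
    (hi' : i' ∈ S') (hil' : i' ≠ l) :
    ∃ τ'' : I → F, (∀ j ∈ S ∪ S', τ'' j * τ'' j = 1) ∧ PT T β M (S ∪ S') τ'' 1 := by
  have hil : i ≠ l := by rintro rfl; exact hi1 hl'
  refine ⟨fun j => if j = l then -∏ j ∈ S ∩ S', -(τ j * τ' j) else if j ∈ S then
    (if j ∈ S' then 1 else τ j) else τ' j, fun j hj => ?_,
    pt_iff.2 ((h.comm hB hA h3 h' hl hl' h5 (hτ l hl) hi hil hi' hil').clo (i := i) ?_ ?_ ?_)⟩
  · dsimp only
    split_ifs with b1 b2 b3
    · rw [neg_mul_neg, ← Finset.prod_mul_distrib]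
      refine Finset.prod_eq_one fun j hj => ?_
      linear_combination τ' j * τ' j * hτ j (Finset.mem_inter.1 hj).1 +
        hτ' j (Finset.mem_inter.1 hj).2
    exacts [one_mul _, hτ j b2, hτ' j (by simpa [b2] using hj)]
  · simp only [hil, hi, hi1, if_true, if_false]
    rintro _ ⟨a, b, e, rfl⟩; exact eT_sq hA _ e
  · simp [hil, hi, hi1]
  intro j _
  by_cases e : j = l
  · subst e; simpa [hl] using clo2 hB hA h3 _
  by_cases b1 : j ∈ S <;> by_cases b2 : j ∈ S' <;>
    simp only [e, b1, b2, Finset.mem_union, if_true, if_false, or_true, true_or, or_false]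
  exacts [clo1, AddSubgroup.subset_closure, AddSubgroup.subset_closure, AddSubgroup.subset_closure]

namespace TF

variable (H : TF T B β κ) (hM : M ≤ SG B)
  (hP : ∀ i j k : I, i ≠ j → k ≠ j → T.PP (Equiv.swap i j * Equiv.swap j k) ∈ M)
omit hB hA
include H hM

theorem pn_odd (h2 : (2 : F) ≠ 0) [Nontrivial W] (h : PN T β M S) {i : I} (hi : i ∈ S) :
    Odd S.card := by
  obtain ⟨b, hb⟩ := exists_ne (0 : W)
  rw [← Nat.not_even_iff_odd]
  intro he
  have k := h 1 fun _ => b
  rw [one_smul] at k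
  refine H.PM_ne (x := fun j => if j ∈ S then rr β b b else 1) (fun j => ?_)
    (LinearMap.ext fun u => H.nd.1 _ fun v => mul_left_cancel₀ h2 ?_)
  · split_ifs
    exacts [r1_ne (fun e => hb (H.ndW.1 b fun y => by simp [e])) hb, one_ne_zero]
  have a1 := skew_of_R hM k (ZZ_mul H.alt hi rfl) u v
  have a2 := H.adj (x := fun j => if j ∈ S then rr β b b else 1)
    (ε := fun j => if j ∈ S then -1 else 1)
    (x' := fun j => if j ∈ S then rr β b b else 1) (fun j c d => by
      by_cases hj : j ∈ S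
      · simp [hj, ← H.alt.neg_eq b c]
        ring
      · simp [hj]) u v
  rw [Finset.prod_ite_mem_eq, Finset.prod_const, he.neg_one_pow] at a2
  simp only [ZZ] at a1
  linear_combination a1 + a2

include hP

omit H hM in
theorem pn_move (h : PN T β M S) (h2 : 2 ≤ S.card) {i j : I} (hi : i ∈ S) (hj : j ∉ S) :
    PN T β M (insert j (S.erase i)) := by
  obtain ⟨l, hl, hil⟩ := Finset.exists_mem_ne h2 i
  exact map_three hi hl hil.symm hj ▸
    h.perm (hP l j i (by rintro rfl; exact hj hl) (by rintro rfl; exact hj hi))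

theorem pn_grow (h2 : (2 : F) ≠ 0) [Nontrivial W] (n : ℕ) : ∀ S : Finset I,
    Fintype.card I - S.card = n → 2 ≤ S.card → PN T β M S → PN T β M Finset.univ ∨
      (Even (Fintype.card I) ∧ ∀ i j, i ≠ j → ∀ p q : I → W, p i = q i → p j = q j → ∀ c : F,
        R M (c • (ZZ T β Finset.univ p q - ZZ T β Finset.univ q p))) := by
  induction n using Nat.strong_induction_on with
  | _ n ih =>
  intro S hS hc h
  obtain ⟨i, hi, i', hi', hii⟩ := Finset.one_lt_card.1 hc
  have od := H.pn_odd hM h2 h hi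
  by_cases hu : S = Finset.univ
  · exact Or.inl (hu ▸ h)
  obtain ⟨j, hj⟩ : ∃ j, j ∉ S := by
    by_contra hn'; push Not at hn'; exact hu (Finset.eq_univ_of_forall hn')
  by_cases h1 : ∀ j' ∉ S, j' = j
  · have e : S = Finset.univ.erase j := by
      ext x; simpa using ⟨by rintro a rfl; exact hj a, fun a => by_contra fun b => a (h1 x b)⟩
    have k : ∀ a, PN T β M (Finset.univ.erase a) := fun a => by
      by_cases ha : a = j
      · rwa [ha, ← e]
      convert pn_move hP h hc (i := a) (by simpa [e]) hj using 1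
      ext x; by_cases x = j <;> simp_all [eq_comm]
    rw [e, Finset.card_erase_of_mem (by simp), Finset.card_univ] at od hc
    refine Or.inr ⟨by obtain ⟨r, hr⟩ := od; exact ⟨r + 1, by omega⟩, fun a b hab p q e1 e2 c => ?_⟩
    have := (k a).comm H.ndW H.alt (k b) (i := b) (i' := a) (by simp [hab.symm]) (by simp)
      (by simp [hab]) (by simp) p q (fun x hx => by
        by_cases e : x = a
        · rwa [e]
        · rwa [show x = b by simpa [e] using hx]) c
    rwa [show Finset.univ.erase a ∪ Finset.univ.erase b = Finset.univ by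
        ext x; by_cases x = a <;> simp_all,
      show Finset.univ.erase a ∩ Finset.univ.erase b = (Finset.univ.erase a).erase b by
        ext x; simp [and_comm], Finset.card_erase_of_mem (by simp [hab.symm]),
      Finset.card_erase_of_mem (by simp), Finset.card_univ,
      (Nat.Odd.sub_odd od odd_one).neg_one_pow, one_smul] at this
  push Not at h1
  obtain ⟨j', hj', hjj⟩ := h1
  have k1 := pn_move hP h hc hi hj
  have k2 := pn_move hP k1 (i := i') (j := j') (by
    rw [Finset.card_insert_of_notMem (by simp [hj]), Finset.card_erase_of_mem hi]; omega)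
    (by simp [hi', hii.symm]) (by simp [hj', hjj])
  have n1 : i ≠ j := by rintro rfl; exact hj hi
  have n2 : i ≠ j' := by rintro rfl; exact hj' hi
  refine ih _ ?_ (S ∪ insert j' ((insert j (S.erase i)).erase i')) rfl
    (hc.trans (Finset.card_le_card Finset.subset_union_left)) fun c b => ?_
  · have := Finset.card_lt_card ((Finset.ssubset_iff_of_subset (Finset.subset_union_left
      (s₂ := insert j' ((insert j (S.erase i)).erase i')))).2 ⟨j', by simp, hj'⟩)
    have := Finset.card_le_univ (S ∪ insert j' ((insert j (S.erase i)).erase i'))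
    omega
  have := h.comm H.ndW H.alt k2 (i := i) (i' := j') hi (by simp [n1, n2]) (by simp) hj' b b
    (fun _ _ => rfl) (c / 2)
  rw [show S ∩ insert j' ((insert j (S.erase i)).erase i') = (S.erase i).erase i' by
      ext x; by_cases x ∈ S <;> simp_all; aesop,
    Finset.card_erase_of_mem (by simp [hi', hii.symm]), Finset.card_erase_of_mem hi,
    Odd.neg_one_pow (by obtain ⟨r, hr⟩ := od; exact ⟨r - 1, by omega⟩)] at this
  convert this using 1
  match_scalars; field_simp; ring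

theorem pt_grow (h3 : 3 ≤ finrank F W) (h5 : (2 : F) ≠ 0 ∨ 5 ≤ finrank F W) (n : ℕ) :
    ∀ (S : Finset I) (τ : I → F), Fintype.card I - S.card = n → 2 ≤ S.card →
      (∀ j ∈ S, τ j * τ j = 1) → PT T β M S τ 1 → ∃ l, ∀ (b : I → W) c, β c (b l) = 0 →
        R M (ZZ T β Finset.univ (update b l c) b -
          (-1 : F) ^ Fintype.card I • ZZ T β Finset.univ b (update b l c)) := by
  induction n using Nat.strong_induction_on with
  | _ n ih =>
  intro S τ hS hc hτ h
  obtain ⟨i, hi, h5'⟩ : ∃ i ∈ S, 5 ≤ finrank F W ∨ (2 : F) ≠ 0 ∧ τ i = 1 := by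
    obtain ⟨i, hi⟩ := Finset.card_pos.1 (show 0 < S.card by omega)
    rcases h5 with h5 | h5
    · obtain ⟨j, hj, e⟩ := H.parity h5 hM h hi fun j hj => gd_of H.ndW H.alt h3 (hτ j hj)
      exact ⟨j, hj, Or.inr ⟨h5, e⟩⟩
    · exact ⟨i, hi, Or.inl h5⟩
  obtain ⟨l, hl, hil⟩ := Finset.exists_mem_ne hc i
  by_cases hu : S = Finset.univ
  · subst hu
    refine ⟨i, fun b c e => ?_⟩
    have := ((h.comm H.ndW H.alt h3 h hi hi h5' (hτ i hi) hl hil hl hil).clo (i := l)
      (Y := fun j => if j = i then ES β (-(-1) ^ Fintype.card I) else {x | ∃ b, x = rr β b b})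
      (by simp [hil, rr_mul, H.alt.self_eq_zero]) (by simp [hil]) fun j _ => by
        by_cases e : j = i
        · simpa [e, hτ] using clo2 H.ndW H.alt h3 _
        · simp [e])
      (update (fun j => rr β (b j) (b j)) i (eT β (-(-1) ^ Fintype.card I) c (b i))) fun j => by
        by_cases e' : j = i
        · subst e'; simp only [if_true, update_self]; exact ⟨_, _, e, rfl⟩
        · simp only [e', if_false, update_of_ne e']; exact ⟨_, rfl⟩
    have u1 := ZZ_upd (T := T) (β := β) hi b b c (b i)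
    have u2 := ZZ_upd (T := T) (β := β) hi b b (b i) c
    simp only [update_eq_self, Finset.mem_univ, if_true] at u1 u2
    rw [T.PM_upd, map_add, map_smul, add_mul, smul_mul_assoc, ← u1, ← u2] at this
    convert this using 1
    module
  obtain ⟨j, hj⟩ : ∃ j, j ∉ S := by
    by_contra hn'; push Not at hn'; exact hu (Finset.eq_univ_of_forall hn')
  have n1 : i ≠ j := by rintro rfl; exact hj hi
  have n2 : l ≠ j := by rintro rfl; exact hj hl
  have k := h.perm (hP l j i n2 n1)
  have e := map_three hi hl hil.symm hj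
  obtain ⟨τ', k1, k2⟩ := h.union H.ndW H.alt h3 k (l := l) (i := i) (i' := j) hl (by simp [e, hl, hil])
    (by simpa [← Equiv.Perm.inv_def] using h5') hτ
    (fun x hx => hτ _ (Finset.mem_map_equiv.1 hx)) hi (by simp [e, n1]) (by simp [e]) n2.symm
  rw [e] at k1 k2
  refine ih _ ?_ _ τ' rfl (hc.trans (Finset.card_le_card Finset.subset_union_left)) k1 k2
  have := Finset.card_lt_card ((Finset.ssubset_iff_of_subset (Finset.subset_union_left
    (s₂ := insert j (S.erase i)))).2 ⟨j, by simp, hj⟩)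
  have := Finset.card_le_univ (S ∪ insert j (S.erase i))
  omega

end TF

end Cfsg.Agent.Max3
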