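import Mathlib
import Cfsg.Agent.Max3.SW5

/-!
# Maximality of the stabiliser of a symplectic tensor power decomposition in `Sp` and `Ω⁺`
-/

set_option autoImplicit false
set_option linter.unusedSectionVars false
set_option linter.unusedSimpArgs false

namespace Cfsg.Agent.Max3

open Module Cfsg.Agent.Max Cfsg.Agent.Max2 TensorProduct Function Classical.SpWitt
open Cfsg.Agent.Orth QuadraticMap

variable {F U W : Type*} [Field F] [AddCommGroup U] [Module F U] [AddCommGroup W] [Module F W]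
  {B : LinearMap.BilinForm F (U ⊗[F] W)} {β : LinearMap.BilinForm F W} {κ : F}
  {M : Subgroup ((U ⊗[F] W) ≃ₗ[F] (U ⊗[F] W))} {g : (U ⊗[F] W) ≃ₗ[F] (U ⊗[F] W)}
  {I : Type} [DecidableEq I] [Fintype I] {T : TP I F U W} {S : Finset I}

theorem TP.free_mem (T : TP I F U W) {f : I → Dual F W} {Y : Submodule F (U ⊗[F] W)}
    (hf : ∀ j ∈ S, f j ≠ 0) (u : I → W)
    (h : ∀ ws, (∀ j ∈ S, f j (ws j) = 1) → (∀ j ∉ S, ws j = u j) → T.pt ws ∈ Y) : T.pt u ∈ Y :=
  free_ind (P := fun ws => (∀ j ∉ S, ws j = u j) → T.pt ws ∈ Y) (fun ws j hj a b c ha hb e => by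
    have e' : ∀ a, ∀ l ∉ S, update ws j a l = u l := fun a l hl => by
      have : l ≠ j := by rintro rfl; exact hl hj
      simpa [this] using e l hl
    rw [T.pt.map_update_sub, T.pt.map_update_smul]
    exact sub_mem (ha (e' a)) (Y.smul_mem _ (hb (e' b)))) hf h u fun _ _ => rfl

theorem ZZ_smul (l : I) (b : I → W) (c : W) (d e : F) :
    ZZ T β Finset.univ (update b l (d • c)) b - e • ZZ T β Finset.univ b (update b l (d • c)) =
      d • (ZZ T β Finset.univ (update b l c) b - e • ZZ T β Finset.univ b (update b l c)) := by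
  have u1 := fun c => ZZ_upd (T := T) (β := β) (Finset.mem_univ l) b b c (b l)
  have u2 := fun c => ZZ_upd (T := T) (β := β) (Finset.mem_univ l) b b (b l) c
  simp only [update_eq_self] at u1 u2
  simp only [u1, u2, rr_smul_left, rr_smul_right, map_smul, smul_mul_assoc]
  module

namespace TF

variable (H : TF T B β κ) [FiniteDimensional F W]
include H

theorem ne {a : W} (ha : a ≠ 0) : β a ≠ 0 := fun e => ha (H.ndW.1 a fun y => by simp [e])

theorem span2 (hk : finrank F W = 2) {a b : W} (hb : b ≠ 0) (h : β a b = 0) : a ∈ F ∙ b := by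
  obtain ⟨y, hy⟩ := exists_one H.ndW H.alt.isRefl hb
  rw [span_two H.alt hk.le hy a, H.alt.isRefl _ _ h, zero_smul, zero_sub]
  exact neg_mem (Submodule.smul_mem _ _ (Submodule.mem_span_singleton_self b))

theorem ZZ_apply (a b : I → W) (v : U ⊗[F] W) :
    ZZ T β Finset.univ a b v = (κ⁻¹ * B (T.pt a) v) • T.pt b := by
  simpa [ZZ] using H.zall a b v

variable [Finite F] [FiniteDimensional F U] [Nontrivial U] [Nonempty I]

theorem fac (h2 : 2 ≤ finrank F W) {G : Subgroup ((U ⊗[F] W) ≃ₗ[F] (U ⊗[F] W))}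
    (hH : ∀ g ∈ G, g ∈ T.Wr → g ∈ M) {i : I} (hG : Fac β G (T.s i)) : Fac β M (T.s i) :=
  fun σ hσ => hH _ (hG σ hσ) (T.root_mem h2 i (x := σ.toLinearMap - 1) fun v => by
    simp [fE_apply])

theorem dich (hk : finrank F W = 2 ∨ 4 ≤ finrank F W) (h2 : (2 : F) = 0 → 5 ≤ finrank F W)
    (h3 : finrank F W = 2 → Nat.card F ≠ 3) (hM : M ≤ SG B) (hF : ∀ i, Fac β M (T.s i))
    (hP : ∀ i j k : I, i ≠ j → k ≠ j → T.PP (Equiv.swap i j * Equiv.swap j k) ∈ M)
    (hg : g ∈ M) (hg' : g ∉ T.Wr) :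
    (3 ≤ finrank F W ∧ ∃ l, ∀ (b : I → W) c, β c (b l) = 0 → ∀ d : F,
      R M (d • (ZZ T β Finset.univ (update b l c) b -
        (-1 : F) ^ Fintype.card I • ZZ T β Finset.univ b (update b l c)))) ∨
    (finrank F W = 2 ∧ (PN T β M Finset.univ ∨
      (Even (Fintype.card I) ∧ ∀ i j, i ≠ j → ∀ p q : I → W, p i = q i → p j = q j → ∀ c : F,
        R M (c • (ZZ T β Finset.univ p q - ZZ T β Finset.univ q p))))) := by
  have : Nontrivial W := Module.nontrivial_of_finrank_pos (R := F) (by omega)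
  have h5 : (2 : F) ≠ 0 ∨ 5 ≤ finrank F W := (em _).symm.imp_right h2
  obtain ⟨i, hS⟩ : ∃ i, ¬ StdG β M (T.s i) := by
    by_contra hS
    push Not at hS
    rcases hk with hk | hk
    · exact hg' (H.wr_two hk (h5.resolve_right (by omega)) (h3 hk) hM hF hS hg)
    · exact hg' (H.wr_big hk h2 hM hF hS hg)
  obtain ⟨S, τ, k1, k2, k3⟩ := H.extract h5 hF hM hS
  rcases hk with hk | hk
  · have h2 := h5.resolve_right (by omega)
    obtain ⟨i, hi⟩ := Finset.card_pos.1 (show 0 < S.card by omega)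
    refine Or.inr ⟨hk, H.pn_grow hM hP h2 _ S rfl k1 (PN.of_pt h2 H.alt k3 (fun j hj => ?_) hi)⟩
    obtain ⟨e | e, a, b, e1, e2⟩ := k2 j hj
    · exact e
    obtain ⟨c, rfl⟩ := Submodule.mem_span_singleton.1 (H.span2 hk (b := b)
      (by rintro rfl; simp [eT, rr_zero_left, rr_zero_right] at e2) e1)
    simp [eT, e, rr_smul_left, rr_smul_right] at e2
  obtain ⟨l, hl⟩ := H.pt_grow hM hP (by omega) h5 _ S τ rfl k1
    (fun j hj => mul_self_eq_one_iff.2 (k2 j hj).1) k3
  exact Or.inl ⟨by omega, l, fun b c e d => ZZ_smul (T := T) l b c d _ ▸ hl b _ (by simp [e])⟩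

theorem sp_fin (hA : B.IsAlt) (h2 : (2 : F) ≠ 0) [Nontrivial W] (h : PN T β M Finset.univ) :
    SG B ≤ M := by
  have k : ∀ b, SpP B M (T.pt b) := fun b => spP_of_R hA fun c => (h (c * κ) b).congr fun x => by
    simp [H.ZZ_apply, smul_smul, mul_assoc, H.k0]
  obtain ⟨w, hw⟩ := exists_ne (0 : W)
  obtain ⟨y, hy⟩ := exists_one H.ndW H.alt.isRefl hw
  have e : ∀ b : I → W, (∀ j, β w (b j) = 1) → B (T.pt fun _ => w) (T.pt b) ≠ 0 := fun b hb => by
    simp [H.pure, hb, H.k0]
  have m : T.pt (fun _ => w) ∈ Submodule.span F {T.pt fun _ => y, T.pt fun _ => w} :=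
    Submodule.subset_span (by simp)
  obtain ⟨Y, h1, h3, h4⟩ := sp_max hA (U₀ := Submodule.span F {T.pt fun _ => y, T.pt fun _ => w})
    (fun u hu => by
      obtain ⟨a, b, rfl⟩ := Submodule.mem_span_pair.1 hu
      by_cases ha : a = 0
      · simpa [ha] using (k _).smul b
      · exact ((k _).smul a).add_smul hA (k _) (by simp [ha, e _ fun _ => hy]) b)
    (Or.inl (spGood_of_card hA ⟨1, one_ne_zero, fun e => h2 (by linear_combination e)⟩
      (Submodule.subset_span (by simp)) m (e _ fun _ => hy)))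
  exact sp_le H.nd hA fun a => h3 a (T.mem_of_pt (fun u => T.free_mem (S := Finset.univ)
    (f := fun _ => β w) (fun _ _ => H.ne hw) u fun ws e1 _ =>
      (h4 _ (k ws)).resolve_right fun e2 => e ws (fun j => e1 j (by simp)) (e2 _ (h1 m))) a)

theorem sp_main (hA : B.IsAlt) (h2 : (2 : F) ≠ 0) (hk : finrank F W = 2 ∨ 4 ≤ finrank F W)
    (h3 : finrank F W = 2 → Nat.card F ≠ 3) (hI : Odd (Fintype.card I))
    (hH : ∀ g ∈ SG B, g ∈ T.Wr → g ∈ M) (hM : M ≤ SG B) (hg : g ∈ M) (hg' : g ∉ T.Wr) :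
    SG B ≤ M := by
  have : Nontrivial W := Module.nontrivial_of_finrank_pos (R := F) (by omega)
  refine H.sp_fin hA h2 ?_
  rcases H.dich hk (fun e => (h2 e).elim) h3 hM
    (fun i => H.fac (by omega) hH fun σ hσ => H.fE_iso i hσ)
    (fun i j k _ _ => hH _ (H.PP_iso _) (T.PP_mem (by omega) _)) hg hg' with
    ⟨-, l, h⟩ | ⟨-, h | ⟨h, -⟩⟩
  · intro c b
    have := h b (b l) (H.alt _) (c / 2)
    rw [hI.neg_one_pow, update_eq_self] at this
    convert this using 1
    match_scalars; field_simp; ring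
  · exact h
  · exact absurd hI (Nat.not_odd_iff_even.2 h)

theorem not_Wr (h2 : 2 ≤ finrank F W) {i j : I} (hij : i ≠ j) {x : I → Module.End F W} {w : W}
    (hw : w ≠ 0) (hx : ∀ l, x l ≠ 0) (hj : x j * x j = 0) (hi : x i = rr β w w)
    (e : ∀ v, g v = v + T.PM x v) : g ∉ T.Wr := by
  have : Nontrivial W := Module.nontrivial_of_finrank_pos (R := F) (by omega)
  have c : CA (T.s i) (T.PM (update x i 1)) := T.ca_PM (by simp)
  refine T.not_mem_Wr h2 c (fun d e' => ?_) (H.ne hw) hw (H.alt w) fun v => ?_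
  · have := T.PM_mul_zero (x := update x i 1) (y := update x i 1) (i := j) (by simpa [hij.symm])
    refine H.PM_ne (x := update x i 1) (fun l => ?_) ?_
    · by_cases e : l = i
      · simp [e]
      · simpa [e] using hx l
    rw [e'] at this ⊢
    by_cases hd : d = 0
    · simp [hd]
    · simp [hd] at this
  rw [e, ← update_eq_self i x, T.PM_upd, hi, update_idem, ← (c _).eq]; rfl

theorem sp_ex (hA : B.IsAlt) (h2 : 2 ≤ finrank F W) {i j : I} (hij : i ≠ j) :
    ∃ g, g ∈ SG B ∧ g ∉ T.Wr := by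
  have : Nontrivial W := Module.nontrivial_of_finrank_pos (R := F) (by omega)
  obtain ⟨w, hw⟩ := exists_ne (0 : W)
  exact ⟨_, tv_mem_SG hA (T.pt fun _ => w) κ⁻¹ (by simp [hA.self_eq_zero]), H.not_Wr h2 hij hw
    (x := fun _ => rr β w w) (fun _ => r1_ne (H.ne hw) hw) (by simp [rr_mul, H.alt w]) rfl
    fun v => by rw [H.zall (fun _ => w) fun _ => w]; simp [Max.tv_apply]⟩

end TF

/-- The orthogonal case. -/
structure TQ (T : TP I F U W) (Q : QuadraticForm F (U ⊗[F] W)) (β : LinearMap.BilinForm F W)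
    (κ : F) : Prop extends TF T Q.polarBilin β κ where
  q0 : ∀ a, Q (T.pt a) = 0
  n5 : 5 ≤ finrank F (U ⊗[F] W)

namespace TQ

variable {Q : QuadraticForm F (U ⊗[F] W)} (H : TQ T Q β κ) [FiniteDimensional F W]
  [FiniteDimensional F U] {N : Subgroup (OG Q)}
include H

theorem pol (a b : I → W) : polar Q (T.pt a) (T.pt b) = κ * ∏ j, β (a j) (b j) := H.pure a b

theorem pol0 {a b : I → W} (j : I) (h : β (a j) (b j) = 0) : polar Q (T.pt a) (T.pt b) = 0 := by
  rw [H.pol, Finset.prod_eq_zero (Finset.mem_univ j) h, mul_zero]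

theorem nQ : ND Q := H.nd.1

theorem og (hg : g ∈ SG Q.polarBilin) (h : ∀ a, ∃ b, g (T.pt a) = T.pt b) : g ∈ OG Q :=
  T.mem_of_pt (S := ⟨⟨⟨{x | Q (g x) = Q x}, fun {x y} hx hy => by
    have := hg x y
    simp only [polarBilin_apply_apply, polar, Set.mem_ofPred_eq, map_add] at *
    linear_combination this + hx + hy⟩, by simp⟩, fun c x hx => by
    simp only [Set.mem_ofPred_eq, map_smul, QuadraticMap.map_smul] at *
    rw [hx]⟩) fun a => by
    obtain ⟨b, e⟩ := h a
    change Q (g _) = _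
    rw [e, H.q0, H.q0]

theorem facO (i : I) : Fac β (OM Q) (T.s i) := fun σ hσ => by
  have k : ∀ σ ∈ SG β, fE (T.s i) σ ∈ OG Q := fun σ hσ => H.og (H.fE_iso i hσ) fun a =>
    ⟨_, by rw [fE_apply, T.rh_pt]⟩
  have := eq_top_of_tv H.ndW H.alt ((OM Q).comap ((fE (T.s i)).comp (SG β).subtype)) fun v c => by
    have e : ∀ x, fE (T.s i) (Classical.SpWitt.tv H.alt v c).1 x =
        x + -c • rh (T.s i) (rr β v v) x := fun x => by
      rw [fE_apply, show (Classical.SpWitt.tv H.alt v c).1.toLinearMap = 1 + -c • rr β v v from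
        LinearMap.ext fun y => by
          simp [Classical.SpWitt.tv_apply, ← H.alt.neg_eq v y, smul_smul], map_add, map_smul]
      simp
    have z : ∀ x, rh (T.s i) (rr β v v) (rh (T.s i) (rr β v v) x) = 0 :=
      LinearMap.congr_fun (rh_r1_mul _ _ (H.alt v))
    refine ⟨⟨_, k _ (Classical.SpWitt.tv H.alt v c).2⟩, unip_mem H.nQ H.n5 _
      (LinearMap.range (rh (T.s i) (rr β v v))) rfl ?_ _ ?_ fun y _ => ?_, rfl⟩
    · rintro _ ⟨x, rfl⟩
      refine T.mem_of_pt (S := ⟨⟨⟨{x | Q (rh (T.s i) (rr β v v) x) = 0}, fun {x y} hx hy => ?_⟩,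
        by simp⟩, fun c x hx => ?_⟩) (fun a => ?_) x
      · have := k _ (tv_mem_SG H.alt v 1 (by simp [H.alt v]))
        have := skew_of_R (le_refl (SG Q.polarBilin)) (Fac.root1 (fun σ hσ => H.fE_iso i hσ) H.alt v)
          (rh_r1_mul _ _ (H.alt v)) x (rh (T.s i) (rr β v v) y)
        simp only [polarBilin_apply_apply, z, polar_zero_right, neg_zero] at this
        simp only [polar, Set.mem_ofPred_eq, map_add] at *
        linear_combination this + hx + hy
      · simp only [Set.mem_ofPred_eq, map_smul, QuadraticMap.map_smul] at *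
        rw [hx, smul_zero]
      · change Q _ = 0
        rw [T.rh_pt, H.q0]
    · rintro _ ⟨x, rfl⟩
      simp [e, z]
    · simp only [e, add_sub_cancel_left]
      exact Submodule.smul_mem _ _ ⟨y, rfl⟩
  exact (this ▸ Subgroup.mem_top (⟨σ, hσ⟩ : SG β) :)

omit H [FiniteDimensional F W] [FiniteDimensional F U] in
theorem swap_three {i j k : I} (h : i ≠ j) (h' : k ≠ j) (e : i ≠ k) :
    Equiv.swap i j * Equiv.swap j k =
      Equiv.swap i j * Equiv.swap i k * (Equiv.swap i j)⁻¹ * (Equiv.swap i k)⁻¹ := by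
  rw [← Equiv.swap_apply_apply, Equiv.swap_apply_left, Equiv.swap_apply_of_ne_of_ne e.symm h',
    Equiv.swap_inv, Equiv.swap_comm j k, Equiv.swap_comm i k, Equiv.swap_mul_eq_mul_swap,
    Equiv.swap_inv, Equiv.swap_apply_of_ne_of_ne e h, Equiv.swap_apply_right, Equiv.swap_comm i k]

open scoped commutatorElement in
theorem three (i j k : I) (h : i ≠ j) (h' : k ≠ j) :
    T.PP (Equiv.swap i j * Equiv.swap j k) ∈ OM Q := by
  let φ : Equiv.Perm I →* OG Q := MonoidHom.mk' (fun σ => ⟨T.PP σ, H.og (H.PP_iso σ)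
    fun a => ⟨_, T.PP_pt _ _⟩⟩) fun σ τ => Subtype.ext (T.PP_mul σ τ)
  refine ⟨φ _, ?_, rfl⟩
  by_cases e : i = k
  · subst e
    rw [Equiv.swap_comm j, Equiv.swap_mul_self, map_one]; exact one_mem _
  rw [swap_three h h' e, ← commutatorElement_def, map_commutatorElement]
  exact Subgroup.commutator_mem_commutator trivial trivial

theorem oe {p q : I → W} (j : I) (e : β (q j) (p j) = 0)
    (h : ∀ c : F, R M (c • (ZZ T β Finset.univ p q - ZZ T β Finset.univ q p))) :
    T.pt p ∈ OE (M.subgroupOf (OG Q)) (T.pt q) := ⟨H.pol0 j e, fun c =>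
  eich_mem_of_R (h (c * κ)) fun x => by
    rw [eich_apply (H.q0 q) (by simp [H.pol0 j e])]
    simp [H.toTF.ZZ_apply, H.q0, smul_smul, mul_assoc, H.k0, smul_sub, add_sub_assoc, mul_comm c,
      QuadraticMap.map_smul]⟩

theorem grow {b y u v : I → W} (hy : T.pt y ∈ OE N (T.pt b)) (hv : T.pt v ∈ OE N (T.pt u))
    (i j l : I) (h1 : β (u i) (b i) = 0) (h2 : β (v j) (b j) = 0) (h3 : β (u l) (y l) = 0)
    (h4 : ∀ j, β (v j) (y j) ≠ 0) : T.pt u ∈ OE N (T.pt b) := by
  have := OE.grow hy (H.q0 u) hv (H.pol0 i h1) (H.pol0 j h2)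
  rw [H.pol0 l h3, mul_zero, sub_zero, zero_smul, sub_zero, H.pol] at this
  exact (Submodule.smul_mem_iff _
    (mul_ne_zero H.k0 (Finset.prod_ne_zero_iff.2 fun j _ => h4 j))).1 this

omit H [FiniteDimensional F W] [FiniteDimensional F U] in
theorem wlog0 {u b : I → W} (h : (∀ j, b j ≠ 0) → T.pt u ∈ OE N (T.pt b)) :
    T.pt u ∈ OE N (T.pt b) := by
  by_contra hn
  refine hn (h fun j e => hn ?_)
  rw [T.pt.map_coord_zero j e]; exact OE.zero_left _

theorem eq1 (h3 : 3 ≤ finrank F W) {l : I}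
    (h : ∀ b c, β c (b l) = 0 → T.pt (update b l c) ∈ OE N (T.pt b)) (b u : I → W)
    (e : u l = b l) : T.pt u ∈ OE N (T.pt b) := wlog0 fun hb =>
  T.free_mem (S := Finset.univ.erase l) (f := fun j => β (b j)) (fun j _ => H.toTF.ne (hb j)) u
    fun ws e1 e2 => by
    replace e2 : ws l = b l := (e2 l (by simp)).trans e
    obtain ⟨c, k1, k2⟩ := exists_ker_not_mem h3 (β (b l)) (b l)
    obtain ⟨d, k3, k4⟩ := exists_orth_one H.ndW H.alt.isRefl _ k2
    replace k3 := k3 _ (Submodule.mem_span_singleton_self _)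
    replace k1 := H.alt.isRefl _ _ k1
    refine H.grow (h b d (H.alt.isRefl _ _ k3)) (h ws c (e2 ▸ k1)) l l l (by simp [e2, H.alt (b l)])
      (by simpa) (by simpa [e2]) fun j => ?_
    by_cases e : j = l
    · simp [e, k4]
    · simp [e, ← H.alt.neg_eq (b j), e1 j (by simpa)]

theorem perp1 (h3 : 3 ≤ finrank F W) {l l' : I} (hl : l' ≠ l)
    (h : ∀ b u, u l = b l → T.pt u ∈ OE N (T.pt b)) (b u : I → W)
    (e : β (u l') (b l') = 0) : T.pt u ∈ OE N (T.pt b) := wlog0 fun hb =>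
  T.free_mem (S := {l}) (f := fun j => β (b j)) (fun j _ => H.toTF.ne (hb j)) u
    fun ws e1 e2 => by
    replace e2 : β (ws l') (b l') = 0 := by rwa [e2 l' (by simpa)]
    replace e1 := e1 l (by simp)
    choose d hd using fun j => exists_one H.ndW H.alt.isRefl (hb j)
    obtain ⟨c, k1, k2⟩ := exists_ker_not_mem h3 (β (b l')) (ws l')
    obtain ⟨c', k3, k4⟩ := exists_orth_one H.ndW H.alt.isRefl _ k2
    replace k3 := k3 _ (Submodule.mem_span_singleton_self _)
    refine H.grow (h b (update (update d l (b l)) l' c') (by simp [hl.symm]))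
      (h ws (update (update b l (ws l)) l' c) (by simp [hl.symm])) l' l' l' e2
      (by simpa using H.alt.isRefl _ _ k1) (by simpa) fun j => ?_
    by_cases e : j = l'
    · simp [e, k4]
    by_cases e' : j = l
    · subst e'; simp [e, ← H.alt.neg_eq (b j), e1]
    · simp [e, e', hd]

theorem eq2 (h4 : 4 ≤ Fintype.card I)
    (h : ∀ i j, i ≠ j → ∀ p q : I → W, p i = q i → p j = q j → T.pt p ∈ OE N (T.pt q)) (l : I)
    (b u : I → W) (e : u l = b l) : T.pt u ∈ OE N (T.pt b) := wlog0 fun hb =>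
  T.free_mem (S := Finset.univ.erase l) (f := fun j => β (b j)) (fun j _ => H.toTF.ne (hb j)) u
    fun ws e1 e2 => by
    replace e2 : ws l = b l := (e2 l (by simp)).trans e
    obtain ⟨n, m, m', a1, a2, a3, a4, a5, a6⟩ := Finset.two_lt_card_iff.1
      (show 2 < (Finset.univ.erase l).card by simp; omega)
    simp only [Finset.mem_erase, Finset.mem_univ, and_true] at a1 a2 a3
    obtain ⟨w, hw⟩ := exists_one H.ndW H.alt.isRefl (hb l)
    refine H.grow (h l m a2.symm (update b n (ws n)) b (by simp [a1.symm]) (by simp [a4.symm]))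
      (h m m' a6 (update (update ws n (b n)) l w) ws (by simp [a2, a4.symm]) (by simp [a3, a5.symm]))
      l n l (by simp [e2, H.alt (b l)]) (by simp [a1, H.alt (b n)])
      (by simp [e2, a1.symm, H.alt (b l)]) fun j => ?_
    by_cases e : j = l
    · simp [e, a1.symm, ← H.alt.neg_eq (b l), hw]
    by_cases e' : j = n
    · subst e'; simp [e, e1 j (by simpa)]
    · simp [e, e', ← H.alt.neg_eq (b j), e1 j (by simpa)]

theorem op (h : ∀ l (b u : I → W), β (u l) (b l) = 0 → T.pt u ∈ OE N (T.pt b)) {b d : I → W}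
    (hd : ∀ j, β (b j) (d j) ≠ 0) : OP N (T.pt b) := ⟨H.q0 b, fun v hv => by
  have : ∀ S : Finset I, ∀ w, (∀ j ∉ S, w j = d j) → T.pt w ∈ OE N (T.pt b) ⊔ F ∙ T.pt d := by
    intro S
    induction S using Finset.induction_on with
    | empty =>
      intro w e
      rw [show w = d from funext fun j => e j (by simp)]
      exact Submodule.mem_sup_right (Submodule.mem_span_singleton_self _)
    | insert j S hj ih =>
      intro w e
      rw [← update_eq_self j w, ← add_sub_cancel ((β (b j) (w j) / β (b j) (d j)) • d j) (w j),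
        T.pt.map_update_add, T.pt.map_update_smul]
      refine add_mem (Submodule.smul_mem _ _ (ih _ fun l hl => ?_))
        (Submodule.mem_sup_left (h j _ _ (H.alt.isRefl _ _ (by simp [hd j]))))
      by_cases e' : l = j
      · simp [e']
      · simpa [e'] using e l (by simp [e', hl])
  obtain ⟨o, ho, _, hz, rfl⟩ := Submodule.mem_sup.1
    (T.mem_of_pt (fun w => this Finset.univ w (by simp)) v)
  obtain ⟨c, rfl⟩ := Submodule.mem_span_singleton.1 hz
  have : c = 0 := by
    simpa [ho.1, H.pol, H.k0, Finset.prod_eq_zero_iff, hd] using hv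
  simpa [this] using ho⟩

variable [Finite F] [Nontrivial U] [Nontrivial I]

theorem main (hk : finrank F W = 2 ∨ 4 ≤ finrank F W) (h2 : (2 : F) = 0 → 5 ≤ finrank F W)
    (h3 : finrank F W = 2 → Nat.card F ≠ 3 ∧ 4 ≤ Fintype.card I)
    (hI : (2 : F) ≠ 0 → Even (Fintype.card I)) (hH : ∀ g ∈ OM Q, g ∈ T.Wr → g ∈ M)
    (hM : M ≤ OM Q) (hg : g ∈ M) (hg' : g ∉ T.Wr) :
    commutator (OG Q) ≤ M.subgroupOf (OG Q) := by
  have : Nontrivial W := Module.nontrivial_of_finrank_pos (R := F) (by omega)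
  have hM' : M ≤ SG Q.polarBilin := fun g hg => og_sg (OM.og (hM hg))
  have k : ∀ l (b u : I → W), β (u l) (b l) = 0 →
      T.pt u ∈ OE (M.subgroupOf (OG Q)) (T.pt b) := by
    rcases H.toTF.dich hk h2 (fun e => (h3 e).1) hM'
      (fun i => H.toTF.fac (by omega) hH (H.facO i))
      (fun i j k a b => hH _ (H.three i j k a b) (T.PP_mem (by omega) _)) hg hg' with
      ⟨h4, l, h⟩ | ⟨h4, h | ⟨-, h⟩⟩
    · have e : (-1 : F) ^ Fintype.card I = 1 := by
        by_cases e : (2 : F) = 0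
        · rw [show (-1 : F) = 1 by linear_combination -e, one_pow]
        · exact (hI e).neg_one_pow
      simp only [e, one_smul] at h
      have k1 := H.eq1 h4 fun b c e => H.oe l (by simpa using H.alt.isRefl _ _ e) (h b c e)
      obtain ⟨l', hl'⟩ := exists_ne l
      intro j
      by_cases e : j = l
      · exact e ▸ H.perp1 h4 hl'.symm fun b u e => H.perp1 h4 hl' k1 b u (by rw [e, H.alt (b l')])
      · exact H.perp1 h4 e k1
    · have e : (2 : F) ≠ 0 := fun e => by have := h2 e; omega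
      exact absurd (hI e) (Nat.not_even_iff_odd.2 (H.toTF.pn_odd hM' e h
        (Finset.mem_univ (Classical.arbitrary I))))
    intro l b u e
    refine wlog0 fun hb => ?_
    obtain ⟨c, hc⟩ := Submodule.mem_span_singleton.1 (H.toTF.span2 h4 (hb l) e)
    rw [← update_eq_self l u, ← hc, T.pt.map_update_smul]
    exact Submodule.smul_mem _ _ (H.eq2 (h3 h4).2 (fun i j hij p q e1 e2 =>
      H.oe i (by rw [e1, H.alt (q i)]) (h i j hij p q e1 e2)) l b _ (by simp))
  obtain ⟨w, hw⟩ := exists_ne (0 : W)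
  obtain ⟨y, hy⟩ := exists_one H.ndW H.alt.isRefl hw
  exact om_le_of_pair H.nQ H.n5 (H.op k (b := fun _ => w) (d := fun _ => y) (by simp [hy]))
    (H.op k (b := fun _ => y) (d := fun _ => w) (by simp [← H.alt.neg_eq w, hy]))
    (by simp [H.pol, hy, H.k0])

theorem ex (h2 : 2 ≤ finrank F W) (h3 : 3 ≤ finrank F W ∨ 3 ≤ Fintype.card I) :
    ∃ g ∈ OM Q, g ∉ T.Wr := by
  have : Nontrivial W := Module.nontrivial_of_finrank_pos (R := F) (by omega)
  obtain ⟨w, hw⟩ := exists_ne (0 : W)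
  obtain ⟨i, l, hil⟩ := exists_pair_ne I
  obtain ⟨c, hc, j, hj, e⟩ : ∃ c ∉ F ∙ w, ∃ j, i ≠ j ∧ (j = l → β c w = 0) := by
    rcases h3 with h3 | h3
    · obtain ⟨c, k1, k2⟩ := exists_ker_not_mem h3 (β w) w
      exact ⟨c, k2, l, hil, fun _ => H.alt.isRefl _ _ k1⟩
    · obtain ⟨c, hc⟩ := exists_not_mem_span (K := F) h2 w
      obtain ⟨j, hj⟩ := Finset.card_pos.1 (show 0 < ((Finset.univ.erase i).erase l).card by
        rw [Finset.card_erase_of_mem (by simp [hil.symm])]; simp; omega)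
      simp only [Finset.mem_erase] at hj
      exact ⟨c, hc, j, hj.2.1.symm, fun e => (hj.1 e).elim⟩
  refine ⟨_, ⟨_, H.nQ.eich_mem_commutator (good_of_five_le H.n5) (T.pt fun _ => w)
    (κ⁻¹ • T.pt (update (fun _ => w) l c)), rfl⟩, H.toTF.not_Wr h2 hj hw
    (x := update (fun _ => rr β w w) l (eT β (-1) c w)) (fun m => ?_) ?_ (by simp [hil]) fun v => ?_⟩
  · by_cases e : m = l
    · simpa [e] using eT_ne H.ndW H.alt _ hw hc
    · simpa [e] using r1_ne (H.toTF.ne hw) hw
  · by_cases e' : j = l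
    · simpa [e'] using eT_sq H.alt _ (e e')
    · simp [e', rr_mul, H.alt w]
  have u1 := ZZ_upd (T := T) (β := β) (Finset.mem_univ l) (fun _ => w) (fun _ => w) c w
  have u2 := ZZ_upd (T := T) (β := β) (Finset.mem_univ l) (fun _ => w) (fun _ => w) w c
  simp only [update_eq_self_iff.2 rfl, Finset.mem_univ, if_true] at u1 u2
  rw [T.PM_upd, map_add, map_smul, add_mul, smul_mul_assoc, ← u1, ← u2, Subgroup.coe_subtype,
    eich_apply (H.q0 _) (by simp [H.pol0 (a := fun _ => w) (b := update (fun _ => w) l c) i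
      (by simp [hil, H.alt w])])]
  simp [H.toTF.ZZ_apply, H.q0, smul_smul, add_assoc, sub_eq_add_neg, mul_comm κ⁻¹,
    QuadraticMap.map_smul]

end TQ

open Geo in
theorem power_form {ι : Type} [Fintype ι] [DecidableEq ι] {m t : ℕ} {f : (ι → F) → (ι → F) → F}
    {f₁ : (Fin m → F) → (Fin m → F) → F} {e : ι ≃ (Fin (t + 1) → Fin m)} {P : GL ι F}
    (h : IsTensorPowerFormStructure id f f₁ e P) (h₁ : IsBilinearForm f₁) :
    ∃ c : F, c ≠ 0 ∧ ∀ a b, f ((powE e P).symm ((tp0 F m t).pt a))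
      ((powE e P).symm ((tp0 F m t).pt b)) = c * ∏ j, bilOf h₁ (a j) (b j) := by
  obtain ⟨c, hc, h⟩ := h
  refine ⟨c, hc, fun a b => ?_⟩
  change f ((powE e P).symm (E0 F m t _)) ((powE e P).symm (E0 F m t _)) = _
  rw [powE_symm, powE_symm, h]
  congr 1
  simp only [bilOf_apply, ← formOfGram_gram (σ := RingHom.id F) (bilOf h₁) (fun _ _ => rfl),
    formOfGram, Finset.prod_univ_sum, Fintype.piFinset_univ, pt0_apply, Finset.prod_mul_distrib, id,
    RingHom.id_apply]
  rfl

open Geo in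
theorem sympl_dim {k : ℕ} {f₁ : (Fin k → F) → (Fin k → F) → F} (hf₁ : IsSymplecticForm f₁)
    (hk : 0 < k) : finrank F (Fin k → F) = 2 ∨ 4 ≤ finrank F (Fin k → F) := by
  obtain ⟨m, -, h, -⟩ := Classical.SpSimple.exists_basis_J (bilOf_nd hf₁.bilinear hf₁.nondegenerate)
    hf₁.alternating
  simp only [finrank_fin_fun] at h ⊢
  omega

open Geo Classical.SpMat in
theorem max_wreath_Sp [Fintype F] (hodd : Odd (Fintype.card F)) {m k t : ℕ} (hm : 0 < m) (ht : Odd t)
    (ht3 : 3 ≤ t) (hex : ¬ (Fintype.card F = 3 ∧ k = 2)) (e : (Fin m ⊕ Fin m) ≃ (Fin t → Fin k))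
    (P : GL (Fin m ⊕ Fin m) F) {f₁ : (Fin k → F) → (Fin k → F) → F} (hf₁ : IsSymplecticForm f₁)
    (hT : IsTensorPowerFormStructure id (sympForm m F) f₁ e P) :
    IsMaximalIn (spGL m F) (tensorWreathSubgroup k t e P ⊓ spGL m F) := by
  obtain ⟨t, rfl⟩ : ∃ t', t = t' + 2 := ⟨t - 2, by omega⟩
  have hk := sympl_dim hf₁ (e (Sum.inl ⟨0, hm⟩) 0).pos
  have hk' : 2 ≤ k := by simp only [finrank_fin_fun] at hk; omega
  have : Nontrivial (Fin k) := Fin.nontrivial_iff_two_le.2 hk'
  obtain ⟨c, hc, hT⟩ := power_form hT hf₁.bilinear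
  have hA : (trB (sB (Fin m) F) (powE e P)).IsAlt := fun x => sB_alt ((powE e P).symm x)
  have H : TF (tp0 F k (t + 1)) (trB (sB (Fin m) F) (powE e P)) (bilOf hf₁.bilinear) c :=
    ⟨fun a b => by rw [← hT, sympForm_eq']; rfl, hc, (sB_nondeg (ι := Fin m)).congr (powE e P),
      bilOf_nd _ hf₁.nondegenerate, hf₁.alternating⟩
  exact isMaximalIn_Sp' (powE e P) (· ∈ (tp0 F k (t + 1)).Wr) (mem_wreath_iff hk' e P)
    (H.sp_ex hA (by simpa) (zero_ne_one (α := Fin (t + 2)))) fun M h1 h2 ⟨g, hg, hn⟩ =>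
    H.sp_main hA (two_ne_zero_of_odd hodd) hk (fun a b => hex ⟨by simpa using b, by simpa using a⟩)
      (by simpa) h1 h2 hg hn

open Geo in
theorem max_wreath_Om [Fintype F] {n k t : ℕ} (hn : 13 ≤ n) {Q : QuadraticForm F (Fin n → F)}
    (hQ : ND Q) (ht : 2 ≤ t) (hqt : Odd (Fintype.card F) → Even t)
    (hex : ¬ (Fintype.card F = 3 ∧ k = 2)) (hex3 : ¬ Odd (Fintype.card F) → 6 ≤ k)
    (e : Fin n ≃ (Fin t → Fin k)) (P : GL (Fin n) F) {f₁ : (Fin k → F) → (Fin k → F) → F}
    (hf₁ : IsSymplecticForm f₁) (hT : IsTensorPowerFormStructure id (polar Q) f₁ e P)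
    (hpure : ∀ xs : Fin t → Fin k → F,
      Q (P.1.mulVec ((fun a : Fin t → Fin k => ∏ i, xs i (a i)) ∘ e)) = 0) :
    IsMaximalIn (omegaGL ⇑Q) (tensorWreathSubgroup k t e P ⊓ omegaGL ⇑Q) := by
  obtain ⟨t, rfl⟩ : ∃ t', t = t' + 2 := ⟨t - 2, by omega⟩
  have hk := sympl_dim hf₁ (e ⟨0, by omega⟩ 0).pos
  have hk' : 2 ≤ k := by simp only [finrank_fin_fun] at hk; omega
  have : Nontrivial (Fin k) := Fin.nontrivial_iff_two_le.2 hk'
  have hc : n = k ^ (t + 2) := by simpa using Fintype.card_congr e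
  have h4 : k = 2 → 4 ≤ t + 2 := fun h => by
    by_contra h'
    have := Nat.pow_le_pow_right two_pos (show t + 2 ≤ 3 by omega)
    rw [h] at hc; omega
  have h2 : (2 : F) ≠ 0 → Odd (Fintype.card F) := fun h =>
    Nat.odd_iff.2 (FiniteField.odd_card_of_char_ne_two fun e => h (by
      exact_mod_cast e ▸ ringChar.Nat.cast_ringChar (R := F)))
  obtain ⟨c, hc0, hT⟩ := power_form hT hf₁.bilinear
  have nd : ND (Q.comp (powE e P).symm.toLinearMap) := fun x hx => (powE e P).symm.map_eq_zero_iff.1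
    (hQ _ fun y => by simpa [polar] using hx (powE e P y))
  have H : TQ (tp0 F k (t + 1)) (Q.comp (powE e P).symm.toLinearMap) (bilOf hf₁.bilinear) c :=
    ⟨⟨fun a b => by rw [← hT]; simp [polar], hc0,
      ⟨nd, fun x hx => nd x fun y => (polar_comm _ _ _).trans (hx y)⟩,
      bilOf_nd _ hf₁.nondegenerate, hf₁.alternating⟩,
      fun a => (congrArg Q (powE_symm e P _)).trans (hpure a),
      by rw [← (powE e P).finrank_eq]; simp; omega⟩
  simp only [finrank_fin_fun] at hk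
  exact isMaximalIn_Om' (powE e P) (· ∈ (tp0 F k (t + 1)).Wr) (mem_wreath_iff hk' e P)
    (H.ex (by simpa) (by simp; omega)) fun M h1 h3 ⟨g, hg, hn⟩ =>
    H.main (by simpa) (fun a => by
      have := hex3 fun b => two_ne_zero_of_odd b a
      simp; omega) (fun a => ⟨fun b => hex ⟨by simpa using b, by simpa using a⟩,
      by simpa using h4 (by simpa using a)⟩) (fun a => by simpa using hqt (h2 a)) h1 h3 hg hn

end Cfsg.Agent.Max3
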