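import Mathlib
import Cfsg.Agent.Max2.OExt3

/-!
# Tools for `O₃(q^r)` inside `O_{3r}(q)`: polynomial functions, free orbits, subalgebras
-/

set_option autoImplicit false

namespace Cfsg.Agent.Max3

open Module Cfsg.Agent.Max Cfsg.Agent.Max2

/-- Polynomial functions of degree at most `n`. -/
inductive PD (F : Type*) [Field F] {A W : Type*} [AddCommGroup A] [Module F A] [AddCommGroup W]
    [Module F W] : ℕ → (A → W) → Prop
  | const (n : ℕ) (w : W) : PD F n fun _ => w
  | mul (φ : Dual F A) {n : ℕ} {f : A → W} : PD F n f → PD F (n + 1) fun k => φ k • f k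
  | add {n : ℕ} {f g : A → W} : PD F n f → PD F n g → PD F n fun k => f k + g k

namespace PD

variable {F A W W' W'' : Type*} [Field F] [AddCommGroup A] [Module F A] [AddCommGroup W]
  [Module F W] [AddCommGroup W'] [Module F W'] [AddCommGroup W''] [Module F W''] {n m : ℕ}
  {f : A → W}

theorem succ (h : PD F n f) : PD F (n + 1) f := by
  induction h with
  | const n w => exact const _ w
  | mul φ _ ih => exact mul φ ih
  | add _ _ ih ih' => exact add ih ih'

theorem mono (h : PD F n f) (hm : n ≤ m) : PD F m f := by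
  induction hm with
  | refl => exact h
  | step _ ih => exact ih.succ

theorem congr {g : A → W} (h : PD F n f) (e : ∀ k, g k = f k) : PD F n g := funext e ▸ h

theorem map (h : PD F n f) (l : W →ₗ[F] W') : PD F n fun k => l (f k) := by
  induction h with
  | const n w => exact const _ _
  | mul φ _ ih => exact (mul φ ih).congr fun k => map_smul _ _ _
  | add _ _ ih ih' => exact (add ih ih').congr fun k => map_add _ _ _

theorem bil (B : W →ₗ[F] W' →ₗ[F] W'') (h : PD F n f) {g : A → W'} (hg : PD F m g) :
    PD F (n + m) fun k => B (f k) (g k) := by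
  induction h with
  | const n w => exact (hg.map (B w)).mono (by omega)
  | mul φ _ ih => exact ((mul φ ih).mono (by omega)).congr fun k => by simp
  | add _ _ ih ih' => exact (add ih ih').congr fun k => by simp

theorem sub {g : A → W} (h : PD F n f) (hg : PD F n g) : PD F n fun k => f k - g k :=
  (h.add (hg.map (-LinearMap.id))).congr fun k => by simp [sub_eq_add_neg]

theorem sum {ι : Type*} (s : Finset ι) {f : ι → A → W} (h : ∀ i, PD F n (f i)) :
    PD F n fun k => ∑ i ∈ s, f i k := by
  classical
  induction s using Finset.induction_on with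
  | empty => exact (const n 0).congr fun k => by simp
  | insert a s ha ih => exact ((h a).add ih).congr fun k => by rw [Finset.sum_insert ha]

variable [FiniteDimensional F A]

theorem lin (l : A →ₗ[F] W) : PD F 1 l :=
  (sum Finset.univ fun i => mul ((Module.finBasis F A).coord i)
    (const 0 (l (Module.finBasis F A i)))).congr fun k => by
      conv_lhs => rw [← (Module.finBasis F A).sum_repr k, map_sum]
      simp

theorem poly (h : PD F n f) (χ : Dual F W) : ∃ p : MvPolynomial (Fin (finrank F A)) F,
    p.totalDegree ≤ n ∧ ∀ x, MvPolynomial.eval x p =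
      χ (f ((Module.finBasis F A).equivFun.symm x)) := by
  induction h with
  | const n w => exact ⟨MvPolynomial.C (χ w), by simp, fun x => by simp⟩
  | mul φ _ ih =>
    obtain ⟨p, hp, e⟩ := ih
    refine ⟨(∑ i, MvPolynomial.C (φ (Module.finBasis F A i)) * MvPolynomial.X i) * p,
      (MvPolynomial.totalDegree_mul _ _).trans ?_, fun x => ?_⟩
    · have : (∑ i, MvPolynomial.C (φ (Module.finBasis F A i)) *
          MvPolynomial.X i : MvPolynomial _ F).totalDegree ≤ 1 :=
        MvPolynomial.totalDegree_finsetSum_le fun i _ =>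
          (MvPolynomial.totalDegree_mul _ _).trans (by simp)
      omega
    · rw [map_mul, e, map_smul, smul_eq_mul]
      congr 1
      simp [mul_comm]
  | add _ _ ih ih' =>
    obtain ⟨p, hp, e⟩ := ih
    obtain ⟨p', hp', e'⟩ := ih'
    exact ⟨p + p', (MvPolynomial.totalDegree_add _ _).trans (max_le hp hp'),
      fun x => by rw [map_add, e, e', map_add]⟩

theorem sum_zero [Fintype F] [Fintype A] (h : PD F n f)
    (hn : n < (Fintype.card F - 1) * finrank F A) : ∑ k, f k = 0 := by
  classical
  refine (Module.forall_dual_apply_eq_zero_iff F _).1 fun χ => ?_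
  obtain ⟨p, hp, e⟩ := h.poly χ
  have := p.sum_eval_eq_zero (by rw [Fintype.card_fin]; omega)
  rw [map_sum, ← this]
  simp only [e]
  exact ((Module.finBasis F A).equivFun.symm.toEquiv.sum_comp fun k => χ (f k)).symm

end PD

/-- A sum over a finite set with a free action vanishes if it vanishes over each orbit. -/
theorem sum_free {A B W : Type*} [AddCommGroup A] [Fintype A] [AddCommGroup W] (α : A → B → B)
    (h0 : ∀ b, α 0 b = b) (ha : ∀ k l b, α (k + l) b = α k (α l b)) (G : B → W) (S : Finset B)
    (h1 : ∀ b ∈ S, ∀ k, α k b ∈ S) (h2 : ∀ b ∈ S, ∀ k, α k b = b → k = 0)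
    (h3 : ∀ b ∈ S, ∑ k, G (α k b) = 0) : ∑ b ∈ S, G b = 0 := by
  classical
  induction S using Finset.strongInduction with
  | H S ih =>
    rcases S.eq_empty_or_nonempty with rfl | ⟨b, hb⟩
    · simp
    have hO : Finset.univ.image (fun k => α k b) ⊆ S := fun c hc => by
      obtain ⟨k, -, rfl⟩ := Finset.mem_image.1 hc
      exact h1 b hb k
    rw [← Finset.sum_sdiff hO, Finset.sum_image fun k _ l _ e => ?_, h3 b hb, add_zero]
    · refine ih _ (Finset.sdiff_ssubset hO ⟨b, Finset.mem_image.2 ⟨0, by simp, h0 b⟩⟩)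
        (fun c hc k => ?_) (fun c hc => h2 c (Finset.mem_sdiff.1 hc).1)
        fun c hc => h3 c (Finset.mem_sdiff.1 hc).1
      rw [Finset.mem_sdiff] at hc ⊢
      refine ⟨h1 c hc.1 k, fun hd => hc.2 ?_⟩
      obtain ⟨l, -, e⟩ := Finset.mem_image.1 hd
      exact Finset.mem_image.2 ⟨-k + l, by simp, by rw [ha, e, ← ha, neg_add_cancel, h0]⟩
    · have := h2 b hb (-l + k) (by rw [ha, e, ← ha, neg_add_cancel, h0])
      exact (neg_add_eq_zero.1 this).symm

variable {F K : Type*} [Field F] [Field K] [Algebra F K]

theorem mem_range_of_stab' (hr : (finrank F K).Prime) {S : Submodule F K} {s y : K} (hs : s ∈ S)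
    (h0 : s ≠ 0) (hyS : y ∉ S) {k : K} (hk : ∀ s ∈ S, k * s ∈ S) : ∃ c : F, algebraMap F K c = k :=
  mem_range_of_stab (V := K) hr (u := 1) (fun x _ => mem_line.2 ⟨x, by simp⟩) hs h0
    (mem_line.2 ⟨y, by simp⟩) hyS hk

/-- A subalgebra of `End_F K` properly containing `K` is everything. -/
theorem subalg_top [FiniteDimensional F K] (hr : (finrank F K).Prime) (A : Subalgebra F (End F K))
    (h1 : ∀ k : K, LinearMap.mulLeft F k ∈ A) (h2 : ∃ a ∈ A, ∃ k x : K, a (k * x) ≠ k * a x)
    (g : End F K) : g ∈ A := by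
  classical
  have : IsSimpleModule A K := by
    rw [isSimpleModule_iff]
    refine ⟨fun S => ?_⟩
    by_cases h : S = ⊥
    · exact Or.inl h
    obtain ⟨s, hs, h0⟩ := Submodule.exists_mem_ne_zero_of_ne_bot h
    refine Or.inr (eq_top_iff.2 fun y _ => ?_)
    have := S.smul_mem ⟨_, h1 (y / s)⟩ hs
    have e : (⟨_, h1 (y / s)⟩ : A) • s = y := by
      change y / s * s = y
      field_simp
    rwa [e] at this
  have hE : ∀ e : End A K, ∃ c : F, ∀ x, e x = c • x := fun e => by
    have a1 : ∀ x, e x = e 1 * x := fun x => by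
      have := e.map_smul ⟨_, h1 x⟩ 1
      change e (x * 1) = x * e 1 at this
      rw [mul_one] at this
      rw [this, mul_comm]
    let E : Subalgebra F K :=
      { carrier := {k | ∀ a ∈ A, ∀ x, a (k * x) = k * a x}
        mul_mem' := fun {a b} ha hb s hs x => by rw [mul_assoc, ha s hs, hb s hs, mul_assoc]
        add_mem' := fun {a b} ha hb s hs x => by rw [add_mul, map_add, ha s hs, hb s hs, add_mul]
        algebraMap_mem' := fun c s hs x => by
          rw [← Algebra.smul_def, ← Algebra.smul_def, map_smul] }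
    rcases (Subalgebra.isSimpleOrder_of_finrank_prime F K hr).eq_bot_or_eq_top E with h | h
    · have : e 1 ∈ E := fun a ha x => by
        have := e.map_smul ⟨a, ha⟩ x
        change e (a x) = a (e x) at this
        rw [← a1, ← this, a1]
      rw [h] at this
      obtain ⟨c, hc⟩ := Algebra.mem_bot.1 this
      exact ⟨c, fun x => by rw [a1, ← hc, Algebra.smul_def]⟩
    · obtain ⟨a, ha, k, x, e⟩ := h2
      have : k ∈ E := by rw [h]; trivial
      exact absurd (this a ha x) e
  let f : End (End A K) K :=
    { toFun := g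
      map_add' := g.map_add
      map_smul' := fun e m => by
        obtain ⟨c, hc⟩ := hE e
        change g (e m) = e (g m)
        rw [hc, hc, map_smul] }
  let b := Module.finBasis F K
  obtain ⟨a, ha⟩ := jacobson_density (R := A) f (Finset.univ.image b)
  have : g = a.1 := b.ext fun l => ha (b l) (Finset.mem_image.2 ⟨l, Finset.mem_univ _, rfl⟩)
  exact this ▸ a.2

/-- An alternating form on an odd-dimensional space is degenerate. -/
theorem skew_ker {A : Type*} [AddCommGroup A] [Module F A] [FiniteDimensional F A]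
    (h2 : (2 : F) ≠ 0) (hn : Odd (finrank F A)) (B : LinearMap.BilinForm F A)
    (hB : ∀ x y, B x y = -B y x) : ∃ x, x ≠ 0 ∧ ∀ y, B x y = 0 := by
  classical
  let b := Module.finBasis F A
  have e : (LinearMap.BilinForm.toMatrix b B).transpose = -LinearMap.BilinForm.toMatrix b B := by
    ext i j
    simp [hB (b j)]
  have e2 := congrArg Matrix.det e
  rw [Matrix.det_transpose, Matrix.det_neg, Fintype.card_fin, hn.neg_one_pow] at e2
  have e3 : (LinearMap.BilinForm.toMatrix b B).det = 0 :=
    (mul_eq_zero.1 (by linear_combination e2)).resolve_left h2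
  by_contra hc
  push Not at hc
  refine (LinearMap.BilinForm.nondegenerate_iff_det_ne_zero b).1 ⟨fun x hx => ?_, fun x hx => ?_⟩ e3
  · by_contra h0
    obtain ⟨y, hy⟩ := hc x h0
    exact hy (hx y)
  · by_contra h0
    obtain ⟨y, hy⟩ := hc x h0
    exact hy (by rw [hB, hx y, neg_zero])

theorem exists_sq [Finite K] (hq : Odd (Nat.card F)) (hr : Odd (finrank F K)) {k : K}
    (hk : k ≠ 0) : ∃ (c : F) (l : K), l ≠ 0 ∧ k = c • l ^ 2 := by
  have e := FiniteField.algebraMap_norm_eq_pow_sum (K := F) (x := k)
  obtain ⟨n, hn⟩ : Odd (∑ i ∈ Finset.range (finrank F K), Nat.card F ^ i) := by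
    rw [Finset.odd_sum_iff_odd_card_odd]
    rwa [Finset.filter_true_of_mem fun i _ => hq.pow, Finset.card_range]
  rw [hn] at e
  refine ⟨(Algebra.norm F k)⁻¹, k ^ (n + 1), pow_ne_zero _ hk, ?_⟩
  rw [Algebra.smul_def, map_inv₀, e]
  field_simp
  ring

end Cfsg.Agent.Max3
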