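import Mathlib
import Cfsg.Agent.Max.OW0

/-!
# Tensor powers of an orthogonal space: operators in one factor
-/

set_option autoImplicit false
set_option linter.unusedSectionVars false
set_option linter.unusedSimpArgs false

namespace Cfsg.Agent.Max3

open Module Cfsg.Agent.Max Cfsg.Agent.Max2 TensorProduct Function Cfsg.Agent.Orth QuadraticMap

variable {F U W : Type*} [Field F] [AddCommGroup U] [Module F U] [AddCommGroup W] [Module F W]
  {S : QuadraticForm F W}

/-- The rank one map `v ↦ β a v • b`. -/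
noncomputable def oR (S : QuadraticForm F W) (a b : W) : Module.End F W := rr S.polarBilin a b

theorem oR_apply (a b v : W) : oR S a b v = polar S a v • b := rfl

theorem oR_mul (a b c d : W) : oR S a b * oR S c d = polar S a d • oR S c b := rr_mul a b c d

/-- The skew part of an Eichler transformation. -/
noncomputable def oX (S : QuadraticForm F W) (n c : W) : Module.End F W := oR S c n - oR S n c

theorem oX_apply (n c v : W) : oX S n c v = polar S c v • n - polar S n v • c := rfl

/-- An isometry as an endomorphism. -/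
abbrev oe (σ : OG S) : Module.End F W := σ.1.toLinearMap

theorem oe_mul_inv (σ : OG S) : oe σ * oe σ⁻¹ = 1 := LinearMap.ext fun v => OG.apply_inv_self σ v

theorem oe_inv_mul (σ : OG S) : oe σ⁻¹ * oe σ = 1 := LinearMap.ext fun v => OG.inv_apply_self σ v

theorem oe_oR (σ : OG S) (a b : W) : oe σ * oR S a b * oe σ⁻¹ = oR S (σ.1 a) (σ.1 b) := by
  ext v
  simp [oR_apply, OG.polar_inv_right, -Subgroup.coe_inv, -InvMemClass.coe_inv]

theorem oe_oX (σ : OG S) (a b : W) : oe σ * oX S a b * oe σ⁻¹ = oX S (σ.1 a) (σ.1 b) := by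
  simp only [oX, mul_sub, sub_mul, oe_oR]

theorem oe_eich {n c : W} (hn : S n = 0) (hc : polar S n c = 0) :
    oe (eich S n c) = 1 + oX S n c - S c • oR S n n := by
  ext v
  simp only [LinearEquiv.coe_coe, eich_apply hn hc, LinearMap.sub_apply, LinearMap.add_apply,
    Module.End.one_apply, oX_apply, LinearMap.smul_apply, oR_apply]
  module

theorem oe_refl (c : W) : oe (refl S c) = 1 - (S c)⁻¹ • oR S c c := by
  ext v; simp [refl_apply, oR_apply, smul_smul]

theorem oX_add (n c d : W) : oX S n (c + d) = oX S n c + oX S n d := by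
  ext v; simp only [oX_apply, LinearMap.add_apply, polar_add_left]; module

theorem oX_sub (n c d : W) : oX S n (c - d) = oX S n c - oX S n d := by
  ext v; simp only [oX_apply, LinearMap.sub_apply, polar_sub_left]; module

theorem oX_smul (n c : W) (t : F) : oX S n (t • c) = t • oX S n c := by
  ext v; simp only [oX_apply, LinearMap.smul_apply, p_smul_left]; module

theorem oX_smul_left (n c : W) (t : F) : oX S (t • n) c = t • oX S n c := by
  ext v; simp only [oX_apply, LinearMap.smul_apply, p_smul_left]; module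

theorem oX_neg (n c : W) : oX S n (-c) = -oX S n c := by
  simpa using oX_smul (S := S) n c (-1)

theorem oR_smul (n : W) (t : F) : oR S (t • n) (t • n) = t ^ 2 • oR S n n := by
  ext v; simp only [oR_apply, LinearMap.smul_apply, p_smul_left]; module

theorem oE_sq {n : W} (hn : S n = 0) : oR S n n * oR S n n = 0 := by simp [oR_mul, hn]

theorem oE_sand (n : W) (x : Module.End F W) :
    oR S n n * x * oR S n n = polar S n (x n) • oR S n n := by
  ext v; simp [oR_apply, smul_smul, mul_comm]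

theorem oX_mul {n c d : W} (hn : S n = 0) (hc : polar S n c = 0) (hd : polar S n d = 0) :
    oX S n c * oX S n d = -polar S c d • oR S n n := by
  simp [oX, mul_sub, sub_mul, oR_mul, hn, hc, hd, polar_comm _ c n]

theorem oE_oX {n c : W} (hn : S n = 0) (hc : polar S n c = 0) : oR S n n * oX S n c = 0 := by
  simp [oX, mul_sub, oR_mul, hn, hc]

theorem oX_oE {n c : W} (hn : S n = 0) (hc : polar S n c = 0) : oX S n c * oR S n n = 0 := by
  simp [oX, sub_mul, oR_mul, hn, hc, polar_comm _ c n]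

theorem oX_skew (n c a b : W) : polar S (oX S n c a) b = -polar S a (oX S n c b) := by
  simp only [oX_apply, polar_sub_left, polar_sub_right, p_smul_left, p_smul_right,
    polar_comm _ a]
  ring

theorem oR_adj (n c a b : W) : polar S (oR S n c a) b = polar S a (oR S c n b) := by
  simp only [oR_apply, p_smul_left, p_smul_right, polar_comm _ a]
  ring

section Alg

variable {A : Type*} [Ring A] [Algebra F A]

/-- The second order part of conjugation by an Eichler transformation. -/
noncomputable def DO (S : QuadraticForm F W) (ρ : Module.End F W →ₐ[F] A) (n c : W) (γ : A) : A :=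
  S c ^ 2 • (ρ (oR S n n) * γ * ρ (oR S n n)) - S c • (ρ (oR S n n) * γ + γ * ρ (oR S n n)) -
    ρ (oX S n c) * γ * ρ (oX S n c)

/-- An additive group that is closed under conjugation by `Ω`. -/
def AdC (S : QuadraticForm F W) (ρ : Module.End F W →ₐ[F] A) (Y : AddSubgroup A) : Prop :=
  ∀ σ ∈ commutator (OG S), ∀ γ ∈ Y, ρ (oe σ) * γ * ρ (oe σ⁻¹) ∈ Y

variable {ρ : Module.End F W →ₐ[F] A} {Y : AddSubgroup A} {γ : A} [FiniteDimensional F W]

theorem AdC.dO (h : AdC S ρ Y) (H : OF S) (hγ : γ ∈ Y) {n c : W} (hn : S n = 0)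
    (hc : polar S n c = 0) : (2 : F) • DO S ρ n c γ ∈ Y := by
  have hc' : polar S n (-c) = 0 := by simp [hc]
  have k := fun c => h _ (H.nd.eich_mem_commutator (good_of_two_ne_zero H.two) n c) γ hγ
  convert sub_mem (add_mem (k c) (k (-c))) (add_mem hγ hγ) using 1
  rw [eich_inv hn hc, eich_inv hn hc', neg_neg, oe_eich hn hc, oe_eich hn hc', oX_neg]
  simp only [DO, QuadraticMap.map_neg, map_add, map_sub, map_neg, map_smul, map_one, mul_add,
    add_mul, mul_sub, sub_mul, mul_neg, neg_mul, smul_mul_assoc, mul_smul_comm, one_mul, mul_one]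
  module

theorem sandE (H : OF S) [Finite F] {n : W} (hn0 : n ≠ 0) (hn : S n = 0) :
    ∃ t : F, t ≠ 0 ∧ ∀ (ρ : Module.End F W →ₐ[F] A) (Y : AddSubgroup A), AdC S ρ Y → ∀ γ ∈ Y,
      t • (ρ (oR S n n) * γ * ρ (oR S n n)) ∈ Y := by
  have h2 := H.two
  obtain ⟨f, hf, hf0⟩ := H.nd.exists_hyp hn0 hn
  obtain ⟨c, c1, c2, c3⟩ := exists_ns_hyp H.nd H.k3 hn hf0 hf
  by_cases h3 : finrank F W = 3
  · obtain ⟨s, hs0, hs1⟩ := H.q3 h3
    refine ⟨-(2 * 2 * (2 * s * (s ^ 2 - 1)) ^ 2 * S c ^ 2),
      by simp [h2, hs0, sub_ne_zero.2 hs1, c3], fun ρ Y h γ hγ => ?_⟩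
    have k := fun t : F => h.dO H hγ hn (c := t • c) (by simp [c1])
    convert sub_mem (add_mem (k (2 * s)) (k (s ^ 2 - 1))) (k (s ^ 2 + 1)) using 1
    simp only [DO, q_smul, oX_smul, map_smul, smul_mul_assoc, mul_smul_comm]
    module
  have hd := H.nd.finrank_perp_hyp hn hf0 hf
  have := H.k3
  obtain ⟨⟨d, hd⟩, e1, e2⟩ := (nds_hyp H.nd hn hf0 hf).nd.exists_orth_nonsingular h2 (by omega)
    (u := ⟨c, mem_perp_pair.2 ⟨c1, c2⟩⟩) c3
  replace e1 : polar S c d = 0 := e1
  replace e2 : S d ≠ 0 := e2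
  have d1 := (mem_perp_pair.1 hd).1
  refine ⟨2 * 2 * 2 * S c * S d, by simp [h2, c3, e2], fun ρ Y h γ hγ => ?_⟩
  have k := fun c hc => h.dO H hγ hn (c := c) hc
  convert sub_mem (add_mem (k (c + d) (by simp [c1, d1])) (k (c - d) (by simp [c1, d1])))
    (add_mem (add_mem (k c c1) (k c c1)) (add_mem (k d d1) (k d d1))) using 1
  simp only [DO, q_add, q_sub, e1, oX_add, oX_sub, map_add, map_sub, mul_add, add_mul, mul_sub,
    sub_mul]
  module

end Alg

/-- The sum of a scalar and a skew map. -/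
def SkS (S : QuadraticForm F W) (x : Module.End F W) : Prop :=
  ∃ c : F, ∀ a b, polar S (x a) b + polar S a (x b) = c * polar S a b

theorem SkS.dO {x : Module.End F W} (h : SkS S x) {n c : W} (hn : S n = 0)
    (hc : polar S n c = 0) (h2 : (2 : F) ≠ 0) :
    DO S (AlgHom.id F _) n c x = oX S n (S c • x n - polar S c (x n) • c) := by
  obtain ⟨d, h⟩ := h
  have e : ∀ a b, polar S a (x b) = d * polar S a b - polar S b (x a) := fun a b => by
    rw [polar_comm _ b, ← h]; ring
  have e1 : polar S n (x n) = 0 := mul_left_cancel₀ h2 (by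
    have := e n n; rw [p_self, hn] at this; linear_combination this)
  have e2 : polar S c (x c) = d * S c := mul_left_cancel₀ h2 (by
    have := e c c; rw [p_self] at this; linear_combination this)
  ext v
  simp only [DO, AlgHom.id_apply, LinearMap.sub_apply, LinearMap.smul_apply, LinearMap.add_apply,
    Module.End.mul_apply, oR_apply, oX_apply, map_smul, map_sub, polar_sub_left, polar_sub_right,
    p_smul_left, p_smul_right, e1, e2, e n c, e n v, hc, polar_comm _ (x n) v]
  module

theorem exists_adj [FiniteDimensional F W] (h : ND S) (x : Module.End F W) :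
    ∃ y : Module.End F W, ∀ a b, polar S (y a) b = polar S a (x b) :=
  ⟨LinearMap.BilinForm.symmCompOfNondegenerate (S.polarBilin.compl₂ x) S.polarBilin h.nondeg,
    fun a b => by
    have := LinearMap.BilinForm.symmCompOfNondegenerate_left_apply (S.polarBilin.compl₂ x)
      h.nondeg b a
    rwa [polarBilin_apply_apply, LinearMap.compl₂_apply, polarBilin_apply_apply] at this⟩

theorem skS_of [FiniteDimensional F W] [Finite F] (H : OF S) {x : Module.End F W}
    (h : ∀ n, S n = 0 → polar S n (x n) = 0) : SkS S x := by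
  obtain ⟨y, hy⟩ := exists_adj H.nd x
  obtain ⟨c, hc⟩ := sym_scalar H.two H.nd H.k3 H.q3 (γ := x + y) (fun a b => by
    simp [hy, polar_comm _ a (y b), polar_comm _ b (x a), add_comm]) fun n hn => by
    simp [polar_comm _ n (y n), hy, h n hn]
  exact ⟨c, fun a b => by simpa [hy] using congrArg (polar S · b) (LinearMap.congr_fun hc a)⟩

theorem SkS.scalar [FiniteDimensional F W] [Finite F] (H : OF S) {x : Module.End F W}
    (h : SkS S x) (e : ∀ n c, S n = 0 → polar S n c = 0 → S c ≠ 0 → polar S c (x n) = 0) :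
    x ∈ F ∙ (1 : Module.End F W) := by
  obtain ⟨d, h⟩ := h
  have h2 := H.two
  refine Submodule.mem_span_singleton.2 ⟨d / 2, (sub_eq_zero.1 (by_contra fun h0 => ?_)).symm⟩
  obtain ⟨n, hn, hn'⟩ := skew_eigen h2 H.nd H.k3 (γ := x - (d / 2) • 1) (fun a b => by
    simp only [LinearMap.sub_apply, LinearMap.smul_apply, Module.End.one_apply, polar_sub_left,
      polar_sub_right, p_smul_left, p_smul_right]
    field_simp
    linear_combination 2 * h a b) h0
  have hn0 : n ≠ 0 := by rintro rfl; simp at hn'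
  obtain ⟨f, hf, hf0⟩ := H.nd.exists_hyp hn0 hn
  have e1 : polar S n (x n) = 0 := mul_left_cancel₀ h2 (by
    have := h n n; rw [p_self, hn, polar_comm] at this; linear_combination this)
  have k := ns_le h2 (nds_hyp H.nd hn hf0 hf) (X := LinearMap.ker (S.polarBilin (x n)))
    fun c hc hc0 => by simpa [polar_comm _ (x n)] using e n c hn (mem_perp_pair.1 hc).1 hc0
  have : x n = polar S f (x n) • n := sub_eq_zero.1 (H.nd _ fun y => by
    have := k (hyp_proj_mem hn hf0 hf y)
    simp only [LinearMap.mem_ker, polarBilin_apply_apply, polar_sub_right, p_smul_right] at this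
    simp only [polar_sub_left, p_smul_left, polar_comm _ (x n), e1] at this ⊢
    linear_combination this)
  refine hn' (sub_mem (this ▸ Submodule.smul_mem _ _ (Submodule.mem_span_singleton_self n))
    (Submodule.smul_mem _ _ (Submodule.mem_span_singleton_self n)))

variable {g : (U ⊗[F] W) ≃ₗ[F] (U ⊗[F] W)} {γ δ : Module.End F (U ⊗[F] W)}

/-- The coefficients of a map in the factor. -/
noncomputable def co (g : (U ⊗[F] W) ≃ₗ[F] (U ⊗[F] W)) (ψ : Dual F U) (u : U) :
    Module.End F (U ⊗[F] W) →ₗ[F] Module.End F W where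
  toFun γ := cU W ψ ∘ₗ g.symm.toLinearMap ∘ₗ γ ∘ₗ g.toLinearMap ∘ₗ TensorProduct.mk F U W u
  map_add' _ _ := by ext; simp
  map_smul' _ _ := by ext; simp

theorem co_apply (ψ : Dual F U) (u : U) (γ : Module.End F (U ⊗[F] W)) (w : W) :
    co g ψ u γ w = cU W ψ (g.symm (γ (g (u ⊗ₜ w)))) := rfl

theorem co_left (ψ : Dual F U) (u : U) (a : Module.End F W) (γ : Module.End F (U ⊗[F] W)) :
    co g ψ u (rh g a * γ) = a * co g ψ u γ := by
  ext w
  simp only [co_apply, Module.End.mul_apply, rh_apply, LinearEquiv.symm_apply_apply]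
  induction g.symm (γ (g (u ⊗ₜ w))) with
  | zero => simp
  | tmul u y => simp
  | add x y hx hy => simp only [map_add, hx, hy]

theorem co_right (ψ : Dual F U) (u : U) (a : Module.End F W) (γ : Module.End F (U ⊗[F] W)) :
    co g ψ u (γ * rh g a) = co g ψ u γ * a := by
  ext w; simp only [co_apply, Module.End.mul_apply, rh_tmul]

theorem co_DO (ψ : Dual F U) (u : U) (n c : W) (γ : Module.End F (U ⊗[F] W)) :
    co g ψ u (DO S (rh g) n c γ) = DO S (AlgHom.id F _) n c (co g ψ u γ) := by
  simp only [DO, map_sub, map_smul, map_add, co_left, co_right, AlgHom.id_apply]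

variable [FiniteDimensional F W]

theorem eq_zero_of_co (h : ∀ ψ u, co g ψ u γ = 0) : γ = 0 :=
  ext_g g fun u w => g.symm.map_eq_zero_iff.1 (eq_zero_of_cU fun ψ => LinearMap.congr_fun (h ψ u) w)

theorem pure_of_co {x : Module.End F W} (h : ∀ ψ u, co g ψ u γ ∈ F ∙ x) :
    ∃ A, CA g A ∧ γ = A * rh g x := by
  by_cases hx : x = 0
  · exact ⟨0, fun _ => Commute.zero_left _, by
      simpa using eq_zero_of_co fun ψ u => by simpa [hx] using h ψ u⟩
  obtain ⟨w₀, hw₀⟩ := DFunLike.ne_iff.1 hx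
  obtain ⟨χ, hχ⟩ := exists_dual_one (F := F) hw₀
  let α : Module.End F U := cW U χ ∘ₗ g.symm.toLinearMap ∘ₗ γ ∘ₗ g.toLinearMap ∘ₗ inW F U w₀
  have e : ∀ u v, cjm g (α.rTensor W) (g (u ⊗ₜ v)) = g (α u ⊗ₜ v) := fun u v => by
    simp [cjm_apply]
  refine ⟨_, ca_of e, ext_g g fun u w => ?_⟩
  rw [Module.End.mul_apply, rh_tmul, e, ← LinearEquiv.symm_apply_eq]
  refine sub_eq_zero.1 (eq_zero_of_cU fun ψ => ?_)
  obtain ⟨c, hc⟩ := Submodule.mem_span_singleton.1 (h ψ u)
  have : ψ (α u) = c := by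
    simpa [α, co_apply, hχ, dual_cU] using (congrArg χ (LinearMap.congr_fun hc w₀)).symm
  rw [map_sub, cU_tmul, this, ← co_apply, ← hc]; simp

theorem ca_of_co (h : ∀ ψ u, co g ψ u γ ∈ F ∙ (1 : Module.End F W)) : CA g γ := by
  obtain ⟨A, h1, h2⟩ := pure_of_co h
  rwa [h2, map_one, mul_one]

variable [Finite F] (H : OF S)
include H

theorem skS_co (h : ∀ n, S n = 0 → rh g (oR S n n) * γ * rh g (oR S n n) = 0) (ψ : Dual F U)
    (u : U) : SkS S (co g ψ u γ) := skS_of H fun n hn => by
  by_cases h0 : n = 0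
  · simp [h0]
  obtain ⟨f, hf, -⟩ := H.nd.exists_hyp h0 hn
  have := congrArg (co g ψ u) (h n hn)
  rw [co_right, co_left, oE_sand, map_zero] at this
  simpa [oR_apply, hf, h0] using LinearMap.congr_fun this f

theorem exists_coef (h : ∀ n, S n = 0 → rh g (oR S n n) * γ * rh g (oR S n n) = 0)
    (hc : ¬ CA g γ) : ∃ n c ψ u, n ≠ 0 ∧ S n = 0 ∧ polar S n c = 0 ∧ S c ≠ 0 ∧
      polar S c (co g ψ u γ n) ≠ 0 := by
  by_contra hn
  push Not at hn
  refine hc (ca_of_co fun ψ u => (skS_co H h ψ u).scalar H fun n c e1 e2 e3 => ?_)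
  by_cases h0 : n = 0
  · simp [h0]
  exact hn n c ψ u h0 e1 e2 e3

omit [Finite F] in
theorem oX_ne {n c : W} (hn0 : n ≠ 0) (hn : S n = 0) (hc : c ∉ F ∙ n) : oX S n c ≠ 0 := fun e => by
  obtain ⟨f, hf, -⟩ := H.nd.exists_hyp hn0 hn
  have := LinearMap.congr_fun e f
  rw [oX_apply, hf, one_smul, LinearMap.zero_apply, sub_eq_zero] at this
  exact hc (Submodule.mem_span_singleton.2 ⟨_, this⟩)

omit [Finite F] in
theorem oR_ne {a b : W} (ha : a ≠ 0) (hb : b ≠ 0) : oR S a b ≠ 0 := fun e => by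
  obtain ⟨f, hf⟩ := H.nd.exists_polar_one ha
  simpa [oR_apply, hf, hb] using LinearMap.congr_fun e f

omit [Finite F] H in
theorem ns_not_mem {n c : W} (hn : S n = 0) (hc : S c ≠ 0) : c ∉ F ∙ n := fun e => by
  obtain ⟨t, rfl⟩ := Submodule.mem_span_singleton.1 e
  simp [q_smul, hn] at hc

omit [Finite F] in
theorem perp3 (h3 : finrank F W = 3) {n c v : W} (hn0 : n ≠ 0) (hn : S n = 0)
    (hc : polar S n c = 0) (hc0 : S c ≠ 0) (hv : polar S n v = 0) :
    ∃ a b : F, v = a • n + b • c := by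
  have d1 := H.nd.finrank_perp_singleton hn0
  have d2 := Orth.finrank_span_pair_eq
    (Orth.linearIndependent_pair_of_notMem hn0 (ns_not_mem hn hc0))
  have : Submodule.span F {n, c} = perp S (Submodule.span F {n}) :=
    Submodule.eq_of_le_of_finrank_eq (Submodule.span_le.2 (by
      rintro _ (rfl | rfl) <;> simp [mem_perp_singleton, hn, hc])) (by omega)
  obtain ⟨a, b, e⟩ := Submodule.mem_span_pair.1 (this ▸ mem_perp_singleton.2 hv :)
  exact ⟨a, b, e.symm⟩

/-- One purification step in a factor. -/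
theorem pur_step {Y : AddSubgroup (Module.End F (U ⊗[F] W))} (h : AdC S (rh g) Y)
    (hr : 4 ≤ finrank F W → ∀ c, S c ≠ 0 → ∀ γ ∈ Y,
      rh g (oe (refl S c)) * γ * rh g (oe (refl S c)) ∈ Y) (hγ : γ ∈ Y) (hc : ¬ CA g γ) :
    ∃ n A x, n ≠ 0 ∧ S n = 0 ∧ (x = oR S n n ∨ ∃ c, polar S n c = 0 ∧ S c ≠ 0 ∧ x = oX S n c) ∧
      CA g A ∧ A ≠ 0 ∧ A * rh g x ∈ Y := by
  have h2 := H.two
  by_cases hs : ∀ n, S n = 0 → rh g (oR S n n) * γ * rh g (oR S n n) = 0
  swap
  · push Not at hs
    obtain ⟨n, hn, hs⟩ := hs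
    have hn0 : n ≠ 0 := by rintro rfl; simp [oR, rr_zero_left] at hs
    obtain ⟨t, t0, ht⟩ := sandE (A := Module.End F (U ⊗[F] W)) H hn0 hn
    obtain ⟨A, a1, a2⟩ := pure_of_co (g := g) (x := oR S n n)
      (γ := t • (rh g (oR S n n) * γ * rh g (oR S n n))) fun ψ u => by
      rw [map_smul, co_right, co_left, oE_sand]
      exact Submodule.smul_mem _ _ (Submodule.smul_mem _ _ (Submodule.mem_span_singleton_self _))
    exact ⟨n, A, _, hn0, hn, Or.inl rfl, a1, by rintro rfl; simp [t0, hs] at a2,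
      a2 ▸ ht _ _ h γ hγ⟩
  obtain ⟨n, c, ψ, u, hn0, hn, c1, c2, c3⟩ := exists_coef H hs hc
  have k := h.dO H hγ hn c1
  have kc := fun ψ u => (co_DO (g := g) ψ u n c γ).trans ((skS_co H hs ψ u).dO hn c1 h2)
  have kn : ∀ ψ u, polar S n (co g ψ u γ n) = 0 := fun ψ u => by
    obtain ⟨d, e⟩ := skS_co H hs ψ u
    have := e n n
    rw [p_self, hn, polar_comm] at this
    exact mul_left_cancel₀ h2 (by linear_combination this)
  have x0 := oX_ne H hn0 hn (ns_not_mem hn c2)
  obtain ⟨δ, d1, r, r0, d2⟩ : ∃ δ ∈ Y, ∃ r : F, r ≠ 0 ∧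
      ∀ ψ u, co g ψ u δ = (r * polar S c (co g ψ u γ n)) • oX S n c := by
    by_cases h3 : finrank F W = 3
    · refine ⟨_, k, -1, by simp, fun ψ u => ?_⟩
      obtain ⟨a, b, e⟩ := perp3 H h3 hn0 hn c1 c2 (kn ψ u)
      rw [map_smul, kc, e]
      simp only [oX_sub, oX_add, oX_smul, polar_add_right, p_smul_right, p_self,
        polar_comm _ c n, c1, show oX S n n = 0 from sub_self _]
      module
    have := H.k3
    refine ⟨_, sub_mem k (hr (by omega) c c2 _ k), -2, by simp [h2], fun ψ u => ?_⟩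
    rw [map_sub, co_right, co_left, map_smul, kc, mul_smul_comm, smul_mul_assoc]
    nth_rw 2 [← refl_inv]
    rw [oe_oX, refl_apply_of_orth (by rwa [polar_comm]), refl_apply]
    simp only [oX_sub, oX_smul, polar_sub_right, p_smul_right, p_self]
    match_scalars <;> field_simp <;> ring
  obtain ⟨A, a1, a2⟩ := pure_of_co (g := g) (x := oX S n c) (γ := δ) fun ψ u => by
    rw [d2]; exact Submodule.smul_mem _ _ (Submodule.mem_span_singleton_self _)
  refine ⟨n, A, _, hn0, hn, Or.inr ⟨c, c1, c2, rfl⟩, a1, ?_, a2 ▸ d1⟩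
  rintro rfl
  have := d2 ψ u
  rw [a2, zero_mul, map_zero, eq_comm, smul_eq_zero] at this
  simp [x0, r0, c3] at this

/-- A closed group that is not centralised by the factor contains a nilpotent element. -/
theorem nil_step {Y : AddSubgroup (Module.End F (U ⊗[F] W))} (h : AdC S (rh g) Y) (hγ : γ ∈ Y)
    (hc : ¬ CA g γ) : ∃ y ∈ Y, y ≠ 0 ∧ IsNilpotent y := by
  have h2 := H.two
  by_cases hs : ∀ n, S n = 0 → rh g (oR S n n) * γ * rh g (oR S n n) = 0
  swap
  · push Not at hs
    obtain ⟨n, hn, hs⟩ := hs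
    have hn0 : n ≠ 0 := by rintro rfl; simp [oR, rr_zero_left] at hs
    obtain ⟨t, t0, ht⟩ := sandE (A := Module.End F (U ⊗[F] W)) H hn0 hn
    refine ⟨_, ht _ _ h γ hγ, by simp [t0, hs], 2, ?_⟩
    rw [pow_two, smul_mul_smul_comm, mul_assoc, ← mul_assoc (rh g _) (_ * γ), ← mul_assoc (rh g _),
      ← map_mul, oE_sq hn]
    simp
  obtain ⟨n, c, ψ, u, hn0, hn, c1, c2, c3⟩ := exists_coef H hs hc
  have kc := fun ψ u => (co_DO (g := g) ψ u n c γ).trans ((skS_co H hs ψ u).dO hn c1 h2)
  have kn : ∀ ψ u, polar S n (co g ψ u γ n) = 0 := fun ψ u => by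
    obtain ⟨d, e⟩ := skS_co H hs ψ u
    have := e n n
    rw [p_self, hn, polar_comm] at this
    exact mul_left_cancel₀ h2 (by linear_combination this)
  obtain ⟨f, hf, hf0⟩ := H.nd.exists_hyp hn0 hn
  have hf' : polar S f n = 1 := by rwa [polar_comm]
  refine ⟨_, h.dO H hγ hn c1, fun e => ?_, IsNilpotent.smul ⟨3, ?_⟩ _⟩
  · have := kc ψ u
    rw [(smul_eq_zero_iff_right h2).1 e, map_zero] at this
    have := congrArg (polar S c) (LinearMap.congr_fun this f)
    simp [oX_apply, hf, polar_comm _ c n, c1] at this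
    exact mul_ne_zero c2 c3 (by linear_combination -this)
  generalize DO S (rh g) n c γ = y at kc
  have a1 : y * rh g (oR S f n) = 0 := eq_zero_of_co (g := g) fun ψ u => by
    rw [co_right, kc]; ext v
    simp [oX_apply, oR_apply, hn, polar_comm _ c n, c1, polar_comm _ _ n, kn]
  have a2 : y * (1 - rh g (oR S n f)) = rh g (oR S f n) * (y * (1 - rh g (oR S n f))) :=
    sub_eq_zero.1 (eq_zero_of_co (g := g) fun ψ u => by
      rw [← map_one (rh g), ← map_sub, map_sub, co_left, co_right, kc]; ext v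
      simp [oX_apply, oR_apply, hf, hf', hf0])
  have a3 : rh g (oR S n f) * y = 0 := eq_zero_of_co (g := g) fun ψ u => by
    rw [co_left, kc]; ext v
    simp [oX_apply, oR_apply, hn, c1, kn]
  have : y * y = rh g (oR S f n) * (y * (1 - rh g (oR S n f))) * y := by
    rw [← a2, mul_assoc, sub_mul, a3]; simp
  rw [pow_three, this, ← mul_assoc, ← mul_assoc, a1]; simp

end Cfsg.Agent.Max3
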