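import Mathlib
import Cfsg.Agent.Max3.OB1

/-!
# Tensor powers of an orthogonal space: extracting a pure tensor
-/

set_option autoImplicit false
set_option linter.unusedSectionVars false
set_option linter.unusedSimpArgs false

namespace Cfsg.Agent.Max3

open Module Cfsg.Agent.Max Cfsg.Agent.Max2 TensorProduct Function Cfsg.Agent.Orth QuadraticMap

variable {F U W : Type*} [Field F] [AddCommGroup U] [Module F U] [AddCommGroup W] [Module F W]
  {S : QuadraticForm F W} {I : Type} [DecidableEq I] [Fintype I] {T : TP I F U W}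
  {Q : QuadraticForm F (U ⊗[F] W)} {κ : F} {M : Subgroup ((U ⊗[F] W) ≃ₗ[F] (U ⊗[F] W))}
  {γ δ N : Module.End F (U ⊗[F] W)} {x x' : I → Module.End F W}

/-- An overgroup in `Ω` of the stabiliser of an orthogonal tensor power decomposition. -/
structure OB (T : TP I F U W) (Q : QuadraticForm F (U ⊗[F] W)) (S : QuadraticForm F W) (κ : F)
    (M : Subgroup ((U ⊗[F] W) ≃ₗ[F] (U ⊗[F] W))) : Prop extends TFO T Q S κ where
  hH : ∀ g ∈ OM Q, g ∈ T.Wr → g ∈ M
  hM : M ≤ OM Q

/-- All multiples of a tensor product of maps are roots of `M`. -/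
def RF (T : TP I F U W) (M : Subgroup ((U ⊗[F] W) ≃ₗ[F] (U ⊗[F] W)))
    (x : I → Module.End F W) : Prop := ∀ t : F, R M (t • T.PM x)

/-- Conjugate up to a scalar. -/
def Cj (S : QuadraticForm F W) (x y : Module.End F W) : Prop :=
  ∃ σ ∈ commutator (OG S), ∃ r : F, r ≠ 0 ∧ y = r • (oe σ * x * oe σ⁻¹)

theorem Cj.rfl (x : Module.End F W) : Cj S x x :=
  ⟨1, one_mem _, 1, one_ne_zero, by ext; simp⟩

/-- The two types of factors. -/
def Ty (S : QuadraticForm F W) (x : Module.End F W) : Prop :=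
  ∃ n, n ≠ 0 ∧ S n = 0 ∧ (x = oR S n n ∨ ∃ c, polar S n c = 0 ∧ S c ≠ 0 ∧ x = oX S n c)

theorem TP.rh_PM (T : TP I F U W) (l : I) (a b : Module.End F W) (x : I → Module.End F W) :
    rh (T.s l) a * T.PM x * rh (T.s l) b = T.PM (update x l (a * x l * b)) := by
  rw [TF.rh_eq, TF.rh_eq, ← T.PM_mul, ← T.PM_mul]
  congr 1
  funext j
  by_cases e : j = l
  · subst e; simp
  · simp [e]

theorem refl_E {u d : W} (e : polar S u d = 0) : oe (refl S d) * oR S u u = oR S u u := by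
  rw [oe_refl, sub_mul, smul_mul_assoc, oR_mul, polar_comm, e]; simp

theorem E_refl {u d : W} (e : polar S u d = 0) : oR S u u * oe (refl S d) = oR S u u := by
  rw [oe_refl, mul_sub, mul_smul_comm, oR_mul, e]; simp

theorem refl_sq (g : (U ⊗[F] W) ≃ₗ[F] (U ⊗[F] W)) (c : W) :
    rh g (oe (refl S c)) * rh g (oe (refl S c)) = 1 := by
  rw [← map_mul]; nth_rw 2 [← refl_inv]; rw [oe_mul_inv, map_one]

theorem sing_pt [FiniteDimensional F W] [Finite F] (H : OF S) {n m : W} (hn0 : n ≠ 0)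
    (hn : S n = 0) (hm0 : m ≠ 0) (hm : S m = 0) :
    ∃ σ ∈ commutator (OG S), ∃ r : F, r ≠ 0 ∧ m = r • σ.1 n := by
  obtain ⟨σ, h1, h2⟩ := H.nd.omega_trans_sing (good_of_two_ne_zero H.two) (sing_span_singleton hn)
    (sing_span_singleton hm) (by rw [finrank_span_singleton hn0, finrank_span_singleton hm0])
    (by rw [finrank_span_singleton hn0]; have := H.k3; omega)
  rw [Submodule.map_span, Set.image_singleton] at h2
  obtain ⟨r, hr⟩ := Submodule.mem_span_singleton.1 (h2 ▸ Submodule.mem_span_singleton_self m :)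
  exact ⟨σ, h1, r, by rintro rfl; simp [hm0.symm] at hr, hr.symm⟩

theorem cj_E [FiniteDimensional F W] [Finite F] (H : OF S) {n m : W} (hn0 : n ≠ 0)
    (hn : S n = 0) (hm0 : m ≠ 0) (hm : S m = 0) : Cj S (oR S n n) (oR S m m) := by
  obtain ⟨σ, h1, r, r0, rfl⟩ := sing_pt H hn0 hn hm0 hm
  exact ⟨σ, h1, r ^ 2, pow_ne_zero _ r0, by rw [oe_oR, oR_smul]⟩

theorem Ty.ne [FiniteDimensional F W] (H : OF S) {y : Module.End F W} (h : Ty S y) : y ≠ 0 := by
  obtain ⟨n, h0, hn, rfl | ⟨c, -, hc, rfl⟩⟩ := h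
  exacts [oR_ne H h0 h0, oX_ne H h0 hn (ns_not_mem hn hc)]

namespace OB

variable (h : OB T Q S κ M)
include h

theorem pol0 {a b : I → W} (j : I) (e : polar S (a j) (b j) = 0) : polar Q (T.pt a) (T.pt b) = 0 := by
  rw [h.pure, Finset.prod_eq_zero (Finset.mem_univ j) e, mul_zero]

theorem q0 {a : I → W} (j : I) (e : S (a j) = 0) : Q (T.pt a) = 0 :=
  mul_left_cancel₀ h.two (by rw [← p_self, h.pol0 j (by simp [e]), mul_zero])

theorem adj {ε : I → F} (e : ∀ j a b, polar S (x j a) b = ε j * polar S a (x' j b))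
    (u v : U ⊗[F] W) : polar Q (T.PM x u) v = (∏ j, ε j) * polar Q u (T.PM x' v) :=
  LinearMap.congr_fun₂ (show Q.polarBilin ∘ₗ T.PM x = (∏ j, ε j) • Q.polarBilin.compl₂ (T.PM x')
    from T.ext fun a => T.ext fun b => by
      simp [T.PM_pt, h.pure, e, Finset.prod_mul_distrib, mul_left_comm]) u v

theorem radj (i : I) {y y' : Module.End F W} (e : ∀ a b, polar S (y a) b = polar S a (y' b))
    (u v : U ⊗[F] W) : polar Q (rh (T.s i) y u) v = polar Q u (rh (T.s i) y' v) := by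
  rw [TF.rh_eq, TF.rh_eq, h.adj (ε := 1) (x' := update 1 i y') fun j a b => by
    by_cases e' : j = i
    · subst e'; simp [e]
    · simp [e']]
  simp

theorem og {g : (U ⊗[F] W) ≃ₗ[F] (U ⊗[F] W)}
    (e : ∀ a b, polar Q (g (T.pt a)) (g (T.pt b)) = polar Q (T.pt a) (T.pt b)) : g ∈ OG Q :=
  fun v => mul_left_cancel₀ h.two (by
    simpa using LinearMap.congr_fun₂ (show Q.polarBilin.compl₁₂ g.toLinearMap g.toLinearMap =
      Q.polarBilin from T.ext fun a => T.ext fun b => e a b) v v)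

theorem PP_og (σ : Equiv.Perm I) : T.PP σ ∈ OG Q := h.og fun a b => by
  simp only [T.PP_pt, h.pure]
  rw [Equiv.prod_comp σ⁻¹ fun j => polar S (a j) (b j)]

theorem fE_og (i : I) (σ : OG S) : fE (T.s i) σ.1 ∈ OG Q := h.og fun a b => by
  rw [fE_apply, h.radj i (y' := oe σ⁻¹) fun a b => (OG.polar_inv_right σ a b).symm, fE_apply,
    ← Module.End.mul_apply, ← map_mul, oe_inv_mul, map_one, Module.End.one_apply]

/-- The orthogonal group of a factor. -/
noncomputable def ph (i : I) : OG S →* OG Q :=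
  MonoidHom.mk' (fun σ => ⟨fE (T.s i) σ.1, h.fE_og i σ⟩) fun _ _ => Subtype.ext (map_mul _ _ _)

theorem map {g : (U ⊗[F] W) ≃ₗ[F] (U ⊗[F] W)} (hg : g ∈ M) (u v : U ⊗[F] W) :
    polar Q (g u) (g v) = polar Q u v := og_sg (OM.og (h.hM hg)) u v

theorem zall (a b : I → W) (v : U ⊗[F] W) :
    T.PM (fun j => oR S (a j) (b j)) v = (κ⁻¹ * polar Q (T.pt a) v) • T.pt b :=
  LinearMap.congr_fun (show T.PM (fun j => oR S (a j) (b j)) =
      (κ⁻¹ • Q.polarBilin (T.pt a)).smulRight (T.pt b) from T.ext fun c => by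
    rw [show (fun j => oR S (a j) (b j)) = fun j => r1 (S.polarBilin (a j)) (b j) from rfl, T.PM_r1]
    simp [h.pure, h.k0]) v

variable [FiniteDimensional F W]

theorem pt_ne {a : I → W} (e : ∀ j, a j ≠ 0) : T.pt a ≠ 0 := fun e' => by
  choose b hb using fun j => h.nd.exists_polar_one (e j)
  exact h.k0 (by simpa [e', hb] using (h.pure a b).symm)

theorem PM_ne (e : ∀ j, x j ≠ 0) : T.PM x ≠ 0 := fun e' => by
  choose a ha using fun j => DFunLike.ne_iff.1 (e j)
  exact h.pt_ne ha (by rw [← T.PM_pt, e']; rfl)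

theorem ntW : Nontrivial W := Module.nontrivial_of_finrank_pos (R := F) (by have := h.k3; omega)

variable [FiniteDimensional F U] [Nontrivial U]

theorem fE_wr (i : I) (σ : W ≃ₗ[F] W) : fE (T.s i) σ ∈ T.Wr :=
  T.root_mem (by have := h.k3; omega) i (x := σ.toLinearMap - 1) fun v => by simp [fE_apply]

theorem fac (i : I) : FacO S M (T.s i) := fun _ hσ =>
  h.hH _ ⟨_, map_mem_commutator (h.ph i) hσ, rfl⟩ (h.fE_wr i _)

open scoped commutatorElement in
theorem rpair (i j : I) {c d : W} (hc : S c ≠ 0) (e : S c = S d) :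
    fE (T.s j) (refl S c).1 * fE (T.s i) (refl S d).1 ∈ M := by
  refine h.hH _ ⟨h.ph j (refl S c) * h.ph i (refl S d), ?_, rfl⟩
    (mul_mem (h.fE_wr j _) (h.fE_wr i _))
  have e1 : h.ph j (refl S c) = ⟨_, h.PP_og (Equiv.swap i j)⟩ * h.ph i (refl S c) *
      ⟨_, h.PP_og (Equiv.swap i j)⟩⁻¹ := Subtype.ext (LinearEquiv.toLinearMap_injective (by
    change (fE _ _).toLinearMap = (T.PP _ * fE _ _ * (T.PP _)⁻¹).toLinearMap
    rw [← fE_mul, fE_coe, fE_coe, T.rh_PP, Equiv.swap_apply_left]))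
  have e2 : h.ph j (refl S c) * h.ph i (refl S d) =
      ⁅(⟨_, h.PP_og (Equiv.swap i j)⟩ : OG Q), h.ph i (refl S c)⁆ *
        h.ph i (refl S c * refl S d) := by
    rw [e1, commutatorElement_def, map_mul]; group
  rw [e2]
  exact mul_mem (Subgroup.commutator_mem_commutator trivial trivial)
    (map_mem_commutator _ (h.nd.refl_mul_refl_mem_commutator hc e))

open scoped commutatorElement in
theorem three {i j k : I} (e : i ≠ j) (e' : k ≠ j) :
    T.PP (Equiv.swap i j * Equiv.swap j k) ∈ M := by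
  refine h.hH _ ?_ (T.PP_mem (by have := h.k3; omega) _)
  let φ : Equiv.Perm I →* OG Q := MonoidHom.mk' (fun σ => ⟨T.PP σ, h.PP_og σ⟩)
    fun σ τ => Subtype.ext (T.PP_mul σ τ)
  refine ⟨φ _, ?_, rfl⟩
  by_cases e1 : i = k
  · subst e1
    rw [Equiv.swap_comm j, Equiv.swap_mul_self, map_one]; exact one_mem _
  rw [TQ.swap_three e e' e1, ← commutatorElement_def, map_commutatorElement]
  exact Subgroup.commutator_mem_commutator trivial trivial

theorem cj (i : I) {σ : OG S} (hσ : σ ∈ commutator (OG S)) (e : R M N) :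
    R M (rh (T.s i) (oe σ) * N * rh (T.s i) (oe σ⁻¹)) :=
  e.conj' (h.fac i σ hσ) fun v => by
    simp only [fE_apply, Module.End.mul_apply]
    rw [← Module.End.mul_apply (rh _ (oe σ⁻¹)), ← map_mul, oe_inv_mul, map_one]; rfl

theorem rf_cj (e : RF T M x) (e' : ∀ j, Cj S (x j) (x' j)) : RF T M x' := fun t => by
  choose σ hσ r r0 hr using e'
  obtain ⟨g, hg, eg⟩ := T.PM_ind (fun z => ∃ g ∈ M, g.toLinearMap = z) ⟨1, one_mem _, rfl⟩
    (fun j => oe (σ j)) (by
      rintro j _ ⟨g, hg, rfl⟩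
      exact ⟨_, mul_mem (h.fac j _ (hσ j)) hg, by rw [← fE_coe]; rfl⟩)
  refine (e (t * ∏ j, r j)).conj' hg fun v => LinearMap.congr_fun
    (show t • T.PM x' * g.toLinearMap = g.toLinearMap * ((t * ∏ j, r j) • T.PM x) from ?_) v
  rw [eg, show x' = _ from funext hr, T.PM_smul, smul_mul_assoc, smul_mul_assoc, mul_smul_comm,
    ← T.PM_mul, ← T.PM_mul, smul_smul]
  congr 2
  funext j
  simp [mul_assoc, oe_inv_mul]

variable [Finite F]

theorem step {i j : I} {u : W} (hu0 : u ≠ 0) (hu : S u = 0) {D : Finset I} (hi : i ∈ D)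
    (hj : j ∉ D) (x1 : x i = oR S u u) (x2 : ∀ j ∉ D, x j = 1) (c1 : ∀ j ∈ D, CA (T.s j) γ)
    (e : R M (γ * T.PM x)) (hc : ¬ CA (T.s j) γ) : ∃ y A, Ty S y ∧ A ≠ 0 ∧
      (∀ l ∈ insert j D, CA (T.s l) A) ∧ R M (A * T.PM (update x j y)) := by
  have c0 : ∀ l ∈ D, Com (T.s j) (T.s l) := fun l hl => T.com j l (by rintro rfl; exact hj hl)
  have c2 : CA (T.s j) (T.PM x) := T.ca_PM (x2 j hj)
  have z : ∀ δ δ', (∀ l ∈ D, CA (T.s l) δ') → δ * T.PM x * (δ' * T.PM x) = 0 := fun δ δ' e => by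
    rw [mul_assoc, ← mul_assoc _ δ', ← (T.comm_PM fun l => by
      by_cases hl : l ∈ D
      exacts [Or.inr (e l hl), Or.inl (x2 l hl)]).eq, mul_assoc,
      T.PM_mul_zero (i := i) (by rw [x1, oE_sq hu]), mul_zero, mul_zero]
  let Y : AddSubgroup (Module.End F (U ⊗[F] W)) :=
    { carrier := {δ | (∀ l ∈ D, CA (T.s l) δ) ∧ R M (δ * T.PM x)}
      zero_mem' := ⟨fun _ _ _ => Commute.zero_left _, by simpa using R.zero⟩
      add_mem' := fun a b => ⟨fun l hl => (a.1 l hl).add (b.1 l hl), by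
        rw [add_mul]; exact R_add a.2 b.2 (z _ _ b.1)⟩
      neg_mem' := fun a => ⟨fun l hl y => (a.1 l hl y).neg_left,
        (R_sub R.zero a.2 (z _ _ a.1) (zero_mul _)).congr fun v => by simp⟩ }
  obtain ⟨n, A, y, n0, hn, hy, a1, a2, a3⟩ := pur_step h.toOF (g := T.s j) (Y := Y)
    (fun σ hσ δ hδ => ⟨fun l hl => ((c0 l hl _).mul (hδ.1 l hl)).mul (c0 l hl _), by
      have := h.cj j hσ hδ.2
      rwa [mul_assoc, mul_assoc δ, (c2 _).eq, ← mul_assoc, ← mul_assoc] at this⟩)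
    (fun h4 c hc δ hδ => ⟨fun l hl => ((c0 l hl _).mul (hδ.1 l hl)).mul (c0 l hl _), by
      obtain ⟨f, hf, hf0⟩ := h.nd.exists_hyp hu0 hu
      have := h.nd.finrank_perp_hyp hu hf0 hf
      obtain ⟨d, d1, d2⟩ := (nds_hyp h.nd hu hf0 hf).exists_Q_eq (by omega) (S c)
      replace d1 := (mem_perp_pair.1 d1).1
      have k1 : rh (T.s i) (oe (refl S d)) * T.PM x = T.PM x := by
        have := T.rh_PM i (oe (refl S d)) 1 x
        rwa [map_one, mul_one, mul_one, x1, refl_E d1, ← x1, update_eq_self] at this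
      have k2 : T.PM x * rh (T.s i) (oe (refl S d)) = T.PM x := by
        have := T.rh_PM i 1 (oe (refl S d)) x
        rwa [map_one, one_mul, one_mul, x1, E_refl d1, ← x1, update_eq_self] at this
      have k3 := refl_sq (S := S) (T.s j) c
      refine hδ.2.conj' (h.rpair i j hc d2.symm) fun v => ?_
      simp only [LinearEquiv.mul_apply, fE_apply]
      simp only [← Module.End.mul_apply]
      congr 1
      change _ * (_ * rh (T.s i) (oe _)) = rh (T.s j) (oe _) * (rh (T.s i) (oe _) * _)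
      rw [← mul_assoc _ δ, ← (hδ.1 i hi _).eq, mul_assoc δ, k1, ← mul_assoc, mul_assoc _ (T.PM x),
        (c2 _).eq, ← mul_assoc, mul_assoc (_ * δ), k3, mul_one, mul_assoc, k2, mul_assoc]⟩)
    (γ := γ) ⟨c1, e⟩ hc
  have ty : Ty S y := ⟨n, n0, hn, hy⟩
  refine ⟨y, A, ty, a2, fun l hl => ?_, ?_⟩
  · rcases Finset.mem_insert.1 hl with rfl | hl
    exacts [a1, a1.of_mul (c0 l hl) (ty.ne h.toOF) (a3.1 l hl)]
  · have := T.PM_update x j y
    rw [x2 j hj, mul_one] at this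
    rw [this, ← mul_assoc]; exact a3.2

theorem loop {i : I} {u : W} (hu0 : u ≠ 0) (hu : S u = 0) (n : ℕ) : ∀ (D : Finset I) x γ,
    Fintype.card I - D.card = n → i ∈ D → x i = oR S u u → (∀ j ∉ D, x j = 1) →
    (∀ j ∈ D, Ty S (x j)) → γ ≠ 0 → (∀ j ∈ D, CA (T.s j) γ) → R M (γ * T.PM x) →
    ∃ (D : Finset I) (x : I → Module.End F W) (c : F), i ∈ D ∧ x i = oR S u u ∧ (∀ j ∉ D, x j = 1) ∧
      (∀ j ∈ D, Ty S (x j)) ∧ c ≠ 0 ∧ R M (c • T.PM x) := by
  have := h.ntW
  induction n using Nat.strong_induction_on with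
  | _ n ih =>
  intro D x γ hD hi x1 x2 x3 h0 c1 e
  by_cases hc : ∃ j ∉ D, ¬ CA (T.s j) γ
  · obtain ⟨j, hj, hc⟩ := hc
    obtain ⟨y, A, k1, k2, k3, k4⟩ := h.step hu0 hu hi hj x1 x2 c1 e hc
    have := Finset.card_insert_of_notMem hj
    have := Finset.card_le_univ (insert j D)
    refine ih _ (by omega) (insert j D) _ _ rfl (by simp [hi])
      (by rwa [update_of_ne (by rintro rfl; exact hj hi)]) (fun l hl => ?_) (fun l hl => ?_) k2 k3 k4
    · simp only [Finset.mem_insert, not_or] at hl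
      simp [hl.1, x2 l hl.2]
    · by_cases e : l = j
      · simpa [e] using k1
      · simpa [e] using x3 l (by simpa [e] using hl)
  push Not at hc
  obtain ⟨c, rfl⟩ := T.cent γ fun j => by
    by_cases hj : j ∈ D
    exacts [c1 j hj, hc j hj]
  exact ⟨D, x, c, hi, x1, x2, x3, by rintro rfl; simp at h0, by simpa using e⟩

theorem extract {i : I} {u : W} (hu0 : u ≠ 0) (hu : S u = 0) (h0 : γ ≠ 0) (c1 : CA (T.s i) γ)
    (e : R M (γ * rh (T.s i) (oR S u u))) :
    ∃ (D : Finset I) (x : I → Module.End F W) (l : I) (n c : W), i ∈ D ∧ x i = oR S u u ∧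
      (∀ j ∉ D, x j = 1) ∧ (∀ j ∈ D, Ty S (x j)) ∧ l ∈ D ∧ l ≠ i ∧ n ≠ 0 ∧ S n = 0 ∧
      polar S n c = 0 ∧ S c ≠ 0 ∧ x l = oX S n c ∧ RF T M x := by
  have h2 := h.two
  have := h.ntW
  obtain ⟨D, x, r, hi, x1, x2, x3, r0, e⟩ := h.loop (i := i) hu0 hu _ {i} (update 1 i (oR S u u)) γ
    rfl (by simp) (by simp) (fun j hj => by simp [show j ≠ i by simpa using hj])
    (by simpa using ⟨u, hu0, hu, Or.inl rfl⟩) h0 (by simpa) (by rwa [← TF.rh_eq])
  have z : T.PM x * T.PM x = 0 := T.PM_mul_zero (i := i) (by rw [x1, oE_sq hu])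
  obtain ⟨l, hl, hli, n, n0, hn, c, c1, c2, c3⟩ : ∃ l ∈ D, l ≠ i ∧ ∃ n, n ≠ 0 ∧ S n = 0 ∧
      ∃ c, polar S n c = 0 ∧ S c ≠ 0 ∧ x l = oX S n c := by
    by_contra hn
    push Not at hn
    refine h.PM_ne (x := x) (fun j => ?_) (LinearMap.ext fun a => h.nQ _ fun b =>
      mul_left_cancel₀ (mul_ne_zero h2 r0) ?_)
    · by_cases hj : j ∈ D
      exacts [(x3 j hj).ne h.toOF, x2 j hj ▸ one_ne_zero]
    have a1 := skew_of_R (B := Q.polarBilin) (fun g hg => h.map hg) e (by simp [z]) a b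
    have a2 := h.adj (x := x) (x' := x) (ε := 1) (fun j a b => by
      by_cases hj : j ∈ D
      swap
      · simp [x2 j hj]
      by_cases hji : j = i
      · simp [hji, x1, oR_adj]
      obtain ⟨n, n0, hn', e | ⟨c, c1, c2, e⟩⟩ := x3 j hj
      · simp [e, oR_adj]
      · exact (hn j hj hji n n0 hn' c c1 c2 e).elim) a b
    simp only [LinearMap.smul_apply, polarBilin_apply_apply, p_smul_left, p_smul_right,
      Pi.one_apply, Finset.prod_const_one] at a1 a2
    linear_combination a1 + r * a2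
  refine ⟨D, x, l, n, c, hi, x1, x2, x3, hl, hli, n0, hn, c1, c2, c3, fun t => ?_⟩
  obtain ⟨f, f1, f2, f3⟩ := h.nd.exists_hyp_partner (F ∙ c) (x := n)
    (not_mem_span_symm (ns_not_mem hn c2) n0) hn fun a ha => by
      obtain ⟨s, rfl⟩ := Submodule.mem_span_singleton.1 ha; simp [polar_comm _ c, c1]
  replace f1 := f1 c (Submodule.mem_span_singleton_self c)
  let A : AddSubgroup F :=
    { carrier := {t | R M (t • T.PM x)}
      zero_mem' := by simpa using R.zero
      add_mem' := fun a b => by simpa [add_smul] using R_add a b (by simp [z])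
      neg_mem' := fun a => (R_sub R.zero a (by simp [z]) (zero_mul _)).congr fun v => by simp }
  have := mem_of_sq h2 (A := A) (v := r) (fun s => by
    by_cases s0 : s = 0
    · simp [s0]
    have := h.cj l (σ := torus S n f (s ^ 2)) (h.nd.refl_mul_refl_mem_commutator'
      (by simp [q_add, hn, f2, f3]) (by simp [q_hyp_comb hn f3 f2, s0])
      (by simpa [q_hyp_comb hn f3 f2, q_add, hn, f2, f3] using IsSquare.sq s)) e
    rw [mul_smul_comm, smul_mul_assoc, T.rh_PM, c3, oe_oX, torus_apply hn f3 f2 (by simp [s0]),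
      torus_apply hn f3 f2 (by simp [s0]), polar_comm _ f c, f1, c1, polar_comm _ f, f2, p_self, hn,
      show n + ((s ^ 2 - 1) * 1) • n + (((s ^ 2)⁻¹ - 1) * (2 * 0)) • f = s ^ 2 • n by module] at this
    simp only [mul_zero, zero_smul, add_zero, oX_smul_left] at this
    rw [T.PM_upd, map_smul, smul_mul_assoc, ← T.PM_upd, ← c3, update_eq_self, smul_smul,
      mul_comm] at this
    exact this) (t / r)
  rwa [smul_eq_mul, div_mul_cancel₀ _ r0] at this

end OB

end Cfsg.Agent.Max3
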