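import Mathlib
import Cfsg.Agent.Max3.OB2

/-!
# Tensor powers of an orthogonal space: growing the set of factors
-/

set_option autoImplicit false
set_option linter.unusedSectionVars false
set_option linter.unusedSimpArgs false

namespace Cfsg.Agent.Max3

open Module Cfsg.Agent.Max Cfsg.Agent.Max2 TensorProduct Function Cfsg.Agent.Orth QuadraticMap

variable {F U W : Type*} [Field F] [AddCommGroup U] [Module F U] [AddCommGroup W] [Module F W]
  {S : QuadraticForm F W} {I : Type} [DecidableEq I] [Fintype I] {T : TP I F U W}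
  {Q : QuadraticForm F (U ⊗[F] W)} {κ : F} {M : Subgroup ((U ⊗[F] W) ≃ₗ[F] (U ⊗[F] W))}
  {γ δ N : Module.End F (U ⊗[F] W)} {x x' : I → Module.End F W}

theorem exists_m [FiniteDimensional F W] [Finite F] (H : OF S) {n : W} (hn0 : n ≠ 0)
    (hn : S n = 0) : ∃ f m, ∃ r : F, f ≠ 0 ∧ S f = 0 ∧ m ≠ 0 ∧ S m = 0 ∧ r ≠ 0 ∧
      oR S m m * (oR S n n * oR S f f) * oR S m m = r • oR S m m ∧
      oR S m m * (oR S f f * oR S n n) * oR S m m = r • oR S m m := by
  obtain ⟨f, hf, hf0⟩ := H.nd.exists_hyp hn0 hn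
  obtain ⟨d, d1, d2, d3⟩ := exists_ns_hyp H.nd H.k3 hn hf0 hf
  have hf' : polar S f n = 1 := by rwa [polar_comm]
  have e1 : polar S n (n + d - S d • f) = -S d := by simp [hn, d1, hf]
  have e2 : polar S f (n + d - S d • f) = 1 := by simp [hf0, d2, hf']
  have e3 : S (n + d - S d • f) = 0 := by
    simp [q_sub, q_add, q_smul, hn, hf0, hf, d1, polar_comm _ d f, d2]
  generalize n + d - S d • f = m at e1 e2 e3
  refine ⟨f, m, -S d, by rintro rfl; simp at hf, hf0, by rintro rfl; simp at e2, e3, by simpa,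
    ?_, ?_⟩ <;> simp [oE_sand, oR_apply, polar_comm _ m, e1, e2, hf, hf']

theorem sing_span [FiniteDimensional F W] [Finite F] (H : OF S) {n : W} (hn0 : n ≠ 0)
    (hn : S n = 0) (v : W) : v ∈ Submodule.span F {m | S m = 0 ∧ polar S n m ≠ 0} := by
  obtain ⟨f, hf, hf0⟩ := H.nd.exists_hyp hn0 hn
  obtain ⟨d, d1, d2, d3⟩ := exists_ns_hyp H.nd H.k3 hn hf0 hf
  have k : ∀ c, polar S n c = 0 →
      (eich S n c).1 f ∈ Submodule.span F {m | S m = 0 ∧ polar S n m ≠ 0} := fun c hc =>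
    Submodule.subset_span ⟨by simp [hf0], by simp [eich_apply hn hc, hf, hn, hc]⟩
  have k0 : f ∈ Submodule.span F {m | S m = 0 ∧ polar S n m ≠ 0} :=
    Submodule.subset_span ⟨hf0, by simp [hf]⟩
  refine mem_of_eich hn (by simp [hf]) ?_ k0 k v
  refine (Submodule.smul_mem_iff _ (mul_ne_zero H.two d3)).1 ?_
  convert sub_mem (add_mem k0 k0) (add_mem (k d d1) (k (-d) (by simp [d1]))) using 1
  rw [eich_apply hn d1, eich_apply hn (by simp [d1])]
  simp only [hf, polar_neg_left, QuadraticMap.map_neg]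
  module

theorem TP.span_mem (T : TP I F U W) {A : I → Set W} {Y : Submodule F (U ⊗[F] W)}
    (h : ∀ w, (∀ j, w j ∈ A j) → T.pt w ∈ Y) (v : I → W) (hv : ∀ j, v j ∈ Submodule.span F (A j)) :
    T.pt v ∈ Y := by
  have : ∀ D : Finset I, ∀ v, (∀ j ∈ D, v j ∈ Submodule.span F (A j)) → (∀ j ∉ D, v j ∈ A j) →
      T.pt v ∈ Y := by
    intro D
    induction D using Finset.induction_on with
    | empty => exact fun v _ e => h v fun j => e j (by simp)
    | insert j D hj ih =>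
      intro v e1 e2
      have : Submodule.span F (A j) ≤ Y.comap (T.pt.toLinearMap v j) :=
        Submodule.span_le.2 fun a ha => ih _ (fun l hl => by
          rw [update_of_ne (by rintro rfl; exact hj hl)]; exact e1 l (Finset.mem_insert_of_mem hl))
          fun l hl => by
            by_cases e : l = j
            · simpa [e] using ha
            · simpa [e] using e2 l (by simp [e, hl])
      simpa using this (e1 j (Finset.mem_insert_self _ _))
  exact this Finset.univ v (fun j _ => hv j) (by simp)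

/-- The normal form. -/
noncomputable def zz (S : QuadraticForm F W) (u f : W) (D : Finset I) (a j : I) :
    Module.End F W := if j = a then oX S u f else if j ∈ D then oR S u u else 1

theorem RF.perm (e : RF T M x) {σ : Equiv.Perm I} (hσ : T.PP σ ∈ M) :
    RF T M fun j => x (σ⁻¹ j) := fun t => by
  rw [← T.cjm_PP]
  exact ((e t).conj hσ).congr fun v => by simp [cjm_apply]

theorem RF.of_smul {a : I} {y : Module.End F W} {r : F} (hr : r ≠ 0)
    (e : RF T M (update x a (r • y))) : RF T M (update x a y) := fun t => by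
  have := e (t / r)
  rwa [T.PM_upd, map_smul, smul_mul_assoc, ← T.PM_upd, smul_smul, div_mul_cancel₀ _ hr] at this

namespace OB

variable (h : OB T Q S κ M) [FiniteDimensional F W] [FiniteDimensional F U] [Nontrivial U]
  [Finite F]
include h

theorem sand {l : I} {n : W} (hn : S n = 0) {e : I → Module.End F W}
    (he : ∀ j, e j = 1 ∨ (j ≠ l ∧ ∃ m, m ≠ 0 ∧ S m = 0 ∧ e j = oR S m m)) (c : CA (T.s l) δ)
    (hN : ∀ t : F, R M (t • (δ * rh (T.s l) (oR S n n)))) (t : F) :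
    R M (t • (T.PM e * (δ * rh (T.s l) (oR S n n)) * T.PM e)) := by
  have z : ∀ {δ' : Module.End F (U ⊗[F] W)}, CA (T.s l) δ' → ∀ δ,
      δ * rh (T.s l) (oR S n n) * (δ' * rh (T.s l) (oR S n n)) = 0 := fun c δ => by
    rw [c.mul_rh, oE_sq hn, map_zero, mul_zero]
  let Y : AddSubgroup (Module.End F (U ⊗[F] W)) :=
    { carrier := {N | (∃ δ, CA (T.s l) δ ∧ N = δ * rh (T.s l) (oR S n n)) ∧ ∀ t : F, R M (t • N)}
      zero_mem' := ⟨⟨0, fun _ => Commute.zero_left _, by simp⟩, by simpa using R.zero⟩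
      add_mem' := by
        rintro _ _ ⟨⟨a, a1, rfl⟩, a2⟩ ⟨⟨b, b1, rfl⟩, b2⟩
        exact ⟨⟨_, a1.add b1, by rw [add_mul]⟩, fun t => by
          rw [smul_add]; exact R_add (a2 t) (b2 t) (by simp [z b1])⟩
      neg_mem' := by
        rintro _ ⟨⟨a, a1, rfl⟩, a2⟩
        exact ⟨⟨-a, fun y => (a1 y).neg_left, LinearMap.ext fun v => by simp⟩,
          fun t => (a2 (-t)).congr fun v => by simp⟩ }
  have k : ∀ j N, N ∈ Y → rh (T.s j) (e j) * N * rh (T.s j) (e j) ∈ Y := fun j N hN => by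
    obtain e1 | ⟨hj, m, m0, hm, e1⟩ := he j
    · simpa [e1] using hN
    have c0 := T.com j l hj
    have k1 : ∀ a b N, N ∈ Y → ∃ δ, CA (T.s l) δ ∧
        rh (T.s j) a * N * rh (T.s j) b = δ * rh (T.s l) (oR S n n) := by
      rintro a b _ ⟨⟨δ, d1, rfl⟩, -⟩
      exact ⟨_, ((c0 a).mul d1).mul (c0 b), by simp only [mul_assoc, (c0 b _).eq]⟩
    obtain ⟨r, r0, hr⟩ := sandE (A := Module.End F (U ⊗[F] W)) h.toOF m0 hm
    have := (hr (rh (T.s j)) Y (fun σ hσ N hN => ⟨k1 _ _ N hN, fun t => by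
      simpa using h.cj j hσ (hN.2 t)⟩) N hN).2
    refine ⟨k1 _ _ N hN, fun t => ?_⟩
    simpa only [e1, smul_smul, div_mul_cancel₀ _ r0] using this (t / r)
  exact (T.PM_ind (fun z => (∀ j, Commute (rh (T.s j) (e j)) z) ∧
      z * (δ * rh (T.s l) (oR S n n)) * z ∈ Y) ⟨fun _ => Commute.one_right _, by
      simpa using ⟨⟨δ, c, rfl⟩, hN⟩⟩ e fun i y hy => ⟨fun j => Commute.mul_right (by
      by_cases hij : j = i
      · rw [hij]; exact Commute.refl _
      · exact T.com j i hij _ _) (hy.1 j), by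
      have := k i _ hy.2
      rwa [mul_assoc, mul_assoc _ y, ← (hy.1 i).eq, ← mul_assoc, ← mul_assoc] at this⟩).2.2 t

theorem comm {w e : I → Module.End F W} (hx : RF T M x) (hx' : RF T M x') {i₁ i₂ i₃ i₄ l a : I}
    (z1 : x i₁ * x i₁ = 0) (z2 : x' i₂ * x' i₂ = 0) (z3 : x i₃ * x' i₃ * x i₃ = 0)
    (z4 : x' i₄ * x i₄ * x' i₄ = 0) {n : W} {μ : F} (hn : S n = 0)
    (l1 : x l * x' l = μ • oR S n n) (l2 : x' l * x l = μ • oR S n n)
    (he : ∀ j, e j = 1 ∨ (j ≠ l ∧ ∃ m, m ≠ 0 ∧ S m = 0 ∧ e j = oR S m m))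
    (hr : ∀ j, ∃ r : F, r ≠ 0 ∧ (j ≠ a → e j * (x j * x' j) * e j = r • w j ∧
      e j * (x' j * x j) * e j = r • w j) ∧
      (j = a → e j * (x j * x' j) * e j - e j * (x' j * x j) * e j = r • w j)) : RF T M w := by
  choose r r0 r1 r2 using hr
  have k : ∀ y : I → Module.End F W, y l = μ • oR S n n →
      T.PM y = μ • T.PM (update y l 1) * rh (T.s l) (oR S n n) := fun y hy => by
    rw [smul_mul_assoc, (T.ca_PM (by simp) _).eq, ← smul_mul_assoc, ← map_smul, ← T.PM_upd, ← hy,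
      update_eq_self]
  have k1 := h.sand hn he (δ := μ • T.PM (update (x * x') l 1) - μ • T.PM (update (x' * x) l 1))
    (fun y => ((T.ca_PM (by simp) y).smul_left μ).sub_left ((T.ca_PM (by simp) y).smul_left μ))
    fun t => by
    rw [sub_mul, ← k _ l1, ← k _ l2, T.PM_mul, T.PM_mul]
    simpa [smul_sub] using R_comm2 (hx t) (hx' 1) (by simp [T.PM_mul_zero z1])
      (by simp [T.PM_mul_zero z2])
      (by simp [← T.PM_mul, T.PM_zero (i := i₃) (x := x * x' * x) z3])
      (by simp [← T.PM_mul, T.PM_zero (i := i₄) (x := x' * x * x') z4])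
  intro t
  have p0 : ∏ j, r j ≠ 0 := Finset.prod_ne_zero_iff.2 fun j _ => r0 j
  have := k1 (t / ∏ j, r j)
  rwa [sub_mul, ← k _ l1, ← k _ l2, mul_sub, sub_mul, ← T.PM_mul, ← T.PM_mul, ← T.PM_mul,
    ← T.PM_mul, show e * (x * x') * e = update (fun j => r j • w j) a (e a * (x a * x' a) * e a) from
      eq_update_iff.2 ⟨rfl, fun j hj => (r1 j hj).1⟩,
    show e * (x' * x) * e = update (fun j => r j • w j) a (e a * (x' a * x a) * e a) from
      eq_update_iff.2 ⟨rfl, fun j hj => (r1 j hj).2⟩, T.PM_upd, T.PM_upd _ a (_ * (x' a * _) * _),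
    ← sub_mul, ← map_sub, ← T.PM_upd, r2 a rfl, update_eq_self a fun j => r j • w j, T.PM_smul,
    smul_smul, div_mul_cancel₀ _ p0] at this

theorem first {i : I} {u f : W} (hu : S u = 0) (hf0 : S f = 0) (hf : polar S u f = 1) (h0 : γ ≠ 0)
    (c1 : CA (T.s i) γ) (e : R M (γ * rh (T.s i) (oR S u u))) :
    ∃ D : Finset I, i ∈ D ∧ 2 ≤ D.card ∧ RF T M (zz S u f D i) := by
  have hu0 : u ≠ 0 := by rintro rfl; simp at hf
  obtain ⟨D, x, l, n, c, hi, x1, x2, x3, hl, hli, n0, hn, c1, c2, c3, e⟩ := h.extract hu0 hu h0 c1 e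
  have : ∀ j, ∃ y e w, Cj S (x j) y ∧ (e = 1 ∨ (j ≠ l ∧ ∃ m, m ≠ 0 ∧ S m = 0 ∧ e = oR S m m)) ∧
      (∃ r : F, r ≠ 0 ∧ (j ≠ i → e * (x j * y) * e = r • w ∧ e * (y * x j) * e = r • w) ∧
        (j = i → e * (x j * y) * e - e * (y * x j) * e = r • w)) ∧
      (j = i → y = oR S f f) ∧ (j = l → y = x l) ∧ Cj S w (zz S u f D i j) := fun j => by
    by_cases hj : j = i
    · subst hj
      refine ⟨_, 1, oX S u f, x1 ▸ cj_E h.toOF hu0 hu (by rintro rfl; simp at hf) hf0, Or.inl rfl,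
        ⟨1, one_ne_zero, by simp, fun _ => ?_⟩, fun _ => rfl, fun e => (hli e.symm).elim,
        by simpa [zz] using Cj.rfl _⟩
      simp [x1, oR_mul, hf, polar_comm _ f, oX]
    by_cases hD : j ∈ D
    swap
    · exact ⟨_, 1, 1, Cj.rfl _, Or.inl rfl, ⟨1, one_ne_zero, by simp [x2 j hD], by simp [hj]⟩,
        by simp [hj], fun e => by rw [e], by simpa [zz, hj, hD] using Cj.rfl _⟩
    obtain ⟨n, n0, hn, k⟩ : ∃ n, n ≠ 0 ∧ S n = 0 ∧ ((j ≠ l ∧ x j = oR S n n) ∨
        ∃ c, polar S n c = 0 ∧ S c ≠ 0 ∧ x j = oX S n c) := by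
      by_cases e : j = l
      · exact ⟨n, n0, hn, Or.inr ⟨c, c1, c2, e ▸ c3⟩⟩
      · simpa only [Ty, e, ne_eq, not_false_eq_true, true_and] using x3 j hD
    obtain ⟨k1, k2⟩ | ⟨c, c1, c2, k⟩ := k
    · obtain ⟨f', m, r, a1, a2, a3, a4, a5, a6, a7⟩ := exists_m h.toOF n0 hn
      exact ⟨_, _, _, k2 ▸ cj_E h.toOF n0 hn a1 a2, Or.inr ⟨k1, m, a3, a4, rfl⟩,
        ⟨r, a5, fun _ => by rw [k2]; exact ⟨a6, a7⟩, by simp [hj]⟩, by simp [hj], by simp [k1],
        by simpa [zz, hj, hD] using cj_E h.toOF a3 a4 hu0 hu⟩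
    · exact ⟨_, 1, oR S n n, Cj.rfl _, Or.inl rfl, ⟨-(2 * S c), by simp [h.two, c2], fun _ => by
        simp [k, oX_mul hn c1 c1], by simp [hj]⟩, by simp [hj], fun e => by rw [e],
        by simpa [zz, hj, hD] using cj_E h.toOF n0 hn hu0 hu⟩
  choose y e' w a1 a2 a3 a4 a5 a6 using this
  have z : x l * x l * x l = 0 := by rw [c3, oX_mul hn c1 c1, smul_mul_assoc, oE_oX hn c1, smul_zero]
  refine ⟨D, hi, Finset.one_lt_card.2 ⟨l, hl, i, hi, hli⟩, h.rf_cj (h.comm e (h.rf_cj e a1)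
    (i₁ := i) (i₂ := i) (i₃ := l) (i₄ := l) (by rw [x1, oE_sq hu]) (by rw [a4 i rfl, oE_sq hf0])
    (by rwa [a5 l rfl]) (by rwa [a5 l rfl]) hn (by rw [a5 l rfl, c3, oX_mul hn c1 c1])
    (by rw [a5 l rfl, c3, oX_mul hn c1 c1]) a2 a3) a6⟩

theorem grow {u f : W} (hu : S u = 0) (hf : polar S u f = 1) {D : Finset I} {a b j : I}
    (ha : a ∈ D) (hb : b ∈ D) (hab : b ≠ a) (hj : j ∉ D) (e : RF T M (zz S u f D a)) :
    RF T M (zz S u f (insert j D) a) := by
  have hu0 : u ≠ 0 := by rintro rfl; simp at hf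
  have ja : j ≠ a := by rintro rfl; exact hj ha
  have jb : j ≠ b := by rintro rfl; exact hj hb
  have e' := e.perm (h.three (i := b) (j := j) (k := a) jb.symm ja.symm)
  have uf : polar S f u = 1 := by rwa [polar_comm]
  have : ∀ k, ∃ y e w, Cj S (zz S u f D a ((Equiv.swap b j * Equiv.swap j a)⁻¹ k)) y ∧
      (e = 1 ∨ (k ≠ j ∧ ∃ m, m ≠ 0 ∧ S m = 0 ∧ e = oR S m m)) ∧
      (∃ r : F, r ≠ 0 ∧ (k ≠ b → e * (zz S u f D a k * y) * e = r • w ∧
        e * (y * zz S u f D a k) * e = r • w) ∧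
        (k = b → e * (zz S u f D a k * y) * e - e * (y * zz S u f D a k) * e = r • w)) ∧
      (k = b → y = oX S u f) ∧ (k = j → y = oR S u u) ∧ Cj S w (zz S u f (insert j D) a k) := by
    intro k
    simp only [mul_inv_rev, Equiv.swap_inv, Equiv.Perm.mul_apply]
    by_cases kb : k = b
    · subst kb
      refine ⟨oX S u f, 1, oR S u u, by simpa [zz] using Cj.rfl _, Or.inl rfl, ⟨-2, by simp [h.two],
        by simp, fun _ => ?_⟩, by simp, by simp [jb.symm], by simpa [zz, hab, hb] using Cj.rfl _⟩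
      simp only [zz, hab, hb, if_true, if_false, oX, mul_sub, sub_mul, oR_mul, hf, uf, p_self, hu,
        one_mul, mul_one]
      module
    by_cases kj : k = j
    · subst kj
      exact ⟨oR S u u, 1, oR S u u, by
        simpa [zz, Equiv.swap_apply_of_ne_of_ne jb.symm hab, hab, hb] using Cj.rfl _, Or.inl rfl,
        ⟨1, one_ne_zero, by simp [zz, ja, hj], by simp [kb]⟩, by simp [kb], by simp,
        by simpa [zz, ja] using Cj.rfl _⟩
    rw [Equiv.swap_apply_of_ne_of_ne kb kj]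
    by_cases ka : k = a
    · subst ka
      exact ⟨1, 1, oX S u f, by simpa [zz, ja, hj] using Cj.rfl _, Or.inl rfl,
        ⟨1, one_ne_zero, by simp [zz], by simp [kb]⟩, by simp [kb], by simp [kj],
        by simpa [zz] using Cj.rfl _⟩
    rw [Equiv.swap_apply_of_ne_of_ne kj ka]
    by_cases kD : k ∈ D
    · obtain ⟨f', m, r, a1, a2, a3, a4, a5, a6, a7⟩ := exists_m h.toOF hu0 hu
      exact ⟨_, _, _, by simpa [zz, ka, kD] using cj_E h.toOF hu0 hu a1 a2,
        Or.inr ⟨kj, m, a3, a4, rfl⟩, ⟨r, a5, fun _ => by simpa only [zz, ka, kD, if_true, if_false]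
          using ⟨a6, a7⟩, by simp [kb]⟩, by simp [kb], by simp [kj],
        by simpa [zz, ka, kD] using cj_E h.toOF a3 a4 hu0 hu⟩
    · exact ⟨_, 1, 1, Cj.rfl _, Or.inl rfl, ⟨1, one_ne_zero, by simp [zz, ka, kD], by simp [kb]⟩,
        by simp [kb], by simp [kj], by simpa [zz, ka, kD, kj] using Cj.rfl _⟩
  choose y e₁ w a1 a2 a3 a4 a5 a6 using this
  refine h.rf_cj (h.comm e (h.rf_cj e' a1) (i₁ := b) (i₂ := j) (i₃ := b) (i₄ := j) (μ := 1)
    (by simp [zz, hab, hb, oE_sq hu]) (by rw [a5 j rfl, oE_sq hu])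
    (by simp [zz, hab, hb, a4 b rfl, oE_sand, oX_apply, hu])
    (by simp [zz, ja, hj, a5 j rfl, oE_sq hu]) hu (by simp [zz, ja, hj, a5 j rfl])
    (by simp [zz, ja, hj, a5 j rfl]) a2 a3) a6

theorem univ {u f : W} (hu : S u = 0) (hf : polar S u f = 1) {a : I} (n : ℕ) : ∀ D : Finset I,
    Fintype.card I - D.card = n → a ∈ D → 2 ≤ D.card → RF T M (zz S u f D a) →
    RF T M (zz S u f Finset.univ a) := by
  induction n using Nat.strong_induction_on with
  | _ n ih =>
  intro D hD ha h2 e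
  by_cases hc : ∃ j, j ∉ D
  · obtain ⟨j, hj⟩ := hc
    obtain ⟨b, hb, hab⟩ := Finset.exists_mem_ne h2 a
    have := Finset.card_insert_of_notMem hj
    have := Finset.card_le_univ (insert j D)
    exact ih _ (by omega) _ rfl (by simp [ha]) (by omega) (h.grow hu hf ha hb hab hj e)
  push Not at hc
  rwa [← Finset.eq_univ_of_forall hc]

theorem conv {u f : W} (hu : S u = 0) (hf0 : S f = 0) (hf : polar S u f = 1) {a l : I} (hl : l ≠ a)
    (e : RF T M (zz S u f Finset.univ a)) : ∃ n c, n ≠ 0 ∧ S n = 0 ∧ polar S n c = 0 ∧ S c ≠ 0 ∧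
      RF T M (update (fun _ => oR S u u) a (oX S n c)) := by
  obtain ⟨d, d1, d2, d3⟩ := exists_ns_hyp h.nd h.k3 hu hf0 hf
  have uf : polar S f u = 1 := by rwa [polar_comm]
  have z : ∀ y y', T.PM (update (fun _ => oR S u u) a y) * T.PM (update (fun _ => oR S u u) a y') =
    0 := fun y y' => T.PM_mul_zero (i := l) (by simp [hl, oE_sq hu])
  let Y : AddSubgroup (Module.End F W) :=
    { carrier := {y | RF T M (update (fun _ => oR S u u) a y)}
      zero_mem' := fun t => by rw [T.PM_zero (i := a) (by simp), smul_zero]; exact R.zero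
      add_mem' := fun {y y'} e e' t => by
        rw [T.PM_upd, map_add, add_mul, ← T.PM_upd, ← T.PM_upd, smul_add]
        exact R_add (e t) (e' t) (by simp [z])
      neg_mem' := fun {y} e => RF.of_smul (r := -1) (by simp) (by simpa using e) }
  have e1 : polar S u (u + d - S d • f) = -S d := by simp [hu, d1, hf]
  have e2 : polar S f (u + d - S d • f) = 1 := by simp [hf0, d2, uf]
  have e3 : S (u + d - S d • f) = 0 := by
    simp [q_sub, q_add, q_smul, hu, hf0, hf, d1, polar_comm _ d f, d2]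
  generalize u + d - S d • f = n at e1 e2 e3
  have e4 : polar S n (u + S d • f) = 0 := by simp [polar_comm _ n, e1, e2]
  have e5 : S (u + S d • f) = S d := q_hyp_comb hu hf0 hf _
  have e6 : oX S u f n = u + S d • f := by simp [oX_apply, e1, e2]
  have := AdC.dO (ρ := AlgHom.id F _) (Y := Y) (fun σ hσ y hy t => by
    have := h.cj a hσ (hy t)
    rwa [mul_smul_comm, smul_mul_assoc, T.rh_PM, update_idem, update_self] at this) h.toOF
    (γ := oX S u f) (by
      change RF _ _ _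
      convert e using 1
      funext j
      by_cases hj : j = a <;> simp [zz, hj]) e3 e4
  rw [SkS.dO ⟨0, fun a b => by simp [oX_skew]⟩ e3 e4 h.two, e6, p_self, e5, ← sub_smul, oX_smul,
    smul_smul] at this
  exact ⟨n, _, by rintro rfl; simp at e2, e3, e4, by rwa [e5], RF.of_smul (mul_ne_zero h.two
    (by rw [show S d - 2 * S d = -S d by ring]; simpa)) this⟩

end OB

end Cfsg.Agent.Max3
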