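import Mathlib
import Cfsg.Agent.Max3.OB3

/-!
# Tensor powers of an orthogonal space: long root elements
-/

set_option autoImplicit false
set_option linter.unusedSectionVars false
set_option linter.unusedSimpArgs false

namespace Cfsg.Agent.Max3

open Module Cfsg.Agent.Max Cfsg.Agent.Max2 TensorProduct Function Cfsg.Agent.Orth QuadraticMap

variable {F U W : Type*} [Field F] [AddCommGroup U] [Module F U] [AddCommGroup W] [Module F W]
  {S : QuadraticForm F W} {I : Type} [DecidableEq I] [Fintype I] {T : TP I F U W}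
  {Q : QuadraticForm F (U ⊗[F] W)} {κ : F} {M : Subgroup ((U ⊗[F] W) ≃ₗ[F] (U ⊗[F] W))}
  {γ : Module.End F (U ⊗[F] W)} {N : Subgroup (OG Q)}

namespace OB

variable (h : OB T Q S κ M) [FiniteDimensional F W] [FiniteDimensional F U] [Nontrivial U]
  [Finite F]
include h

theorem sieg {a : I} (m : I → W) (n c : W) (v : U ⊗[F] W) :
    T.PM (update (fun j => oR S (m j) (m j)) a (oX S n c)) v =
      κ⁻¹ • (polar Q (T.pt (update m a c)) v • T.pt (update m a n) -
        polar Q (T.pt (update m a n)) v • T.pt (update m a c)) := by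
  have k : ∀ n c, update (fun j => oR S (m j) (m j)) a (oR S c n) =
      fun j => oR S (update m a c j) (update m a n j) := fun n c => funext fun j => by
    by_cases e : j = a
    · subst e; simp
    · simp [e]
  rw [T.PM_upd, oX, map_sub, sub_mul, ← T.PM_upd, ← T.PM_upd, k, k, LinearMap.sub_apply, h.zall,
    h.zall]
  module

theorem oe_of {a l : I} (hl : l ≠ a) {m : I → W} (hm : S (m l) = 0) {n c : W}
    (e : RF T M (update (fun j => oR S (m j) (m j)) a (oX S n c))) :
    T.pt (update m a c) ∈ OE (M.subgroupOf (OG Q)) (T.pt (update m a n)) := by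
  have p : polar Q (T.pt (update m a n)) (T.pt (update m a c)) = 0 := h.pol0 l (by simp [hl, hm])
  refine ⟨p, fun t => eich_mem_of_R (e (t * κ)) fun v => ?_⟩
  rw [eich_apply (h.q0 l (by simp [hl, hm])) (by simp [p]), LinearMap.smul_apply, h.sieg, q_smul,
    h.q0 l (by simp [hl, hm]), p_smul_left, smul_smul (t * κ), mul_inv_cancel_right₀ h.k0]
  module

theorem fam {u n c : W} (hu0 : u ≠ 0) (hu : S u = 0) {a l : I} (hl : l ≠ a) (n0 : n ≠ 0)
    (hn : S n = 0) (c1 : polar S n c = 0) (c2 : S c ≠ 0)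
    (e : RF T M (update (fun _ => oR S u u) a (oX S n c))) (n' : W) (h0 : n' ≠ 0) (h1 : S n' = 0) :
    ∃ c', polar S n' c' = 0 ∧ S c' ≠ 0 ∧ ∀ m : I → W, (∀ j ≠ a, m j ≠ 0 ∧ S (m j) = 0) →
      T.pt (update m a c') ∈ OE (M.subgroupOf (OG Q)) (T.pt (update m a n')) := by
  obtain ⟨σ, hσ, r, r0, rfl⟩ := sing_pt h.toOF n0 hn h0 h1
  refine ⟨σ.1 c, by simp [c1], by simpa, fun m hm => h.oe_of hl (hm l hl).2 (h.rf_cj e fun j => ?_)⟩
  by_cases e : j = a
  · subst e
    simpa using ⟨σ, hσ, r, r0, by rw [oe_oX, oX_smul_left]⟩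
  · simpa [e] using cj_E h.toOF hu0 hu (hm j e).1 (hm j e).2

theorem grow' {b y u v : I → W} (hy : T.pt y ∈ OE N (T.pt b)) (hu : Q (T.pt u) = 0)
    (hv : T.pt v ∈ OE N (T.pt u)) (i j l : I) (h1 : polar S (u i) (b i) = 0)
    (h2 : polar S (v j) (b j) = 0) (h3 : polar S (u l) (y l) = 0)
    (h4 : ∀ j, polar S (v j) (y j) ≠ 0) : T.pt u ∈ OE N (T.pt b) := by
  have := OE.grow hy hu hv (h.pol0 i h1) (h.pol0 j h2)
  rw [h.pol0 l h3, mul_zero, sub_zero, zero_smul, sub_zero, h.pure] at this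
  exact (Submodule.smul_mem_iff _
    (mul_ne_zero h.k0 (Finset.prod_ne_zero_iff.2 fun j _ => h4 j))).1 this

theorem eqZ {a : I} {n c : W} (n0 : n ≠ 0) (hn : S n = 0) (c1 : polar S n c = 0) (c2 : S c ≠ 0)
    (e : ∀ m : I → W, (∀ j ≠ a, m j ≠ 0 ∧ S (m j) = 0) →
      T.pt (update m a c) ∈ OE N (T.pt (update m a n))) (v v' : I → W) (e1 : v a = n)
    (e2 : v' a = n) : T.pt v' ∈ OE N (T.pt v) := by
  have k : ∀ (m : I → W) (Y : Submodule F (U ⊗[F] W)), (∀ j ≠ a, m j ≠ 0 ∧ S (m j) = 0) →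
      (∀ w : I → W, (∀ j ≠ a, S (w j) = 0 ∧ polar S (m j) (w j) ≠ 0) → T.pt (update w a n) ∈ Y) →
      ∀ v, v a = n → T.pt v ∈ Y := fun m Y hm e v hv =>
    T.span_mem (A := fun j => if j = a then {n} else {w | S w = 0 ∧ polar S (m j) w ≠ 0})
      (fun w hw => by
        have := e w fun j hj => by simpa [hj] using hw j
        rwa [update_eq_self_iff.2 (by simpa [eq_comm] using hw a)] at this) v fun j => by
      by_cases hj : j = a
      · simp [hj, hv]
      · simpa [hj] using sing_span h.toOF (hm j hj).1 (hm j hj).2 (v j)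
  refine k (fun _ => n) _ (fun _ _ => ⟨n0, hn⟩) (fun m hm => ?_) v' e2
  replace hm : ∀ j ≠ a, m j ≠ 0 ∧ S (m j) = 0 := fun j hj =>
    ⟨fun e => (hm j hj).2 (by simp [e]), (hm j hj).1⟩
  refine OE.swap (h.q0 a (by simp [hn])) (h.q0 a (by simp [e1, hn])) (k m _ hm (fun w hw => ?_) v e1)
  refine h.grow' (e m hm) (h.q0 a (by simp [hn])) (e w fun j hj =>
    ⟨fun e => (hw j hj).2 (by simp [e]), (hw j hj).1⟩) a a a (by simp [hn])
    (by simp [polar_comm _ c, c1]) (by simp [c1]) fun j => ?_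
  by_cases hj : j = a
  · simp [hj, h.two, c2]
  · simpa [hj, polar_comm _ (w j)] using (hw j hj).2

variable {a l : I} (hl : l ≠ a) (e : ∀ n, n ≠ 0 → S n = 0 → ∀ v v' : I → W, v a = n → v' a = n →
  T.pt v' ∈ OE N (T.pt v))
include hl e

theorem perpL {b : I → W} (b0 : b a ≠ 0) (hb : S (b a) = 0) (v : I → W)
    (hv : polar S (b l) (v l) = 0) : T.pt v ∈ OE N (T.pt b) :=
  T.span_mem (A := fun j => if j = a then {w | S w = 0 ∧ polar S (b a) w ≠ 0} else {v j})
    (fun w hw => by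
      obtain ⟨w1, w2⟩ : S (w a) = 0 ∧ polar S (b a) (w a) ≠ 0 := by simpa using hw a
      have w3 : w l = v l := by simpa [hl] using hw l
      obtain ⟨c, k1, k2⟩ := exists_ker_not_mem h.k3 (S.polarBilin (b l)) (w l)
      obtain ⟨d, k3, k4⟩ := h.nd.exists_orth_polar_one _ k2
      refine h.grow' (e _ b0 hb b (update (fun _ => b a) l d) rfl (by simp [hl.symm])) (h.q0 a w1)
        (e _ (by rintro e; simp [e] at w2) w1 w (update (fun _ => w a) l c) rfl (by simp [hl.symm]))
        l l l (by rwa [w3, polar_comm]) (by simpa [polar_comm _ c] using k1)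
        (by simpa using k3 _ (Submodule.mem_span_singleton_self _)) fun j => ?_
      by_cases hj : j = l
      · simp [hj, k4]
      · simpa [hj, polar_comm _ (w a)] using w2) v fun j => by
    by_cases hj : j = a
    · simpa [hj] using sing_span h.toOF b0 hb (v a)
    · simp [hj]

theorem perpA {u : W} (u0 : u ≠ 0) (hu : S u = 0) (v : I → W) (hv : polar S u (v a) = 0) :
    T.pt v ∈ OE N (T.pt fun _ => u) := by
  by_cases hc : v l ∈ F ∙ u
  · obtain ⟨t, ht⟩ := Submodule.mem_span_singleton.1 hc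
    exact h.perpL hl e u0 hu v (by simp [← ht, hu])
  obtain ⟨f, hf, -⟩ := h.nd.exists_hyp u0 hu
  obtain ⟨r, k1, k2⟩ := h.nd.exists_orth_polar_one _ (not_mem_span_symm hc u0)
  replace k1 := k1 _ (Submodule.mem_span_singleton_self _)
  have a1 : update (update (fun _ => f) a u) l r a = u := by simp [hl.symm]
  have := OE.grow (h.perpL hl e (b := fun _ => u) u0 hu (update (fun _ => u) a f) (by simp [hl, hu]))
    (h.q0 a (by rwa [a1])) (h.perpL hl e (b := update (update (fun _ => f) a u) l r) (by rwa [a1])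
      (by rwa [a1]) v (by simpa [polar_comm _ r])) (h.pol0 a (by simp [a1, hu]))
    (h.pol0 a (by rwa [polar_comm]))
  refine (Submodule.smul_mem_iff _ ?_).1 (mem_of_smul_sub (e u u0 hu _ _ rfl a1) this)
  rw [h.pure]
  refine mul_ne_zero h.k0 (Finset.prod_ne_zero_iff.2 fun j _ => ?_)
  by_cases e1 : j = l
  · simp [e1, hl, polar_comm _ r, k2]
  by_cases e2 : j = a
  · simp [e2, hl.symm, hf]
  · simp [e1, e2, polar_comm _ f, hf]

omit hl e in
theorem op {b d : I → W} (hb : Q (T.pt b) = 0)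
    (e : ∀ l (u : I → W), polar S (b l) (u l) = 0 → T.pt u ∈ OE N (T.pt b))
    (hd : ∀ j, polar S (b j) (d j) ≠ 0) : OP N (T.pt b) := ⟨hb, fun v hv => by
  have : ∀ D : Finset I, ∀ w, (∀ j ∉ D, w j = d j) → T.pt w ∈ OE N (T.pt b) ⊔ F ∙ T.pt d := by
    intro D
    induction D using Finset.induction_on with
    | empty =>
      intro w e
      rw [show w = d from funext fun j => e j (by simp)]
      exact Submodule.mem_sup_right (Submodule.mem_span_singleton_self _)
    | insert j D hj ih =>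
      intro w e'
      rw [← update_eq_self j w, ← add_sub_cancel
        ((polar S (b j) (w j) / polar S (b j) (d j)) • d j) (w j),
        T.pt.map_update_add, T.pt.map_update_smul]
      refine add_mem (Submodule.smul_mem _ _ (ih _ fun l hl => ?_))
        (Submodule.mem_sup_left (e j _ (by simp [hd j])))
      by_cases e'' : l = j
      · simp [e'']
      · simpa [e''] using e' l (by simp [e'', hl])
  obtain ⟨o, ho, _, hz, rfl⟩ := Submodule.mem_sup.1
    (T.mem_of_pt (fun w => this Finset.univ w (by simp)) v)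
  obtain ⟨c, rfl⟩ := Submodule.mem_span_singleton.1 hz
  have : c = 0 := by
    simpa [ho.1, h.pure, h.k0, Finset.prod_eq_zero_iff, hd] using hv
  simpa [this] using ho⟩

omit hl e in
theorem le_of_Z (h5 : 5 ≤ finrank F (U ⊗[F] W)) {i : I} {u : W} (u0 : u ≠ 0) (hu : S u = 0)
    (h0 : γ ≠ 0) (c1 : CA (T.s i) γ) (e : R M (γ * rh (T.s i) (oR S u u))) :
    commutator (OG Q) ≤ M.subgroupOf (OG Q) := by
  obtain ⟨f, hf, hf0⟩ := h.nd.exists_hyp u0 hu
  obtain ⟨D, hi, h2, e⟩ := h.first hu hf0 hf h0 c1 e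
  obtain ⟨l, -, hl⟩ := Finset.exists_mem_ne h2 i
  obtain ⟨n, c, n0, hn, c1, c2, e⟩ := h.conv hu hf0 hf hl (h.univ hu hf _ D rfl hi h2 e)
  have k := fun n' h0 h1 => (h.fam u0 hu hl n0 hn c1 c2 e n' h0 h1).elim fun c' hc =>
    h.eqZ h0 h1 hc.1 hc.2.1 hc.2.2
  have k1 : ∀ u f, S u = 0 → polar S u f ≠ 0 → OP (M.subgroupOf (OG Q)) (T.pt fun _ => u) :=
    fun u f hu hf => h.op (d := fun _ => f) (h.q0 i hu) (fun j v hv => by
      have u0 : u ≠ 0 := by rintro rfl; simp at hf
      by_cases hj : j = i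
      · exact h.perpA hl k u0 hu v (hj ▸ hv)
      · exact h.perpL hj k u0 hu v hv) fun _ => hf
  exact om_le_of_pair h.nQ h5 (k1 u f hu (by simp [hf])) (k1 f u hf0 (by simp [polar_comm _ f, hf]))
    (by simp [h.pure, hf, h.k0])

end OB

end Cfsg.Agent.Max3
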