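import Mathlib
import Cfsg.Agent.Max3.OB4

/-!
# Tensor powers of an orthogonal space: commuting families and the unipotent radical
-/

set_option autoImplicit false
set_option linter.unusedSectionVars false
set_option linter.unusedSimpArgs false

namespace Cfsg.Agent.Max3

open Module Cfsg.Agent.Max Cfsg.Agent.Max2 TensorProduct Function Cfsg.Agent.Orth QuadraticMap

theorem common_ker {F V : Type*} [Field F] [AddCommGroup V] [Module F V] [FiniteDimensional F V]
    [Nontrivial V] (Y : Set (Module.End F V)) (hc : ∀ a ∈ Y, ∀ b ∈ Y, a * b = b * a)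
    (hn : ∀ a ∈ Y, IsNilpotent a) : ∃ v, v ≠ 0 ∧ ∀ a ∈ Y, a v = 0 := by
  obtain ⟨K, ⟨h1, h2⟩, h3⟩ := (measure fun K : Submodule F V => finrank F K).wf.has_min
    {K | K ≠ ⊥ ∧ ∀ a ∈ Y, ∀ v ∈ K, a v ∈ K} ⟨⊤, top_ne_bot, fun _ _ _ _ => trivial⟩
  obtain ⟨v, hv, v0⟩ := Submodule.exists_mem_ne_zero_of_ne_bot h1
  refine ⟨v, v0, fun a ha => ?_⟩
  have k : ∀ n : ℕ, ∀ v ∈ K, v ≠ 0 → (a ^ n) v = 0 → ∃ w ∈ K, w ≠ 0 ∧ a w = 0 := fun n => by
    induction n with
    | zero => exact fun v _ e e' => (e e').elim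
    | succ n ih =>
      intro v hv e e'
      by_cases e1 : a v = 0
      exacts [⟨v, hv, e, e1⟩, ih _ (h2 a ha v hv) e1 (by rwa [pow_succ] at e')]
  obtain ⟨n, e⟩ := hn a ha
  obtain ⟨w, w1, w2, w3⟩ := k n v hv v0 (by rw [e]; rfl)
  have := Submodule.eq_of_le_of_finrank_le (inf_le_left (a := K) (b := LinearMap.ker a))
    (not_lt.1 (h3 _ ⟨fun e => w2 ((Submodule.mem_bot F).1 (e ▸ (⟨w1, w3⟩ : w ∈ K ⊓ LinearMap.ker a))),
      fun b hb x hx => ⟨h2 b hb x hx.1, by
        change a (b x) = 0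
        rw [← Module.End.mul_apply, hc a ha b hb, Module.End.mul_apply,
          show a x = 0 from hx.2, map_zero]⟩⟩))
  exact (this ▸ hv :).2

theorem nil_conj {A : Type*} [Ring A] {a b y : A} (e : b * a = 1) (h : IsNilpotent y) :
    IsNilpotent (a * y * b) := by
  obtain ⟨n, hn⟩ := h
  have : ∀ n : ℕ, (a * y * b) ^ (n + 1) = a * y ^ (n + 1) * b := fun n => by
    induction n with
    | zero => simp
    | succ n ih =>
      rw [pow_succ, ih, pow_succ y (n + 1)]
      simp only [mul_assoc, ← mul_assoc b a, e, one_mul]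
  exact ⟨n + 1, by rw [this, pow_succ, hn]; simp⟩

variable {F U W : Type*} [Field F] [AddCommGroup U] [Module F U] [AddCommGroup W] [Module F W]
  {S : QuadraticForm F W} {I : Type} [DecidableEq I] [Fintype I] {T : TP I F U W}
  {Q : QuadraticForm F (U ⊗[F] W)} {κ : F} {M : Subgroup ((U ⊗[F] W) ≃ₗ[F] (U ⊗[F] W))}
  {γ γ' Θ Θ' Ψ Ψ' : Module.End F (U ⊗[F] W)} {y g : (U ⊗[F] W) ≃ₗ[F] (U ⊗[F] W)}

theorem alg_indO [FiniteDimensional F W] [Finite F] (H : OF S) (A : Submodule F (Module.End F W))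
    (hm : ∀ x ∈ A, ∀ y ∈ A, x * y ∈ A) (h : ∀ σ ∈ commutator (OG S), oe σ ∈ A)
    (x : Module.End F W) : x ∈ A := by
  have h0 : ∀ n, S n = 0 → oR S n n ∈ A := fun n hn => by
    by_cases n0 : n = 0
    · simp [n0, oR, rr_zero_left]
    obtain ⟨f, hf, hf0⟩ := H.nd.exists_hyp n0 hn
    obtain ⟨c, c1, -, c3⟩ := exists_ns_hyp H.nd H.k3 hn hf0 hf
    have k := fun c => h _ (H.nd.eich_mem_commutator (good_of_two_ne_zero H.two) n c)
    refine (A.smul_mem_iff (mul_ne_zero H.two c3)).1 ?_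
    convert sub_mem (add_mem (h 1 (one_mem _)) (h 1 (one_mem _))) (add_mem (k c) (k (-c))) using 1
    rw [oe_eich hn c1, oe_eich hn (by simp [c1]), oX_neg, QuadraticMap.map_neg,
      show oe (1 : OG S) = 1 from rfl]
    module
  have h1 : ∀ b, b ≠ 0 → S b = 0 → ∀ a, oR S a b ∈ A := fun b b0 hb a =>
    (Submodule.span_le (p := A.comap ((LinearMap.smulRightₗ.flip b) ∘ₗ S.polarBilin))).2
      (fun a ha => by
        change oR S a b ∈ A
        simpa only [oR_mul, A.smul_mem_iff ha.2] using hm _ (h0 b hb) _ (h0 a ha.1))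
      (sing_span H b0 hb a)
  obtain ⟨n, n0, hn⟩ := exists_singular S H.k3
  have h2 : ∀ a b, oR S a b ∈ A := fun a b =>
    (Submodule.span_le (p := A.comap (LinearMap.smulRightₗ (S.polarBilin a)))).2
      (fun b hb => h1 b (fun e => hb.2 (by simp [e])) hb.1 a) (sing_span H n0 hn b)
  let b := Module.finBasis F W
  rw [show x = ∑ i, r1 (b.coord i) (x (b i)) from b.ext fun i => by
    simp [LinearMap.sum_apply, Finsupp.single_apply]]
  refine A.sum_mem fun i _ => ?_
  obtain ⟨a, ha⟩ := om_exists_dual H.nd (b.coord i)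
  exact ha ▸ h2 a _

/-- The actions on `(U ⊗ u)^⊥` of the elements of `M` in the unipotent radical. -/
def TT (S : QuadraticForm F W) (M : Subgroup ((U ⊗[F] W) ≃ₗ[F] (U ⊗[F] W)))
    (g : (U ⊗[F] W) ≃ₗ[F] (U ⊗[F] W)) {u f : W} (hu : S u = 0) :
    AddSubgroup (Module.End F (U ⊗[F] W)) where
  carrier := {Θ | Θ * rh g (oR S f u) = 0 ∧ rh g (oR S f u) * Θ = Θ ∧
    ∃ y ∈ M, y.toLinearMap * rh g (1 - oR S u f) = rh g (1 - oR S u f) + Θ}
  zero_mem' := ⟨by simp, by simp, 1, one_mem _, by ext; simp⟩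
  add_mem' := by
    rintro Θ Θ' ⟨a1, a2, y, hy, a3⟩ ⟨b1, b2, y', hy', b3⟩
    refine ⟨by simp [add_mul, a1, b1], by simp [mul_add, a2, b2], y * y', mul_mem hy hy', ?_⟩
    have e : rh g (1 - oR S u f) * rh g (oR S f u) = rh g (oR S f u) := by
      simp [← map_mul, sub_mul, oR_mul, hu]
    change y.toLinearMap * y'.toLinearMap * _ = _
    rw [mul_assoc, b3, mul_add, a3, ← b2, ← e, ← mul_assoc, ← mul_assoc, a3, add_mul, a1, e]
    simp [add_assoc, b2]
  neg_mem' := by
    rintro Θ ⟨a1, a2, y, hy, a3⟩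
    refine ⟨LinearMap.ext fun v => by simpa using LinearMap.congr_fun a1 v,
      LinearMap.ext fun v => by simpa using LinearMap.congr_fun a2 v,
      y⁻¹, inv_mem hy, LinearMap.ext fun v => y.injective ?_⟩
    have e : rh g (1 - oR S u f) * rh g (oR S f u) = rh g (oR S f u) := by
      simp [← map_mul, sub_mul, oR_mul, hu]
    have e1 : y.toLinearMap * Θ = Θ := by
      rw [← a2, ← e, ← mul_assoc, ← mul_assoc, a3, add_mul, a1, e, add_zero]
    have e2 : y (Θ v) = Θ v := LinearMap.congr_fun e1 v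
    have e3 : y (rh g (1 - oR S u f) v) = _ + Θ v := LinearMap.congr_fun a3 v
    simp only [Module.End.mul_apply, LinearEquiv.coe_coe, LinearEquiv.coe_inv,
      LinearEquiv.apply_symm_apply, LinearMap.add_apply, LinearMap.neg_apply, map_add, map_neg, e2,
      e3]
    abel

theorem TT.cj {u f : W} {hu : S u = 0} (e : Θ ∈ TT S M g (f := f) hu)
    {t : (U ⊗[F] W) ≃ₗ[F] (U ⊗[F] W)} (ht : t ∈ M) {a b : Module.End F (U ⊗[F] W)}
    (ha : t.toLinearMap = a) (hb : a * b = 1) (c1 : Commute a (rh g (oR S f u)))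
    (c2 : Commute a (rh g (oR S u f))) : a * Θ * b ∈ TT S M g (f := f) hu := by
  have hb' : t⁻¹.toLinearMap = b := by
    rw [← one_mul b, ← show t⁻¹.toLinearMap * a = 1 by rw [← ha]; ext; simp, mul_assoc, hb, mul_one]
  have hba : b * a = 1 := by rw [← ha, ← hb']; ext; simp
  have k : ∀ z, Commute a z → b * z = z * b := fun z c => by
    rw [← mul_one (b * z), ← hb, ← mul_assoc, mul_assoc b, ← c.eq, ← mul_assoc, hba, one_mul]
  obtain ⟨a1, a2, y, hy, a3⟩ := e
  have c3 : Commute a (rh g (1 - oR S u f)) := by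
    rw [map_sub, map_one]; exact (Commute.one_right a).sub_right c2
  refine ⟨by rw [mul_assoc, k _ c1, ← mul_assoc, mul_assoc a, a1]; simp,
    by rw [← mul_assoc, ← mul_assoc, ← c1.eq, mul_assoc a, a2],
    t * y * t⁻¹, mul_mem (mul_mem ht hy) (inv_mem ht), ?_⟩
  change t.toLinearMap * y.toLinearMap * t⁻¹.toLinearMap * _ = _
  rw [ha, hb', mul_assoc, k _ c3, ← mul_assoc, mul_assoc a, a3, mul_add, add_mul, c3.eq, mul_assoc,
    hb, mul_one]

namespace OB

variable (h : OB T Q S κ M) [FiniteDimensional F W] [FiniteDimensional F U] [Nontrivial U]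
  [Finite F]
include h

theorem comm_ca {i : I} {Y : AddSubgroup (Module.End F (U ⊗[F] W))} (c1 : ∀ γ ∈ Y, CA (T.s i) γ)
    (c2 : ∀ a ∈ Y, ∀ b ∈ Y, a * b = b * a) (c3 : ∀ j ≠ i, AdC S (rh (T.s j)) Y) (hγ : γ ∈ Y) :
    ∃ c : F, γ = c • 1 := by
  have := h.ntW
  refine T.cent γ fun j => by_contra fun hj => ?_
  obtain ⟨y, y1, y2, y3⟩ := nil_step h.toOF (c3 j (by rintro rfl; exact hj (c1 γ hγ))) hγ hj
  obtain ⟨w, hw⟩ := exists_ne (0 : W)
  have : Nontrivial (U ⊗[F] W) := ⟨_, _, h.pt_ne (a := fun _ => w) fun _ => hw⟩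
  obtain ⟨v, v0, hv⟩ := common_ker {y | y ∈ Y ∧ IsNilpotent y} (fun a ha b hb => c2 a ha.1 b hb.1)
    fun a ha => ha.2
  let K : Submodule F (U ⊗[F] W) :=
    { carrier := {v | ∀ y ∈ Y, IsNilpotent y → y v = 0}
      zero_mem' := by simp
      add_mem' := fun a b y e e' => by simp [a y e e', b y e e']
      smul_mem' := fun c x a y e e' => by simp [a y e e'] }
  have k : ∀ l x, ∀ v ∈ K, rh (T.s l) x v ∈ K := fun l => by
    by_cases e : l = i
    · intro x v hv y e1 e2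
      rw [← Module.End.mul_apply, e, (c1 y e1 x).eq, Module.End.mul_apply, hv y e1 e2, map_zero]
    refine alg_indO h.toOF
      { carrier := {x | ∀ v ∈ K, rh (T.s l) x v ∈ K}
        add_mem' := fun ha hb v hv => by simpa using K.add_mem (ha v hv) (hb v hv)
        zero_mem' := by simp
        smul_mem' := fun c x hx v hv => by simpa using K.smul_mem c (hx v hv) }
      (fun x hx y hy v hv => by simpa using hx _ (hy v hv)) fun σ hσ v hv y e1 e2 => ?_
    have := hv _ (c3 l e _ (inv_mem hσ) y e1) (nil_conj (by rw [← map_mul, oe_inv_mul, map_one]) e2)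
    rw [inv_inv, Module.End.mul_apply, Module.End.mul_apply] at this
    have := congrArg (rh (T.s l) (oe σ)) this
    rwa [← Module.End.mul_apply, ← map_mul, oe_mul_inv, map_one, map_zero] at this
  obtain ⟨a, ha⟩ : ∃ a, polar Q (T.pt a) v ≠ 0 := by
    by_contra hn; push Not at hn
    exact v0 (h.nQ v fun x => by
      rw [polar_comm]; exact LinearMap.congr_fun (T.ext (f := Q.polarBilin.flip v) (g := 0) hn) x)
  refine y2 (T.ext fun b => ?_)
  have := T.PM_ind (fun z => z v ∈ K) (fun y e e' => hv y ⟨e, e'⟩) (fun j => oR S (a j) (b j))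
    fun i z hz => k i _ _ hz
  rw [h.zall, K.smul_mem_iff (by simp [h.k0, ha])] at this
  exact this y y1 y3

variable {i : I} {u f : W} {hu : S u = 0} (hf0 : S f = 0) (hf : polar S u f = 1)
  (hZ : ∀ γ, CA (T.s i) γ → R M (γ * rh (T.s i) (oR S u u)) → γ = 0)
include hf0 hf

theorem idT {w : W} (w1 : polar S u w = 0) (w2 : polar S f w = 0) :
    (fE (T.s i) (eich S u w).1).toLinearMap * rh (T.s i) (1 - oR S u f) =
      rh (T.s i) (1 - oR S u f) + rh (T.s i) (oR S w u) ∧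
    rh (T.s i) (oR S w u) ∈ TT S M (T.s i) (f := f) hu := by
  have e : (fE (T.s i) (eich S u w).1).toLinearMap * rh (T.s i) (1 - oR S u f) =
      rh (T.s i) (1 - oR S u f) + rh (T.s i) (oR S w u) := by
    rw [fE_coe, ← map_mul, ← map_add, show (eich S u w).1.toLinearMap = _ from oe_eich hu w1]
    congr 1
    simp only [oX, mul_sub, sub_mul, add_mul, smul_mul_assoc, oR_mul, hf, polar_comm _ w f, w2,
      one_mul, mul_one]
    module
  exact ⟨e, by simp [← map_mul, oR_mul, polar_comm _ w, w1],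
    by simp [← map_mul, oR_mul, polar_comm _ f, hf], _,
    h.fac i _ (h.nd.eich_mem_commutator (good_of_two_ne_zero h.two) u w), e⟩

include hZ

theorem zfix (hy : y ∈ M)
    (e : y.toLinearMap * rh (T.s i) (1 - oR S u f) = rh (T.s i) (1 - oR S u f)) : y = 1 := by
  have e1 : (y.toLinearMap - 1) * rh (T.s i) (1 - oR S u f) = 0 := by rw [sub_mul, e]; simp
  have e2 : rh (T.s i) (1 - oR S f u) * (y.toLinearMap - 1) = 0 :=
    LinearMap.ext fun a => h.nQ _ fun b => by
      rw [Module.End.mul_apply, h.radj i (y' := 1 - oR S u f) fun a b => by simp [oR_adj]]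
      have := h.map hy a (rh (T.s i) (1 - oR S u f) b)
      rw [show y (rh (T.s i) (1 - oR S u f) b) = _ from LinearMap.congr_fun e b] at this
      rw [LinearMap.sub_apply, polar_sub_left]
      exact sub_eq_zero.2 this
  obtain ⟨γ, c1, c2⟩ := pure_of_co (g := T.s i) (γ := y.toLinearMap - 1) (x := oR S u u)
    fun ψ a => by
    have k1 := congrArg (co (T.s i) ψ a) e1
    have k2 := congrArg (co (T.s i) ψ a) e2
    rw [co_right, map_zero, mul_sub, mul_one, sub_eq_zero] at k1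
    rw [co_left, map_zero, sub_mul, one_mul, sub_eq_zero] at k2
    generalize co (T.s i) ψ a (y.toLinearMap - 1) = x at k1 k2
    refine Submodule.mem_span_singleton.2 ⟨polar S f (x f), ?_⟩
    have k3 : oR S f u * (x * oR S u f) = x := by rw [← k1, ← k2]
    refine Eq.trans ?_ k3
    ext v; simp [oR_apply, smul_smul, mul_comm, polar_comm _ f u, hf]
  have := hZ γ c1 ⟨y, hy, fun v => by rw [← c2]; simp⟩
  rw [this, zero_mul, sub_eq_zero] at c2
  exact LinearEquiv.toLinearMap_injective c2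

omit hZ in
theorem keyT (hy : y ∈ M) (a1 : Θ * rh (T.s i) (oR S f u) = 0) (a2 : rh (T.s i) (oR S f u) * Θ = Θ)
    (a3 : y.toLinearMap * rh (T.s i) (1 - oR S u f) = rh (T.s i) (1 - oR S u f) + Θ)
    (hu : S u = 0) (e : ∀ a b, polar Q (Θ a) b = polar Q a (Ψ b)) :
    Θ * rh (T.s i) (oR S u f) = 0 ∧ rh (T.s i) (oR S u f) * (y.toLinearMap - 1) = 0 ∧
      rh (T.s i) (1 - oR S u f - oR S f u) * ((y.toLinearMap - 1) * rh (T.s i) (oR S u f)) = -Ψ := by
  have uf : polar S f u = 1 := by rwa [polar_comm]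
  have b0 : rh (T.s i) (1 - oR S u f) * rh (T.s i) (oR S u f) = 0 := by
    simp [← map_mul, sub_mul, oR_mul, hf]
  have b1 : Θ * rh (T.s i) (oR S u f) = 0 := by
    have := congrArg (· * rh (T.s i) (oR S u f)) a3
    simpa only [mul_assoc, add_mul, b0, mul_zero, zero_add, eq_comm] using this
  have b2 : y.toLinearMap * rh (T.s i) (oR S f u) = rh (T.s i) (oR S f u) := by
    have := congrArg (· * rh (T.s i) (oR S f u)) a3
    simpa [mul_assoc, add_mul, a1, ← map_mul, sub_mul, oR_mul, hu, -map_sub] using this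
  have b3 : ∀ v, y (rh (T.s i) (oR S f u) v) = rh (T.s i) (oR S f u) v := LinearMap.congr_fun b2
  have r1 := h.radj i (y := oR S u f) (y' := oR S f u) (oR_adj u f)
  refine ⟨b1, LinearMap.ext fun a => h.nQ _ fun b => ?_,
    LinearMap.ext fun a => sub_eq_zero.1 (h.nQ _ fun b => ?_)⟩
  · have := h.map hy a (rh (T.s i) (oR S f u) b)
    rw [b3] at this
    rw [Module.End.mul_apply, r1, LinearMap.sub_apply, polar_sub_left]
    exact sub_eq_zero.2 this
  have b4 : y (rh (T.s i) (1 - oR S u f - oR S f u) b) =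
      rh (T.s i) (1 - oR S u f - oR S f u) b + Θ b := by
    have := congrArg (· * rh (T.s i) (1 - oR S u f - oR S f u)) a3
    simp only [mul_assoc, add_mul, ← map_mul] at this
    rw [show (1 - oR S u f) * (1 - oR S u f - oR S f u) = 1 - oR S u f - oR S f u by
      simp [mul_sub, sub_mul, oR_mul, hf, hu]] at this
    rw [show Θ * rh (T.s i) (1 - oR S u f - oR S f u) = Θ by
      simp [mul_sub, a1, b1]] at this
    exact LinearMap.congr_fun this b
  have b5 := h.map hy (rh (T.s i) (oR S u f) a) (rh (T.s i) (1 - oR S u f - oR S f u) b)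
  have b6 : polar Q (rh (T.s i) (oR S u f) a) (rh (T.s i) (1 - oR S u f - oR S f u) b) = 0 := by
    rw [r1, ← Module.End.mul_apply, ← map_mul, show oR S f u * (1 - oR S u f - oR S f u) = 0 by
      simp [mul_sub, oR_mul, uf, hf0]]
    simp
  have b7 : Θ b = rh (T.s i) (oR S f u) (Θ b) := (LinearMap.congr_fun a2 b).symm
  have b8 := h.map hy (rh (T.s i) (oR S u f) a) (Θ b)
  rw [b7, b3, r1 a, ← b7, ← b7, polar_comm _ a, e] at b8
  rw [b4, polar_add_right, b6, b8] at b5
  rw [polar_sub_left, Module.End.mul_apply, h.radj i (y' := 1 - oR S u f - oR S f u) fun a b => by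
    simp [oR_adj]; ring]
  simp only [Module.End.mul_apply, LinearMap.sub_apply, Module.End.one_apply, polar_sub_left, b6,
    LinearMap.neg_apply, polar_neg_left, LinearEquiv.coe_coe, polar_comm _ (Ψ a)]
  linear_combination b5

theorem commT (e1 : Θ ∈ TT S M (T.s i) (f := f) hu) (e2 : Θ' ∈ TT S M (T.s i) (f := f) hu)
    (e : ∀ a b, polar Q (Θ a) b = polar Q a (Ψ b))
    (e' : ∀ a b, polar Q (Θ' a) b = polar Q a (Ψ' b)) : Θ * Ψ' = Θ' * Ψ := by
  obtain ⟨a1, a2, y, hy, a3⟩ := e1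
  obtain ⟨b1, b2, y', hy', b3⟩ := e2
  have p : rh (T.s i) (1 - oR S u f) * rh (T.s i) (oR S f u) = rh (T.s i) (oR S f u) := by
    simp [← map_mul, sub_mul, oR_mul, hu]
  have k : ∀ {y y' : (U ⊗[F] W) ≃ₗ[F] (U ⊗[F] W)} {Θ Θ' : Module.End F (U ⊗[F] W)},
      Θ * rh (T.s i) (oR S f u) = 0 → rh (T.s i) (oR S f u) * Θ' = Θ' →
      y.toLinearMap * rh (T.s i) (1 - oR S u f) = rh (T.s i) (1 - oR S u f) + Θ →
      y'.toLinearMap * rh (T.s i) (1 - oR S u f) = rh (T.s i) (1 - oR S u f) + Θ' →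
      y.toLinearMap * y'.toLinearMap * rh (T.s i) (1 - oR S u f) =
        rh (T.s i) (1 - oR S u f) + Θ + Θ' := fun a1 b2 a3 b3 => by
    rw [mul_assoc, b3, mul_add, a3, ← b2, ← p, ← mul_assoc, ← mul_assoc, a3, add_mul, a1, p]
    simp [b2]
  have c : y * y' = y' * y := (inv_mul_eq_one.1 (h.zfix hf0 hf hZ
    (mul_mem (inv_mem (mul_mem hy hy')) (mul_mem hy' hy)) (by
      change (y * y')⁻¹.toLinearMap * (y'.toLinearMap * y.toLinearMap) * _ = _
      rw [mul_assoc, k b1 a2 b3 a3, add_right_comm, ← k a1 b2 a3 b3, ← mul_assoc,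
        show (y * y')⁻¹.toLinearMap * (y.toLinearMap * y'.toLinearMap) = 1 from
          congrArg LinearEquiv.toLinearMap (inv_mul_cancel (y * y')), one_mul])))
  have c' : (y.toLinearMap - 1) * (y'.toLinearMap - 1) =
      (y'.toLinearMap - 1) * (y.toLinearMap - 1) := by
    have : y.toLinearMap * y'.toLinearMap = y'.toLinearMap * y.toLinearMap :=
      congrArg LinearEquiv.toLinearMap c
    simp only [mul_sub, sub_mul, this, one_mul, mul_one]; abel
  obtain ⟨d1, d2, d3⟩ := h.keyT hf0 hf hy a1 a2 a3 hu e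
  obtain ⟨d1', d2', d3'⟩ := h.keyT hf0 hf hy' b1 b2 b3 hu e'
  have k1 : ∀ {y y' : (U ⊗[F] W) ≃ₗ[F] (U ⊗[F] W)} {Θ Ψ' : Module.End F (U ⊗[F] W)},
      Θ * rh (T.s i) (oR S f u) = 0 → Θ * rh (T.s i) (oR S u f) = 0 →
      y.toLinearMap * rh (T.s i) (1 - oR S u f) = rh (T.s i) (1 - oR S u f) + Θ →
      rh (T.s i) (oR S u f) * (y'.toLinearMap - 1) = 0 →
      rh (T.s i) (1 - oR S u f - oR S f u) * ((y'.toLinearMap - 1) * rh (T.s i) (oR S u f)) = -Ψ' →
      (y.toLinearMap - 1) * (y'.toLinearMap - 1) * rh (T.s i) (oR S u f) = -(Θ * Ψ') :=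
    fun {y y' Θ Ψ'} a1 d1 a3 d2 d3 => by
    have : y.toLinearMap - 1 = Θ + (y.toLinearMap - 1) * rh (T.s i) (oR S u f) := by
      rw [map_sub, map_one, mul_sub, mul_one] at a3
      rw [sub_mul, one_mul, ← sub_eq_iff_eq_add'.2 a3]; abel
    rw [this, add_mul, mul_assoc _ _ (_ - _), d2, mul_zero, add_zero,
      show -(Θ * Ψ') = Θ * -Ψ' by ext; simp, ← d3, ← mul_assoc,
      show Θ * rh (T.s i) (1 - oR S u f - oR S f u) = Θ by simp [mul_sub, a1, d1], mul_assoc]
  exact neg_injective (by rw [← k1 a1 d1 a3 d2' d3', c', k1 b1 d1' b3 d2 d3])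

theorem symT (e1 : Θ ∈ TT S M (T.s i) (f := f) hu) {z : W} (z1 : polar S u z = 0)
    (z2 : polar S f z = 0) (a b : U ⊗[F] W) :
    polar Q ((Θ * rh (T.s i) (oR S u z)) a) b = polar Q a ((Θ * rh (T.s i) (oR S u z)) b) := by
  obtain ⟨Ψ, e⟩ := exists_adj h.nQ Θ
  have e' : ∀ a b, polar Q (Θ a) b = polar Q a (Ψ b) := fun a b => by
    rw [polar_comm, ← e, polar_comm]
  have := h.commT hf0 hf hZ e1 (h.idT hf0 hf z1 z2).2 e' (h.radj i (oR_adj z u))
  rw [Module.End.mul_apply, e', h.radj i (oR_adj u z), ← Module.End.mul_apply, this]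

theorem scal {v : W} (v1 : polar S u v = 0) (v2 : polar S f v = 0) (v3 : S v ≠ 0)
    (c1 : CA (T.s i) γ) (e : γ * rh (T.s i) (oR S v u) ∈ TT S M (T.s i) (f := f) hu) :
    ∃ c : F, γ = c • 1 := by
  have uf : polar S f u = 1 := by rwa [polar_comm]
  have u0 : u ≠ 0 := by rintro rfl; simp at hf
  let Y : AddSubgroup (Module.End F (U ⊗[F] W)) :=
    { carrier := {γ | CA (T.s i) γ ∧ γ * rh (T.s i) (oR S v u) ∈ TT S M (T.s i) (f := f) hu}
      zero_mem' := ⟨fun _ => Commute.zero_left _, by simp⟩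
      add_mem' := fun a b => ⟨a.1.add b.1, by rw [add_mul]; exact add_mem a.2 b.2⟩
      neg_mem' := fun a => ⟨fun y => (a.1 y).neg_left, by
        convert neg_mem a.2 using 1; ext; simp⟩ }
  have ad : ∀ γ ∈ Y, ∀ a b, polar Q ((γ * rh (T.s i) (oR S v u)) a) b =
      polar Q a ((γ * rh (T.s i) (oR S u v)) b) := fun γ hγ a b => by
    have k := h.symT hf0 hf hZ hγ.2 v1 v2 (rh (T.s i) (oR S v f) a) b
    rw [h.radj i (oR_adj v f), ← Module.End.mul_apply, ← Module.End.mul_apply (rh _ _),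
      ← mul_assoc, ← mul_assoc, ← (hγ.1 _).eq] at k
    simp only [mul_assoc, ← map_mul, oR_mul, mul_smul_comm, smul_mul_assoc, map_smul, p_self, hf,
      uf, one_smul, LinearMap.smul_apply, p_smul_left, p_smul_right] at k
    exact mul_left_cancel₀ (mul_ne_zero h.two v3) (by simpa only [mul_assoc] using k)
  refine h.comm_ca (i := i) (Y := Y) (fun _ e => e.1) (fun a ha b hb => ?_)
    (fun j hj σ hσ a ha => ?_) ⟨c1, e⟩
  · have := h.commT hf0 hf hZ ha.2 hb.2 (ad a ha) (ad b hb)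
    rw [hb.1.mul_rh, ha.1.mul_rh, ← sub_eq_zero, ← sub_mul] at this
    exact sub_eq_zero.1 (((ha.1.mul hb.1).sub (hb.1.mul ha.1)).eq_zero (by
      simp [oR_mul, h.two, v3, oR_ne h.toOF u0 u0]) this)
  have c0 := T.com j i hj
  refine ⟨((c0 _).mul ha.1).mul (c0 _), ?_⟩
  rw [mul_assoc, (c0 _ _).eq, ← mul_assoc, mul_assoc _ a]
  exact TT.cj ha.2 (h.fac j σ hσ) (fE_coe _ _) (by rw [← map_mul, oe_mul_inv, map_one]) (c0 _ _)
    (c0 _ _)

end OB

end Cfsg.Agent.Max3
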