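import Mathlib
import Cfsg.Agent.Max3.OB5

/-!
# Tensor powers of an orthogonal space: the unipotent radical lies in the factor
-/

set_option autoImplicit false
set_option linter.unusedSectionVars false
set_option linter.unusedSimpArgs false

namespace Cfsg.Agent.Max3

open Module Cfsg.Agent.Max Cfsg.Agent.Max2 TensorProduct Function Cfsg.Agent.Orth QuadraticMap

variable {F U W : Type*} [Field F] [AddCommGroup U] [Module F U] [AddCommGroup W] [Module F W]
  {S : QuadraticForm F W} {I : Type} [DecidableEq I] [Fintype I] {T : TP I F U W}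
  {Q : QuadraticForm F (U ⊗[F] W)} {κ : F} {M : Subgroup ((U ⊗[F] W) ≃ₗ[F] (U ⊗[F] W))}
  {γ Γ Θ A B : Module.End F (U ⊗[F] W)} {y g t : (U ⊗[F] W) ≃ₗ[F] (U ⊗[F] W)}
  {u f : W} {hu : S u = 0}

theorem TT.gam [FiniteDimensional F W] (hf : polar S u f = 1) (e : Θ ∈ TT S M g (f := f) hu)
    (z : W) : ∃ Γ, CA g Γ ∧ ∀ a, Θ * rh g (oR S a z) = Γ * rh g (oR S a u) := by
  obtain ⟨Γ, c1, c2⟩ := pure_of_co (g := g) (γ := Θ * rh g (oR S u z)) (x := oR S u u)
    fun ψ a => by
    rw [← e.2.1, co_right, co_left]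
    refine Submodule.mem_span_singleton.2 ⟨polar S f (co g ψ a Θ z), ?_⟩
    ext v; simp [oR_apply, smul_smul, mul_comm]
  refine ⟨Γ, c1, fun a => ?_⟩
  simpa [mul_assoc, ← map_mul, oR_mul, hf] using congrArg (· * rh g (oR S a f)) c2

theorem TT.pi (hf : polar S u f = 1) (e : Θ ∈ TT S M g (f := f) hu) :
    Θ * rh g (1 - oR S u f - oR S f u) = Θ := by
  obtain ⟨a1, -, y, -, a3⟩ := e
  have b0 : rh g (1 - oR S u f) * rh g (oR S u f) = 0 := by
    simp [← map_mul, sub_mul, oR_mul, hf]
  have := congrArg (· * rh g (oR S u f)) a3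
  simp only [mul_assoc, add_mul, b0, mul_zero, zero_add] at this
  simp [mul_sub, a1, ← this]

theorem TT.cjs (e : Θ ∈ TT S M g (f := f) hu) {σ : OG S} (s1 : σ.1 u = u) (s2 : σ.1 f = f)
    (cA : CA g A) (hAB : A * B = 1) (ht : t ∈ M) (et : t.toLinearMap = A * rh g (oe σ)) :
    A * (Θ * rh g (oe σ⁻¹)) * B ∈ TT S M g (f := f) hu := by
  have k : ∀ a b, σ.1 a = a → σ.1 b = b → oe σ * oR S a b = oR S a b * oe σ := fun a b e1 e2 => by
    have := congrArg (· * oe σ) (oe_oR σ a b)
    simpa only [mul_assoc, oe_inv_mul, mul_one, e1, e2] using this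
  have k' : ∀ a b, σ.1 a = a → σ.1 b = b → Commute (A * rh g (oe σ)) (rh g (oR S a b)) :=
    fun a b e1 e2 => (cA _).mul_left (by rw [Commute, SemiconjBy, ← map_mul, k a b e1 e2, map_mul])
  have := TT.cj e ht et (b := rh g (oe σ⁻¹) * B) (by
    rw [mul_assoc, ← mul_assoc (rh g _), ← map_mul, oe_mul_inv, map_one, one_mul, hAB])
    (k' f u s2 s1) (k' u f s1 s2)
  have e1 : rh g (oe σ) * Θ = Θ := by
    rw [← e.2.1, ← mul_assoc, ← map_mul]
    congr 2
    ext v; simp [oR_apply, s1]
  rwa [mul_assoc A, e1, ← mul_assoc, mul_assoc A] at this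

theorem TT.cj1 (e : Θ ∈ TT S M g (f := f) hu) {σ : OG S} (s1 : σ.1 u = u) (s2 : σ.1 f = f)
    (ht : fE g σ.1 ∈ M) : Θ * rh g (oe σ⁻¹) ∈ TT S M g (f := f) hu := by
  simpa using TT.cjs e s1 s2 CA.one (mul_one 1) ht (by rw [fE_coe, one_mul])

/-- The vectors with scalar coefficient. -/
def GZ (S : QuadraticForm F W) (g : (U ⊗[F] W) ≃ₗ[F] (U ⊗[F] W)) (u : W)
    (Θ : Module.End F (U ⊗[F] W)) : Submodule F W where
  carrier := {z | ∃ c : F, Θ * rh g (oR S u z) = c • rh g (oR S u u)}
  zero_mem' := ⟨0, by simp [oR, rr_zero_right]⟩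
  add_mem' := by
    rintro a b ⟨c, e⟩ ⟨d, e'⟩
    exact ⟨c + d, by rw [add_smul, ← e, ← e', ← mul_add, ← map_add]; exact congrArg _ (congrArg _
      (rr_add_right _ _ _))⟩
  smul_mem' := by
    rintro r a ⟨c, e⟩
    exact ⟨r * c, by rw [mul_smul, ← e, ← mul_smul_comm, ← map_smul]; exact congrArg _ (congrArg _
      (rr_smul_right _ _ _))⟩

theorem sq_prod [Finite F] {A : Type*} {s : Finset A} (τ : A → A) (h1 : ∀ a ∈ s, τ a ∈ s)
    (h2 : ∀ a, τ (τ a) = a) (h3 : ∀ a, τ a ≠ a) {q : A → F} (h4 : ∀ a, q (τ a) = q a)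
    (h5 : ∀ a, q a ≠ 0) : IsSquare (∏ a ∈ s, q a) := by
  classical
  have := Fintype.ofFinite F
  rw [← quadraticChar_one_iff_isSquare (Finset.prod_ne_zero_iff.2 fun a _ => h5 a), map_prod]
  exact Finset.prod_involution (fun a _ => τ a)
    (fun a _ => by rw [h4, ← pow_two, quadraticChar_sq_one (h5 a)]) (fun a _ _ => h3 a) h1
    fun a _ => h2 a

namespace OB

variable (h : OB T Q S κ M) [FiniteDimensional F W] [FiniteDimensional F U] [Nontrivial U]
  [Finite F]
include h

theorem refl_mem (hk : Even (finrank F W)) {i j l : I} (hj : j ≠ i) (hl : l ≠ i) (hjl : j ≠ l)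
    {c : W} (hc : S c ≠ 0) : fE (T.s i) (refl S c).1 ∈ M := by
  classical
  have h2 := h.two
  obtain ⟨e, e1, e2⟩ := h.nd.exists_orth_basis h2
  have := h.k3
  let a0 : Fin (finrank F W) := ⟨0, by omega⟩
  let w : I → Fin (finrank F W) → W := fun m a => if m = i then c else e a
  let s : I → Finset (Fin (finrank F W)) := fun m => if m = i then {a0} else Finset.univ
  let v : (I → Fin (finrank F W)) → U ⊗[F] W := fun α => T.pt fun m => w m (α m)
  have w0 : ∀ m a, S (w m a) ≠ 0 := fun m a => by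
    simp only [w]; split_ifs; exacts [hc, e2 a]
  have qv : ∀ α, Q (v α) = κ / 2 * ∏ m, (2 * S (w m (α m))) := fun α => by
    have := h.pure (fun m => w m (α m)) fun m => w m (α m)
    simp only [p_self] at this
    field_simp
    linear_combination this
  have q0 : ∀ α, Q (v α) ≠ 0 := fun α => by
    simp [qv, h.k0, h2, Finset.prod_eq_zero_iff, w0]
  have inv : ∀ m', m' ≠ i → ∀ {q : (I → Fin (finrank F W)) → F},
      (∀ α a, q (update α m' a) = q α) → (∀ α, q α ≠ 0) →
      IsSquare (∏ α ∈ Fintype.piFinset s, q α) := fun m' hm q q1 q2 =>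
    sq_prod (fun α => update α m' (α m').rev) (fun α hα => Fintype.mem_piFinset.2 fun m => by
      by_cases e : m = m'
      · simp [e, s, hm]
      · simpa [e] using Fintype.mem_piFinset.1 hα m) (fun α => by simp)
      (fun α e => by
        have := congrArg Fin.val (congrFun e m')
        obtain ⟨r, hr⟩ := hk
        simp only [update_self, Fin.val_rev] at this
        have := (α m').2
        omega) (fun α => q1 _ _) q2
  refine h.hH _ ⟨(((Fintype.piFinset s).toList.map v).map (refl Q)).prod,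
    (h.nQ.list_mem_commutator_iff (good_of_two_ne_zero h2) _ (by simp [q0])).2 ⟨?_, ?_⟩,
    LinearEquiv.toLinearMap_injective (T.ext fun b => ?_)⟩ (h.fE_wr i _)
  · rw [List.length_map, Finset.length_toList, Fintype.card_piFinset]
    exact (even_iff_two_dvd.1 hk).trans (by
      simpa [s, hj] using Finset.dvd_prod_of_mem (fun m => (s m).card) (Finset.mem_univ j))
      |> even_iff_two_dvd.2
  · rw [List.map_map, Finset.prod_map_toList]
    simp only [Function.comp, qv]
    rw [Finset.prod_mul_distrib, Finset.prod_comm]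
    refine (inv j hj (fun _ _ => rfl) fun _ => by simp [h.k0, h2]).mul
      (Finset.prod_induction _ _ (fun _ _ => IsSquare.mul) IsSquare.one fun m _ => ?_)
    by_cases e : m = j
    · exact inv l hl (fun α a => by rw [update_of_ne (e ▸ hjl)]) fun _ => by simp [h2, w0]
    · exact inv j hj (fun α a => by rw [update_of_ne e]) fun _ => by simp [h2, w0]
  have k : ∀ m, ∑ a ∈ s m, ((2 * S (w m a))⁻¹ * polar S (w m a) (b m)) • w m a =
      update b i (((2 * S c)⁻¹ * polar S c (b i)) • c) m := fun m => by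
    by_cases e' : m = i
    · simp [e', s, w]
    simp only [s, w, e', if_false, update_of_ne e']
    conv_rhs => rw [← e.sum_repr (b m)]
    refine Finset.sum_congr rfl fun a _ => ?_
    conv_lhs => rw [← e.sum_repr (b m), p_sum_right,
      Finset.sum_eq_single a (fun a' _ ha => by simp [e1 a a' ha.symm]) (by simp)]
    have := e2 a
    rw [p_smul_right, p_self]
    congr 1
    field_simp
  change (List.prod _ : OG Q).1 _ = fE _ _ _
  rw [prod_refl_orth_apply _ (List.pairwise_map.2 ((Finset.nodup_toList _).imp_of_mem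
    fun {α β} hα hβ hne => by
      obtain ⟨m, hm⟩ := Function.ne_iff.1 hne
      have e' : m ≠ i := by
        rintro rfl
        have a1 := Fintype.mem_piFinset.1 (Finset.mem_toList.1 hα) m
        have a2 := Fintype.mem_piFinset.1 (Finset.mem_toList.1 hβ) m
        simp only [s, if_true, Finset.mem_singleton] at a1 a2
        exact hm (a1.trans a2.symm)
      exact h.pol0 m (by simp [w, e', e1 _ _ hm]))), List.map_map, Finset.sum_map_toList,
    fE_apply, T.rh_pt, LinearEquiv.coe_coe, refl_apply, T.pt.map_update_sub, update_eq_self,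
    show (S c)⁻¹ * polar S c (b i) = 2 * ((2 * S c)⁻¹ * polar S c (b i)) by field_simp,
    mul_smul, T.pt.map_update_smul, ← funext k, T.pt.map_sum_finset, Finset.smul_sum]
  refine congrArg _ (Finset.sum_congr rfl fun α _ => ?_)
  rw [T.pt.map_smul_univ, smul_smul, Function.comp, qv, h.pure,
    Finset.prod_mul_distrib (f := fun m => (2 * S (w m (α m)))⁻¹), Finset.prod_inv_distrib]
  congr 1
  have := h.k0
  field_simp

variable {i : I} (hf0 : S f = 0) (hf : polar S u f = 1)
  (hZ : ∀ γ, CA (T.s i) γ → R M (γ * rh (T.s i) (oR S u u)) → γ = 0)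
  (e : Θ ∈ TT S M (T.s i) (f := f) hu)
include hf0 hf hZ e

theorem gz_of {z v : W} (v1 : polar S u v = 0) (v2 : polar S f v = 0) (v3 : S v ≠ 0) {r : F}
    (hr : r ≠ 0) (k : r • (Θ * rh (T.s i) (oR S v z)) ∈ TT S M (T.s i) (f := f) hu) :
    z ∈ GZ S (T.s i) u Θ := by
  obtain ⟨Γ, c1, c2⟩ := TT.gam hf e z
  rw [c2, ← smul_mul_assoc] at k
  obtain ⟨c, hc⟩ := h.scal hf0 hf hZ v1 v2 v3 (fun x => (c1 x).smul_left r) k
  exact ⟨r⁻¹ * c, by rw [c2, ← inv_smul_smul₀ hr Γ, hc]; simp [smul_smul]⟩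

theorem gz_refl {c : W} (c1 : polar S u c = 0) (c2 : polar S f c = 0) (c3 : S c ≠ 0)
    (hc : fE (T.s i) (refl S c).1 ∈ M) : c ∈ GZ S (T.s i) u Θ := by
  refine h.gz_of hf0 hf hZ e c1 c2 c3 (inv_ne_zero c3) ?_
  convert sub_mem e (TT.cj1 e (refl_apply_of_orth (by rwa [polar_comm]))
    (refl_apply_of_orth (by rwa [polar_comm])) hc) using 1
  rw [refl_inv, oe_refl]
  simp [mul_sub]

theorem gz_three (h3 : finrank F W = 3) {c : W} (c1 : polar S u c = 0) (c2 : polar S f c = 0)
    (c3 : S c ≠ 0) : c ∈ GZ S (T.s i) u Θ := by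
  have h2 := h.two
  refine h.gz_of hf0 hf hZ e c1 c2 c3 (inv_ne_zero (mul_ne_zero h2 c3)) ?_
  convert e using 1
  rw [← mul_smul_comm, ← map_smul, ← TT.pi hf e, TT.pi hf e]
  conv_rhs => rw [← TT.pi hf e]
  congr 2
  ext v
  have k := mem_perp_pair.1 (hyp_proj_mem hu hf0 hf v)
  obtain ⟨a, b, e'⟩ := perp3 h.toOF h3 (by rintro rfl; simp at hf) hu c1 c3 k.1
  have e1 : a = 0 := by simpa [e', polar_comm _ f u, hf, c2] using k.2
  have e2 := congrArg (polar S c) e'
  simp only [polar_sub_right, polar_add_right, p_smul_right, polar_comm _ c u, polar_comm _ c f,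
    c1, c2, p_self, e1] at e2
  simp only [LinearMap.smul_apply, LinearMap.sub_apply, oR_apply, Module.End.one_apply]
  rw [sub_right_comm, e', e1, smul_smul, show polar S c v = b * (2 * S c) by linear_combination e2]
  match_scalars <;> field_simp

theorem gz_five (h5 : 5 ≤ finrank F W) :
    perp S (Submodule.span F {u, f}) ≤ GZ S (T.s i) u Θ := by
  have hd := h.nd.finrank_perp_hyp hu hf0 hf
  have nd := nds_hyp h.nd hu hf0 hf
  by_contra hn
  obtain ⟨a, a1, a2, a3⟩ := nd.exists_sing (by omega) hn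
  obtain ⟨⟨f', b1⟩, b2, b3⟩ := nd.nd.exists_hyp (x := ⟨a, a1⟩)
    (fun e => a3 (by rw [show a = 0 from congrArg Subtype.val e]; exact zero_mem _)) a2
  obtain ⟨⟨b, d1⟩, d2, d3, d4⟩ := exists_ns_hyp nd.nd (by omega) (e := ⟨a, a1⟩) a2 b3 b2
  replace b2 : polar S a f' = 1 := b2
  replace b3 : S f' = 0 := b3
  replace d2 : polar S a b = 0 := d2
  replace d3 : polar S f' b = 0 := d3
  replace d4 : S b ≠ 0 := d4
  rw [mem_perp_pair] at a1 b1 d1
  have k : ∀ {Θ a b}, Θ ∈ TT S M (T.s i) (f := f) hu → S a = 0 → polar S a b = 0 →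
      polar S u a = 0 ∧ polar S f a = 0 → polar S u b = 0 ∧ polar S f b = 0 →
      Θ * rh (T.s i) (1 + oX S a b - S b • oR S a a) ∈ TT S M (T.s i) (f := f) hu :=
    fun {Θ a b} e e1 e2 e3 e4 => by
    have e5 : polar S a (-b) = 0 := by simp [e2]
    have := TT.cj1 e (σ := eich S a (-b))
      (by simp [eich_apply e1 e5, polar_comm _ _ u, e3.1, e4.1])
      (by simp [eich_apply e1 e5, polar_comm _ _ f, e3.2, e4.2])
      (h.fac i _ (h.nd.eich_mem_commutator (good_of_two_ne_zero h.two) a _))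
    rwa [eich_inv e1 e5, neg_neg, oe_eich e1 e2] at this
  have k1 : (2 * S b) • (Θ * rh (T.s i) (oR S a a)) ∈ TT S M (T.s i) (f := f) hu := by
    convert sub_mem (add_mem e e) (add_mem (k e a2 d2 a1 d1)
      (k (b := (-1 : F) • b) e a2 (by simp [d2]) a1 (by simp [d1]))) using 1
    simp only [oX_smul, q_smul, map_add, map_sub, map_smul, map_one, mul_add,
      mul_sub, mul_one, mul_smul_comm]
    module
  refine a3 (h.gz_of hf0 hf hZ e (v := b - S b • f') (by simp [b1, d1]) (by simp [b1, d1])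
    (by simp [q_sub, q_smul, b3, polar_comm _ b, d3, d4]) (mul_ne_zero h.two d4) ?_)
  convert sub_mem (k k1 b3 d3 b1 d1) k1 using 1
  rw [smul_mul_assoc, mul_assoc, ← map_mul, show oR S a a * (1 + oX S f' b - S b • oR S f' f') =
    oR S a a + oR S (b - S b • f') a from ?_, map_add, mul_add, smul_add, add_sub_cancel_left]
  ext v
  simp only [oX_apply, oR_apply, Module.End.mul_apply, LinearMap.sub_apply, LinearMap.add_apply,
    LinearMap.smul_apply, Module.End.one_apply, polar_sub_right, polar_add_right, p_smul_right,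
    polar_sub_left, p_smul_left, b2, d2]
  module

theorem gz_two (h4 : 4 ≤ finrank F W) {j : I} (hj : j ≠ i) (hI : ∀ l, l = i ∨ l = j) {c : W}
    (c1 : polar S u c = 0) (c2 : polar S f c = 0) (c3 : S c ≠ 0) : c ∈ GZ S (T.s i) u Θ := by
  have := h.ntW
  have u0 : u ≠ 0 := by rintro rfl; simp at hf
  have c0 := T.com j i hj
  obtain ⟨Γ, g1, g2⟩ := TT.gam hf e c
  have hs : ∀ n, S n = 0 → rh (T.s j) (oR S n n) * Γ * rh (T.s j) (oR S n n) = 0 := fun n hn => by
    by_cases n0 : n = 0
    · simp [n0, oR, rr_zero_left]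
    obtain ⟨t, t0, ht⟩ := sandE (A := Module.End F (U ⊗[F] W)) h.toOF n0 hn
    have k := ht (rh (T.s j)) (TT S M (T.s i) (f := f) hu) (fun σ hσ a ha =>
      TT.cj ha (h.fac j σ hσ) (fE_coe _ _) (by rw [← map_mul, oe_mul_inv, map_one]) (c0 _ _)
        (c0 _ _)) Θ e
    obtain ⟨m, hm, hm0⟩ := h.nd.exists_hyp n0 hn
    have := h.nd.finrank_perp_hyp hn hm0 hm
    obtain ⟨d, d1, d2⟩ := (nds_hyp h.nd hn hm0 hm).exists_Q_eq (by omega) (S c)
    replace d1 := (mem_perp_pair.1 d1).1
    have k1 := TT.cjs k (σ := refl S c) (refl_apply_of_orth (by rwa [polar_comm]))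
      (refl_apply_of_orth (by rwa [polar_comm])) (c0 _) (refl_sq (T.s j) d)
      (h.rpair i j (d2 ▸ c3) d2) (by rw [← fE_coe, ← fE_coe]; rfl)
    have k2 : ((S c)⁻¹ * t) • (rh (T.s j) (oR S n n) * Γ * rh (T.s j) (oR S n n)) *
        rh (T.s i) (oR S c u) ∈ TT S M (T.s i) (f := f) hu := by
      convert sub_mem k k1 using 1
      have a1 : ∀ z, rh (T.s j) (oe (refl S d)) * (rh (T.s j) (oR S n n) * z) =
          rh (T.s j) (oR S n n) * z := fun z => by rw [← mul_assoc, ← map_mul, refl_E d1]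
      have a2 : ∀ x, rh (T.s j) (oR S n n) * (rh (T.s i) x * rh (T.s j) (oe (refl S d))) =
          rh (T.s i) x * rh (T.s j) (oR S n n) := fun x => by
        rw [← mul_assoc, (c0 _ _).eq, mul_assoc, ← map_mul, E_refl d1]
      simp only [mul_assoc, smul_mul_assoc, mul_smul_comm, a1, a2]
      rw [refl_inv, oe_refl, (c0 _ _).eq, ← mul_assoc Γ, ← g2]
      simp only [map_sub, map_smul, map_one, mul_sub, sub_mul, one_mul, mul_assoc, smul_mul_assoc,
        mul_smul_comm]
      module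
    obtain ⟨r, hr⟩ := h.scal hf0 hf hZ c1 c2 c3
      (fun x => ((((c0 _).mul g1).mul (c0 _)) x).smul_left _) k2
    have k3 := congrArg (· * rh (T.s j) (oR S n n)) hr
    simp only [smul_mul_assoc, mul_assoc, ← map_mul, oE_sq hn, map_zero, mul_zero, smul_zero,
      one_mul] at k3
    have : r = 0 := by_contra fun r0 => oR_ne h.toOF n0 n0
      (rh_eq_zero ((smul_eq_zero_iff_right r0).1 k3.symm))
    simpa [this, c3, t0] using hr
  obtain ⟨r, hr⟩ := T.cent Γ fun l => (hI l).elim (· ▸ g1) fun e' => e' ▸ by_contra fun hc => by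
    obtain ⟨n, d, ψ, a, n0, hn, d1, d2, d3⟩ := exists_coef h.toOF hs hc
    have x0 := oR_ne h.toOF n0 n0
    have k1 : ∀ ψ a, co (T.s j) ψ a (rh (T.s j) (oR S d n) * Γ * rh (T.s j) (oR S n n)) =
        polar S d (co (T.s j) ψ a Γ n) • oR S n n := fun ψ a => by
      rw [co_right, co_left]; ext v; simp [oR_apply, smul_smul, mul_comm]
    have k2 : rh (T.s j) (oR S n n) * Γ * rh (T.s j) (oR S n d) +
        rh (T.s j) (oR S d n) * Γ * rh (T.s j) (oR S n n) = 0 := eq_zero_of_co fun ψ a => by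
      obtain ⟨s, hs⟩ := skS_co h.toOF hs ψ a
      have := hs n d
      rw [d1, mul_zero, polar_comm] at this
      rw [map_add, k1, co_right, co_left]; ext v
      simp only [oR_apply, Module.End.mul_apply, map_smul, p_smul_right, LinearMap.add_apply,
        LinearMap.smul_apply, LinearMap.zero_apply]
      linear_combination (norm := module) (polar S n v * this) • n
    have ci : CA (T.s i) (rh (T.s j) (oR S d n) * Γ * rh (T.s j) (oR S n n)) :=
      ((c0 _).mul g1).mul (c0 _)
    obtain ⟨A, a1, a2⟩ := pure_of_co (g := T.s j) (x := oR S n n) fun ψ a => by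
      rw [k1]; exact Submodule.smul_mem _ _ (Submodule.mem_span_singleton_self _)
    obtain ⟨s, rfl⟩ := T.cent A fun l => (hI l).elim (· ▸ a1.of_mul c0 x0 (a2 ▸ ci)) (· ▸ a1)
    have k3 := h.symT hf0 hf hZ e c1 c2
    rw [g2] at k3
    have k4 : rh (T.s j) (oR S d n) * Γ * rh (T.s j) (oR S n n) * rh (T.s i) (oR S u u) = 0 :=
      LinearMap.ext fun b => h.nQ _ fun a => mul_left_cancel₀ h.two (by
        have l1 : polar Q ((rh (T.s j) (oR S d n) * Γ * rh (T.s j) (oR S n n) *
            rh (T.s i) (oR S u u)) b) a = polar Q b ((rh (T.s j) (oR S n n) * Γ *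
            rh (T.s j) (oR S n d) * rh (T.s i) (oR S u u)) a) := by
          rw [mul_assoc, (c0 _ _).eq, mul_assoc _ (rh (T.s j) _), (c0 _ _).eq, mul_assoc,
            ← mul_assoc Γ, mul_assoc _ Γ, ← mul_assoc Γ, Module.End.mul_apply,
            h.radj j (oR_adj d n), Module.End.mul_apply, k3, h.radj j (oR_adj n n)]
          rfl
        have l2 : polar Q ((rh (T.s j) (oR S d n) * Γ * rh (T.s j) (oR S n n) *
            rh (T.s i) (oR S u u)) b) a = polar Q b ((rh (T.s j) (oR S d n) * Γ *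
            rh (T.s j) (oR S n n) * rh (T.s i) (oR S u u)) a) := by
          rw [a2, smul_mul_assoc, one_mul, smul_mul_assoc, LinearMap.smul_apply,
            LinearMap.smul_apply, p_smul_left, p_smul_right, Module.End.mul_apply,
            h.radj j (oR_adj n n), h.radj i (oR_adj u u), ← Module.End.mul_apply, (c0 _ _).eq]
        rw [two_mul, mul_zero]
        nth_rw 1 [l1]
        rw [l2, ← polar_add_right, ← LinearMap.add_apply, ← add_mul, k2]
        simp)
    have := k1 ψ a
    rw [ci.eq_zero (oR_ne h.toOF u0 u0) k4, map_zero, eq_comm, smul_eq_zero] at this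
    exact this.elim d3 x0
  exact ⟨r, by rw [g2, hr, smul_mul_assoc, one_mul]⟩

end OB

end Cfsg.Agent.Max3
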