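import Mathlib
import Cfsg.Agent.Max3.OB6
import Cfsg.Agent.Max.OW6
import Cfsg.Agent.Max2.OO3

/-!
# Maximality of the stabiliser of an orthogonal tensor power decomposition in `Ω`
-/

set_option autoImplicit false
set_option linter.unusedSectionVars false
set_option linter.unusedSimpArgs false

namespace Cfsg.Agent.Max3

open Module Cfsg.Agent.Max Cfsg.Agent.Max2 TensorProduct Function Cfsg.Agent.Orth QuadraticMap

variable {F U W : Type*} [Field F] [AddCommGroup U] [Module F U] [AddCommGroup W] [Module F W]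
  {S : QuadraticForm F W} {I : Type} [DecidableEq I] [Fintype I] {T : TP I F U W}
  {Q : QuadraticForm F (U ⊗[F] W)} {κ : F} {M : Subgroup ((U ⊗[F] W) ≃ₗ[F] (U ⊗[F] W))}
  {Θ : Module.End F (U ⊗[F] W)} {g : (U ⊗[F] W) ≃ₗ[F] (U ⊗[F] W)}

namespace OB

variable (h : OB T Q S κ M) [FiniteDimensional F W] [FiniteDimensional F U] [Nontrivial U]
  [Finite F] [Nontrivial I]
include h

theorem gz_all {i : I} {u f : W} {hu : S u = 0} (hf0 : S f = 0) (hf : polar S u f = 1)
    (hZ : ∀ γ, CA (T.s i) γ → R M (γ * rh (T.s i) (oR S u u)) → γ = 0)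
    (e : Θ ∈ TT S M (T.s i) (f := f) hu) :
    perp S (Submodule.span F {u, f}) ≤ GZ S (T.s i) u Θ := by
  have := h.k3
  by_cases h5 : 5 ≤ finrank F W
  · exact h.gz_five hf0 hf hZ e h5
  refine ns_le h.two (nds_hyp h.nd hu hf0 hf) fun c hc c3 => ?_
  obtain ⟨c1, c2⟩ := mem_perp_pair.1 hc
  by_cases h3 : finrank F W = 3
  · exact h.gz_three hf0 hf hZ e h3 c1 c2 c3
  obtain ⟨j, hj⟩ := exists_ne i
  by_cases hI : ∀ l, l = i ∨ l = j
  · exact h.gz_two hf0 hf hZ e (by omega) hj hI c1 c2 c3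
  push Not at hI
  obtain ⟨l, l1, l2⟩ := hI
  exact h.gz_refl hf0 hf hZ e c1 c2 c3 (h.refl_mem ⟨2, by omega⟩ hj l1 l2.symm c3)

theorem std {i : I} (hZ : ∀ u ≠ 0, S u = 0 → ∀ γ, CA (T.s i) γ →
    R M (γ * rh (T.s i) (oR S u u)) → γ = 0) : StdO S M (T.s i) := fun u u0 hu y hy y1 y2 => by
  obtain ⟨f, hf, hf0⟩ := h.nd.exists_hyp u0 hu
  have uf : polar S f u = 1 := by rwa [polar_comm]
  have e : (y.toLinearMap - 1) * rh (T.s i) (1 - oR S u f) ∈ TT S M (T.s i) (f := f) hu := by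
    refine ⟨?_, LinearMap.ext fun x => ?_, y, hy, by rw [sub_mul, one_mul, add_sub_cancel]⟩
    · rw [mul_assoc, ← map_mul, show (1 - oR S u f) * oR S f u = oR S f u by
        simp [sub_mul, oR_mul, hu]]
      exact LinearMap.ext fun x => sub_eq_zero.2 (y1 _ (rh_mem _ _ _ x))
    obtain ⟨a, ha⟩ := mem_Lg.1 (y2 (rh (T.s i) (1 - oR S u f) x) ((rh_ker u0).1 (by
      change (rh (T.s i) (oR S u u) * rh (T.s i) (1 - oR S u f)) x = 0
      simp [← map_mul, mul_sub, oR_mul, hf, -map_sub])))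
    change rh _ _ (y _ - rh (T.s i) _ x) = y _ - rh (T.s i) _ x
    rw [← ha, rh_tmul, oR_apply, uf, one_smul]
  have a3 : y.toLinearMap * rh (T.s i) (1 - oR S u f) = rh (T.s i) (1 - oR S u f) +
      (y.toLinearMap - 1) * rh (T.s i) (1 - oR S u f) := by rw [sub_mul, one_mul, add_sub_cancel]
  generalize (y.toLinearMap - 1) * rh (T.s i) (1 - oR S u f) = Θ at e a3
  have k := h.gz_all hf0 hf (hZ u u0 hu) e
  obtain ⟨a₀, ha₀⟩ := exists_ne (0 : U)
  obtain ⟨ψ₀, hψ⟩ := exists_dual_one (F := F) ha₀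
  obtain ⟨w₀, hw⟩ := om_exists_dual h.nd (S.polarBilin f ∘ₗ co (T.s i) ψ₀ a₀ Θ)
  obtain ⟨w1, w2⟩ := mem_perp_pair.1 (hyp_proj_mem hu hf0 hf w₀)
  have w3 : ∀ z, polar S u z = 0 → polar S f z = 0 →
      polar S (w₀ - polar S f w₀ • u - polar S u w₀ • f) z = polar S f (co (T.s i) ψ₀ a₀ Θ z) :=
    fun z z1 z2 => by simpa [z1, z2] using LinearMap.congr_fun hw z
  generalize w₀ - polar S f w₀ • u - polar S u w₀ • f = w at w1 w2 w3
  obtain ⟨t1, t2⟩ := h.idT (i := i) (hu := hu) hf0 hf w1 w2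
  have e' : Θ = rh (T.s i) (oR S w u) := by
    rw [← sub_eq_zero, ← TT.pi hf (sub_mem e t2)]
    refine eq_zero_of_co (g := T.s i) fun ψ a => LinearMap.ext fun v => ?_
    have hz := hyp_proj_mem hu hf0 hf v
    obtain ⟨c, hc⟩ := k hz
    obtain ⟨z1, z2⟩ := mem_perp_pair.1 hz
    have e1 : (1 - oR S u f - oR S f u) v = v - polar S f v • u - polar S u v • f := by
      simp [oR_apply, sub_right_comm]
    rw [co_right, Module.End.mul_apply, e1]
    generalize v - polar S f v • u - polar S u v • f = z at hc z1 z2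
    have e2 : c = polar S w z := by
      have := LinearMap.congr_fun (congrArg (co (T.s i) ψ₀ a₀) hc) f
      rw [co_right, map_smul, LinearMap.smul_apply, co_apply _ _ (rh _ _), rh_tmul] at this
      simp only [Module.End.mul_apply, oR_apply, hf, one_smul, LinearEquiv.symm_apply_apply,
        cU_tmul, hψ] at this
      simp [w3 z z1 z2, this, uf]
    have e3 : (Θ - rh (T.s i) (oR S w u)) * rh (T.s i) (oR S u z) = 0 := by
      rw [sub_mul, hc, ← map_mul, oR_mul, map_smul, e2, sub_self]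
    have := LinearMap.congr_fun (congrArg (co (T.s i) ψ a) e3) f
    rwa [co_right, Module.End.mul_apply, oR_apply, hf, one_smul, map_zero] at this
  refine ⟨w, w1, (inv_mul_eq_one.1 (h.zfix hf0 hf (hZ u u0 hu) (mul_mem (inv_mem
    (h.fac i _ (h.nd.eich_mem_commutator (good_of_two_ne_zero h.two) u w))) hy) ?_)).symm⟩
  change (fE (T.s i) (eich S u w).1)⁻¹.toLinearMap * y.toLinearMap * _ = _
  rw [mul_assoc, a3, e', ← t1, ← mul_assoc, show (fE (T.s i) (eich S u w).1)⁻¹.toLinearMap *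
    (fE (T.s i) (eich S u w).1).toLinearMap = 1 from
      congrArg LinearEquiv.toLinearMap (inv_mul_cancel (fE (T.s i) (eich S u w).1)), one_mul]

theorem main (h5 : 5 ≤ finrank F (U ⊗[F] W)) (hg : g ∈ M) (hg' : g ∉ T.Wr) :
    commutator (OG Q) ≤ M.subgroupOf (OG Q) := by
  by_contra hn
  exact hg' (h.toTFO.wr_of_std (fun g hg => OM.og (h.hM hg)) h.fac (fun i => h.std
    fun u u0 hu γ c1 e => by_contra fun h0 => hn (h.le_of_Z h5 u0 hu h0 c1 e)) hg)

theorem ex : ∃ g ∈ OM Q, g ∉ T.Wr := by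
  obtain ⟨u, u0, hu⟩ := exists_singular S h.k3
  obtain ⟨f, hf, hf0⟩ := h.nd.exists_hyp u0 hu
  obtain ⟨c, c1, -, c3⟩ := exists_ns_hyp h.nd h.k3 hu hf0 hf
  obtain ⟨i, l, hil⟩ := exists_pair_ne I
  have := h.k3
  have x0 := oR_ne h.toOF u0 u0
  have q : ∀ z, Q (T.pt (update (fun _ => u) l z)) = 0 := fun z => h.q0 i (by simp [hil, hu])
  let x : I → Module.End F W := update (fun _ => oR S u u) l (oX S u c)
  have ca : CA (T.s i) (T.PM (update x i 1)) := T.ca_PM (by simp)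
  refine ⟨_, ⟨_, h.nQ.eich_mem_commutator (good_of_two_ne_zero h.two)
    (T.pt (update (fun _ => u) l u)) (κ⁻¹ • T.pt (update (fun _ => u) l c)), rfl⟩,
    T.not_mem_Wr (by omega) ca (fun d e => ?_) (φ := S.polarBilin u)
      (fun e => by simpa [hf] using LinearMap.congr_fun e f) u0 (by simp [hu]) fun v => ?_⟩
  · have e1 := T.rh_PM l (oR S u u) 1 (update x i 1)
    rw [T.PM_zero (i := l) (x := update _ l _) (by simp [x, hil.symm, oE_oX hu c1]), e] at e1
    refine h.PM_ne (x := update x i 1) (fun m => ?_) ?_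
    · have := h.ntW
      by_cases e2 : m = i
      · simp [e2]
      by_cases e3 : m = l
      · simpa [e2, e3, x, hil.symm] using oX_ne h.toOF u0 hu (ns_not_mem hu c3)
      · simpa [e2, e3, x] using x0
    rw [e, by_contra fun d0 : ¬ d = 0 => x0 (rh_eq_zero (by simpa [d0] using e1)), zero_smul]
  have e1 : T.PM x = T.PM (update x i 1) * rh (T.s i) (oR S u u) := by
    rw [(ca _).eq, ← T.PM_upd, update_eq_self_iff.2 (by simp [x, hil])]
  rw [Subgroup.coe_subtype, eich_apply (q u) (by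
    rw [p_smul_right, h.pol0 i (by simp [hil, hu]), mul_zero]), q_smul, q]
  change _ = v + (T.PM (update x i 1) * rh (T.s i) (oR S u u)) v
  rw [← e1, h.sieg, p_smul_left]
  module

end OB

open Geo in
theorem max_wreath_O [Fintype F] (hodd : Odd (Fintype.card F)) {ι : Type} [Fintype ι]
    [DecidableEq ι] {Q : QuadraticForm F (ι → F)} (hQ : ND Q) (h5 : 5 ≤ Fintype.card ι) {k t : ℕ}
    (hk : 3 ≤ k) (ht : 2 ≤ t) (hex : ¬ (Fintype.card F = 3 ∧ k = 3)) (e : ι ≃ (Fin t → Fin k))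
    (P : GL ι F) {f₁ : (Fin k → F) → (Fin k → F) → F} (hf₁ : IsSymmetricForm f₁)
    (h4 : k = 4 → ¬ IsPlusTypeOn (fun v => f₁ v v) ⊤)
    (hT : IsTensorPowerFormStructure id (polar Q) f₁ e P) :
    IsMaximalIn (omegaGL ⇑Q) (tensorWreathSubgroup k t e P ⊓ omegaGL ⇑Q) := by
  obtain ⟨t, rfl⟩ : ∃ t', t = t' + 2 := ⟨t - 2, by omega⟩
  have : Nontrivial (Fin k) := Fin.nontrivial_iff_two_le.2 (by omega)
  have h2 := two_ne_zero_of_odd hodd
  obtain ⟨c, hc0, hT⟩ := power_form hT hf₁.bilinear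
  have nd : ND (Q.comp (powE e P).symm.toLinearMap) := fun x hx => (powE e P).symm.map_eq_zero_iff.1
    (hQ _ fun y => by simpa [polar] using hx (powE e P y))
  let S : QuadraticForm F (Fin k → F) := ((1 / 2 : F) • bilOf hf₁.bilinear).toQuadraticMap
  have hS : ∀ u v, polar S u v = f₁ u v := fun u v => by
    simp only [S, LinearMap.BilinMap.polar_toQuadraticMap, LinearMap.smul_apply, bilOf_apply,
      hf₁.symm v u, smul_eq_mul]
    field_simp; ring
  have H : TFO (tp0 F k (t + 1)) (Q.comp (powE e P).symm.toLinearMap) S c :=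
    ⟨⟨fun x hx => (bilOf_nd hf₁.bilinear hf₁.nondegenerate).1 x fun y => by
        simpa [hS, bilOf_apply] using hx y, h2, by simpa, fun h => exists_sq_ne_one (by
        have := Fintype.one_lt_card (α := F)
        obtain ⟨k, hk⟩ := hodd
        have : Fintype.card F ≠ 3 := fun e => hex ⟨e, by simpa using h⟩
        omega), fun h ⟨X, t1, t2⟩ => h4 (by simpa using h) ⟨X, le_top, fun x hx => by
        simpa [t1 x hx] using (hS x x).symm, by simpa using t2⟩⟩,
      fun a b => by simp only [hS, ← bilOf_apply hf₁.bilinear]; rw [← hT]; simp [polar], hc0, nd⟩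
  exact isMaximalIn_Om' (powE e P) (· ∈ (tp0 F k (t + 1)).Wr) (mem_wreath_iff (by omega) e P)
    (OB.ex (M := OM _) ⟨H, fun _ a _ => a, le_rfl⟩) fun M h1 h3 ⟨g, hg, hn⟩ =>
    OB.main ⟨H, h1, h3⟩ (by rw [← (powE e P).finrank_eq]; simpa) hg hn

end Cfsg.Agent.Max3
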