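import Mathlib
import Cfsg.Agent.Max3.OX1

/-!
# `O₃(q^r)` inside `O_{3r}(q)`: frames and the stabiliser of a singular line
-/

set_option autoImplicit false
set_option linter.unusedSectionVars false

namespace Cfsg.Agent.Max3

open Module Cfsg.Agent.Max Cfsg.Agent.Max2 QuadraticMap Orth

variable {F K V : Type*} [Field F] [Field K] [Algebra F K] [AddCommGroup V] [Module F V]
  [Module K V] [IsScalarTower F K V] {Q : QuadraticForm F V} {P : QuadraticForm K V}
  {τ : Dual F K} {M : Subgroup (OG Q)}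

theorem quad_mem (hr : (finrank F K).Prime) (h2 : finrank F K ≠ 2) {y : K} {a c : F}
    (e : y * y = a • y + c • 1) : ∃ d : F, algebraMap F K d = y := by
  have h3 := hr.two_le
  have : FiniteDimensional F K := Module.finite_of_finrank_pos (by omega)
  obtain ⟨z, -, hz⟩ := exists_not_mem_of_finrank_lt (W := Submodule.span F {(1 : K), y}) (U := ⊤)
    (lt_of_le_of_lt (Max.finrank_span_pair_le _ _) (by rw [finrank_top]; omega))
  refine mem_range_of_stab' hr (s := 1) (Submodule.subset_span (by simp)) one_ne_zero hz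
    fun s hs => ?_
  obtain ⟨p, q, rfl⟩ := Submodule.mem_span_pair.1 hs
  refine Submodule.mem_span_pair.2 ⟨q * c, p + q * a, ?_⟩
  rw [mul_add, mul_smul_comm, mul_smul_comm, e, mul_one]
  module

theorem zeta_zero (hr : (finrank F K).Prime) (h2 : finrank F K ≠ 2) (ht : (2 : K) ≠ 0)
    (σ : K →ₐ[F] K) (ζ : K →+ K) (h : ∀ l : K, l ≠ 0 → ∀ j, ζ j = σ l ^ 2 * ζ (l ^ 2 * j))
    (j : K) : ζ j = 0 := by
  by_contra hz
  obtain ⟨x, hx⟩ := exists_not_mem_range (F := F) (K := K) hr.two_le
  have hy : ∀ c : F, algebraMap F K c ≠ σ x := fun c e =>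
    hx c (σ.injective ((σ.commutes c).trans e))
  have a0 : σ x ≠ 0 := fun e => hy 0 (by rw [e, map_zero])
  have a1 : σ x + 1 ≠ 0 := fun e => hy (-1) (by rw [map_neg, map_one]; linear_combination -e)
  have a2 : σ x - 1 ≠ 0 := fun e => hy 1 (by rw [map_one]; linear_combination -e)
  have b0 := h x (fun e => a0 (by rw [e, map_zero])) j
  have b1 := h (x + 1) (fun e => a1 (by rw [← map_one σ, ← map_add, e, map_zero])) j
  have b2 := h (x - 1) (fun e => a2 (by rw [← map_one σ, ← map_sub, e, map_zero])) j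
  have b3 : ζ ((x + 1) ^ 2 * j) + ζ ((x - 1) ^ 2 * j) =
      ζ (x ^ 2 * j) + ζ (x ^ 2 * j) + ζ j + ζ j := by
    simp only [← map_add]; congr 1; ring
  rw [map_add, map_one] at b1
  rw [map_sub, map_one] at b2
  set y := σ x
  have c : ζ j * 2 * ((y * y + 1) * (y * y - y - 1) * (y * y + y - 1)) = 0 := by
    have c0 : ζ (x ^ 2 * j) = ζ j / y ^ 2 := by rw [eq_div_iff (pow_ne_zero _ a0), b0]; ring_nf
    have c1 : ζ ((x + 1) ^ 2 * j) = ζ j / (y + 1) ^ 2 := by
      rw [eq_div_iff (pow_ne_zero _ a1)]; linear_combination -b1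
    have c2 : ζ ((x - 1) ^ 2 * j) = ζ j / (y - 1) ^ 2 := by
      rw [eq_div_iff (pow_ne_zero _ a2)]; linear_combination -b2
    rw [c0, c1, c2] at b3
    field_simp at b3
    linear_combination -ζ j * b3
  simp only [mul_eq_zero, hz, ht, false_or] at c
  rcases c with (c | c) | c
  · obtain ⟨d, hd⟩ := quad_mem hr h2 (y := y) (a := 0) (c := -1) (by
      simp only [zero_smul, neg_smul, one_smul]; linear_combination c)
    exact hy d hd
  · obtain ⟨d, hd⟩ := quad_mem hr h2 (y := y) (a := 1) (c := 1) (by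
      simp only [one_smul]; linear_combination c)
    exact hy d hd
  · obtain ⟨d, hd⟩ := quad_mem hr h2 (y := y) (a := -1) (c := 1) (by
      simp only [neg_smul, one_smul]; linear_combination c)
    exact hy d hd

theorem exists_sigma (a : V ≃ₗ[F] V) (W : Submodule K V) {y₀ : V} (h0 : y₀ ∈ W) (h1 : y₀ ≠ 0)
    (h : ∀ k : K, ∃ k' : K, ∀ y ∈ W, a (k • y) = k' • a y) :
    ∃ σ : K →ₐ[F] K, ∀ k : K, ∀ y ∈ W, a (k • y) = σ k • a y := by
  choose s hs using h
  have h2 : a y₀ ≠ 0 := by simpa using h1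
  have inj := smul_left_injective K h2
  refine ⟨{ toFun := s, map_one' := inj ?_, map_mul' := fun x y => inj ?_, map_zero' := inj ?_,
            map_add' := fun x y => inj ?_, commutes' := fun c => inj ?_ }, hs⟩
  · simp only [← hs _ _ h0, one_smul]
  · simp only [mul_smul, ← hs _ _ h0, ← hs _ _ (W.smul_mem _ h0)]
  · simp only [← hs _ _ h0, zero_smul, map_zero]
  · simp only [add_smul, ← hs _ _ h0, map_add]
  · simp only [← hs _ _ h0, algebraMap_smul, map_smul]

/-- A frame of a three-dimensional quadratic space. -/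
structure Fr (P : QuadraticForm K V) (u f w : V) : Prop where
  u0 : P u = 0
  f0 : P f = 0
  uf : polar P u f = 1
  uw : polar P u w = 0
  fw : polar P f w = 0
  w0 : P w ≠ 0
  dec : ∀ v, ∃ a b c : K, v = a • u + b • f + c • w

theorem exists_fr [FiniteDimensional K V] (hP : ND P) (hn : finrank K V = 3) {u f : V}
    (hu : P u = 0) (hf : P f = 0) (huf : polar P u f = 1) : ∃ w, Fr P u f w := by
  have a3 := hP.finrank_perp_hyp hu hf huf
  have a4 : NDS P (perp P (Submodule.span K {u, f})) := fun w hw e =>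
    congrArg Subtype.val (hP.nd_perp_hyp hu hf huf ⟨w, hw⟩ fun z => e z z.2)
  obtain ⟨w, hw, hw0⟩ := a4.exists_nonsing (by omega)
  refine ⟨w, hu, hf, huf, (mem_perp_pair.1 hw).1, (mem_perp_pair.1 hw).2, hw0, fun v => ?_⟩
  obtain ⟨c, hc⟩ := (finrank_eq_one_iff_of_nonzero' (⟨w, hw⟩ : perp P (Submodule.span K {u, f}))
    (fun e => hw0 (by rw [show w = 0 from congrArg Subtype.val e, map_zero]))).1
    (show finrank K (perp P (Submodule.span K {u, f})) = 1 by omega)
    ⟨v - polar P f v • u - polar P u v • f, mem_perp_pair.2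
      ⟨by simp [hu, huf], by simp [hf, polar_comm P f u, huf]⟩⟩
  refine ⟨polar P f v, polar P u v, c, ?_⟩
  have : c • w = v - polar P f v • u - polar P u v • f := congrArg Subtype.val hc
  rw [this]
  abel

namespace Fr

variable {u f w : V} (h : Fr P u f w)
include h

theorem fu : polar P f u = 1 := by rw [polar_comm, h.uf]
theorem wu : polar P w u = 0 := by rw [polar_comm, h.uw]
theorem wf : polar P w f = 0 := by rw [polar_comm, h.fw]
theorem ne : u ≠ 0 := by rintro rfl; simpa using h.uf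

theorem symm : Fr P f u w := ⟨h.f0, h.u0, h.fu, h.fw, h.uw, h.w0, fun v => by
  obtain ⟨a, b, c, e⟩ := h.dec v
  exact ⟨b, a, c, by rw [e]; abel⟩⟩

theorem dec' {y : V} (hy : polar P u y = 0) : ∃ a c : K, y = a • u + c • w := by
  obtain ⟨a, b, c, rfl⟩ := h.dec y
  have : b = 0 := by simpa [h.u0, h.uf, h.uw] using hy
  exact ⟨a, c, by simp [this]⟩

theorem mem_line (h2 : (2 : K) ≠ 0) {y : V} (hy : polar P u y = 0) (hw : polar P w y = 0) :
    y ∈ line F K u := by
  obtain ⟨a, c, rfl⟩ := h.dec' hy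
  have : c = 0 := by simpa [h.wu, h.w0, h2] using hw
  simp [this, smul_mem_line]

theorem torus [FiniteDimensional K V] (hP : ND P) {l : K} (hl : l ≠ 0) :
    ∃ t ∈ commutator (OG P), t.1 u = l ^ 2 • u ∧ t.1 f = (l ^ 2)⁻¹ • f ∧ t.1 w = w := by
  have a1 : P (u - f) = -1 := by simp [q_sub, h.u0, h.f0, h.uf]
  have a2 : P (u - l ^ 2 • f) = -l ^ 2 := by simp [q_sub, q_smul, h.u0, h.f0, h.uf]
  refine ⟨_, hP.refl_mul_refl_mem_commutator' (u := u - f) (v := u - l ^ 2 • f) (by simp [a1])
    (by simp [a2, hl]) ⟨l, by rw [a1, a2]; ring⟩, ?_, ?_, ?_⟩ <;>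
  simp only [OG.mul_apply, refl_apply, a1, a2, polar_sub_left, polar_sub_right, p_smul_left,
    p_smul_right, p_self, h.u0, h.f0, h.uf, h.fu, h.uw, h.fw] <;>
  match_scalars <;> field_simp <;> ring

theorem uk (H : OTr Q P τ) (k : K) (x : V) : (H.res (eich P u (k • w))).1 x =
    x + (k * polar P w x - k ^ 2 * P w * polar P u x) • u - (polar P u x * k) • w := by
  rw [H.res_apply, eich_apply h.u0 (by simp [h.uw]), p_smul_left, q_smul, smul_smul]

theorem uk_add (H : OTr Q P τ) (k l : K) : H.res (eich P u ((k + l) • w)) =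
    H.res (eich P u (k • w)) * H.res (eich P u (l • w)) := by
  rw [← map_mul, eich_mul h.u0 (by simp [h.uw]) (by simp [h.uw]), add_smul]

theorem perp_perp (H : OTr Q P τ) {x : V} (hx : ∀ y, polar P u y = 0 → polar Q x y = 0) :
    x ∈ line F K u :=
  h.mem_line H.twoK (H.zero_of fun k => by rw [polar_comm]; exact hx _ (by simp [h.u0]))
    (H.zero_of fun k => by rw [polar_comm]; exact hx _ (by simp [h.uw]))

end Fr

/-- `a` stabilises the line through `u`. -/
def StabL (K : Type*) [Field K] [Algebra F K] [Module K V] [IsScalarTower F K V] (u : V)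
    (a : OG Q) : Prop := ∀ l ∈ line F K u, a.1 l ∈ line F K u

theorem StabL.mul {u : V} {a b : OG Q} (ha : StabL K u a) (hb : StabL K u b) : StabL K u (a * b) :=
  fun l hl => ha _ (hb l hl)

variable [FiniteDimensional F V]

theorem StabL.inv {u : V} {a : OG Q} (ha : StabL K u a) : StabL K u a⁻¹ := fun l hl => by
  have : im (line F K u) a.1 = line F K u := Submodule.eq_of_le_of_finrank_eq
    (by rintro _ ⟨x, hx, rfl⟩; exact ha x hx) (finrank_im _ _)
  rw [← this] at hl
  exact mem_im.1 hl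

theorem StabL.perp (H : OTr Q P τ) {u : V} {a : OG Q} (ha : StabL K u a) {y : V}
    (hy : polar P u y = 0) : polar P u (a.1 y) = 0 :=
  H.zero_of' fun l hl => by rw [← OG.polar_inv_left]; exact H.q_line hy (ha.inv l hl)

/-- No non-trivial element fixes `u^⊥` pointwise. -/
def Z1 (M : Subgroup (OG Q)) (P : QuadraticForm K V) (u : V) : Prop :=
  ∀ g ∈ M, (∀ y, polar P u y = 0 → g.1 y = y) → g = 1

variable [FiniteDimensional K V] {u f w : V}

theorem Fr.eq_uk (h : Fr P u f w) (H : OTr Q P τ) (hH : ∀ g ∈ commutator (OG P), H.res g ∈ M)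
    (hZ : Z1 M P u) {g : OG Q} (hg : g ∈ M) (h1 : ∀ l ∈ line F K u, g.1 l = l)
    (h2 : ∀ y, polar P u y = 0 → g.1 y - y ∈ line F K u) :
    ∃ k : K, g = H.res (eich P u (k • w)) := by
  have a1 : ∀ v, polar P u (g.1 v) = polar P u v := fun v => by
    rw [← sub_eq_zero, ← polar_sub_right]
    exact H.zero_of' fun l hl => by rw [polar_sub_right, ← h1 l hl, OG.map_polar, h1 l hl, sub_self]
  have a2 : ∀ k : K, g * H.res (eich P u (k • w)) = H.res (eich P u (k • w)) * g := fun k => by
    have e : ∀ y, polar P u y = 0 → (g * H.res (eich P u (k • w))).1 y =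
        (H.res (eich P u (k • w)) * g).1 y := fun y hy => by
      obtain ⟨c, hc⟩ := Max2.mem_line.1 (h2 y hy)
      have hc' : g.1 y = y + c • u := by rw [hc]; abel
      simp only [OG.mul_apply, h.uk, hy, zero_mul, zero_smul, sub_zero, mul_zero, map_add,
        h1 _ (smul_mem_line _ u), hc', polar_add_right, p_smul_right, h.wu, add_zero, p_self, h.u0]
    have := hZ ((H.res (eich P u (k • w)) * g)⁻¹ * (g * H.res (eich P u (k • w))))
      (mul_mem (inv_mem (mul_mem (H.ke hH _ _) hg)) (mul_mem hg (H.ke hH _ _))) fun y hy => by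
        rw [OG.mul_apply, e y hy, OG.inv_apply_self]
    exact (inv_mul_eq_one.1 this).symm
  have a3 : ∀ k : K, g.1 (k • w) = k • w - (k * polar P w (g.1 f)) • u := fun k => by
    have := congrArg (fun x : OG Q => x.1 f) (a2 k)
    simp only [OG.mul_apply, h.uk, a1, h.uf, h.wf, map_sub, map_add, h1 _ (smul_mem_line _ u),
      one_mul] at this
    linear_combination (norm := module) -this
  refine ⟨-polar P w (g.1 f) / (2 * P w), ?_⟩
  have := hZ ((H.res (eich P u ((-polar P w (g.1 f) / (2 * P w)) • w)))⁻¹ * g)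
    (mul_mem (inv_mem (H.ke hH _ _)) hg) fun y hy => by
      obtain ⟨a, c, rfl⟩ := h.dec' hy
      have e : g.1 (a • u + c • w) =
          (H.res (eich P u ((-polar P w (g.1 f) / (2 * P w)) • w))).1 (a • u + c • w) := by
        rw [h.uk, hy, map_add, h1 _ (smul_mem_line _ u), a3]
        simp only [polar_add_right, p_smul_right, h.wu, p_self]
        have := h.w0
        have := H.twoK
        match_scalars <;> field_simp <;> ring
      rw [OG.mul_apply, e, OG.inv_apply_self]
  exact (inv_mul_eq_one.1 this).symm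

theorem Fr.torus' (h : Fr P u f w) (H : OTr Q P τ) {l : K} (hl : l ≠ 0) :
    ∃ t ∈ commutator (OG P), (∀ z ∈ line F K u, t.1 z = l ^ 2 • z) ∧ t.1 f = (l ^ 2)⁻¹ • f ∧
      ∀ y, polar P u y = 0 → t.1 y - y ∈ line F K u := by
  obtain ⟨t, ht, a1, a2, a3⟩ := h.torus H.ndK hl
  refine ⟨t, ht, fun z hz => ?_, a2, fun y hy => ?_⟩
  · obtain ⟨c, rfl⟩ := Max2.mem_line.1 hz
    rw [map_smul, a1, smul_comm]
  · obtain ⟨a, c, rfl⟩ := h.dec' hy
    refine Max2.mem_line.2 ⟨a * l ^ 2 - a, ?_⟩
    rw [map_add, map_smul, map_smul, a1, a3]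
    module

theorem Fr.semi_perp (h : Fr P u f w) (H : OTr Q P τ) (hH : ∀ g ∈ commutator (OG P), H.res g ∈ M)
    (hZ : Z1 M P u) {a : OG Q} (ha : a ∈ M) (h1 : StabL K u a) (k : K) :
    ∃ k' : K, ∀ y ∈ perp P (K ∙ u), a.1 (k • y) = k' • a.1 y := by
  have h2 := H.twoK
  have b1 : ∀ k : K, ∃ k' : K, ∀ x, a.1 (k • (polar P w x • u - polar P u x • w)) =
      k' • (polar P w (a.1 x) • u - polar P u (a.1 x) • w) := fun k => by
    obtain ⟨m, hm⟩ := h.eq_uk H hH hZ (g := a * H.res (eich P u ((k / 2) • w)) * a⁻¹)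
      (mul_mem (mul_mem ha (H.ke hH _ _)) (inv_mem ha)) (fun l hl => by
        rw [OG.mul_apply, OG.mul_apply, H.ke_fix h.u0 (by simp [h.uw]) (h1.inv l hl),
          OG.apply_inv_self]) fun y hy => by
        have := h1 _ (smul_mem_line (k / 2 * polar P w ((a⁻¹).1 y)) u)
        rw [OG.mul_apply, OG.mul_apply, h.uk, h1.inv.perp H hy]
        simpa using this
    have hm' : a * H.res (eich P u ((-(k / 2)) • w)) * a⁻¹ = H.res (eich P u ((-m) • w)) := by
      rw [neg_smul, neg_smul, ← eich_inv h.u0 (by simp [h.uw]), ← eich_inv h.u0 (by simp [h.uw]),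
        map_inv, map_inv, ← hm]
      group
    refine ⟨2 * m, fun x => ?_⟩
    have e1 := congrArg (fun g : OG Q => g.1 (a.1 x)) hm
    have e2 := congrArg (fun g : OG Q => g.1 (a.1 x)) hm'
    simp only [OG.mul_apply, OG.inv_apply_self] at e1 e2
    have e3 := congrArg₂ (· - ·) e1 e2
    simp only [← map_sub, h.uk] at e3
    convert e3 using 1
    · congr 1
      match_scalars <;> field_simp <;> ring
    · module
  obtain ⟨k', hk⟩ := b1 k
  obtain ⟨k1, hk1⟩ := b1 1
  have b2 : k1 ≠ 0 := by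
    rintro rfl
    have := hk1 f
    simp only [h.wf, h.uf, zero_smul, one_smul, zero_sub, OG.apply_eq_zero, neg_eq_zero] at this
    exact h.w0 (by rw [this, map_zero])
  refine ⟨k' / k1, fun y hy => ?_⟩
  obtain ⟨c, d, rfl⟩ := h.dec' (mem_perp_singleton.1 hy)
  have e : c • u + d • w = polar P w ((c / (2 * P w)) • w - d • f) • u -
      polar P u ((c / (2 * P w)) • w - d • f) • w := by
    simp only [polar_sub_right, p_smul_right, p_self, h.wf, h.uw, h.uf]
    have := h.w0
    match_scalars <;> field_simp <;> ring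
  simp only [one_smul] at hk1
  rw [e, hk, hk1, smul_smul, div_mul_cancel₀ _ b2]

theorem Fr.semi_of_stab (h : Fr P u f w) (H : OTr Q P τ) (hr : (finrank F K).Prime)
    (hr2 : finrank F K ≠ 2) (hH : ∀ g ∈ commutator (OG P), H.res g ∈ M)
    (hZ : Z1 M P u) {a : OG Q} (ha : a ∈ M) (h1 : StabL K u a) : Semi K a.1 := by
  obtain ⟨σ, hσ⟩ := exists_sigma a.1 (perp P (K ∙ u)) (y₀ := u)
    (mem_perp_singleton.2 (by simp [h.u0])) h.ne (h.semi_perp H hH hZ ha h1)
  simp only [mem_perp_singleton] at hσ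
  intro k
  have b1 : ∀ x, a.1 (k • x) - σ k • a.1 x ∈ line F K u := fun x => h.perp_perp H fun y hy => by
    have e := hσ k _ (h1.inv.perp H hy)
    rw [OG.apply_inv_self] at e
    have e1 : polar Q (σ k • a.1 x) y = polar Q (a.1 x) (σ k • y) := by simp [H.pol]
    rw [polar_sub_left, e1, ← e, OG.map_polar, ← OG.polar_inv_right, sub_eq_zero]
    simp [H.pol]
  have b2 : ∀ x, a.1 (k • x) - σ k • a.1 x = polar P f (a.1 (k • x) - σ k • a.1 x) • u :=
    fun x => by
      obtain ⟨c, hc⟩ := Max2.mem_line.1 (b1 x)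
      rw [← hc]; simp [h.fu]
  let ζ : K →+ K :=
    { toFun := fun j => polar P f (a.1 (k • j • f) - σ k • a.1 (j • f))
      map_zero' := by simp
      map_add' := fun x y => by
        simp only [add_smul, smul_add, map_add, polar_sub_right, polar_add_right]; ring }
  have b3 := zeta_zero hr hr2 H.twoK σ ζ fun l hl j => by
    obtain ⟨t, ht, c1, c2, c3⟩ := h.torus' H hl
    obtain ⟨t', ht', d1, -, d3⟩ := h.torus' H (l := σ l) (by simpa using hl)
    have d4 : StabL K u (H.res t') := fun z hz => by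
      rw [H.res_apply, d1 z hz]; exact line_smul hz _
    obtain ⟨m, hm⟩ := h.eq_uk H hH hZ (g := a * H.res t * a⁻¹ * (H.res t')⁻¹)
      (mul_mem (mul_mem (mul_mem ha (hH t ht)) (inv_mem ha)) (inv_mem (hH t' ht')))
      (fun z hz => by
        have e1 := d4.inv z hz
        have e2 := h1.inv _ e1
        rw [OG.mul_apply, OG.mul_apply, OG.mul_apply, H.res_apply, c1 _ e2,
          hσ _ _ (by rw [polar_comm]; exact OTr.p_line (by simp [h.u0]) e2), OG.apply_inv_self,
          map_pow, ← d1 _ e1, ← H.res_apply, OG.apply_inv_self])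
      fun y hy => by
        have e1 := d4.inv.perp H hy
        have e2 := h1 _ (c3 _ (h1.inv.perp H e1))
        have e3 := d3 _ e1
        rw [← H.res_apply t', OG.apply_inv_self] at e3
        rw [map_sub, OG.apply_inv_self] at e2
        simpa using sub_mem e2 e3
    have e1 : ∀ x, a.1 (t.1 x) = (eich P u (m • w) * t').1 (a.1 x) := fun x => by
      have := congrArg (fun g : OG Q => g.1 (t'.1 (a.1 x))) hm
      simp only [OG.mul_apply] at this
      rwa [← H.res_apply t', OG.inv_apply_self, OG.inv_apply_self] at this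
    have e2 : t.1 ((l ^ 2 * j) • f) = j • f := by
      rw [map_smul, c2, smul_smul]; congr 1; field_simp
    have e3 : a.1 (k • j • f) - σ k • a.1 (j • f) = (σ l ^ 2 * ζ (l ^ 2 * j)) • u := by
      rw [← e2, ← map_smul, e1, e1, ← map_smul, ← map_sub, b2, map_smul, OG.mul_apply,
        d1 _ (self_mem_line u), map_smul (eich P u (m • w)).1,
        eich_apply_left h.u0 (by simp [h.uw]), smul_smul,
        mul_comm]
      rfl
    change polar P f (a.1 (k • j • f) - σ k • a.1 (j • f)) = _
    rw [e3]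
    simp [h.fu]
  refine ⟨σ k, fun v => ?_⟩
  obtain ⟨c, b, d, rfl⟩ := h.dec v
  have e1 := b2 (b • f)
  rw [show polar P f (a.1 (k • b • f) - σ k • a.1 (b • f)) = 0 from b3 b, zero_smul,
    sub_eq_zero] at e1
  simp only [smul_add, map_add, e1, hσ k (c • u) (by simp [h.u0]), hσ k (d • w) (by simp [h.uw])]

end Cfsg.Agent.Max3
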