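import Mathlib
import Cfsg.Agent.Max3.OX2

/-!
# `O₃(q^r)` inside `O_{3r}(q)`: elements fixing `u^⊥` pointwise
-/

set_option autoImplicit false
set_option linter.unusedSectionVars false

namespace Cfsg.Agent.Max3

open Module Cfsg.Agent.Max Cfsg.Agent.Max2 QuadraticMap Orth

variable {F K V : Type*} [Field F] [Field K] [Algebra F K] [AddCommGroup V] [Module F V]
  [Module K V] [IsScalarTower F K V] {Q : QuadraticForm F V} {P : QuadraticForm K V}
  {τ : Dual F K} {M : Subgroup (OG Q)}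

theorem pair_mul_left {N : Subgroup (V ≃ₗ[F] V)} {L : Submodule F V} {m t : V ≃ₗ[F] V}
    (h : Pair N L m) (ht : t ∈ N) (e : im L t = L) : Pair N L (t * m) := by
  have e2 : L ⊓ im L (t * m) = im (L ⊓ im L m) t := by rw [im_inf, e, im_mul]
  refine ⟨N.mul_mem ht h.mem, fun e' => h.ne (im_inj (g := t) (by rw [← im_mul, e', e])),
    fun e' => h.int (im_inj (g := t) (by rw [← e2, e']; simp)), fun g hg hne => ?_⟩
  rw [e2, finrank_im]
  exact h.max g hg hne

/-- The stabiliser of the line acts semilinearly on it. -/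
def SLn (M : Subgroup (OG Q)) (K : Type*) [Field K] [Algebra F K] [Module K V]
    [IsScalarTower F K V] (u : V) : Prop :=
  ∀ a ∈ M, StabL K u a → ∀ k : K, ∃ k' : K, ∀ l ∈ line F K u, a.1 (k • l) = k' • a.1 l

theorem SLn.triv {u : V} (hS : SLn M K u) (h2 : (2 : K) ≠ 0) {a : OG Q} (ha : a ∈ M)
    (h1 : StabL K u a) {s : V} (hs : s ∈ line F K u) (hs0 : s ≠ 0) (e : a.1 s = s)
    (hq : ∀ l ∈ line F K u, a.1 (a.1 l - l) = a.1 l - l) : ∀ l ∈ line F K u, a.1 l = l := by
  intro l hl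
  obtain ⟨k, rfl⟩ := exists_smul_of_line hs hs0 hl
  obtain ⟨c, hc⟩ := hS a ha h1 k
  obtain ⟨d, hd⟩ := hS a ha h1 (c - k)
  have inj := smul_left_injective K hs0
  have a1 := hc s hs
  rw [e] at a1
  have a2 := hq _ hl
  rw [a1, ← sub_smul, hd s hs, e] at a2
  obtain rfl : d = c - k := inj a2
  have a3 := hq _ (line_smul hl k)
  have a4 : c • c • s - k • k • s = (c - k) • (k • s + k • s + (c - k) • s) := by module
  rw [hc _ hl, a1, a4, hd _ (add_mem (add_mem hl hl) (line_smul hs _)), map_add, map_add, a1,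
    hd s hs, e] at a3
  have a5 : (2 * (c - k) ^ 2) • s = (0 : K) • s := by
    linear_combination (norm := module) a3
  have a6 : c = k := by simpa [h2, sub_eq_zero] using inj a5
  rw [a1, a6]

variable [FiniteDimensional F V] [FiniteDimensional K V] {u f w : V}

theorem SLn.trivX (hS : SLn M K u) (h2 : (2 : K) ≠ 0) {m : V ≃ₗ[F] V}
    (hp : Pair (gl M) (line F K u) m) {g : OG Q} (hg : g ∈ M) (h1 : ∀ l ∈ line F K u, g.1 l = l)
    {x : V} (hx : x ∈ im (line F K u) m) (hxL : x ∉ line F K u) (hgx : g.1 x ∈ im (line F K u) m)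
    (hq : ∀ z ∈ im (line F K u) m, g.1 (g.1 z - z) = g.1 z - z) :
    ∀ z ∈ im (line F K u) m, g.1 z = z := by
  have a1 := hp.stabX (mem_gl hg) (fun s hs hs' => by rwa [h1 s hs]) hx hxL hgx
  obtain ⟨s, hs0, hsL, hsX⟩ := hp.exists_S
  obtain ⟨m, hm, rfl⟩ : ∃ m' ∈ M, m'.1 = m := hp.mem
  have e : ∀ z, (m⁻¹ * g * m).1 z = m.1.symm (g.1 (m.1 z)) := fun z => rfl
  have := hS.triv h2 (a := m⁻¹ * g * m) (mul_mem (mul_mem (inv_mem hm) hg) hm)
    (fun l hl => mem_im.1 (a1 _ (apply_mem_im.2 hl))) (s := m.1.symm s) (mem_im.1 hsX)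
    (by simpa using hs0) (by rw [e, LinearEquiv.apply_symm_apply, h1 s hsL]) fun l hl => by
      rw [e, e, map_sub, LinearEquiv.apply_symm_apply, hq _ (apply_mem_im.2 hl), map_sub,
        LinearEquiv.symm_apply_apply]
  intro z hz
  have a2 := this _ (mem_im.1 hz)
  rw [e, LinearEquiv.apply_symm_apply] at a2
  exact m.1.symm.injective a2

theorem Fr.move (h : Fr P u f w) (H : OTr Q P τ) {v : V} (hv0 : v ≠ 0) (hv : P v = 0) :
    ∃ n ∈ commutator (OG P), ∃ c : K, c ≠ 0 ∧ n.1 v = c • u := by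
  by_cases h1 : polar P u v = 0
  · obtain ⟨a, c, rfl⟩ := h.dec' h1
    have : c = 0 := by simpa [q_add, q_smul, h.u0, h.uw, h.w0] using hv
    subst this
    exact ⟨1, one_mem _, a, by rintro rfl; simp at hv0, by simp⟩
  obtain ⟨w1, -, e1⟩ := eich_trans_opp h.u0 h.f0 hv (by simp [h.uf]) h1
  have a1 : polar P (u - P w • f + w) u = -P w := by simp [h.u0, h.fu, h.wu]
  have a2 : polar P (u - P w • f + w) f = 1 := by simp [h.f0, h.uf, h.wf]
  obtain ⟨w2, -, e2⟩ := eich_trans_opp (u := u - P w • f + w)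
    (by simp [q_add, q_sub, q_smul, h.u0, h.f0, h.uf, h.uw, h.fw]) h.u0 h.f0
    (by simp [a1, h.w0]) (by simp [a2])
  refine ⟨_ * _, mul_mem (H.ndK.eich_mem_commutator H.good (u - P w • f + w) w2)
    (H.ndK.eich_mem_commutator H.good u w1), polar P u v / -P w, by simp [h1, h.w0], ?_⟩
  rw [OG.mul_apply, e1, map_smul, e2, a1, a2, h.uf, smul_smul]
  congr 1
  ring

theorem Fr.not_perp (h : Fr P u f w) (H : OTr Q P τ) (hH : ∀ g ∈ commutator (OG P), H.res g ∈ M)
    (hS : SLn M K u) {m : V ≃ₗ[F] V} (hp : Pair (gl M) (line F K u) m) :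
    ∃ x ∈ im (line F K u) m, polar P u x ≠ 0 := by
  by_contra hc
  push Not at hc
  obtain ⟨x, hx, hxL⟩ := hp.exists_X
  obtain ⟨s, hs0, hsL, hsX⟩ := hp.exists_S
  obtain ⟨c, rfl⟩ := Max2.mem_line.1 hsL
  have a1 : polar P w x ≠ 0 := fun e => hxL (h.mem_line H.twoK (hc x hx) e)
  have a2 : (H.res (eich P u ((c / polar P w x) • w))).1 x = x + c • u := by
    rw [h.uk, hc x hx]; simp [a1]
  have := hS.trivX H.twoK hp (H.ke hH u ((c / polar P w x) • w))
    (fun l hl => H.ke_fix h.u0 (by simp [h.uw]) hl) hx hxL (a2 ▸ add_mem hx hsX)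
    (fun z hz => H.ke_fix h.u0 (by simp [h.uw]) (by
      rw [h.uk, hc z hz]; simp [smul_mem_line])) x hx
  rw [a2] at this
  exact hs0 (by simpa using this)

variable [Finite K] [FiniteDimensional F K]

theorem Fr.scale (h : Fr P u f w) (H : OTr Q P τ) (hq : Odd (Nat.card F))
    (hr : Odd (finrank F K)) (hH : ∀ g ∈ commutator (OG P), H.res g ∈ M) {μ : K} (hμ : μ ≠ 0) :
    ∃ t ∈ M, im (line F K u) t.1 = line F K u ∧ ∃ c : F, c ≠ 0 ∧
      ∀ y, polar P u (t.1 y) = c • (μ * polar P u y) := by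
  obtain ⟨c, l, hl, e⟩ := exists_sq hq hr (inv_ne_zero hμ)
  obtain ⟨t, ht, a1, -, -⟩ := h.torus' H hl
  refine ⟨H.res t, hH t ht, Submodule.eq_of_le_of_finrank_eq ?_ (finrank_im _ _), c, ?_,
    fun y => ?_⟩
  · rintro _ ⟨x, hx, rfl⟩
    change t.1 x ∈ _
    rw [a1 x hx]; exact line_smul hx _
  · rintro rfl; simp [hμ] at e
  · have := OG.map_polar t u y
    rw [a1 u (self_mem_line u), p_smul_left] at this
    rw [H.res_apply, ← this, ← mul_assoc, ← smul_mul_assoc, ← mul_smul_comm, ← e,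
      mul_inv_cancel₀ hμ, one_mul]

theorem Fr.z1 (h : Fr P u f w) (H : OTr Q P τ) (hq : Odd (Nat.card F)) (hr : (finrank F K).Prime)
    (hr2 : finrank F K ≠ 2) (hH : ∀ g ∈ commutator (OG P), H.res g ∈ M) (hS : SLn M K u) :
    Z1 M P u := by
  intro z hz h1
  by_contra hz1
  have ho := hr.odd_of_ne_two hr2
  have a0 : ∀ l ∈ line F K u, polar P u l = 0 := fun l hl => by
    rw [polar_comm]; exact OTr.p_line (by simp [h.u0]) hl
  have a1 : ∀ x, z.1 x - x ∈ line F K u := fun x => h.perp_perp H fun y hy => by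
    rw [polar_sub_left, ← h1 y hy, OG.map_polar, h1 y hy, sub_self]
  let R : Submodule F K :=
    { carrier := {j | z.1 (j • f) = j • f}
      zero_mem' := by simp
      add_mem' := fun {a b} (ha : _ = _) (hb : _ = _) => by
        change _ = _; rw [add_smul, map_add, ha, hb]
      smul_mem' := fun c a (ha : _ = _) => by change _ = _; rw [smul_assoc, map_smul, ha] }
  have a2 : ∀ x, z.1 x = x ↔ polar P u x ∈ R := fun x => by
    have e := h1 (x - polar P u x • f) (by simp [h.uf])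
    rw [map_sub] at e
    change _ ↔ _ = _
    exact ⟨fun e' => by rw [e'] at e; exact sub_right_injective e,
      fun e' => by rw [e'] at e; exact sub_left_injective e⟩
  obtain ⟨j0, hj0⟩ : ∃ j, j ∉ R := by
    by_contra hc
    push Not at hc
    exact hz1 (OG.ext fun x => (a2 x).2 (hc _))
  have a3 : ∀ x y, polar Q (z.1 x - x) y = -polar Q (z.1 y - y) x := fun x y => by
    have e := (H.sing h.u0).polar (a1 x) (a1 y)
    simp only [polar_sub_left, polar_sub_right, OG.map_polar, polar_comm Q y,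
      polar_comm Q (z.1 y)] at e ⊢
    linear_combination -e
  obtain ⟨j1, hj1, hj1'⟩ : ∃ j, j ≠ 0 ∧ j ∈ R := by
    let φ : K →ₗ[F] V := (LinearMap.toSpanSingleton K V f).restrictScalars F
    obtain ⟨j, h0, hj⟩ := skew_ker H.two ho
      (Q.polarBilin.compl₁₂ (((z.1 : V →ₗ[F] V) - LinearMap.id) ∘ₗ φ) φ) fun x y => by
        simpa [φ] using a3 (x • f) (y • f)
    refine ⟨j, h0, sub_eq_zero.1 ?_⟩
    obtain ⟨c, hc⟩ := Max2.mem_line.1 (a1 (j • f))
    have : c = 0 := eq_zero_of_tr H.ne fun k => by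
      have e : polar Q (z.1 (j • f) - j • f) (k • f) = 0 := by simpa [φ] using hj k
      simpa [← hc, H.pol, h.uf, mul_comm] using e
    rw [← hc, this, zero_smul]
  have P1 : ∀ m, Pair (gl M) (line F K u) m → ∀ x ∈ im (line F K u) m, x ∉ line F K u →
      z.1 x ∈ im (line F K u) m → ∀ y ∈ im (line F K u) m, polar P u y ∈ R :=
    fun m hp x hx hxL hzx y hy => (a2 y).1 (hS.trivX H.twoK hp hz (fun l hl => h1 l (a0 l hl)) hx
      hxL hzx (fun y _ => h1 _ (a0 _ (a1 y))) y hy)
  have P2 : ∀ m, Pair (gl M) (line F K u) m → ∀ μ : K, μ ≠ 0 → ∀ x ∈ im (line F K u) m,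
      x ∉ line F K u → μ * polar P u x ∈ R → ∀ y ∈ im (line F K u) m, μ * polar P u y ∈ R := by
    intro m hp μ hμ x hx hxL e y hy
    obtain ⟨t, ht, b1, c, hc, b2⟩ := h.scale H hq ho hH hμ
    have b3 : ∀ y ∈ im (line F K u) m, t.1 y ∈ im (line F K u) (t.1 * m) := fun y hy => by
      rw [im_mul]; exact apply_mem_im.2 hy
    have := P1 _ (pair_mul_left hp (mem_gl ht) b1) _ (b3 x hx)
      (fun e' => hxL (by rwa [← b1, apply_mem_im] at e'))
      (by rw [(a2 _).2 (b2 x ▸ R.smul_mem c e)]; exact b3 x hx) _ (b3 y hy)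
    rwa [b2, R.smul_mem_iff hc] at this
  have P3 : ∀ m, Pair (gl M) (line F K u) m → ∀ y ∈ im (line F K u) m, polar P u y ∈ R := by
    intro m hp
    obtain ⟨x, hx, hx0⟩ := h.not_perp H hH hS hp
    have hxL : x ∉ line F K u := fun e => hx0 (a0 x e)
    refine P1 m hp x hx hxL ?_
    by_contra hn
    have hn' : z.1 x - x ∉ line F K u ⊓ im (line F K u) m := fun e =>
      hn (by simpa using add_mem e.2 hx)
    have b1 : im (line F K u) m ≤ (line F K u ⊓ im (line F K u) m) ⊔ F ∙ x := fun y hy => by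
      obtain ⟨c, hc⟩ := mem_range_of_stab' hr hj1' hj1 hj0 (k := polar P u y / polar P u x)
        fun s hs => by
          by_cases h0 : s = 0
          · simp [h0]
          have := P2 m hp (s / polar P u x) (div_ne_zero h0 hx0) x hx hxL
            (by rwa [div_mul_cancel₀ _ hx0]) y hy
          convert this using 1
          ring
      have b2 : y - c • x ∈ im (line F K u) m := sub_mem hy (Submodule.smul_mem _ c hx)
      have b3 : y - c • x ∈ line F K u := by
        by_contra hl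
        have j00 : j0 ≠ 0 := fun e => hj0 (e ▸ R.zero_mem)
        have := P2 m hp (j0 / polar P u x) (div_ne_zero j00 hx0) _ b2 hl (by
          rw [polar_sub_right, ← algebraMap_smul K c, p_smul_right, hc, div_mul_cancel₀ _ hx0]
          simp) x hx
        rw [div_mul_cancel₀ _ hx0] at this
        exact hj0 this
      simpa using Submodule.add_mem_sup (S := line F K u ⊓ im (line F K u) m) ⟨b3, b2⟩
        (Submodule.smul_mem _ c (Submodule.mem_span_singleton_self x))
    have b2 := Submodule.finrank_mono b1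
    rw [Submodule.finrank_sup_span_singleton fun e => hxL (Submodule.mem_inf.1 e).1, finrank_im,
      ← Submodule.finrank_sup_span_singleton hn'] at b2
    have b3 := Submodule.eq_of_le_of_finrank_le (sup_le inf_le_left
      ((Submodule.span_singleton_le_iff_mem _ _).2 (a1 x))) b2
    obtain ⟨m', -, rfl⟩ : ∃ m' ∈ M, m'.1 = m := hp.mem
    refine hx0 (H.zero_of' fun l hl => ?_)
    rw [← b3] at hl
    obtain ⟨s, hs, y, hy, rfl⟩ := Submodule.mem_sup.1 hl
    obtain ⟨c, rfl⟩ := Submodule.mem_span_singleton.1 hy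
    have b4 : polar Q s x = 0 := by
      rw [← OG.map_polar m'⁻¹]
      exact (H.sing h.u0).polar (mem_im.1 hs.2) (mem_im.1 hx)
    have b5 : polar Q (z.1 x - x) x = 0 :=
      (mul_eq_zero.1 (by linear_combination a3 x x)).resolve_left H.two
    rw [polar_add_left, p_smul_left, b4, b5, mul_zero, add_zero]
  obtain ⟨n, hn, c, hc, e⟩ := h.move H h.symm.ne h.f0
  have b1 : ∀ j : K, (H.res n * z * (H.res n)⁻¹).1 ((j * c) • u) = n.1 (z.1 (j • f)) := fun j => by
    rw [mul_smul, ← e, ← map_smul, ← H.res_apply, OG.mul_apply, OG.mul_apply, OG.inv_apply_self,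
      H.res_apply]
  obtain ⟨m, hp⟩ := Max2.exists_pair (L := line F K u)
    (mem_gl (mul_mem (mul_mem (hH n hn) hz) (inv_mem (hH n hn))))
    (fun e' => hj0 (by
      have b2 : n.1 (z.1 (j0 • f)) ∈ line F K u := by
        rw [← b1, ← e']; exact apply_mem_im.2 (smul_mem_line _ u)
      obtain ⟨k, hk⟩ := Max2.mem_line.1 b2
      have b3 : z.1 (j0 • f) = (k / c) • f := n.1.injective (by
        rw [← hk, map_smul, e, smul_smul, div_mul_cancel₀ _ hc])
      have b4 := a0 _ (a1 (j0 • f))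
      rw [b3, polar_sub_right, p_smul_right, p_smul_right, h.uf, mul_one, mul_one,
        sub_eq_zero] at b4
      change _ = _
      rw [b3, b4]))
    fun e' => by
      have b2 : (j1 * c) • u ∈ im (line F K u) (H.res n * z * (H.res n)⁻¹).1 := by
        have := apply_mem_im (g := (H.res n * z * (H.res n)⁻¹).1).2 (smul_mem_line (j1 * c) u)
        rwa [b1, hj1', map_smul, e, smul_smul] at this
      have b3 : (j1 * c) • u ∈ (⊥ : Submodule F V) := e' ▸ ⟨smul_mem_line _ u, b2⟩
      simp [hj1, hc, h.ne] at b3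
  obtain ⟨x, hx, hx0⟩ := h.not_perp H hH hS hp
  have j00 : j0 ≠ 0 := fun e => hj0 (e ▸ R.zero_mem)
  obtain ⟨t, ht, c1, d, hd, c2⟩ := h.scale H hq ho hH (div_ne_zero j00 hx0)
  have := P3 _ (pair_mul_left hp (mem_gl ht) c1) (t.1 x) (by rw [im_mul]; exact apply_mem_im.2 hx)
  rw [c2, R.smul_mem_iff hd, div_mul_cancel₀ _ hx0] at this
  exact hj0 this

end Cfsg.Agent.Max3
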