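import Mathlib
import Cfsg.Agent.Max3.OX3

/-!
# `O₃(q^r)` inside `O_{3r}(q)`: a non-semilinear stabiliser of a singular line
-/

set_option autoImplicit false
set_option linter.unusedSectionVars false

namespace Cfsg.Agent.Max3

open Module Cfsg.Agent.Max Cfsg.Agent.Max2 QuadraticMap Orth

variable {F K V : Type*} [Field F] [Field K] [Algebra F K] [AddCommGroup V] [Module F V]
  [Module K V] [IsScalarTower F K V] {Q : QuadraticForm F V} {P : QuadraticForm K V}
  {τ : Dual F K} {M : Subgroup (OG Q)}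

/-- The maps `u^⊥ / Ku → Ku` induced by the unipotent radical. -/
def RS (M : Subgroup (OG Q)) (u w : V) (θ : End F K) : Prop :=
  ∃ g ∈ M, (∀ l ∈ line F K u, g.1 l = l) ∧ ∀ j : K, g.1 (j • w) = j • w + θ j • u

theorem RS.zero (u w : V) : RS M u w (0 : End F K) := ⟨1, one_mem M, fun _ _ => rfl, by simp⟩

theorem RS.add {u w : V} {θ θ' : End F K} (h : RS M u w θ) (h' : RS M u w θ') :
    RS M u w (θ + θ') := by
  obtain ⟨g, hg, a1, a2⟩ := h
  obtain ⟨g', hg', b1, b2⟩ := h'
  refine ⟨g * g', mul_mem hg hg', fun l hl => by rw [OG.mul_apply, b1 l hl, a1 l hl], fun j => ?_⟩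
  rw [OG.mul_apply, b2, map_add, a2, a1 _ (smul_mem_line _ u), LinearMap.add_apply, add_smul,
    add_assoc]

theorem RS.neg {u w : V} {θ : End F K} (h : RS M u w θ) : RS M u w (-θ) := by
  obtain ⟨g, hg, a1, a2⟩ := h
  refine ⟨g⁻¹, inv_mem hg, fun l hl => by rw [← a1 l hl, OG.inv_apply_self, a1 l hl], fun j => ?_⟩
  have : j • w = g.1 (j • w + (-θ) j • u) := by
    rw [map_add, a2, a1 _ (smul_mem_line _ u)]; simp
  conv_lhs => rw [this, OG.inv_apply_self]

/-- The action on the line through `u`. -/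
def psi (P : QuadraticForm K V) (u f : V) (b : OG Q) : End F K :=
  (P.polarBilin f).restrictScalars F ∘ₗ (b.1 : V →ₗ[F] V) ∘ₗ
    (LinearMap.toSpanSingleton K V u).restrictScalars F

variable [FiniteDimensional F V] [FiniteDimensional K V] {u f w : V}

theorem Fr.psi_apply (h : Fr P u f w) {b : OG Q} (hb : StabL K u b) (c : K) :
    b.1 (c • u) = psi P u f b c • u := by
  obtain ⟨d, hd⟩ := Max2.mem_line.1 (hb _ (smul_mem_line c u))
  have : psi P u f b c = polar P f (b.1 (c • u)) := rfl
  rw [this, ← hd]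
  simp [h.fu]

theorem Fr.rs_conj (h : Fr P u f w) {b : OG Q} (hb : b ∈ M) (h1 : StabL K u b)
    (h2 : ∀ j : K, b.1 (j • w) - j • w ∈ line F K u) {θ : End F K} (hθ : RS M u w θ) :
    RS M u w (psi P u f b * θ) := by
  obtain ⟨g, hg, a1, a2⟩ := hθ
  refine ⟨b * g * b⁻¹, mul_mem (mul_mem hb hg) (inv_mem hb), fun l hl => by
    rw [OG.mul_apply, OG.mul_apply, a1 _ (h1.inv l hl), OG.apply_inv_self], fun j => ?_⟩
  have e := a1 _ (h1.inv _ (h2 j))
  rw [map_sub, OG.inv_apply_self, map_sub, a2] at e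
  have e2 : g.1 ((b⁻¹).1 (j • w)) = (b⁻¹).1 (j • w) + θ j • u := by
    linear_combination (norm := module) -e
  rw [OG.mul_apply, OG.mul_apply, e2, map_add, OG.apply_inv_self, h.psi_apply h1]
  rfl

variable [FiniteDimensional F K]

theorem Fr.rs_all (h : Fr P u f w) (H : OTr Q P τ) (hr : (finrank F K).Prime)
    (hH : ∀ g ∈ commutator (OG P), H.res g ∈ M) (hS : ¬ SLn M K u) (θ : End F K) :
    RS M u w θ := by
  have h2 := H.twoK
  have sq : ∀ {p : K → Prop}, (∀ l, p (l ^ 2)) → (∀ a b, p a → p b → p (a - b)) → ∀ k, p k :=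
    fun {p} a b k => by
      have := b _ _ (a ((k + 1) / 2)) (a ((k - 1) / 2))
      convert this using 1
      field_simp
      ring
  have a1 : ∀ k : K, ∀ θ, RS M u w θ → RS M u w (LinearMap.mulLeft F k * θ) :=
    sq (fun l θ hθ => by
      by_cases hl : l = 0
      · simpa [hl] using RS.zero u w
      obtain ⟨t, ht, c1, -, c3⟩ := h.torus' H hl
      have c4 : StabL K u (H.res t) := fun z hz => by
        rw [H.res_apply, c1 z hz]; exact line_smul hz _
      have := h.rs_conj (hH t ht) c4 (fun j => c3 _ (by simp [h.uw])) hθ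
      convert this using 2
      ext1 c
      refine smul_left_injective K h.ne ?_
      simp only [← h.psi_apply c4, H.res_apply, c1 _ (smul_mem_line c u), LinearMap.mulLeft_apply,
        mul_smul])
      fun a b ha hb θ hθ => by
        have := (ha θ hθ).add (hb θ hθ).neg
        convert this using 1
        ext1 c
        simp [add_mul, sub_eq_add_neg]
  let A : Subalgebra F (End F K) :=
    { carrier := {ψ | ∀ θ, RS M u w θ → RS M u w (ψ * θ)}
      mul_mem' := fun {a b} ha hb θ hθ => by rw [mul_assoc]; exact ha _ (hb θ hθ)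
      add_mem' := fun {a b} ha hb θ hθ => by rw [add_mul]; exact (ha θ hθ).add (hb θ hθ)
      algebraMap_mem' := fun c θ hθ => by
        convert a1 (algebraMap F K c) θ hθ using 2
        ext1 x
        simp [Algebra.smul_def] }
  have a2 : θ ∈ A := subalg_top hr A a1 (by
    by_contra hc
    push Not at hc
    refine hS fun a ha h1 => sq (fun l => ?_) fun x y ⟨x', hx⟩ ⟨y', hy⟩ => ⟨x' - y', fun l hl => by
      rw [sub_smul, map_sub, hx l hl, hy l hl, sub_smul]⟩
    by_cases hl : l = 0
    · exact ⟨0, by simp [hl]⟩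
    obtain ⟨t, ht, c1, -, c3⟩ := h.torus' H hl
    have c4 : StabL K u (H.res t) := fun z hz => by
      rw [H.res_apply, c1 z hz]; exact line_smul hz _
    have c5 := (h1.mul c4).mul h1.inv
    have c6 := hc (psi P u f (a * H.res t * a⁻¹)) fun θ hθ =>
      h.rs_conj (mul_mem (mul_mem ha (hH t ht)) (inv_mem ha)) c5 (fun j => by
        have := h1 _ (c3 _ (h1.inv.perp H (y := j • w) (by simp [h.uw])))
        rwa [map_sub, OG.apply_inv_self] at this) hθ
    refine ⟨psi P u f (a * H.res t * a⁻¹) 1, fun z hz => ?_⟩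
    obtain ⟨c, hc⟩ := Max2.mem_line.1 (h1 z hz)
    have := h.psi_apply c5 c
    rw [hc, OG.mul_apply, OG.mul_apply, OG.inv_apply_self, H.res_apply, c1 z hz] at this
    rw [this, ← hc, smul_smul, ← mul_one c, c6, mul_one, mul_comm]) θ
  have a3 : RS M u w (1 : End F K) := by
    refine ⟨_, H.ke hH u ((2 * P w)⁻¹ • w), fun l hl => H.ke_fix h.u0 (by simp [h.uw]) hl,
      fun j => ?_⟩
    have := h.w0
    rw [h.uk]
    simp only [p_smul_right, h.uw, p_self, End.one_apply]
    match_scalars <;> field_simp <;> ring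
  simpa using a2 1 a3

theorem Fr.root (h : Fr P u f w) (H : OTr Q P τ) (hr : (finrank F K).Prime)
    (hH : ∀ g ∈ commutator (OG P), H.res g ∈ M) (hS : ¬ SLn M K u) {s s' : V}
    (hs : s ∈ line F K u) (hs' : s' ∈ line F K u) : eich Q s s' ∈ M := by
  have key : ∀ s ∈ line F K u, ∀ e : K, ∃ g ∈ M, (∀ v ∈ perp Q (line F K u), g.1 v - v ∈ line F K u)
      ∧ ∀ v, g.1 v - v + polar Q s v • e • w ∈ line F K u := fun s hs e => by
    obtain ⟨c, rfl⟩ := Max2.mem_line.1 hs
    obtain ⟨g, hg, a1, a2⟩ := h.rs_all H hr hH hS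
      ((Q.polarBilin (e • w) ∘ₗ (LinearMap.toSpanSingleton K V w).restrictScalars F).smulRight c)
    have a3 : ∀ z, polar P u z = 0 → g.1 z = z + polar Q (e • w) z • c • u := fun z hz => by
      obtain ⟨a, d, rfl⟩ := h.dec' hz
      rw [map_add, a1 _ (smul_mem_line a u), a2, polar_add_right, polar_comm Q (e • w) (a • u),
        H.q_line (by simp [h.uw]) (smul_mem_line a u), zero_add, add_assoc, ← smul_assoc]
      rfl
    refine ⟨g, hg, fun v hv => ?_, fun v => h.perp_perp H fun z hz => ?_⟩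
    · rw [a3 v (H.mem_perp_line.1 hv), add_sub_cancel_left]
      exact Submodule.smul_mem _ _ hs
    · have b1 := OG.map_polar g v z
      have b2 := OG.map_polar g v (c • u)
      rw [a1 _ hs] at b2
      rw [a3 z hz, polar_add_right, p_smul_right, b2] at b1
      rw [polar_add_left, polar_sub_left, p_smul_left, polar_comm Q (c • u)]
      linear_combination b1
  obtain ⟨k, hk⟩ := exists_apply_one H.ne
  obtain ⟨g, hg, a1, a2⟩ := key s hs 1
  obtain ⟨g', hg', b1, b2⟩ := key s' hs' (-k / (2 * P w))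
  have c1 : ∀ {x : V} {c : F} {e : K}, x + c • e • w ∈ line F K u → polar P u x = 0 :=
    fun {x c e} hx => by
      have := OTr.p_line (P := P) (w := u) (by simp [h.u0]) hx
      rw [polar_comm, ← algebraMap_smul K c] at this
      simpa [h.uw] using this
  have c2 : ∀ {x x' : V} {c c' : F} {e e' : K}, x + c • e • w ∈ line F K u →
      x' + c' • e' • w ∈ line F K u → polar Q x x' = c * c' * τ (e * e' * (2 * P w)) :=
    fun {x x' c c' e e'} hx hx' => by
      have d1 := H.q_line (c1 hx') hx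
      have d2 := H.q_line (w := e • w) (by simp [h.uw]) hx'
      rw [polar_add_left, p_smul_left] at d1 d2
      rw [H.pol (e' • w), p_smul_left, p_smul_right, p_self, polar_comm] at d2
      rw [mul_comm e e', mul_assoc e']
      linear_combination d1 - c * d2
  have := heis_om H.nd (H.sing h.u0) (fun v => H.mem_perp_line.2 (c1 (a2 v))) a1
    (fun v => H.mem_perp_line.2 (c1 (b2 v))) b1 hs hs' fun v v' => by
      rw [c2 (a2 v) (b2 v'), c2 (b2 v) (a2 v'), one_mul, mul_one,
        div_mul_cancel₀ _ (mul_ne_zero H.twoK h.w0), map_neg, hk]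
      ring
  exact (mul_mem_cancel_right (mul_mem hg' hg)).1 (this ▸ mul_mem hg hg')

theorem Fr.om_of_not [Finite F] (h : Fr P u f w) (H : OTr Q P τ) (hn : finrank K V = 3)
    (hr : (finrank F K).Prime) (hr2 : finrank F K ≠ 2)
    (hH : ∀ g ∈ commutator (OG P), H.res g ∈ M) (hS : ¬ SLn M K u) : commutator (OG Q) ≤ M := by
  have sq : ∀ v, P v = 0 → Q v = 0 := fun v hv => by rw [H.eq, hv, map_zero]
  have k1 : ∀ v, P v = 0 → ∀ k : K, k • v ∈ OE M v := fun v hv k => ⟨by simp [H.pol, hv], fun c => by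
    by_cases h0 : v = 0
    · simp [h0]
    obtain ⟨n, hn, d, -, e⟩ := h.move H h0 hv
    have := h.root H hr hH hS (s := (H.res n).1 v) (s' := (H.res n).1 (c • k • v))
      (by rw [H.res_apply, e]; exact smul_mem_line _ u)
      (by rw [map_smul, H.res_apply, map_smul, e]
          exact Submodule.smul_mem _ _ (line_smul (smul_mem_line _ u) _))
    rw [← eich_conj] at this
    exact (mul_mem_cancel_left (hH n hn)).1 ((mul_mem_cancel_right (inv_mem (hH n hn))).1 this)⟩
  have h3 := hr.two_le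
  have d1 : 2 ≤ finrank F (LinearMap.ker τ) := by
    have := LinearMap.finrank_range_add_finrank_ker τ
    have h2 := Submodule.finrank_le (LinearMap.range τ)
    rw [Module.finrank_self] at h2
    omega
  have k2 : ∀ z f, P z = 0 → P f = 0 → polar P z f = 1 → ∀ b, τ b = 0 → b • f ∈ OE M z := by
    intro z f hz hf hzf b hb
    by_cases h0 : b = 0
    · simp [h0]
    obtain ⟨b', hb', hb2⟩ := exists_not_mem_of_finrank_lt (W := F ∙ b) (U := LinearMap.ker τ)
      (lt_of_le_of_lt (finrank_span_one_le _) (by omega))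
    obtain ⟨φ, φ1, φ2⟩ := exists_dual_two hb2
    obtain ⟨ψ, hψ⟩ := exists_dual_comp (V := K) H.ne φ
    have e : ∀ x, τ (x * ψ 1) = φ x := fun x => by rw [hψ, ← smul_eq_mul, ← map_smul]; simp
    have a1 : P (b • f) = 0 := by simp [q_smul, hf]
    have a2 := k1 _ a1 (b' / b)
    rw [smul_smul, div_mul_cancel₀ _ h0] at a2
    have := OE.grow (k1 z hz (ψ 1)) (sq _ a1) a2 (by simp [H.pol, polar_comm P f, hzf, hb])
      (by simpa [H.pol, polar_comm P f, hzf] using hb')
    simp only [H.pol, polar_comm P f, hzf, p_smul_left, p_smul_right, mul_one, mul_comm (ψ 1), e, φ1,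
      φ2] at this
    simpa using this
  obtain ⟨b, hb, hb0⟩ := Submodule.exists_mem_ne_zero_of_ne_bot (p := LinearMap.ker τ)
    fun e => by rw [e, finrank_bot] at d1; omega
  have k4 : ∀ z, z ≠ 0 → P z = 0 → OP M z := fun z hz0 hz => ⟨sq z hz, fun x hx => by
    obtain ⟨f, hzf, hf⟩ := H.ndK.exists_hyp hz0 hz
    obtain ⟨w, h⟩ := exists_fr H.ndK hn hz hf hzf
    obtain ⟨a, c, d, rfl⟩ := h.dec x
    refine add_mem (add_mem (k1 z hz a) (k2 z f hz hf hzf c ?_)) ?_
    · simpa [H.pol, hz, hzf, h.uw] using hx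
    have := sub_mem (sub_mem (k2 z f hz hf hzf b hb) (k1 z hz (b * ((d / b) ^ 2 * P w))))
      (k2 z (f - ((d / b) ^ 2 * P w) • z - (d / b) • w) hz
        (by simp [q_sub, q_smul, hz, hf, h.fu, h.fw, h.uw]) (by simp [hz, hzf, h.uw]) b hb)
    convert this using 1
    match_scalars <;> field_simp <;> ring⟩
  obtain ⟨k, hk⟩ := exists_apply_one H.ne
  have e := Module.finrank_mul_finrank F K V
  refine om_le_of_pair H.nd (by rw [← e, hn]; omega) (k4 _ h.ne h.u0)
    (k4 (k • f) (fun e => ?_) (by simp [q_smul, h.f0])) (by simp [H.pol, h.uf, hk])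
  have := congrArg (fun x => τ (polar P u x)) e
  simp [h.uf, hk] at this

end Cfsg.Agent.Max3
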