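import Mathlib
import Cfsg.Agent.Max3.OX4

/-!
# `O₃(q^r)` inside `O_{3r}(q)`: the averaging argument and maximality
-/

set_option autoImplicit false
set_option linter.unusedSectionVars false

namespace Cfsg.Agent.Max3

open Module Cfsg.Agent.Max Cfsg.Agent.Max2 QuadraticMap Orth

variable {F K V : Type*} [Field F] [Field K] [Algebra F K] [AddCommGroup V] [Module F V]
  [Module K V] [IsScalarTower F K V] {Q : QuadraticForm F V} {P : QuadraticForm K V}
  {τ : Dual F K} {M : Subgroup (OG Q)}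

/-- The transform of the `K`-valued form under `g`. -/
def bg (P : QuadraticForm K V) (g : OG Q) : V →ₗ[F] V →ₗ[F] K :=
  (P.polarBilin.restrictScalars₁₂ F F).compl₁₂ g.1 g.1

theorem bg_apply (g : OG Q) (x y : V) : bg P g x y = polar P (g.1 x) (g.1 y) := rfl

/-- Semilinearity of a `K`-valued form. -/
def SB (b : V →ₗ[F] V →ₗ[F] K) : Prop := ∀ k : K, ∃ k' : K, ∀ x y, b (k • x) y = k' * b x y

theorem sb_iff (hP : ND P) (g : OG Q) : SB (bg P g) ↔ Semi K g.1 := by
  refine forall_congr' fun k => exists_congr fun k' => ⟨fun h v => ?_, fun h x y => ?_⟩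
  · refine sub_eq_zero.1 (hP _ fun y => ?_)
    have := h v ((g⁻¹).1 y)
    rw [bg_apply, bg_apply, OG.apply_inv_self] at this
    rw [polar_sub_left, this, p_smul_left, sub_self]
  · rw [bg_apply, bg_apply, h, p_smul_left]

variable [FiniteDimensional F V] [FiniteDimensional K V] [FiniteDimensional F K] {u f w : V}

theorem Fr.ti (h : Fr P u f w) (H : OTr Q P τ) (hH : ∀ g ∈ commutator (OG P), H.res g ∈ M)
    (hS : ∀ a ∈ M, StabL K u a → Semi K a.1) {g : OG Q} (hg : g ∈ M) {k : K} (hk : k ≠ 0)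
    (e : bg P (g * H.res (eich P u (k • w))) = bg P g) : Semi K g.1 := by
  set t := H.res (eich P u (k • w)) with ht
  have a1 : ∀ x y, polar P (g.1 (t.1 x)) (g.1 (t.1 y)) = polar P (g.1 x) (g.1 y) := fun x y =>
    LinearMap.congr_fun₂ e x y
  have a2 : t.1 u = u := H.ke_fix h.u0 (by simp [h.uw]) (self_mem_line u)
  have a3 : ∀ j : K, (g⁻¹).1 (j • g.1 u) ∈ line F K u := fun j => by
    have b1 : g.1 (t.1 ((g⁻¹).1 (j • g.1 u))) = j • g.1 u := by
      refine sub_eq_zero.1 (H.ndK _ fun y => ?_)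
      have c1 := a1 ((g⁻¹).1 (j • g.1 u)) (((g * t)⁻¹).1 y)
      have c2 := a1 u (((g * t)⁻¹).1 y)
      rw [← OG.mul_apply g t (((g * t)⁻¹).1 y), OG.apply_inv_self] at c1 c2
      rw [a2] at c2
      rw [polar_sub_left, c1, OG.apply_inv_self, p_smul_left, p_smul_left, c2, sub_self]
    have b2 : t.1 ((g⁻¹).1 (j • g.1 u)) = (g⁻¹).1 (j • g.1 u) := by
      conv_rhs => rw [← b1, OG.inv_apply_self]
    generalize (g⁻¹).1 (j • g.1 u) = x at b2
    rw [ht, h.uk] at b2
    have b3 : polar P u x = 0 := by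
      simpa [h.wu, hk, H.twoK, h.w0] using congrArg (polar P w) b2
    refine h.mem_line H.twoK b3 ?_
    simpa [b3, hk, h.ne] using b2
  have a4 : P (g.1 u) = 0 := by
    have := H.zero_of (x := g.1 u) (y := g.1 u) fun j => by
      rw [← OG.polar_inv_left]; exact H.q_line (by simp [h.u0]) (a3 j)
    simpa [H.twoK] using this
  obtain ⟨n, hn, c, hc, e⟩ := h.move H (by rw [Ne, OG.apply_eq_zero]; exact h.ne) a4
  have a5 : StabL K u (H.res n * g)⁻¹ := fun l hl => by
    obtain ⟨j, rfl⟩ := Max2.mem_line.1 hl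
    have : j • u = (H.res n).1 ((j / c) • g.1 u) := by
      rw [H.res_apply, map_smul, e, smul_smul, div_mul_cancel₀ _ hc]
    rw [mul_inv_rev, OG.mul_apply, this, OG.inv_apply_self]
    exact a3 _
  intro j
  obtain ⟨j', hj⟩ := hS _ (mul_mem (hH n hn) hg) (inv_inv (H.res n * g) ▸ a5.inv) j
  refine ⟨j', fun v => n.1.injective ?_⟩
  rw [map_smul n.1]
  exact hj v

theorem Fr.pd2 (h : Fr P u f w) (H : OTr Q P τ) (x : V) :
    PD F 2 fun k : K => (H.res (eich P u (k • w))).1 x := by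
  have a1 := PD.lin (F := F) (LinearMap.id : K →ₗ[F] K)
  have a2 := PD.bil (LinearMap.mul F K) a1 a1
  let l : V → K →ₗ[F] V := fun v => (LinearMap.toSpanSingleton K V v).restrictScalars F
  refine ((((PD.const 2 x).add ((a1.map (l (polar P w x • u))).mono (by omega))).sub
    (a2.map (l ((P w * polar P u x) • u)))).sub
    ((a1.map (l (polar P u x • w))).mono (by omega))).congr fun k => ?_
  rw [h.uk]
  simp only [l, LinearMap.restrictScalars_apply, LinearMap.toSpanSingleton_apply,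
    LinearMap.id_apply, LinearMap.mul_apply']
  module

theorem Fr.pd1 (h : Fr P u f w) (H : OTr Q P τ) {x : V} (hx : polar P u x = 0) :
    PD F 1 fun k : K => (H.res (eich P u (k • w))).1 x := by
  refine ((PD.const 1 x).add (PD.lin ((LinearMap.toSpanSingleton K V
    (polar P w x • u)).restrictScalars F))).congr fun k => ?_
  rw [h.uk, hx]
  simp only [LinearMap.restrictScalars_apply, LinearMap.toSpanSingleton_apply]
  module

theorem Fr.pd0 (h : Fr P u f w) (H : OTr Q P τ) (c : K) :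
    PD F 0 fun k : K => (H.res (eich P u (k • w))).1 (c • u) :=
  (PD.const 0 (c • u)).congr fun k => H.ke_fix h.u0 (by simp [h.uw]) (smul_mem_line c u)

theorem Fr.vanish [Fintype F] [Fintype K] (h : Fr P u f w) (H : OTr Q P τ)
    (hq : 5 < (Fintype.card F - 1) * finrank F K) (hH : ∀ g ∈ commutator (OG P), H.res g ∈ M)
    (hS : ∀ a ∈ M, StabL K u a → Semi K a.1) (S : Finset (V →ₗ[F] V →ₗ[F] K))
    (hs : ∀ b, b ∈ S ↔ (∃ g ∈ M, b = bg P g) ∧ ¬ SB b) {x y z t : V} {a b c d : ℕ}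
    (hx : PD F a fun k : K => (H.res (eich P u (k • w))).1 x)
    (hy : PD F b fun k : K => (H.res (eich P u (k • w))).1 y)
    (hz : PD F c fun k : K => (H.res (eich P u (k • w))).1 z)
    (ht : PD F d fun k : K => (H.res (eich P u (k • w))).1 t) (hd : a + b + (c + d) ≤ 5) :
    ∑ b ∈ S, b x y * b z t = 0 := by
  refine sum_free (fun (k : K) (b : V →ₗ[F] V →ₗ[F] K) => b.compl₁₂
    (H.res (eich P u (k • w))).1 (H.res (eich P u (k • w))).1) (fun b => ?_) (fun k l b => ?_) _ S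
    (fun b hb k => ?_) (fun b hb k e => ?_) fun b _ => ?_
  · ext x y; simp
  · ext x y
    rw [add_comm, h.uk_add]
    rfl
  · obtain ⟨⟨g, hg, rfl⟩, h2⟩ := (hs b).1 hb
    refine (hs _).2 ⟨⟨g * H.res (eich P u (k • w)), mul_mem hg (H.ke hH _ _), rfl⟩,
      fun e => h2 fun j => ?_⟩
    obtain ⟨j', hj⟩ := e j
    refine ⟨j', fun x y => ?_⟩
    have := hj ((eich P u (k • w))⁻¹.1 x) ((eich P u (k • w))⁻¹.1 y)
    simpa only [LinearMap.compl₁₂_apply, LinearEquiv.coe_coe, H.res_apply, map_smul,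
      OG.apply_inv_self] using this
  · obtain ⟨⟨g, hg, rfl⟩, h2⟩ := (hs b).1 hb
    by_contra hk
    exact h2 ((sb_iff H.ndK g).2 (h.ti H hH hS hg hk e))
  · exact (PD.bil (LinearMap.mul F K) (PD.bil b hx hy) (PD.bil b hz ht)).sum_zero (by omega)

theorem semi_all [Fintype F] [Fintype K] (H : OTr Q P τ) (hn : finrank K V = 3)
    (hq : 5 < (Fintype.card F - 1) * finrank F K) (hH : ∀ g ∈ commutator (OG P), H.res g ∈ M)
    (hS : ∀ u f w, Fr P u f w → ∀ a ∈ M, StabL K u a → Semi K a.1) {g : OG Q} (hg : g ∈ M) :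
    Semi K g.1 := by
  classical
  have : Finite V := Module.finite_of_finite F
  have : Finite (V →ₗ[F] K) := Finite.of_injective _ DFunLike.coe_injective
  have : Finite (V →ₗ[F] V →ₗ[F] K) := Finite.of_injective _ DFunLike.coe_injective
  have := Fintype.ofFinite (V →ₗ[F] V →ₗ[F] K)
  let O : Finset (V →ₗ[F] V →ₗ[F] K) := Finset.univ.filter fun b => ∃ g ∈ M, b = bg P g
  have hO : ∀ b, b ∈ O ↔ ∃ g ∈ M, b = bg P g := fun b => by simp [O]
  obtain ⟨u, hu0, hu⟩ := exists_singular P hn.ge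
  have a1 : ∀ x y z t, ∑ b ∈ O.filter (fun b => ¬ SB b), b x y * b z t = 0 := fun x y z t => by
    induction x using H.ndK.singular_induction hu0 hu with
    | hadd x x' hx hx' =>
      simp only [map_add, LinearMap.add_apply, add_mul, Finset.sum_add_distrib, hx, hx', add_zero]
    | h1 x hx =>
      by_cases h0 : x = 0
      · simp [h0]
      obtain ⟨f, hxf, hf⟩ := H.ndK.exists_hyp h0 hx
      obtain ⟨w, h⟩ := exists_fr H.ndK hn hx hf hxf
      have hs : ∀ b, b ∈ O.filter (fun b => ¬ SB b) ↔ (∃ g ∈ M, b = bg P g) ∧ ¬ SB b :=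
        fun b => by rw [Finset.mem_filter, hO]
      have b1 := h.vanish H hq hH (hS _ _ _ h) _ hs (h.pd0 H 1)
        (h.pd1 H (x := y - polar P x y • f) (by simp [hxf])) (h.pd2 H z) (h.pd2 H t) le_rfl
      have b2 := h.vanish H hq hH (hS _ _ _ h) _ hs (h.pd0 H 1) (h.pd2 H (polar P x y • f))
        (h.pd1 H (x := z - polar P x z • f) (by simp [hxf])) (h.pd2 H t) le_rfl
      have b3 := h.symm.vanish H hq hH (hS _ _ _ h.symm) _ hs (h.symm.pd2 H x)
        (h.symm.pd0 H (polar P x y)) (h.symm.pd0 H (polar P x z)) (h.symm.pd2 H t) (by omega)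
      simp only [one_smul, map_sub, LinearMap.sub_apply, sub_mul, mul_sub,
        Finset.sum_sub_distrib] at b1 b2
      linear_combination b1 + b2 + b3
  have a2 : ∀ x y z t, ∑ b ∈ O, b x y * b z t = ∑ b ∈ O.filter SB, b x y * b z t :=
    fun x y z t => by rw [← Finset.sum_filter_add_sum_filter_not O SB, a1, add_zero]
  have a3 : ∀ g ∈ M, ∀ x y z t, ∑ b ∈ O, b (g.1 x) (g.1 y) * b (g.1 z) (g.1 t) =
      ∑ b ∈ O, b x y * b z t := fun g hg x y z t => by
    have c : ∀ g ∈ M, ∀ b ∈ O, b.compl₁₂ (g.1 : V →ₗ[F] V) (g.1 : V →ₗ[F] V) ∈ O :=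
      fun g hg b hb => by
        obtain ⟨g', hg', rfl⟩ := (hO b).1 hb
        exact (hO _).2 ⟨g' * g, mul_mem hg' hg, rfl⟩
    refine Finset.sum_nbij' (fun b => b.compl₁₂ (g.1 : V →ₗ[F] V) (g.1 : V →ₗ[F] V))
      (fun b => b.compl₁₂ ((g⁻¹).1 : V →ₗ[F] V) ((g⁻¹).1 : V →ₗ[F] V)) (c g hg) (c _ (inv_mem hg))
      (fun b _ => ?_) (fun b _ => ?_) fun b _ => rfl
    · ext x y; simp
    · ext x y; simp
  have a4 : ∀ b : O.filter SB, ∃ σ : K →ₐ[F] K, (∀ k x y, b.1 (k • x) y = σ k * b.1 x y) ∧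
      ∀ x y, τ (b.1 x y) = polar Q x y := fun ⟨b, hb⟩ => by
    obtain ⟨hb1, hb2⟩ := Finset.mem_filter.1 hb
    obtain ⟨g, -, rfl⟩ := (hO b).1 hb1
    obtain ⟨σ, hσ⟩ := exists_sigma g.1 ⊤ (Submodule.mem_top (x := u)) hu0 fun k => by
      obtain ⟨k', hk⟩ := (sb_iff H.ndK g).1 hb2 k
      exact ⟨k', fun y _ => hk y⟩
    exact ⟨σ, fun k x y => by simp only [bg_apply, hσ k x trivial, p_smul_left],
      fun x y => by rw [bg_apply, ← H.pol, OG.map_polar]⟩
  choose σ s1 s2 using a4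
  have s3 : ∀ b, Function.Surjective (σ b) := fun b =>
    Finite.injective_iff_surjective.1 (σ b).injective
  have a5 : Function.Injective fun b => (σ b : K →* K) := fun b b' e => by
    refine Subtype.ext (LinearMap.ext₂ fun x y => eq_of_tr H.ne fun k => ?_)
    obtain ⟨k, rfl⟩ := s3 b k
    have e' : σ b k = σ b' k := DFunLike.congr_fun e k
    rw [← s1, s2, e', ← s1, s2]
  have a6 : ∀ g ∈ M, ∀ x y, polar P x y = 0 → polar P (g.1 x) (g.1 y) = 0 := by
    intro g hg x y hxy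
    have b1 : ∀ z t, ∑ b : O.filter SB, b.1 (g.1 x) (g.1 y) * b.1 z t = 0 := fun z t => by
      rw [Finset.sum_coe_sort (O.filter SB) fun b => b (g.1 x) (g.1 y) * b z t, ← a2,
        ← OG.apply_inv_self g z, ← OG.apply_inv_self g t, a3 g hg, a2, ← Finset.sum_coe_sort]
      refine Finset.sum_eq_zero fun b _ => mul_eq_zero_of_left (eq_zero_of_tr H.ne fun k => ?_) _
      obtain ⟨k, rfl⟩ := s3 b k
      rw [← s1, s2, H.pol, p_smul_left, hxy, mul_zero, map_zero]
    obtain ⟨f, huf, -⟩ := H.ndK.exists_hyp hu0 hu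
    have b2 := Fintype.linearIndependent_iff.1 ((linearIndependent_monoidHom K K).comp _ a5)
      (fun b => b.1 (g.1 x) (g.1 y) * b.1 u f) (by
        ext k
        rw [Finset.sum_apply, Pi.zero_apply, ← b1 (k • u) f]
        refine Finset.sum_congr rfl fun b _ => ?_
        rw [s1, Pi.smul_apply, smul_eq_mul, mul_assoc, mul_comm (b.1 u f)]
        rfl)
      ⟨bg P (1 : OG Q), Finset.mem_filter.2 ⟨(hO _).2 ⟨1, one_mem M, rfl⟩,
        (sb_iff H.ndK _).2 fun k => ⟨k, fun _ => rfl⟩⟩⟩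
    simpa [bg_apply, huf] using b2
  refine semi_of_lines (by omega) fun v k => ?_
  have : g.1 (k • v) ∈ K ∙ g.1 v := by
    rw [← H.ndK.perp_perp (K ∙ g.1 v), mem_perp']
    intro y hy
    have b1 := a6 _ (inv_mem hg) _ _ (mem_perp_singleton.1 hy)
    rw [OG.inv_apply_self] at b1
    have := a6 g hg (k • v) _ (by rw [p_smul_left, b1, mul_zero])
    rwa [OG.apply_inv_self] at this
  obtain ⟨k', hk⟩ := Submodule.mem_span_singleton.1 this
  exact ⟨k', hk.symm⟩

theorem om_not_semi3 [Finite K] (H : OTr Q P τ) (hr : 2 ≤ finrank F K) (hn : finrank K V = 3) :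
    ∃ g ∈ commutator (OG Q), ¬ Semi K g.1 := by
  have e := Module.finrank_mul_finrank F K V
  obtain ⟨u, hu0, hu⟩ := exists_singular P hn.ge
  obtain ⟨f, huf, hf⟩ := H.ndK.exists_hyp hu0 hu
  obtain ⟨w, h⟩ := exists_fr H.ndK hn hu hf huf
  obtain ⟨d, hd, hd0⟩ := Submodule.exists_mem_ne_zero_of_ne_bot (p := LinearMap.ker τ) fun e => by
    have := LinearMap.finrank_range_add_finrank_ker τ
    have h2 := Submodule.finrank_le (LinearMap.range τ)
    rw [e, finrank_bot] at this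
    rw [Module.finrank_self] at h2
    omega
  obtain ⟨c, hc⟩ := exists_apply_one H.ne
  exact ⟨_, H.nd.eich_mem_commutator (good_of_five_le (by rw [← e, hn]; omega)) u w,
    not_semi_eich (y := (d / (2 * P w)) • w) (k := c / d) hu0 (by rw [H.eq, hu, map_zero])
      (by simp [H.pol, h.uw]) (by simp [H.pol, hu]) (by simp [H.pol, h.wu])
      (by simp [H.pol, h.uw]) (by simpa [H.pol, h.w0, H.twoK] using hd) (by simp [H.pol, h.uw])
      (by simp [H.pol, h.w0, hd0, hc, H.twoK])⟩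

open Geo Asch Matrix in
theorem max_om_ext3 [Finite F] {ι : Type} [Fintype ι] [DecidableEq ι]
    {Q : QuadraticForm F (ι → F)} (hQ : ND Q) (hq : Odd (Nat.card F)) (h2 : (2 : F) ≠ 0) {r : ℕ}
    (hr : r.Prime) (hr2 : r ≠ 2) (hn : Fintype.card ι = 3 * r)
    {K : Subalgebra F (Matrix ι ι F)} (hK : IsFieldSubalgebra r K)
    (hsa : IsSelfAdjointFor (polar Q) K) :
    IsMaximalIn (omegaGL ⇑Q) (subalgebraNormalizer K ⊓ omegaGL ⇑Q) := by
  have h3 := hr.two_le
  have : Nonempty ι := Fintype.card_pos_iff.1 (by omega)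
  let := (isField_of hK.comm hK.inv).toField
  have : FiniteDimensional K (ι → F) := Module.Finite.of_restrictScalars_finite F K _
  have : Finite K := Module.finite_of_finite F
  have := Fintype.ofFinite F
  have := Fintype.ofFinite K
  obtain ⟨P, τ, H⟩ := exists_oTr (K := K) hQ h2 fun k => hsa k.1 k.2
  have e := Module.finrank_mul_finrank F K (ι → F)
  rw [Module.finrank_fintype_fun_eq_card, hK.finrank_eq, hn, mul_comm 3] at e
  have hn' : finrank K (ι → F) = 3 := Nat.eq_of_mul_eq_mul_left (by omega) e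
  have hr' : (finrank F K).Prime := hK.finrank_eq ▸ hr
  have hr2' : finrank F K ≠ 2 := hK.finrank_eq ▸ hr2
  refine isMaximalIn_Om (Semi K) mem_normalizer_iff
    (om_not_semi3 H hr'.two_le hn') fun M h1 _ ⟨g, hg, h3⟩ => ?_
  have hH : ∀ g ∈ commutator (OG P), H.res g ∈ M := fun g hg =>
    h1 _ (map_mem_commutator H.res hg) (semi_restrict g.1)
  by_contra hc
  refine h3 (semi_all H hn' ?_ hH (fun u f w h a => h.semi_of_stab H hr' hr2' hH
    (h.z1 H hq hr' hr2' hH (by_contra fun hS => hc (h.om_of_not H hn' hr' hr2' hH hS)))) hg)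
  have a1 : 2 ≤ Fintype.card F - 1 := by
    have := Fintype.one_lt_card (α := F)
    rw [Nat.card_eq_fintype_card] at hq
    obtain ⟨k, hk⟩ := hq
    omega
  have a2 := hr'.two_le
  have : 2 * 3 ≤ (Fintype.card F - 1) * finrank F K := Nat.mul_le_mul a1 (by omega)
  omega

end Cfsg.Agent.Max3
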