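import Mathlib
import Cfsg.Agent.Max.OFrame7
import Cfsg.Agent.Max.Sp3
import Cfsg.Agent.Orth.Exc3

/-!
# The Clifford model of `Sp₄ → Ω₅`
-/

set_option autoImplicit false

namespace Cfsg.Agent.Max3

open Module QuadraticMap Orth Cfsg.Agent.Max Matrix

variable {F : Type*} [Field F]

/-- index type of the symplectic space -/
abbrev I4 := Fin 2 ⊕ Fin 2

/-- the Clifford matrix of a vector -/
def cl5 (F : Type*) [Field F] : (Fin 5 → F) →ₗ[F] Matrix I4 I4 F where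
  toFun v := fromBlocks !![v 0, v 1; v 2, -v 0] !![0, v 3; -v 3, 0] !![0, -v 4; v 4, 0]
    !![v 0, v 2; v 1, -v 0]
  map_add' v w := by
    ext (i | i) (j | j) <;> fin_cases i <;> fin_cases j <;> simp [add_comm]
  map_smul' c v := by
    ext (i | i) (j | j) <;> fin_cases i <;> fin_cases j <;> simp

theorem cl5_apply (v : Fin 5 → F) : cl5 F v = fromBlocks !![v 0, v 1; v 2, -v 0]
    !![0, v 3; -v 3, 0] !![0, -v 4; v 4, 0] !![v 0, v 2; v 1, -v 0] := rfl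

/-- left inverse of `cl5` -/
def lc5 (F : Type*) [Field F] : Matrix I4 I4 F →ₗ[F] (Fin 5 → F) where
  toFun X := ![X (.inl 0) (.inl 0), X (.inl 0) (.inl 1), X (.inl 1) (.inl 0), X (.inl 0) (.inr 1),
    X (.inr 1) (.inl 0)]
  map_add' v w := by
    ext i; fin_cases i <;> simp
  map_smul' c v := by
    ext i; fin_cases i <;> simp

theorem lc5_apply (X : Matrix I4 I4 F) : lc5 F X = ![X (.inl 0) (.inl 0), X (.inl 0) (.inl 1),
    X (.inl 1) (.inl 0), X (.inl 0) (.inr 1), X (.inr 1) (.inl 0)] := rfl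

theorem lc_cl (v : Fin 5 → F) : lc5 F (cl5 F v) = v := by
  ext i; fin_cases i <;> simp [lc5_apply, cl5_apply]

theorem cl5_inj : Function.Injective (cl5 F) := Function.LeftInverse.injective lc_cl

/-- the quadratic form of the model -/
def Q5 (F : Type*) [Field F] : QuadraticForm F (Fin 5 → F) :=
  QuadraticMap.proj 0 0 + QuadraticMap.proj 1 2 + QuadraticMap.proj 3 4

theorem Q5_apply (v : Fin 5 → F) : Q5 F v = v 0 * v 0 + v 1 * v 2 + v 3 * v 4 := by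
  simp [Q5]

theorem polar_Q5 (v w : Fin 5 → F) : polar (Q5 F) v w =
    2 * v 0 * w 0 + v 1 * w 2 + v 2 * w 1 + v 3 * w 4 + v 4 * w 3 := by
  simp only [polar, Q5_apply, Pi.add_apply]
  ring

theorem nd_Q5 (h2 : (2 : F) ≠ 0) : ND (Q5 F) := fun v hv => by
  have h0 := hv (Pi.single 0 1)
  have h1 := hv (Pi.single 1 1)
  have h2' := hv (Pi.single 2 1)
  have h3 := hv (Pi.single 3 1)
  have h4 := hv (Pi.single 4 1)
  simp [polar_Q5, h2] at h0 h1 h2' h3 h4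
  ext i; fin_cases i <;> simp [*]

theorem cl_sq (v : Fin 5 → F) : cl5 F v * cl5 F v = Q5 F v • (1 : Matrix I4 I4 F) := by
  ext (i | i) (j | j) <;> fin_cases i <;> fin_cases j <;>
    simp [cl5_apply, Q5_apply, Matrix.mul_apply, Fintype.sum_sum_type] <;> ring

theorem cl_anti (v w : Fin 5 → F) :
    cl5 F v * cl5 F w + cl5 F w * cl5 F v = polar (Q5 F) v w • (1 : Matrix I4 I4 F) := by
  have := cl_sq (v + w)
  rw [map_add, add_mul, mul_add, mul_add, cl_sq, cl_sq, q_add] at this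
  linear_combination (norm := module) this

theorem cl_sa (v : Fin 5 → F) : (cl5 F v)ᵀ * J (Fin 2) F = J (Fin 2) F * cl5 F v := by
  ext (i | i) (j | j) <;> fin_cases i <;> fin_cases j <;>
    simp [cl5_apply, J, Matrix.mul_apply, Fintype.sum_sum_type]

theorem cl_tr (v : Fin 5 → F) : (cl5 F v).trace = 0 := by
  simp [cl5_apply, Matrix.trace, Fintype.sum_sum_type]

theorem cl_lc (h2 : (2 : F) ≠ 0) {X : Matrix I4 I4 F} (h : Xᵀ * J (Fin 2) F = J (Fin 2) F * X)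
    (ht : X.trace = 0) : cl5 F (lc5 F X) = X := by
  have e := fun i j => congrFun (congrFun h i) j
  have e1 := e (.inl 0) (.inl 0)
  have e2 := e (.inl 0) (.inl 1)
  have e3 := e (.inl 1) (.inl 1)
  have e4 := e (.inl 0) (.inr 0)
  have e5 := e (.inl 0) (.inr 1)
  have e6 := e (.inl 1) (.inr 0)
  have e7 := e (.inl 1) (.inr 1)
  have e8 := e (.inr 0) (.inr 0)
  have e9 := e (.inr 0) (.inr 1)
  have e10 := e (.inr 1) (.inr 1)
  simp [J, Matrix.mul_apply, Fintype.sum_sum_type] at e1 e2 e3 e4 e5 e6 e7 e8 e9 e10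
  simp [Matrix.trace, Fintype.sum_sum_type] at ht
  ext (i | i) (j | j) <;> fin_cases i <;> fin_cases j <;> simp [cl5_apply, lc5_apply] <;>
    apply mul_left_cancel₀ h2 <;> grind

theorem scalar_of_comm (h2 : (2 : F) ≠ 0) {y : Matrix I4 I4 F}
    (h : ∀ v, y * cl5 F v = cl5 F v * y) : ∃ c : F, y = c • (1 : Matrix I4 I4 F) := by
  refine ⟨y (.inl 0) (.inl 0), ?_⟩
  have e := fun k i j => congrFun (congrFun (h (Pi.single k 1)) i) j
  have e0 := e 0
  have e1 := e 1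
  have e3 := e 3
  have e4 := e 4
  simp [cl5_apply, Matrix.mul_apply, Fintype.sum_sum_type, Sum.forall, Fin.forall_fin_two]
    at e0 e1 e3 e4
  ext (i | i) (j | j) <;> fin_cases i <;> fin_cases j <;> simp <;>
    apply mul_left_cancel₀ h2 <;> grind

theorem zero_of_anti (h2 : (2 : F) ≠ 0) {y : Matrix I4 I4 F}
    (h : ∀ v, y * cl5 F v = -(cl5 F v * y)) : y = 0 := by
  have e := fun k i j => congrFun (congrFun (h (Pi.single k 1)) i) j
  have e0 := e 0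
  have e1 := e 1
  have e2 := e 2
  have e3 := e 3
  have e4 := e 4
  simp [cl5_apply, Matrix.mul_apply, Fintype.sum_sum_type, Sum.forall, Fin.forall_fin_two]
    at e0 e1 e2 e3 e4
  ext (i | i) (j | j) <;> fin_cases i <;> fin_cases j <;> simp <;>
    apply mul_left_cancel₀ h2 <;> grind

/-- symplectic similitudes -/
def GS4 (F : Type*) [Field F] : Subgroup (GL I4 F) where
  carrier := {g | ∃ μ : F, μ ≠ 0 ∧ g.1ᵀ * J (Fin 2) F * g.1 = μ • J (Fin 2) F}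
  one_mem' := ⟨1, one_ne_zero, by simp⟩
  mul_mem' := by
    rintro a b ⟨μ, h1, h2⟩ ⟨ν, h3, h4⟩
    refine ⟨μ * ν, mul_ne_zero h1 h3, ?_⟩
    rw [Units.val_mul, transpose_mul, mul_smul, ← h4, ← smul_mul_assoc, ← mul_smul_comm, ← h2]
    simp only [mul_assoc]
  inv_mem' := by
    rintro a ⟨μ, h1, h2⟩
    refine ⟨μ⁻¹, inv_ne_zero h1, ?_⟩
    rw [eq_inv_smul_iff₀ h1, ← smul_mul_assoc, ← mul_smul_comm, ← h2]
    simp only [← mul_assoc, ← transpose_mul, Units.mul_inv, transpose_one, one_mul]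
    rw [mul_assoc, Units.mul_inv, mul_one]

theorem cl_lc_conj (h2 : (2 : F) ≠ 0) (g : GS4 F) (v : Fin 5 → F) :
    cl5 F (lc5 F (g.1.1 * cl5 F v * g.1⁻¹.1)) = g.1.1 * cl5 F v * g.1⁻¹.1 := by
  obtain ⟨g, μ, h0, h⟩ := g
  refine cl_lc h2 ?_ (by rw [trace_mul_cycle, Units.inv_mul, one_mul, cl_tr])
  have a1 : g.1ᵀ * J (Fin 2) F = μ • J (Fin 2) F * g⁻¹.1 := by
    rw [← h, mul_assoc, Units.mul_inv, mul_one]
  have a2 : J (Fin 2) F * g.1 = μ • (g⁻¹.1ᵀ * J (Fin 2) F) := by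
    rw [← mul_smul_comm, ← h, ← mul_assoc, ← mul_assoc, ← transpose_mul, Units.mul_inv,
      transpose_one, one_mul]
  change (g.1 * cl5 F v * g⁻¹.1)ᵀ * _ = _ * (g.1 * cl5 F v * g⁻¹.1)
  rw [transpose_mul, transpose_mul, mul_assoc, mul_assoc, a1, ← mul_assoc (J _ _),
    ← mul_assoc (J _ _), a2, smul_mul_assoc, mul_smul_comm, ← mul_assoc, cl_sa]
  simp only [mul_assoc, smul_mul_assoc, mul_smul_comm]

/-- conjugation action -/
def rho5 (h2 : (2 : F) ≠ 0) : GS4 F →* End F (Fin 5 → F) where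
  toFun g := lc5 F ∘ₗ LinearMap.mulLeftRight F (g.1.1, g.1⁻¹.1) ∘ₗ cl5 F
  map_one' := LinearMap.ext fun v => by simp [lc_cl]
  map_mul' a b := LinearMap.ext fun v => by
    simp only [LinearMap.comp_apply, LinearMap.mulLeftRight_apply, End.mul_apply, cl_lc_conj h2]
    simp [mul_assoc]

theorem cl_rho (h2 : (2 : F) ≠ 0) (g : GS4 F) (v : Fin 5 → F) :
    cl5 F (rho5 h2 g v) = g.1.1 * cl5 F v * g.1⁻¹.1 := cl_lc_conj h2 g v

/-- the spin map -/
def phi5 (h2 : (2 : F) ≠ 0) : GS4 F →* OG (Q5 F) := ofRep (rho5 h2) fun g v => by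
  have := cl_sq (rho5 h2 g v)
  rw [cl_rho, mul_assoc, mul_assoc, mul_assoc, ← mul_assoc g.1⁻¹.1, Units.inv_mul, one_mul,
    ← mul_assoc (cl5 F v), cl_sq, smul_mul_assoc, one_mul, mul_smul_comm, Units.mul_inv] at this
  simpa using congrFun (congrFun this.symm (.inl 0)) (.inl 0)

theorem cl_phi (h2 : (2 : F) ≠ 0) (g : GS4 F) (v : Fin 5 → F) :
    cl5 F ((phi5 h2 g).1 v) = g.1.1 * cl5 F v * g.1⁻¹.1 := cl_rho h2 g v

theorem mem_spGL_iff (g : GL I4 F) : g ∈ spGL 2 F ↔ g.1ᵀ * J (Fin 2) F * g.1 = J (Fin 2) F := by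
  change (∀ u v, (g.1 *ᵥ u) ⬝ᵥ (J (Fin 2) F *ᵥ (g.1 *ᵥ v)) = u ⬝ᵥ (J (Fin 2) F *ᵥ v)) ↔ _
  have : ∀ u v, (g.1 *ᵥ u) ⬝ᵥ (J (Fin 2) F *ᵥ (g.1 *ᵥ v)) =
      u ⬝ᵥ ((g.1ᵀ * J (Fin 2) F * g.1) *ᵥ v) := fun u v => by
    rw [← mulVec_mulVec, ← mulVec_mulVec, dotProduct_mulVec u, vecMul_transpose]
  simp only [this]
  refine ⟨fun h => ?_, fun h => by simp [h]⟩
  ext i j
  simpa using h (Pi.single i 1) (Pi.single j 1)

theorem sp_le_GS : spGL 2 F ≤ GS4 F := fun g hg =>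
  ⟨1, one_ne_zero, by simpa using (mem_spGL_iff g).mp hg⟩

/-- from Mathlib's symplectic group -/
def j5 (F : Type*) [Field F] : symplecticGroup (Fin 2) F →* GS4 F :=
  ((symplecticGroup (Fin 2) F).subtype.toHomUnits).codRestrict _ fun g =>
    ⟨1, one_ne_zero, by simpa using SymplecticGroup.mem_iff'.mp g.2⟩

theorem range_phi [Finite F] (h2 : (2 : F) ≠ 0) :
    ((phi5 h2).comp (j5 F)).range = commutator (OG (Q5 F)) := by
  obtain ⟨e⟩ := (nd_Q5 h2).og_equiv_odd (m := 2) (by simp)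
  have hF : 3 ≤ Nat.card F := by
    have := Fintype.ofFinite F
    have h3 := odd_card_of_two_ne_zero h2
    have h4 := Classical.SLBasic.one_lt_card (F := F)
    rw [← Nat.card_eq_fintype_card] at h3
    obtain ⟨k, hk⟩ := h3
    omega
  refine spin_range (nd_Q5 h2) (by simp) _ (sqGen_of_perfect (Classical.SpMat.commutator_eq_top
    (Or.inr (Or.inl ⟨by simp, hF⟩)))) (fun h => absurd h h2) (Classical.SpMat.negOne _ F)
    (fun g hg => ?_) (fun h => absurd h h2) ?_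
  · obtain ⟨c, hc⟩ := scalar_of_comm h2 (y := g.1) fun v => by
      have := cl_phi h2 (j5 F g) v
      rw [show phi5 h2 (j5 F g) = 1 from hg, OG.one_apply] at this
      conv_rhs => rw [this, mul_assoc]
      exact ((congrArg _ (j5 F g).1.inv_mul).trans (mul_one _)).symm
    have := SymplecticGroup.mem_iff'.mp g.2
    rw [hc] at this
    have h1 : c * c = 1 := by
      simpa [J] using congrFun (congrFun this (.inr 0)) (.inl 0)
    rcases mul_self_eq_one_iff.mp h1 with rfl | rfl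
    · exact Or.inl (Subtype.ext (by simpa using hc))
    · exact Or.inr (Subtype.ext (by rw [hc]; simp [Classical.SpMat.negOne]))
  · rw [← Nat.card_congr e.toEquiv, card_OG_oddQ h2, Classical.SpMat.card_sp]
    simp [mul_assoc]

theorem phi_mem [Finite F] (h2 : (2 : F) ≠ 0) {g : GS4 F} (hg : g.1 ∈ spGL 2 F) :
    phi5 h2 g ∈ commutator (OG (Q5 F)) := by
  rw [← range_phi h2]
  exact ⟨⟨g.1.1, SymplecticGroup.mem_iff'.mpr ((mem_spGL_iff _).mp hg)⟩,
    congrArg (phi5 h2) (Subtype.ext (Units.ext rfl))⟩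

theorem exists_phi [Finite F] (h2 : (2 : F) ≠ 0) {x : OG (Q5 F)} (hx : x ∈ commutator (OG (Q5 F))) :
    ∃ g : GS4 F, g.1 ∈ spGL 2 F ∧ phi5 h2 g = x := by
  rw [← range_phi h2] at hx
  obtain ⟨g, rfl⟩ := hx
  exact ⟨j5 F g, (mem_spGL_iff _).mpr (SymplecticGroup.mem_iff'.mp g.2), rfl⟩

theorem max_of_o5 [Finite F] (h2 : (2 : F) ≠ 0) {H : Subgroup (GL I4 F)} (P : OG (Q5 F) → Prop)
    (hH : ∀ g : GS4 F, g.1 ∈ spGL 2 F → (g.1 ∈ H ↔ P (phi5 h2 g)))
    (h1 : ∃ g ∈ commutator (OG (Q5 F)), ¬ P g)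
    (h3 : ∀ M : Subgroup (OG (Q5 F)), (∀ g ∈ commutator (OG (Q5 F)), P g → g ∈ M) →
      (∃ g ∈ M, ¬ P g) → commutator (OG (Q5 F)) ≤ M) :
    Geo.IsMaximalIn (spGL 2 F) (H ⊓ spGL 2 F) := by
  refine ⟨lt_of_le_of_ne inf_le_right fun e => ?_, fun M hM hM' => ?_⟩
  · obtain ⟨x, hx, hx'⟩ := h1
    obtain ⟨g, hg, rfl⟩ := exists_phi h2 hx
    exact hx' ((hH g hg).mp (e.ge hg).1)
  by_cases hc : M ≤ H
  · exact Or.inl (le_antisymm (le_inf hc hM') hM)
  obtain ⟨x, hx, hx'⟩ := SetLike.not_le_iff_exists.mp hc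
  refine Or.inr (le_antisymm hM' fun y hy => ?_)
  have := h3 ((M.subgroupOf (GS4 F)).map (phi5 h2)) (fun z hz hz' => by
    obtain ⟨g, hg, rfl⟩ := exists_phi h2 hz
    exact ⟨g, hM ⟨(hH g hg).mpr hz', hg⟩, rfl⟩)
    ⟨_, ⟨⟨x, sp_le_GS (hM' hx)⟩, hx, rfl⟩, fun e => hx' ((hH _ (hM' hx)).mpr e)⟩
  obtain ⟨z, hz, e⟩ := this (phi_mem h2 (g := ⟨y, sp_le_GS hy⟩) hy)
  have hz1 : z.1 ∈ M := hz
  have h4 : (z⁻¹ * ⟨y, sp_le_GS hy⟩ : GS4 F).1 ∈ spGL 2 F := mul_mem (inv_mem (hM' hz1)) hy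
  have h5 := (hH _ h4).mpr (by
    rw [map_mul, map_inv, e, inv_mul_cancel, ← map_one (phi5 h2)]
    exact (hH 1 (one_mem _)).mp (one_mem _))
  simpa using mul_mem hz1 (hM ⟨h5, h4⟩)

end Cfsg.Agent.Max3
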