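import Mathlib
import Cfsg.Agent.Max3.P5a
import Cfsg.Agent.Max.Om2
import Cfsg.Agent.Elu.Nor4

/-!
# Transfer of maximality from `Ω₅` to `Sp₄`
-/

set_option autoImplicit false
set_option linter.unusedSimpArgs false

namespace Cfsg.Agent.Max3

open Module QuadraticMap Orth Cfsg.Agent.Max Matrix

variable {F : Type*} [Field F]

/-- stabilisers of non-degenerate planes are maximal -/
def PlaneMax {V : Type*} [AddCommGroup V] [Module F V] (Q : QuadraticForm F V) : Prop :=
  ∀ P : Submodule F V, NDS Q P → finrank F P = 2 → ∀ M : Subgroup (OG Q),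
    (∀ g ∈ commutator (OG Q), (∀ v, v ∈ P ↔ g.1 v ∈ P) → g ∈ M) →
    (∃ g ∈ M, ¬ ∀ v, v ∈ P ↔ g.1 v ∈ P) → commutator (OG Q) ≤ M

/-- stabilisers of frames are maximal -/
def FrameMax {V : Type*} [AddCommGroup V] [Module F V] (Q : QuadraticForm F V) : Prop :=
  ∀ (e : Basis (Fin 5) F V), (∀ i, Q (e i) = 1) → (∀ i j, i ≠ j → polar Q (e i) (e j) = 0) →
    (∃ g ∈ commutator (OG Q), g.1 ∉ mon e) ∧ ∀ M : Subgroup (OG Q),
    (∀ g ∈ commutator (OG Q), g.1 ∈ mon e → g ∈ M) →
    (∃ g ∈ M, g.1 ∉ mon e) → commutator (OG Q) ≤ M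

theorem tr_skew (h2 : (2 : F) ≠ 0) {s : Matrix I4 I4 F} {d : F} (hs : s * s = d • 1)
    (hk : sᵀ * J (Fin 2) F = -(J (Fin 2) F * s)) :
    ∑ i, lc5 F (s * cl5 F (Pi.single i 1) * s) i = d := by
  have e := fun i j => congrFun (congrFun hk i) j
  have e2 := e (.inl 0) (.inl 1)
  have e4 := e (.inl 0) (.inr 0)
  have e5 := e (.inl 0) (.inr 1)
  have e6 := e (.inl 1) (.inr 0)
  have e7 := e (.inl 1) (.inr 1)
  have e9 := e (.inr 0) (.inr 1)
  have a0 := congrFun (congrFun hs (.inl 0)) (.inl 0)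
  have a1 := congrFun (congrFun hs (.inl 1)) (.inl 1)
  simp [J, Matrix.mul_apply, Fintype.sum_sum_type] at e2 e4 e5 e6 e7 e9 a0 a1
  simp [Fin.sum_univ_five, lc5_apply, cl5_apply, Matrix.mul_apply, Fintype.sum_sum_type]
  apply mul_left_cancel₀ h2
  grind

theorem max_of_plane [Finite F] (h2 : (2 : F) ≠ 0) (hP : PlaneMax (Q5 F)) {s : Matrix I4 I4 F}
    {d : F} (hd : d ≠ 0) (hs : s * s = d • 1) (hk : sᵀ * J (Fin 2) F = -(J (Fin 2) F * s))
    {H : Subgroup (GL I4 F)}
    (hH : ∀ g ∈ spGL 2 F, g ∈ H ↔ g.1 * s * g⁻¹.1 = s ∨ g.1 * s * g⁻¹.1 = -s) :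
    Geo.IsMaximalIn (spGL 2 F) (H ⊓ spGL 2 F) := by
  let g0 : GL I4 F := ⟨s, d⁻¹ • s, by rw [mul_smul_comm, hs, smul_smul, inv_mul_cancel₀ hd, one_smul],
    by rw [smul_mul_assoc, hs, smul_smul, inv_mul_cancel₀ hd, one_smul]⟩
  have hg0 : g0 ∈ GS4 F := ⟨-d, neg_ne_zero.mpr hd, by
    change sᵀ * _ * s = _
    rw [hk, neg_mul, mul_assoc, hs, mul_smul_comm, mul_one, neg_smul]⟩
  obtain ⟨σ, hσ⟩ : ∃ σ, σ = phi5 h2 ⟨g0, hg0⟩ := ⟨_, rfl⟩
  have c1 : ∀ v, cl5 F (σ.1 v) = s * cl5 F v * (d⁻¹ • s) := fun v => hσ ▸ cl_phi h2 _ v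
  have c2 : ∀ v, cl5 F (σ.1 v) * s = s * cl5 F v := fun v => by
    rw [c1, mul_assoc, smul_mul_assoc, hs, smul_smul, inv_mul_cancel₀ hd, one_smul, mul_one]
  have cs : ∀ {x y : Matrix I4 I4 F}, x * s = y * s → x = y := fun e => g0.mul_left_inj.mp e
  have c3 : ∀ v, σ.1 (σ.1 v) = v := fun v => cl5_inj (by
    rw [c1, mul_assoc, mul_smul_comm, c2, mul_smul_comm, ← mul_assoc, hs, smul_mul_assoc, smul_smul,
      inv_mul_cancel₀ hd, one_smul, one_mul])
  let P : Submodule F (Fin 5 → F) := LinearMap.ker ((σ.1 : _ →ₗ[F] _) + LinearMap.id)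
  have mP : ∀ v, v ∈ P ↔ σ.1 v = -v := fun v => by
    simp [P, add_eq_zero_iff_eq_neg]
  have mP' : ∀ v, v ∈ P ↔ s * cl5 F v = -(cl5 F v * s) := fun v => by
    rw [mP, ← c2, ← neg_mul, ← map_neg]
    exact ⟨fun e => by rw [e], fun e => cl5_inj (cs e)⟩
  have o1 : ∀ p ∈ P, ∀ v, polar (Q5 F) p (v + σ.1 v) = 0 := fun p hp v => by
    have := OG.map_polar σ p v
    rw [(mP p).mp hp, polar_neg_left] at this
    rw [polar_add_right]
    linear_combination -this
  have o2 : ∀ v, v - σ.1 v ∈ P := fun v => by rw [mP, map_sub, c3, neg_sub]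
  have o3 : ∀ v, (∀ p ∈ P, polar (Q5 F) p v = 0) → σ.1 v = v := fun v hv => by
    refine (sub_eq_zero.mp (nd_Q5 h2 _ fun w => mul_left_cancel₀ h2 ?_)).symm
    have a1 := o1 _ (o2 v) w
    have a2 := o1 _ (o2 w) v
    have a3 := hv _ (o2 w)
    rw [polar_add_right, a3, zero_add] at a2
    have : w + w = (w + σ.1 w) + (w - σ.1 w) := by abel
    rw [mul_zero, two_mul, ← polar_add_right, this, polar_add_right, a1, polar_comm,
      polar_sub_right, a3, a2]
    simp
  have nds : NDS (Q5 F) P := fun w hw h => by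
    have := o3 w fun p hp => polar_comm (Q5 F) w p ▸ h p hp
    rw [(mP w).mp hw, neg_eq_iff_add_eq_zero, ← two_smul F, smul_eq_zero] at this
    exact this.resolve_left h2
  have pr : LinearMap.IsProj P
      ((2 : F)⁻¹ • (LinearMap.id - (σ.1 : (Fin 5 → F) →ₗ[F] (Fin 5 → F)))) :=
    ⟨fun v => P.smul_mem _ (o2 v), fun v hv => by
      simp [(mP v).mp hv, ← two_smul F v, smul_smul, h2]⟩
  have tr : LinearMap.trace F _ (σ.1 : (Fin 5 → F) →ₗ[F] _) = 1 := by
    rw [LinearMap.trace_eq_matrix_trace F (Pi.basisFun F (Fin 5)), ← inv_mul_cancel₀ hd,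
      ← congrArg (d⁻¹ * ·) (tr_skew h2 hs hk), Finset.mul_sum]
    refine Finset.sum_congr rfl fun i _ => ?_
    simp only [diag_apply, LinearMap.toMatrix_apply, Pi.basisFun_apply, Pi.basisFun_repr,
      LinearEquiv.coe_coe]
    rw [← lc_cl (σ.1 _), c1, mul_smul_comm, map_smul, Pi.smul_apply, smul_eq_mul]
  have d2 : finrank F P = 2 := by
    have := pr.trace
    rw [map_smul, map_sub, tr, LinearMap.trace_id, smul_eq_mul, inv_mul_eq_iff_eq_mul₀ h2] at this
    have h5 : finrank F P ≤ 5 := by simpa using P.finrank_le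
    have h6 : finrank F P ≠ 5 := fun e => by
      have : P = ⊤ := Submodule.eq_top_of_finrank_eq (by simpa using e)
      have := zero_of_anti h2 fun v => (mP' v).mp (this ▸ trivial)
      rw [this, zero_mul, eq_comm, smul_eq_zero] at hs
      exact hs.elim hd one_ne_zero
    have e4 := mul_ne_zero h2 h2
    simp only [finrank_fintype_fun_eq_card, Fintype.card_fin] at this
    generalize finrank F P = n at *
    interval_cases n
    · exact absurd (by linear_combination this) e4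
    · exact absurd (by push_cast at this; linear_combination this) h2
    · rfl
    · exact absurd (by push_cast at this; linear_combination -this) h2
    · exact absurd (by push_cast at this; linear_combination -this) e4
    · simp at h6
  refine max_of_o5 h2 (fun g => ∀ v, v ∈ P ↔ g.1 v ∈ P) (fun g hg => (hH _ hg).trans ?_)
    (exists_om_not_stab (nd_Q5 h2) (by simp) (by rintro e; rw [e] at d2; simp at d2)
      (by rintro e; rw [e] at d2; simp at d2)) (hP P nds d2)
  have key : ∀ (ε : F) v, s * cl5 F ((phi5 h2 g).1 v) = ε • (cl5 F ((phi5 h2 g).1 v) * s) ↔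
      g.1⁻¹.1 * s * g.1.1 * cl5 F v = ε • (cl5 F v * (g.1⁻¹.1 * s * g.1.1)) := fun ε v => by
    rw [cl_phi, ← g.1⁻¹.mul_right_inj, ← g.1.mul_left_inj]
    simp [mul_assoc]
  constructor
  · intro h v
    have := key (-1) v
    simp only [neg_smul, one_smul] at this
    rw [mP', mP', this]
    rcases h with h | h
    · rw [show g.1⁻¹.1 * s * g.1.1 = s by
        conv_lhs => rw [← h]
        simp [mul_assoc]]
    · rw [show g.1⁻¹.1 * s * g.1.1 = -s by
        rw [← neg_eq_iff_eq_neg, ← neg_mul, ← mul_neg, ← h]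
        simp [mul_assoc]]
      simp [neg_eq_iff_eq_neg]
  · intro h
    generalize hs' : g.1⁻¹.1 * s * g.1.1 = s' at key
    obtain ⟨c, hc⟩ := scalar_of_comm h2 (y := s' * s) fun v => by
      have a1 := (key (-1) (v - σ.1 v)).mp (by
        rw [neg_smul, one_smul]; exact (mP' _).mp ((h _).mp (o2 v)))
      have a2 := (key 1 (v + σ.1 v)).mp (by
        rw [one_smul, ← c2, o3 _ fun p hp => ?_]
        rw [← OG.apply_inv_self (phi5 h2 g) p, OG.map_polar]
        exact o1 _ ((h _).mpr (by rwa [OG.apply_inv_self])) v)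
      have a3 := (mP' _).mp (o2 v)
      have a4 := c2 (v + σ.1 v)
      rw [o3 _ fun p hp => o1 p hp v] at a4
      have a5 : cl5 F v = (2 : F)⁻¹ • (cl5 F (v - σ.1 v) + cl5 F (v + σ.1 v)) := by
        rw [← map_add, sub_add_add_cancel, ← two_smul F, map_smul, smul_smul, inv_mul_cancel₀ h2,
          one_smul]
      rw [a5, mul_smul_comm, smul_mul_assoc, mul_add, add_mul, mul_assoc, mul_assoc, a3, ← a4,
        mul_neg, ← mul_assoc, ← mul_assoc, a1, a2]
      simp [mul_assoc]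
    have a1 : s' = (c * d⁻¹) • s := cs (by
      rw [hc, smul_mul_assoc, hs, smul_smul, inv_mul_cancel_right₀ hd])
    have a2 : s' * s' = d • 1 := by
      rw [← hs']
      simp [mul_assoc, ← mul_assoc s s, hs]
    rw [a1, smul_mul_smul_comm, hs, smul_smul] at a2
    have a3 : c * d⁻¹ * (c * d⁻¹) = 1 := mul_right_cancel₀ hd (by
      simpa using congrFun (congrFun a2 (.inl 0)) (.inl 0))
    have a4 : g.1.1 * s' * g.1⁻¹.1 = s := by
      rw [← hs']
      simp [mul_assoc]
    rcases mul_self_eq_one_iff.mp a3 with e | e <;> rw [a1, e] at a4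
    · exact Or.inl (by simpa using a4)
    · exact Or.inr (by simpa [neg_eq_iff_eq_neg] using a4)

theorem adj_iff {k k' : Matrix I4 I4 F} :
    (∀ u v, sympForm 2 F (k *ᵥ u) v = sympForm 2 F u (k' *ᵥ v)) ↔
      kᵀ * J (Fin 2) F = J (Fin 2) F * k' := by
  have : ∀ u v, sympForm 2 F (k *ᵥ u) v = u ⬝ᵥ ((kᵀ * J (Fin 2) F) *ᵥ v) := fun u v => by
    rw [sympForm, ← mulVec_mulVec, dotProduct_mulVec u, vecMul_transpose]
  simp only [this]
  simp only [sympForm, mulVec_mulVec]
  refine ⟨fun h => ?_, fun h => by simp [h]⟩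
  ext i j
  simpa using h (Pi.single i 1) (Pi.single j 1)

theorem max_sp4_lag [Finite F] (h2 : (2 : F) ≠ 0) (hP : PlaneMax (Q5 F))
    {D : Fin 2 → Submodule F (I4 → F)} (hD : Geo.IsMDecomposition 2 D)
    (hts : ∀ i, Geo.IsTotallySingularFor (sympForm 2 F) (D i)) :
    Geo.IsMaximalIn (spGL 2 F) (Geo.decompositionStabilizer D ⊓ spGL 2 F) := by
  obtain ⟨π, h⟩ := exists_isDec hD.indep hD.iSup_eq_top
  obtain ⟨s, hs⟩ : ∃ s : Matrix I4 I4 F, ∀ x, s *ᵥ x = π 0 x - π 1 x :=
    ⟨LinearMap.toMatrix' (π 0 - π 1), fun x => by rw [LinearMap.toMatrix'_mulVec]; rfl⟩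
  have sum : ∀ x, π 0 x + π 1 x = x := fun x => by simpa using h.sum x
  have e0 : ∀ x, x ∈ D 0 ↔ s *ᵥ x = x := fun x =>
    ⟨fun hx => by rw [hs, h.of_mem hx, h.of_ne (i := 1) (by simp) hx, sub_zero], fun e =>
      h.mem_of (by
        have : (2 : F) • π 1 x = 0 := by linear_combination (norm := module) sum x - e + hs x
        simpa [h2, Fin.forall_fin_two] using this)⟩
  have e1 : ∀ x, x ∈ D 1 ↔ s *ᵥ x = -x := fun x =>
    ⟨fun hx => by rw [hs, h.of_mem hx, h.of_ne (i := 0) (by simp) hx, zero_sub], fun e =>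
      h.mem_of (by
        have : (2 : F) • π 0 x = 0 := by linear_combination (norm := module) sum x + e - hs x
        simpa [h2, Fin.forall_fin_two] using this)⟩
  have ex : ∀ {A B : Matrix I4 I4 F}, (∀ i, ∀ x ∈ D i, A *ᵥ x = B *ᵥ x) → A = B := fun H =>
    Matrix.toLin'.injective (LinearMap.ext fun x => by
      rw [toLin'_apply, toLin'_apply, ← sum x, mulVec_add, mulVec_add, H 0 _ (h.mem 0 x),
        H 1 _ (h.mem 1 x)])
  refine max_of_plane h2 hP (s := s) one_ne_zero (ex ?_) ?_ fun g hg => ?_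
  · simp only [Fin.forall_fin_two, ← mulVec_mulVec, one_smul, one_mulVec]
    exact ⟨fun x hx => by rw [(e0 x).mp hx, (e0 x).mp hx],
      fun x hx => by rw [(e1 x).mp hx, mulVec_neg, (e1 x).mp hx, neg_neg]⟩
  · rw [← mul_neg, ← adj_iff]
    intro u v
    have a := hts 0 _ (h.mem 0 u) _ (h.mem 0 v)
    have b := hts 1 _ (h.mem 1 u) _ (h.mem 1 v)
    rw [neg_mulVec, hs, hs]
    conv_lhs => rw [← sum v]
    conv_rhs => rw [← sum u]
    simp only [sympForm, mulVec_add, mulVec_neg, mulVec_sub, dotProduct_add, add_dotProduct,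
      sub_dotProduct, dotProduct_sub, dotProduct_neg] at a b ⊢
    linear_combination 2 * a - 2 * b
  rw [mem_decStab, Units.mul_inv_eq_iff_eq_mul, Units.mul_inv_eq_iff_eq_mul]
  have ga : ∀ x, glEquiv I4 F g x = g.1 *ᵥ x := fun x => rfl
  constructor
  · rintro ⟨σ, hσ⟩
    have m : ∀ i, ∀ x ∈ D i, g.1 *ᵥ x ∈ D (σ i) := fun i x hx => hσ i ▸ ⟨x, hx, rfl⟩
    have n := σ.injective.ne (show (0 : Fin 2) ≠ 1 by simp)
    have m0 := m 0
    have m1 := m 1
    generalize σ 0 = a at *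
    generalize σ 1 = b at *
    fin_cases a <;> fin_cases b <;> simp only [Fin.zero_eta, Fin.mk_one, ne_eq,
      not_true_eq_false] at n m0 m1
    · refine Or.inl (ex ?_)
      simp only [Fin.forall_fin_two, ← mulVec_mulVec]
      exact ⟨fun x hx => by rw [(e0 x).mp hx, (e0 _).mp (m0 x hx)],
        fun x hx => by rw [(e1 x).mp hx, (e1 _).mp (m1 x hx), mulVec_neg]⟩
    · refine Or.inr (ex ?_)
      simp only [Fin.forall_fin_two, ← mulVec_mulVec, neg_mulVec]
      exact ⟨fun x hx => by rw [(e0 x).mp hx, (e1 _).mp (m0 x hx), neg_neg],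
        fun x hx => by rw [(e1 x).mp hx, (e0 _).mp (m1 x hx), mulVec_neg]⟩
  · intro H
    refine h.permD_of hD.finrank_eq hD.pos ?_
    simp only [ga, Fin.forall_fin_two]
    rcases H with H | H
    · exact ⟨⟨0, fun x hx => by rw [e0, mulVec_mulVec, ← H, ← mulVec_mulVec, (e0 x).mp hx]⟩,
        1, fun x hx => by rw [e1, mulVec_mulVec, ← H, ← mulVec_mulVec, (e1 x).mp hx, mulVec_neg]⟩
    · rw [neg_mul, ← neg_eq_iff_eq_neg] at H
      exact ⟨⟨1, fun x hx => by
          rw [e1, mulVec_mulVec, ← H, neg_mulVec, ← mulVec_mulVec, (e0 x).mp hx]⟩,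
        0, fun x hx => by
          rw [e0, mulVec_mulVec, ← H, neg_mulVec, ← mulVec_mulVec, (e1 x).mp hx, mulVec_neg,
            neg_neg]⟩

theorem max_sp4_u [Finite F] (h2 : (2 : F) ≠ 0) (hP : PlaneMax (Q5 F))
    {K : Subalgebra F (Matrix I4 I4 F)} (hK : Geo.IsFieldSubalgebra 2 K)
    (hac : Geo.IsAdjointClosedFor (sympForm 2 F) K) (hn : ¬ Geo.IsSelfAdjointFor (sympForm 2 F) K) :
    Geo.IsMaximalIn (spGL 2 F) (Geo.subalgebraNormalizer K ⊓ spGL 2 F) := by
  simp only [Geo.IsSelfAdjointFor, Geo.IsAdjointClosedFor, adj_iff] at hac hn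
  push Not at hn
  obtain ⟨k, hk, hn⟩ := hn
  obtain ⟨k', hk', ha⟩ := hac k hk
  have ha' : k'ᵀ * J (Fin 2) F = J (Fin 2) F * k := by
    simpa using (congrArg transpose ha).symm
  have sK := K.sub_mem hk hk'
  have s0 : k - k' ≠ 0 := fun e => hn (by rw [ha, sub_eq_zero.mp e])
  have sk : (k - k')ᵀ * J (Fin 2) F = -(J (Fin 2) F * (k - k')) := by
    rw [transpose_sub, sub_mul, mul_sub, ha, ha', neg_sub]
  generalize k - k' = s at sK s0 sk
  have cJ : ∀ {x : Matrix I4 I4 F}, J (Fin 2) F * x = 0 → x = 0 := fun e => by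
    simpa [← mul_assoc, J_squared] using congrArg (J (Fin 2) F * ·) e
  have ns : ∀ a b : F, a • (1 : Matrix I4 I4 F) = b • s → b = 0 := fun a b e => by
    have a1 := congrArg (·ᵀ * J (Fin 2) F) e
    have a2 := congrArg (J (Fin 2) F * ·) e
    simp only [transpose_smul, transpose_one, smul_mul_assoc, mul_smul_comm, one_mul,
        mul_one, sk] at a1 a2
    have : (2 : F) • b • s = 0 := cJ (by
      simp only [mul_smul_comm]
      linear_combination (norm := module) a1 - a2)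
    simpa [h2, s0] using this
  have sp : ∀ x ∈ K, ∃ a b : F, a • (1 : Matrix I4 I4 F) + b • s = x := fun x hx => by
    rw [← Submodule.mem_span_pair, Submodule.eq_of_le_of_finrank_eq (S₂ := K.toSubmodule)
      (Submodule.span_le.mpr (by rintro _ (rfl | rfl); exacts [K.one_mem, sK])) (by
        rw [finrank_span_pair_eq (linearIndependent_pair_of_notMem one_ne_zero fun e => ?_),
          Subalgebra.finrank_toSubmodule, hK.finrank_eq]
        obtain ⟨a, ha⟩ := Submodule.mem_span_singleton.mp e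
        exact one_ne_zero (ns a 1 (by rw [ha, one_smul])))]
    exact hx
  obtain ⟨d, b, e⟩ := sp _ (K.mul_mem sK sK)
  obtain rfl : b = 0 := by
    have a1 : (s * s)ᵀ * J (Fin 2) F = J (Fin 2) F * (s * s) := by
      rw [transpose_mul, mul_assoc, sk, mul_neg, ← mul_assoc, sk]
      simp [mul_assoc]
    rw [← e] at a1
    simp only [transpose_add, transpose_smul, transpose_one, add_mul, mul_add, smul_mul_assoc,
      mul_smul_comm, one_mul, mul_one, sk] at a1
    have : (2 : F) • b • s = 0 := cJ (by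
      simp only [mul_smul_comm]
      linear_combination (norm := module) -a1)
    simpa [h2, s0] using this
  rw [zero_smul, add_zero] at e
  have hd : d ≠ 0 := by
    rintro rfl
    obtain ⟨y, -, hy⟩ := hK.inv s sK s0
    exact s0 (by rw [← mul_one s, ← hy, ← mul_assoc, ← e, zero_smul, zero_mul])
  refine max_of_plane h2 hP hd e.symm sk fun g _ => ⟨fun hg => ?_, fun hg x => ?_⟩
  · obtain ⟨a, b, hab⟩ := sp _ ((hg s).mp sK)
    have a1 : (a • 1 + b • s) * (a • 1 + b • s) = d • (1 : Matrix I4 I4 F) := by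
      rw [hab]
      simp [mul_assoc, ← mul_assoc s s, ← e]
    simp only [add_mul, mul_add, smul_mul_assoc, mul_smul_comm, one_mul, mul_one, ← e] at a1
    have a2 := ns (d - a * a - b * b * d) (2 * a * b) (by linear_combination (norm := module) -a1)
    have b0 : b ≠ 0 := by
      rintro rfl
      rw [zero_smul, add_zero, eq_comm, Units.mul_inv_eq_iff_eq_mul, smul_mul_assoc, one_mul,
        ← mul_one g.1, ← mul_smul_comm, mul_assoc, one_mul, Units.mul_right_inj] at hab
      exact one_ne_zero (ns a 1 (by rw [← hab, one_smul]))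
    obtain rfl : a = 0 := by simpa [h2, b0] using a2
    have a3 : b * b = 1 := mul_right_cancel₀ hd (by
      simpa [mul_assoc] using congrFun (congrFun a1 (.inl 0)) (.inl 0))
    rcases mul_self_eq_one_iff.mp a3 with rfl | rfl
    · exact Or.inl (by simpa using hab.symm)
    · exact Or.inr (by simpa using hab.symm)
  · have key : ∀ g : GL I4 F, (g.1 * s * g⁻¹.1 = s ∨ g.1 * s * g⁻¹.1 = -s) → ∀ x ∈ K,
        g.1 * x * g⁻¹.1 ∈ K := fun g hg x hx => by
      obtain ⟨a, b, rfl⟩ := sp x hx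
      simp only [add_mul, mul_add, smul_mul_assoc, mul_smul_comm, mul_one, Units.mul_inv]
      refine K.add_mem (K.smul_mem K.one_mem _) (K.smul_mem ?_ _)
      rcases hg with hg | hg <;> rw [hg]
      exacts [sK, K.neg_mem sK]
    refine ⟨key g hg x, fun hx => ?_⟩
    have := key g⁻¹ (hg.imp (fun e => by
      conv_lhs => rw [← e]
      simp [mul_assoc]) fun e => by
      rw [← neg_eq_iff_eq_neg, ← neg_mul, ← mul_neg, ← e]
      simp [mul_assoc]) _ hx
    simpa [mul_assoc] using this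

theorem max_sp4_frame [Finite F] (h2 : (2 : F) ≠ 0) (hP : FrameMax (Q5 F))
    {R : Subgroup (GL I4 F)} (hs : Geo.IsSymplecticTypeGroup 2 R)
    (hi : Geo.ActsAbsolutelyIrreducibly (Geo.matrixSet R)) (hf : R ≤ spGL 2 F)
    (hc : Nat.card R = 32) (hz : Nat.card (Subgroup.center R) = 2) (hm : Geo.IsOfMinusType 2 R) :
    Geo.IsMaximalIn (spGL 2 F) (Geo.subgroupNormalizer R ⊓ spGL 2 F) := by
  have h := Nor.e2_of hs hi h2 (by simp) (by rw [hz, hc]) (Or.inl hz)
  obtain ⟨u, v, s, t, g⟩ := h.gen_of_mn (h.mn_of ((Nor.card_center' R).symm.trans hz) hm)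
  have c1 : ∀ x, u * (u * x) = x := fun x => by rw [← mul_assoc, g.uu, one_mul]
  have c2 : ∀ x, v * (v * x) = x := fun x => by rw [← mul_assoc, g.vv, one_mul]
  have c3 : ∀ x, s * (s * x) = -x := fun x => by rw [← mul_assoc, g.ss, neg_one_mul]
  have c4 : ∀ x, t * (t * x) = -x := fun x => by rw [← mul_assoc, g.tt, neg_one_mul]
  have c5 : ∀ x, v * (u * x) = -(u * (v * x)) := fun x => by
    rw [← mul_assoc, g.vu, neg_mul, mul_assoc]
  have c6 : ∀ x, t * (s * x) = -(s * (t * x)) := fun x => by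
    rw [← mul_assoc, g.ts, neg_mul, mul_assoc]
  have c7 : ∀ x, s * (u * x) = u * (s * x) := fun x => by rw [← mul_assoc, g.su, mul_assoc]
  have c8 : ∀ x, s * (v * x) = v * (s * x) := fun x => by rw [← mul_assoc, g.sv, mul_assoc]
  have c9 : ∀ x, t * (u * x) = u * (t * x) := fun x => by rw [← mul_assoc, g.tu, mul_assoc]
  have c10 : ∀ x, t * (v * x) = v * (t * x) := fun x => by rw [← mul_assoc, g.tv, mul_assoc]
  obtain ⟨γ, hγ⟩ : ∃ γ : Fin 5 → GL I4 F, γ = ![u, v, u * v * s, u * v * t, u * v * s * t] :=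
    ⟨_, rfl⟩
  have γR : ∀ i, γ i ∈ R := fun i => by
    have := mul_mem g.mu g.mv
    fin_cases i <;> simp only [hγ]
    exacts [g.mu, g.mv, mul_mem this g.ms, mul_mem this g.mt, mul_mem (mul_mem this g.ms) g.mt]
  have γ1 : ∀ i, γ i * γ i = 1 := fun i => by
    fin_cases i <;> simp [hγ, mul_assoc, c1, c2, c3, c4, c5, c6, c7, c8, c9, c10, g.uu, g.vv, g.ss,
      g.tt, g.vu, g.ts, g.su, g.sv, g.tu, g.tv]
  have γ2 : ∀ i j, i ≠ j → γ i * γ j = -(γ j * γ i) := fun i j hij => by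
    fin_cases i <;> fin_cases j <;> simp at hij <;>
      simp [hγ, mul_assoc, c1, c2, c3, c4, c5, c6, c7, c8, c9, c10, g.uu, g.vv, g.ss,
        g.tt, g.vu, g.ts, g.su, g.sv, g.tu, g.tv]
  have γ3 : ∀ i, cl5 F (lc5 F (γ i).1) = (γ i).1 := fun i => by
    obtain ⟨j, hj⟩ := exists_ne i
    refine cl_lc h2 ?_ (h.tr (γR i) (h.not_zs (γ2 i j hj.symm)))
    conv_rhs => rw [← (mem_spGL_iff _).mp (hf (γR i)), mul_assoc, ← Units.val_mul, γ1,
      Units.val_one, mul_one]
  have q1 : ∀ i, Q5 F (lc5 F (γ i).1) = 1 := fun i => by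
    have := cl_sq (lc5 F (γ i).1)
    rw [γ3, ← Units.val_mul, γ1] at this
    simpa using (congrFun (congrFun this (.inl 0)) (.inl 0)).symm
  have q2 : ∀ i j, i ≠ j → polar (Q5 F) (lc5 F (γ i).1) (lc5 F (γ j).1) = 0 := fun i j hij => by
    have := cl_anti (lc5 F (γ i).1) (lc5 F (γ j).1)
    rw [γ3, γ3, ← Units.val_mul, γ2 i j hij, Units.val_neg, Units.val_mul, neg_add_cancel] at this
    simpa using (congrFun (congrFun this (.inl 0)) (.inl 0)).symm
  have li : LinearIndependent F fun i => lc5 F (γ i).1 :=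
    Fintype.linearIndependent_iff.mpr fun c hc i => by
      have := congrArg (polar (Q5 F) (lc5 F (γ i).1)) hc
      rw [p_sum_right, Finset.sum_eq_single i (fun j _ hj => by simp [q2 i j hj.symm]) (by simp),
        p_smul_right, p_self, q1] at this
      simpa [h2] using this
  let e := basisOfLinearIndependentOfCardEqFinrank li (by simp)
  have he : ∀ i, e i = lc5 F (γ i).1 := fun i => by simp [e]
  have ce : ∀ i, cl5 F (e i) = (γ i).1 := fun i => by rw [he, γ3]
  have qe : ∀ i, Q5 F (e i) = 1 := fun i => by rw [he, q1]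
  have pe : ∀ i j, i ≠ j → polar (Q5 F) (e i) (e j) = 0 := fun i j hij => by rw [he, he, q2 i j hij]
  have pr : ∀ i x, polar (Q5 F) (e i) x = 2 * e.repr x i := fun i x => by
    conv_lhs => rw [← e.sum_repr x]
    rw [p_sum_right, Finset.sum_eq_single i (fun j _ hj => by simp [pe _ _ hj.symm]) (by simp),
      p_smul_right, p_self, qe]
    ring
  obtain ⟨h1, h3⟩ := hP e qe pe
  refine max_of_o5 h2 (fun g => g.1 ∈ mon e) (fun y _ => ⟨fun hy => mem_mon fun i => ?_,
    fun hy => ?_⟩) h1 h3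
  · have a1 : y.1 * γ i * y.1⁻¹ ∈ R := (hy _).mp (γR i)
    have a2 : cl5 F ((phi5 h2 y).1 (e i)) = (y.1 * γ i * y.1⁻¹).1 := by rw [cl_phi, ce]; rfl
    generalize (phi5 h2 y).1 (e i) = w at a2
    generalize y.1 * γ i * y.1⁻¹ = x at a1 a2
    by_cases hc : ∃ j, γ j * x = x * γ j
    · obtain ⟨j, hj⟩ := hc
      have := cl_anti (e j) w
      rw [a2, ce, ← Units.val_mul, ← Units.val_mul, ← hj, pr, ← two_smul F, mul_smul,
        smul_right_inj h2] at this
      have a3 : w = e.repr w j • e j := cl5_inj (by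
        rw [map_smul, ce, a2, ← mul_one (γ j).1, ← mul_smul_comm, ← this, ← Units.val_mul,
          ← mul_assoc, γ1, one_mul])
      exact a3 ▸ (FV.basis j).smul _
    · refine ⟨0, fun j _ => ?_⟩
      have := cl_anti (e j) w
      rw [a2, ce, ← Units.val_mul, (Nor.pm h.sq (γR j) a1).resolve_left fun e => hc ⟨j, e⟩,
        Units.val_neg, Units.val_mul, neg_add_cancel, pr] at this
      simpa [h2] using (congrFun (congrFun this (.inl 0)) (.inl 0)).symm
  · have key : ∀ i, y.1 * γ i * y.1⁻¹ ∈ R := fun i => by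
      obtain ⟨j, a, -, ha⟩ := mon_basis hy i
      have a1 := OG.map_Q (phi5 h2 y) (e i)
      have a2 := cl_phi h2 y (e i)
      rw [ha, q_smul, qe, qe, mul_one] at a1
      rw [ha, map_smul, ce, ce] at a2
      rcases mul_self_eq_one_iff.mp ((pow_two a).symm.trans a1) with rfl | rfl
      · exact (Units.ext (by simpa using a2) : γ j = y.1 * γ i * y.1⁻¹) ▸ γR j
      · exact (Units.ext (by simpa using a2) : -1 * γ j = y.1 * γ i * y.1⁻¹) ▸
          mul_mem h.neg (γR j)
    have k0 : y.1 * u * y.1⁻¹ ∈ R := by simpa [hγ] using key 0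
    have k1 : y.1 * v * y.1⁻¹ ∈ R := by simpa [hγ] using key 1
    refine h.norm_of g k0 k1 ?_ ?_
    · simpa [hγ, mul_assoc, c1, c2] using mul_mem k1 (mul_mem k0 (key 2))
    · simpa [hγ, mul_assoc, c1, c2] using mul_mem k1 (mul_mem k0 (key 3))

end Cfsg.Agent.Max3
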