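import Mathlib
import Cfsg.Agent.Max3.P5b
import Cfsg.Agent.Orth.Disc

/-!
# Orthogonal frames in dimension five: basics
-/

set_option autoImplicit false
set_option linter.unusedSectionVars false

namespace Cfsg.Agent.Max3

open Module QuadraticMap Orth Cfsg.Agent.Max

variable {F V κ : Type*} [Field F] [AddCommGroup V] [Module F V] [Fintype κ] [DecidableEq κ]
  {Q : QuadraticForm F V} {e : Basis κ F V} {α : F} {M : Subgroup (OG Q)}

/-- minus the reflection in `v` lies in `M` -/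
def IR (M : Subgroup (OG Q)) (v : V) : Prop := negOne Q * refl Q v ∈ M

theorem negOne_comm (g : OG Q) : negOne Q * g = g * negOne Q :=
  OG.ext fun x => by simp [negOne_apply]

theorem negOne_sq : negOne Q * negOne Q = 1 := OG.ext fun x => by simp [negOne_apply]

theorem IR.mul {a b : V} (ha : IR M a) (hb : IR M b) : refl Q a * refl Q b ∈ M := by
  have := mul_mem ha hb
  rwa [mul_assoc, ← mul_assoc (refl Q a), ← negOne_comm, mul_assoc, ← mul_assoc, negOne_sq,
    one_mul] at this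

theorem IR.of_mul {a b : V} (hb : IR M b) (h : refl Q a * refl Q b ∈ M) : IR M a := by
  have := mul_mem h hb
  rwa [negOne_comm, mul_assoc, refl_cancel, ← negOne_comm] at this

theorem IR.map {a : V} (ha : IR M a) {g : OG Q} (hg : g ∈ M) : IR M (g.1 a) := by
  have := mul_mem (mul_mem hg ha) (inv_mem hg)
  rwa [← mul_assoc, ← negOne_comm, mul_assoc, mul_assoc, ← mul_assoc g, refl_conj] at this

theorem IR.smul {a : V} (ha : IR M a) {c : F} (hc : c ≠ 0) : IR M (c • a) := by
  rwa [IR, refl_smul hc]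

theorem IR.neg {a : V} (ha : IR M a) : IR M (-a) := by
  rwa [IR, refl_neg]

theorem IR.refl {a b : V} (ha : IR M a) (hb : IR M b) : IR M ((refl Q b).1 a) := by
  simpa [negOne_apply] using (ha.map hb).neg

theorem IR.grow {x v b : V} (hb : IR M b) (hx : Q x = 0) (hv : v ∈ OE M x)
    (h1 : polar Q b x = 0) (h2 : polar Q b v ≠ 0) (h3 : Q b ≠ 0) : b ∈ OE M x := by
  have := OE.map hv hb
  rw [OG.mul_apply, OG.mul_apply, refl_apply_of_orth h1, negOne_apply, negOne_apply,
    ← neg_one_smul F x, refl_apply] at this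
  have := (OE M x).add_mem hv (OE.of_smul hx (by simp) this)
  rwa [neg_sub, add_sub_cancel, (OE M x).smul_mem_iff (mul_ne_zero (inv_ne_zero h3) h2)] at this

theorem op_of_three [FiniteDimensional F V] (hQ : ND Q) (h2 : (2 : F) ≠ 0) (hn : finrank F V = 5)
    {x a b c : V} (hx : Q x = 0) (hx0 : x ≠ 0) (ha : a ∈ OE M x) (hb : b ∈ OE M x)
    (hc : c ∈ OE M x) (qa : Q a ≠ 0) (qb : Q b ≠ 0) (qc : Q c ≠ 0) (ab : polar Q a b = 0)
    (ac : polar Q a c = 0) (bc : polar Q b c = 0) : OP M x := by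
  have li : LinearIndependent F ![x, a, b, c] := Fintype.linearIndependent_iff.mpr fun s hs => by
    rw [Fin.sum_univ_four] at hs
    have e1 := congrArg (polar Q a) hs
    have e2 := congrArg (polar Q b) hs
    have e3 := congrArg (polar Q c) hs
    simp [polar_comm Q a x, polar_comm Q b x, polar_comm Q c x, ha.1, hb.1, hc.1, ab, ac, bc,
      polar_comm Q b a, polar_comm Q c a, polar_comm Q c b, p_self, h2, qa, qb, qc] at e1 e2 e3
    simp [e1, e2, e3, hx0] at hs
    intro i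
    fin_cases i <;> simp [*]
  have h1 : Submodule.span F (Set.range ![x, a, b, c]) ≤ OE M x := Submodule.span_le.mpr (by
    rintro _ ⟨i, rfl⟩
    fin_cases i
    exacts [OE.self hx, ha, hb, hc])
  have h3 := Submodule.eq_of_le_of_finrank_eq (h1.trans (show OE M x ≤ perp Q (F ∙ x) from
    fun v hv => mem_perp_singleton.mpr hv.1)) (by
      have := hQ.finrank_perp_singleton hx0
      rw [finrank_span_eq_card li, Fintype.card_fin]
      omega)
  exact ⟨hx, fun v hv => h1 (h3 ▸ mem_perp_singleton.mpr hv)⟩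

/-- An orthogonal frame in dimension five whose stabiliser lies in `M`. -/
structure OF5 (Q : QuadraticForm F V) (e : Basis κ F V) (α : F) (M : Subgroup (OG Q)) : Prop where
  nd : ND Q
  two : (2 : F) ≠ 0
  ne : α ≠ 0
  nat : ∀ c : F, ∃ n : ℕ, c = n
  hn : Fintype.card κ = 5
  q : ∀ i, Q (e i) = α
  orth : ∀ i j, i ≠ j → polar Q (e i) (e j) = 0
  le : ∀ g ∈ commutator (OG Q), g.1 ∈ mon e → g ∈ M

namespace OF5
variable (h : OF5 Q e α M) {a b c i j k l : κ} {u v w x y : V} {J : Finset κ}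
include h

theorem pb (i : κ) (x : V) : polar Q (e i) x = 2 * α * e.repr x i := by
  conv_lhs => rw [← e.sum_repr x]
  rw [p_sum_right, Finset.sum_eq_single i (fun j _ hj => by simp [h.orth _ _ hj.symm]) (by simp),
    p_smul_right, p_self, h.q]
  ring

theorem pol (x y : V) : polar Q x y = 2 * α * ∑ i, e.repr x i * e.repr y i := by
  conv_lhs => rw [← e.sum_repr x]
  rw [p_sum_left, Finset.mul_sum]
  exact Finset.sum_congr rfl fun i _ => by rw [p_smul_left, h.pb]; ring

theorem qq (x : V) : Q x = α * ∑ i, e.repr x i ^ 2 := mul_left_cancel₀ h.two (by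
  rw [← p_self, h.pol, mul_assoc]
  simp only [pow_two])

theorem qb_ne (i : κ) : Q (e i) ≠ 0 := h.q i ▸ h.ne

theorem q_bsub (hij : i ≠ j) : Q (e i - e j) = 2 * α := by
  rw [q_sub, h.q, h.q, h.orth _ _ hij]
  ring

theorem q_badd (hij : i ≠ j) : Q (e i + e j) = 2 * α := by
  rw [q_add, h.q, h.q, h.orth _ _ hij]
  ring

theorem ne2 : 2 * α ≠ 0 := mul_ne_zero h.two h.ne

theorem refl_b (i : κ) : (refl Q (e i)).1 = sg e {i} := e.ext' fun j => by
  rw [sgn_basis]
  split_ifs with hj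
  · rw [Finset.mem_singleton.mp hj, refl_apply_self (h.qb_ne i)]
  · exact refl_apply_of_orth (h.orth _ _ fun e => hj (by simp [e]))

theorem refl_bsub (hij : i ≠ j) : (refl Q (e i - e j)).1 = pm e (Equiv.swap i j) :=
  e.ext' fun k => by
    rw [pm_basis, refl_apply, h.q_bsub hij, polar_sub_left, h.pb, h.pb, ← mul_sub,
      inv_mul_cancel_left₀ h.ne2, repr_basis, repr_basis, Equiv.swap_apply_def]
    split_ifs <;> simp_all

variable [FiniteDimensional F V]

theorem mon_b (i : κ) : (refl Q (e i)).1 ∈ mon e := h.refl_b i ▸ sg_mem _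

theorem mon_s (hij : i ≠ j) : (refl Q (e i - e j)).1 ∈ mon e := h.refl_bsub hij ▸ pm_mem _

theorem rr (i j : κ) : refl Q (e i) * refl Q (e j) ∈ M :=
  h.le _ (h.nd.refl_mul_refl_mem_commutator (h.qb_ne i) ((h.q i).trans (h.q j).symm))
    (mul_mem (h.mon_b i) (h.mon_b j))

theorem ss (hij : i ≠ j) (hkl : k ≠ l) : refl Q (e i - e j) * refl Q (e k - e l) ∈ M :=
  h.le _ (h.nd.refl_mul_refl_mem_commutator (h.q_bsub hij ▸ h.ne2)
    ((h.q_bsub hij).trans (h.q_bsub hkl).symm)) (mul_mem (h.mon_s hij) (h.mon_s hkl))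

theorem exists_rot (hij : i ≠ j) (hik : i ≠ k) (hil : i ≠ l) (hjk : j ≠ k) (hjl : j ≠ l)
    (hkl : k ≠ l) : ∃ ρ ∈ commutator (OG Q), ρ.1 ∈ mon e ∧ ∀ x, e.repr (ρ.1 x) i = e.repr x j ∧
      e.repr (ρ.1 x) j = -e.repr x i ∧ e.repr (ρ.1 x) k = e.repr x l ∧
      e.repr (ρ.1 x) l = -e.repr x k ∧
      ∀ m, m ∉ ({i, j, k, l} : Finset κ) → e.repr (ρ.1 x) m = e.repr x m := by
  refine ⟨refl Q (e i - e j) * refl Q (e k - e l) * (refl Q (e i) * refl Q (e k)), mul_mem
    (h.nd.refl_mul_refl_mem_commutator (h.q_bsub hij ▸ h.ne2)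
      ((h.q_bsub hij).trans (h.q_bsub hkl).symm))
    (h.nd.refl_mul_refl_mem_commutator (h.qb_ne i) ((h.q i).trans (h.q k).symm)),
    mul_mem (mul_mem (h.mon_s hij) (h.mon_s hkl)) (mul_mem (h.mon_b i) (h.mon_b k)), fun x => ?_⟩
  simp only [OG.mul_apply, h.refl_b, h.refl_bsub hij, h.refl_bsub hkl, repr_pm, repr_sgn,
    Equiv.symm_swap, Equiv.swap_apply_def, Finset.mem_singleton, Finset.mem_insert, not_or]
  refine ⟨?_, ?_, ?_, ?_, fun m hm => ?_⟩ <;> simp [*, Ne.symm]

theorem subfield (K : Subfield F) : K = ⊤ := eq_top_iff.mpr fun c _ => by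
  obtain ⟨n, rfl⟩ := h.nat c
  exact natCast_mem K n

variable [Finite F]

theorem exists_sing3 (hab : a ≠ b) (hac : a ≠ c) (hbc : b ≠ c) : ∃ u, Q u = 0 ∧
    e.repr u c = 1 ∧ ∀ i, e.repr u i ≠ 0 → i ∈ ({a, b, c} : Finset κ) := by
  obtain ⟨s, t, H⟩ := exists_binary_eq h.two one_ne_zero one_ne_zero (-1)
  refine ⟨s • e a + t • e b + e c, ?_, by simp [repr_basis, hac, hbc], fun i hi => ?_⟩
  · simp only [q_add, q_smul, h.q, polar_add_left, p_smul_left, p_smul_right, h.orth _ _ hab,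
      h.orth _ _ hac, h.orth _ _ hbc]
    linear_combination α * H
  · by_contra hc
    simp only [Finset.mem_insert, Finset.mem_singleton, not_or] at hc
    simp [repr_basis, Ne.symm hc.1, Ne.symm hc.2.1, Ne.symm hc.2.2] at hi

theorem exists_not_mon : ∃ g ∈ commutator (OG Q), g.1 ∉ mon e := by
  have hn := h.hn.ge
  obtain ⟨a, -, b, -, c, -, -, -, -, hab, hac, hbc⟩ := exists_three_not_mem
    (I := (Finset.univ : Finset κ)) (s := ∅) (by simp; omega)
  obtain ⟨d, -, hd⟩ := exists_mem_not_mem (I := Finset.univ) (s := {a, b, c})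
    (Finset.card_le_three.trans_lt (by simp; omega))
  obtain ⟨u, hu, uc, hu'⟩ := h.exists_sing3 hab hac hbc
  have ud : e.repr u d = 0 := by_contra fun e => hd (hu' d e)
  have h1 : polar Q u (e d) = 0 := by rw [polar_comm, h.pb, ud, mul_zero]
  refine ⟨eich Q u (e d), h.nd.eich_mem_commutator (good_of_two_ne_zero h.two) _ _, fun hm => ?_⟩
  have := (hm (e d)).mp (FV.basis d)
  rw [eich_apply hu h1, h1, h.pb] at this
  have hcd : c ≠ d := fun e => hd (by simp [e])
  simpa [repr_basis, hcd.symm, uc, h.ne, h.two] using this.eq_zero (i := d) (by simp [ud]) hcd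

end OF5

end Cfsg.Agent.Max3
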