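import Mathlib
import Cfsg.Agent.Max3.P5c

/-!
# Stabilisers of orthogonal frames over prime fields in dimension five
-/

set_option autoImplicit false
set_option linter.unusedSectionVars false
set_option linter.unusedSimpArgs false

namespace Cfsg.Agent.Max3

open Module QuadraticMap Orth Cfsg.Agent.Max

variable {F V : Type*} [Field F] [AddCommGroup V] [Module F V]
  {Q : QuadraticForm F V} {e : Basis (Fin 5) F V} {M : Subgroup (OG Q)}

theorem compl_four (c : Fin 5) : ∃ i j k l : Fin 5, i ≠ j ∧ i ≠ k ∧ i ≠ l ∧ j ≠ k ∧ j ≠ l ∧ k ≠ l ∧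
    c ≠ i ∧ c ≠ j ∧ c ≠ k ∧ c ≠ l ∧ ∀ m, m = c ∨ m = i ∨ m = j ∨ m = k ∨ m = l := by
  fin_cases c
  exacts [⟨1, 2, 3, 4, by decide⟩, ⟨0, 2, 3, 4, by decide⟩, ⟨0, 1, 3, 4, by decide⟩,
    ⟨0, 1, 2, 4, by decide⟩, ⟨0, 1, 2, 3, by decide⟩]

theorem sum_five {c i j k l : Fin 5} (hij : i ≠ j) (hik : i ≠ k) (hil : i ≠ l) (hjk : j ≠ k)
    (hjl : j ≠ l) (hkl : k ≠ l) (hci : c ≠ i) (hcj : c ≠ j) (hck : c ≠ k) (hcl : c ≠ l)
    (H : ∀ m, m = c ∨ m = i ∨ m = j ∨ m = k ∨ m = l) (f : Fin 5 → F) :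
    ∑ m, f m = f c + f i + f j + f k + f l := by
  rw [show (Finset.univ : Finset (Fin 5)) = {c, i, j, k, l} from
    Finset.ext fun m => by simpa using H m]
  simp [Finset.sum_insert, *, add_assoc]

namespace OF5
variable (h : OF5 Q e 1 M) {a b c i j k l : Fin 5} {u v w x y : V}
  [FiniteDimensional F V] [Finite F]
include h

theorem dim : finrank F V = 5 := by rw [finrank_eq_card_basis e, h.hn]

theorem ir_b (i : Fin 5) : IR M (e i) := by
  refine IR.of_mul (b := e 0) ?_ (h.rr i 0)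
  have : negOne Q * refl Q (e 0) = refl Q (e 1) * refl Q (e 2) * (refl Q (e 3) * refl Q (e 4)) :=
    OG.ext fun x => e.ext_elem fun i => by
      simp only [OG.mul_apply, h.refl_b, repr_sgn, negOne_apply, map_neg, Finsupp.neg_apply]
      fin_cases i <;> simp
  rw [IR, this]
  exact mul_mem (h.rr _ _) (h.rr _ _)

theorem fin_op (hx : OP M x) (hx0 : x ≠ 0) : commutator (OG Q) ≤ M := by
  by_contra H
  have key : ∀ i j, i ≠ j → e.repr x i ^ 2 + e.repr x j ^ 2 = 0 := fun i j hij => by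
    by_contra hc
    refine H (om_le_of_pair h.nd h.dim.ge hx (hx.map (h.rr i j)) fun e' => hc ?_)
    simp only [OG.mul_apply, refl_apply, polar_sub_right, p_self, hx.1, p_smul_right,
      polar_comm Q x (e _), h.pb, h.q, repr_basis, if_neg hij.symm, map_sub, map_smul,
      Finsupp.sub_apply, Finsupp.smul_apply, inv_one, smul_eq_mul] at e'
    exact mul_left_cancel₀ (mul_ne_zero h.two h.two) (by linear_combination -e')
  obtain ⟨c, hc⟩ := exists_repr_ne (e := e) hx0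
  obtain ⟨i, j, -, -, hij, -, -, -, -, -, hci, hcj, -⟩ := compl_four c
  exact mul_ne_zero h.two (pow_ne_zero 2 hc) (by
    linear_combination key c i hci + key c j hcj - key i j hij)

theorem full3 (h3 : (3 : F) ≠ 0) (hv : Q v = 1) (hv' : IR M v) (hij : i ≠ j) (hik : i ≠ k)
    (hil : i ≠ l) (hjk : j ≠ k) (hjl : j ≠ l) (hkl : k ≠ l) (hci : c ≠ i) (hcj : c ≠ j)
    (hck : c ≠ k) (hcl : c ≠ l) (H : ∀ m, m = c ∨ m = i ∨ m = j ∨ m = k ∨ m = l)
    (h0 : e.repr v c ≠ 0) (h1 : e.repr v c ^ 2 ≠ 1) (h2 : 2 * e.repr v c ^ 2 ≠ 1) :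
    ∃ z, e.repr z c = 0 ∧ e.repr z i = e.repr v j ∧ e.repr z j = -e.repr v i ∧
      e.repr z k = e.repr v l ∧ e.repr z l = -e.repr v k ∧ ∀ a b : V,
      (∃ x y s : F, a = x • (v - e.repr v c • e c) + y • z + s • e c) →
      (∃ x y s : F, b = x • (v - e.repr v c • e c) + y • z + s • e c) → Q a ≠ 0 → Q a = Q b →
      refl Q a * refl Q b ∈ M := by
  obtain ⟨ρ, ρ1, ρ2, ρ3⟩ := h.exists_rot hij hik hil hjk hjl hkl
  have hc : c ∉ ({i, j, k, l} : Finset (Fin 5)) := by simp [*]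
  have hq : Q (v - e.repr v c • e c) = 1 - e.repr v c ^ 2 := by
    rw [q_sub, q_smul, p_smul_right, polar_comm, h.pb, h.q, hv]
    ring
  have wc : e.repr (v - e.repr v c • e c) c = 0 := by simp
  have wm : ∀ m, c ≠ m → e.repr (v - e.repr v c • e c) m = e.repr v m := fun m hm => by
    simp [repr_basis, hm]
  have hvv : v = (1 : F) • (v - e.repr v c • e c) + (0 : F) • ρ.1 (v - e.repr v c • e c) +
    e.repr v c • e c := by simp
  generalize v - e.repr v c • e c = w at *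
  have w0 : Q w ≠ 0 := hq ▸ sub_ne_zero.mpr h1.symm
  have w2 : e.repr (ρ.1 w) c = 0 := ((ρ3 w).2.2.2.2 c hc).trans wc
  have wn : polar Q w (e c) = 0 := by rw [polar_comm, h.pb, wc, mul_zero]
  have cs : ∀ {x y : V}, e.repr x i = e.repr y i → e.repr x j = e.repr y j →
      e.repr x k = e.repr y k → e.repr x l = e.repr y l →
      e.repr x c = e.repr y c → x = y := fun h1 h2 h3 h4 h5 =>
    e.ext_elem fun m => by
      rcases H m with rfl | rfl | rfl | rfl | rfl <;> assumption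
  have r1 : ρ.1 (ρ.1 w) = -w := cs (by simp [ρ3]) (by simp [ρ3]) (by simp [ρ3]) (by simp [ρ3])
    (by simp [ρ3, hc, wc])
  have r2 : ρ.1 (e c) = e c := cs (by simp [ρ3, repr_basis, *]) (by simp [ρ3, repr_basis, *])
    (by simp [ρ3, repr_basis, *]) (by simp [ρ3, repr_basis, *]) (by simp [ρ3, hc])
  have o1 : polar Q w (ρ.1 w) = 0 := mul_left_cancel₀ h.two (by
    have := OG.map_polar ρ w (ρ.1 w)
    rw [r1, polar_neg_right, polar_comm] at this
    linear_combination -this)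
  have o2 : polar Q (ρ.1 w) (e c) = 0 := by rw [← r2, OG.map_polar, wn]
  have q1 : Q (w + ρ.1 w) = 2 * Q w := by
    rw [q_add, o1, OG.map_Q]
    ring
  have a1 : (refl Q (w + ρ.1 w)).1 w = -ρ.1 w := by
    rw [refl_apply, q1, polar_add_left, p_self, polar_comm, o1, add_zero,
      inv_mul_cancel₀ (mul_ne_zero h.two w0)]
    simp
  have a2 : (refl Q (w + ρ.1 w)).1 (ρ.1 w) = -w := by
    rw [refl_apply, q1, polar_add_left, p_self, o1, zero_add, OG.map_Q,
      inv_mul_cancel₀ (mul_ne_zero h.two w0)]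
    simp
  set A := refl Q (w + ρ.1 w) * refl Q w with hA
  have z1 : (A⁻¹ * ρ).1 w = w := by
    rw [OG.mul_apply, show ρ.1 w = A.1 w by
      rw [hA, OG.mul_apply, refl_apply_self w0, map_neg, a1, neg_neg], OG.inv_apply_self]
  have z2 : (A⁻¹ * ρ).1 (ρ.1 w) = ρ.1 w := by
    rw [OG.mul_apply, show ρ.1 (ρ.1 w) = A.1 (ρ.1 w) by
      rw [hA, OG.mul_apply, refl_apply_of_orth o1, a2, r1], OG.inv_apply_self]
  have z3 : (A⁻¹ * ρ).1 (e c) = e c := by
    rw [OG.mul_apply, show ρ.1 (e c) = A.1 (e c) by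
      rw [hA, OG.mul_apply, refl_apply_of_orth wn, refl_apply_of_orth (by
        rw [polar_add_left, wn, o2, add_zero]), r2], OG.inv_apply_self]
  have z4 : A * (A⁻¹ * ρ) = (A⁻¹ * ρ) * A := by
    rw [eq_comm, ← mul_inv_eq_iff_eq_mul, hA, ← conj_mul, refl_conj, refl_conj, map_add, z1, z2]
  have z5 : refl Q (ρ.1 w) * refl Q w = A * A := by
    have := refl_conj (refl Q (w + ρ.1 w)) w
    rw [a1, refl_neg, refl_inv] at this
    rw [hA, ← this]
    simp only [mul_assoc]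
  obtain ⟨L, L1, L2, L3⟩ := exists_ext M (negOne_sq (Q := Q))
  have hρ : ρ ∈ L := L3 _ (h.le _ ρ1 ρ2) (by
    rw [negOne_comm, mul_assoc, negOne_sq, mul_one]; exact h.le _ ρ1 ρ2)
  refine ⟨ρ.1 w, w2, by simp [ρ3, wm, hcj], by simp [ρ3, wm, hci], by simp [ρ3, wm, hcl],
    by simp [ρ3, wm, hck], fun a b => ?_⟩
  exact o3 (w := w) (w' := ρ.1 w) (n := e c) (x := 1) (y := 0) (s := e.repr v c) (c := 1)
    (S := {1}) (C := {A⁻¹ * ρ, A⁻¹ * ρ * (A⁻¹ * ρ)}) (a := a) (b := b) h.two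
    ⟨2, h.two, fun e => h3 (by linear_combination e)⟩ w0 (by simpa) (h.qb_ne c) o1 wn o2 L1
    (by simp [mul_assoc]) (by
      rintro _ (rfl | rfl)
      · exact ⟨z1, z2, z3⟩
      · simp only [OG.mul_apply (A⁻¹ * ρ), z1, z2, z3, and_self])
    (by rw [← hvv]; exact L2 _ (by rw [← negOne_comm]; exact hv') hv') (by rw [← hvv, hv]; exact one_ne_zero)
    ⟨_, Or.inr rfl, by
      rw [z5, (show Commute A (A⁻¹ * ρ) from z4).mul_mul_mul_comm]
      simpa using mul_mem hρ hρ⟩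
    (by
      rintro _ rfl
      exact ⟨by simpa [← two_mul] using mul_ne_zero h.two w0, _, Or.inl rfl, by simpa [← hA]⟩)
    rfl one_ne_zero h0 (by simpa) (fun _ e => h2 (by
      rw [hq, h.q] at e
      linear_combination e)) (fun K _ => h.subfield K)

omit [FiniteDimensional F V] in
theorem exists_cy (h3 : (3 : F) ≠ 0) {t : F} (h0 : t ≠ 0) (h1 : t ^ 2 ≠ 1) :
    ∃ c y : F, c ≠ 0 ∧ y ≠ 0 ∧ c ^ 2 * (1 - t ^ 2) - y ^ 2 = 1 := by
  by_cases hs : IsSquare (-1 : F)
  · obtain ⟨ι, hι⟩ := hs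
    refine ⟨1, ι * t, one_ne_zero, mul_ne_zero (by rintro rfl; simp at hι) h0, ?_⟩
    linear_combination t ^ 2 * hι
  obtain ⟨c, y, e⟩ := exists_binary_eq h.two (sub_ne_zero.mpr h1.symm) (neg_ne_zero.mpr one_ne_zero) 1
  have c0 : c ≠ 0 := by
    rintro rfl
    exact hs ⟨y, by linear_combination e⟩
  by_cases y0 : y = 0
  · have e4 : (4 : F) ≠ 0 := fun e => mul_ne_zero h.two h.two (by linear_combination e)
    have e5 : (5 : F) ≠ 0 := fun e => hs ⟨2, by linear_combination -e⟩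
    refine ⟨5 / 4 * c, 3 / 4, mul_ne_zero (div_ne_zero e5 e4) c0, div_ne_zero h3 e4, ?_⟩
    rw [y0] at e
    field_simp
    linear_combination 25 * e
  exact ⟨c, y, c0, y0, by linear_combination e⟩

theorem stepA (h3 : (3 : F) ≠ 0) (hv : Q v = 1) (hv' : IR M v)
    (h0 : e.repr v c ≠ 0) (h1 : e.repr v c ^ 2 ≠ 1) (h2 : 2 * e.repr v c ^ 2 ≠ 1) :
    commutator (OG Q) ≤ M := by
  obtain ⟨i, j, k, l, hij, hik, hil, hjk, hjl, hkl, hci, hcj, hck, hcl, H⟩ := compl_four c
  have S := sum_five (F := F) hij hik hil hjk hjl hkl hci hcj hck hcl H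
  obtain ⟨a1, p1, p2, p3, p4, p5, f1⟩ :=
    h.full3 h3 hv hv' hij hik hil hjk hjl hkl hci hcj hck hcl H h0 h1 h2
  obtain ⟨a2, q1, q2, q3, q4, q5, f2⟩ := h.full3 h3 hv hv' hik hil hij hkl hjk.symm hjl.symm hci hck
    hcl hcj (fun m => by have := H m; tauto) h0 h1 h2
  obtain ⟨a3, r1, r2, r3, r4, r5, f3⟩ := h.full3 h3 hv hv' hil hij hik hjl.symm hkl.symm hjk hci hcl
    hcj hck (fun m => by have := H m; tauto) h0 h1 h2
  have wc : e.repr (v - e.repr v c • e c) c = 0 := by simp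
  have wm : ∀ m, c ≠ m → e.repr (v - e.repr v c • e c) m = e.repr v m := fun m hm => by
    simp [repr_basis, hm]
  have s1 := wm i hci
  have s2 := wm j hcj
  have s3 := wm k hck
  have s4 := wm l hcl
  have hq := h.qq v
  rw [hv, S] at hq
  obtain ⟨γ, y, γ0, y0, hγ⟩ := h.exists_cy h3 h0 h1
  have k0 := sub_ne_zero.mpr h1.symm
  generalize v - e.repr v c • e c = w at *
  obtain ⟨κ, hκ⟩ : ∃ κ, κ = 1 - e.repr v c ^ 2 := ⟨_, rfl⟩
  rw [← hκ] at hγ k0
  have qw : Q w = κ := by rw [h.qq, S, wc, s1, s2, s3, s4]; linear_combination -hκ - hq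
  have qa1 : Q a1 = κ := by rw [h.qq, S, p1, p2, p3, p4, p5]; linear_combination -hκ - hq
  have qa2 : Q a2 = κ := by rw [h.qq, S, q1, q2, q3, q4, q5]; linear_combination -hκ - hq
  have qa3 : Q a3 = κ := by rw [h.qq, S, r1, r2, r3, r4, r5]; linear_combination -hκ - hq
  have o1 : polar Q w a1 = 0 := by
    rw [h.pol, S]
    simp only [wc, s1, s2, s3, s4, p1, p2, p3, p4, p5, q1, q2, q3, q4, q5, r1, r2, r3, r4, r5]
    ring
  have o2 : polar Q w a2 = 0 := by
    rw [h.pol, S]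
    simp only [wc, s1, s2, s3, s4, p1, p2, p3, p4, p5, q1, q2, q3, q4, q5, r1, r2, r3, r4, r5]
    ring
  have o3 : polar Q w a3 = 0 := by
    rw [h.pol, S]
    simp only [wc, s1, s2, s3, s4, p1, p2, p3, p4, p5, q1, q2, q3, q4, q5, r1, r2, r3, r4, r5]
    ring
  have o4 : polar Q a1 a2 = 0 := by
    rw [h.pol, S]
    simp only [wc, s1, s2, s3, s4, p1, p2, p3, p4, p5, q1, q2, q3, q4, q5, r1, r2, r3, r4, r5]
    ring
  have o5 : polar Q a1 a3 = 0 := by
    rw [h.pol, S]
    simp only [wc, s1, s2, s3, s4, p1, p2, p3, p4, p5, q1, q2, q3, q4, q5, r1, r2, r3, r4, r5]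
    ring
  have o6 : polar Q a2 a3 = 0 := by
    rw [h.pol, S]
    simp only [wc, s1, s2, s3, s4, p1, p2, p3, p4, p5, q1, q2, q3, q4, q5, r1, r2, r3, r4, r5]
    ring
  have o7 : polar Q (e c) w = 0 := by rw [h.pb, wc, mul_zero]
  have o8 : polar Q (e c) a1 = 0 := by rw [h.pb, p1, mul_zero]
  have o9 : polar Q (e c) a2 = 0 := by rw [h.pb, q1, mul_zero]
  have o10 : polar Q (e c) a3 = 0 := by rw [h.pb, r1, mul_zero]
  have qe := h.q c
  obtain ⟨s, t, hst⟩ := exists_binary_eq h.two k0 one_ne_zero (-y ^ 2)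
  have P : ∀ x1 x2 x3 x4 x5 y1 y2 y3 y4 y5 : F,
      polar Q (x1 • w + x2 • e c + x3 • a1 + x4 • a2 + x5 • a3)
        (y1 • w + y2 • e c + y3 • a1 + y4 • a2 + y5 • a3) =
      2 * (κ * (x1 * y1 + x3 * y3 + x4 * y4 + x5 * y5) + x2 * y2) := fun _ _ _ _ _ _ _ _ _ _ => by
    simp only [polar_add_left, polar_add_right, p_smul_left, p_smul_right, p_self, qw, qa1, qa2, qa3,
      qe, o1, o2, o3, o4, o5, o6, o7, o8, o9, o10, polar_comm Q w (e c), polar_comm Q a1 w,
      polar_comm Q a2 w, polar_comm Q a3 w, polar_comm Q a1 (e c), polar_comm Q a2 (e c),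
      polar_comm Q a3 (e c), polar_comm Q a2 a1, polar_comm Q a3 a1, polar_comm Q a3 a2]
    ring
  have PQ : ∀ x1 x2 x3 x4 x5 : F, Q (x1 • w + x2 • e c + x3 • a1 + x4 • a2 + x5 • a3) =
      κ * (x1 * x1 + x3 * x3 + x4 * x4 + x5 * x5) + x2 * x2 := fun _ _ _ _ _ =>
    mul_left_cancel₀ h.two (by rw [← p_self, P])
  have hx : Q (t • w + (-s * κ) • e c + y • a1 + (0 : F) • a2 + (0 : F) • a3) = 0 := by
    rw [PQ]; linear_combination κ * hst
  have hn : Q (s • w + t • e c + (0 : F) • a1 + (0 : F) • a2 + (0 : F) • a3) = -y ^ 2 := by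
    rw [PQ]; linear_combination hst
  have n0 := hn ▸ neg_ne_zero.mpr (pow_ne_zero 2 y0)
  have m1 := OFs.oe_of_full f1 hx (by rw [P]; ring) n0 ⟨t, y, -s * κ, by module⟩
    ⟨s, 0, t, by module⟩
  have b2 : Q (s • w + t • e c + (0 : F) • a1 + γ • a2 + (0 : F) • a3) = 1 := by
    rw [PQ]; linear_combination hst + hγ
  have b3 : Q (s • w + t • e c + (0 : F) • a1 + (0 : F) • a2 + γ • a3) = 1 := by
    rw [PQ]; linear_combination hst + hγ
  have nz : 2 * (κ * (s * s + 0 * 0 + γ * 0 + 0 * 0) + t * t) ≠ 0 := fun e' =>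
    mul_ne_zero h.two (pow_ne_zero 2 y0) (by linear_combination 2 * hst - e')
  have m2 := ((h.ir_b c).of_mul (f2 _ _ ⟨s, γ, t, by module⟩ ⟨0, 0, 1, by module⟩
    (b2 ▸ one_ne_zero) (b2.trans qe.symm))).grow hx m1 (by rw [P]; ring) (by rw [P]; exact nz)
    (b2 ▸ one_ne_zero)
  have m3 := ((h.ir_b c).of_mul (f3 _ _ ⟨s, γ, t, by module⟩ ⟨0, 0, 1, by module⟩
    (b3 ▸ one_ne_zero) (b3.trans qe.symm))).grow hx m1 (by rw [P]; ring)
    (by rw [P]; simpa using nz) (b3 ▸ one_ne_zero)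
  have x0 : t • w + (-s * κ) • e c + y • a1 + (0 : F) • a2 + (0 : F) • a3 ≠ 0 := fun e' => by
    have := P t (-s * κ) y 0 0 0 0 1 0 0
    rw [e', polar_zero_left] at this
    simp [h.two, k0, y0] at this
  generalize t • w + (-s * κ) • e c + y • a1 + (0 : F) • a2 + (0 : F) • a3 = x at *
  have m4 : (0 : F) • w + (0 : F) • e c + (0 : F) • a1 + γ • a2 + (0 : F) • a3 ∈ OE M x := by
    convert (OE M _).sub_mem m2 m1 using 1
    module
  have m5 : (0 : F) • w + (0 : F) • e c + (0 : F) • a1 + (0 : F) • a2 + γ • a3 ∈ OE M x := by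
    convert (OE M _).sub_mem m3 m1 using 1
    module
  exact h.fin_op (op_of_three h.nd h.two h.dim hx x0 m1 m4 m5 n0 (by rw [PQ]; simp [k0, γ0])
    (by rw [PQ]; simp [k0, γ0]) (by rw [P]; ring) (by rw [P]; ring) (by rw [P]; ring)) x0

theorem stepB (h3 : (3 : F) ≠ 0) (hv : Q v = 1) (hv' : IR M v) (h1 : e.repr v c ^ 2 = 1)
    (hi : i ≠ c) (hi' : e.repr v i ≠ 0) : commutator (OG Q) ≤ M := by
  have t0 : e.repr v c ≠ 0 := fun e' => by simp [e'] at h1
  have hq : Q (v - e.repr v c • e c) = 0 := by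
    rw [q_sub, q_smul, p_smul_right, polar_comm, h.pb, h.q, hv]
    linear_combination -h1
  have wc : e.repr (v - e.repr v c • e c) c = 0 := by simp
  have wi : e.repr (v - e.repr v c • e c) i ≠ 0 := by simpa [repr_basis, hi.symm] using hi'
  have a1 : IR M (e c + e.repr v c • (v - e.repr v c • e c)) := by
    convert hv'.smul t0 using 1
    rw [smul_sub, smul_smul, ← pow_two, h1]
    module
  generalize v - e.repr v c • e c = w at *
  generalize e.repr v c = t at *
  have wn : polar Q (e c) w = 0 := by rw [h.pb, wc, mul_zero]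
  have q1 : ∀ s : F, Q (e c + s • w) = 1 := fun s => by
    rw [q_add, q_smul, p_smul_right, wn, hq, h.q]
    ring
  have a2 : ∀ n : ℕ, IR M (e c + (n * t) • w) ∧ IR M (e c + ((n + 1) * t) • w) := fun n => by
    induction n with
    | zero => exact ⟨by simpa using h.ir_b c, by simpa using a1⟩
    | succ n ih =>
      refine ⟨by simpa using ih.2, ?_⟩
      convert (ih.1.refl ih.2).neg using 1
      simp only [refl_apply, q1, polar_add_left, polar_add_right, p_smul_left, p_smul_right, p_self,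
        wn, polar_comm Q w (e c), hq, h.q]
      push_cast
      module
  have a3 : ∀ y : F, y ≠ 0 → y ^ 2 ≠ 1 → 2 * y ^ 2 ≠ 1 → commutator (OG Q) ≤ M :=
    fun y y0 y1 y2 => by
    obtain ⟨n, hn⟩ := h.nat (y / e.repr w i / t)
    have : e.repr (e c + (n * t) • w) i = y := by
      rw [← hn]
      simp [repr_basis, hi.symm]
      field_simp
    exact h.stepA (c := i) h3 (q1 _) (a2 n).1 (this ▸ y0) (this ▸ y1) (this ▸ y2)
  by_cases h7 : (7 : F) = 0
  · exact a3 3 h3 (fun e' => one_ne_zero (α := F) (by linear_combination e' - h7))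
      fun e' => h3 (by linear_combination e' - 2 * h7)
  · exact a3 2 h.two (fun e' => h3 (by linear_combination e'))
      fun e' => h7 (by linear_combination e')

theorem half (h3 : (3 : F) ≠ 0) (H : ¬ commutator (OG Q) ≤ M) (hv : Q v = 1) (hv' : IR M v)
    (hf : ¬ FV e v) (i : Fin 5) : e.repr v i = 0 ∨ 2 * e.repr v i ^ 2 = 1 := by
  by_contra hc
  push Not at hc
  by_cases h1 : e.repr v i ^ 2 = 1
  · obtain ⟨m, hm, hm'⟩ : ∃ m, m ≠ i ∧ e.repr v m ≠ 0 := by
      by_contra hc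
      push Not at hc
      exact hf ⟨i, hc⟩
    exact H (h.stepB h3 hv hv' h1 hm hm')
  · exact H (h.stepA h3 hv hv' hc.1 h1 hc.2)

theorem spare (h3 : (3 : F) ≠ 0) (H : ¬ commutator (OG Q) ≤ M) (hv : Q v = 1) (hv' : IR M v)
    (hf : ¬ FV e v) : ∃ k, e.repr v k = 0 := by
  by_contra hc
  push Not at hc
  have A := fun i => (h.half h3 H hv hv' hf i).resolve_left (hc i)
  have B := (h.qq v).symm.trans hv
  rw [Fin.sum_univ_five] at B
  exact h3 (by linear_combination 2 * B - A 0 - A 1 - A 2 - A 3 - A 4)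

theorem four_ne (h3 : (3 : F) ≠ 0) (H : ¬ commutator (OG Q) ≤ M) (hv : Q v = 1) (hv' : IR M v)
    (i : Fin 5) : 4 * e.repr v i ^ 2 ≠ 1 := fun h4 => by
  by_cases hf : FV e v
  · have h5 : e.repr v i ≠ 0 := fun e => by simp [e] at h4
    rw [eq_smul_basis fun j hj => hf.eq_zero h5 hj, q_smul, h.q] at hv
    exact h3 (by linear_combination h4 - 4 * hv)
  · rcases h.half h3 H hv hv' hf i with e | e
    · simp [e] at h4
    · exact one_ne_zero (α := F) (by linear_combination h4 - 2 * e)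

theorem ir_sg (hv : IR M v) (J : Finset (Fin 5)) : IR M (sg e J v) := by
  induction J using Finset.induction_on with
  | empty => convert hv; exact e.ext_elem fun i => by simp
  | insert i J hi ih =>
    convert ih.refl (h.ir_b i) using 1
    refine e.ext_elem fun j => ?_
    simp only [h.refl_b, repr_sgn, Finset.mem_insert, Finset.mem_singleton]
    by_cases h1 : j = i <;> simp [h1, hi]

theorem ir_sq (hv : IR M v) (H : ∀ i, e.repr w i ^ 2 = e.repr v i ^ 2) : IR M w := by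
  classical
  convert h.ir_sg hv (Finset.univ.filter fun i => e.repr w i ≠ e.repr v i)
  refine e.ext_elem fun i => ?_
  rw [repr_sgn]
  by_cases hi : e.repr w i = e.repr v i
  · simp [hi]
  · simpa [hi] using (sq_eq_sq_iff_eq_or_eq_neg.mp (H i)).resolve_left hi

theorem fv_three (h3 : (3 : F) = 0) (H : ¬ commutator (OG Q) ≤ M) (hv : Q v = 1) (hv' : IR M v) :
    FV e v := by
  by_contra hf
  have sq : ∀ c : F, c ≠ 0 → c ^ 2 = 1 := fun c hc => by
    obtain ⟨n, rfl⟩ := h.nat c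
    have : (n : F) = ((n % 3 : ℕ) : F) := by
      conv_lhs => rw [← Nat.mod_add_div n 3]
      simp [h3]
    rw [this] at hc ⊢
    have : n % 3 < 3 := Nat.mod_lt _ (by norm_num)
    interval_cases n % 3
    · simp at hc
    · simp
    · linear_combination h3
  have B := (h.qq v).symm.trans hv
  obtain ⟨c, hc⟩ : ∃ c, e.repr v c = 0 := by
    by_contra hc
    push Not at hc
    simp only [Fin.sum_univ_five, sq _ (hc _)] at B
    exact one_ne_zero (α := F) (by linear_combination B - h3)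
  have hc' : ∀ m, m ≠ c → e.repr v m ^ 2 = 1 := by
    obtain ⟨i, j, k, l, hij, hik, hil, hjk, hjl, hkl, hci, hcj, hck, hcl, H⟩ := compl_four c
    rw [sum_five hij hik hil hjk hjl hkl hci hcj hck hcl H, hc] at B
    have fv : ∀ a, (∀ m, m = i ∨ m = j ∨ m = k ∨ m = l → m ≠ a → e.repr v m = 0) → False :=
      fun a ha => hf ⟨a, fun m hm => (H m).elim (fun e => e ▸ hc) fun e => ha m e hm⟩
    have e2 := h.two
    suffices e.repr v i ≠ 0 ∧ e.repr v j ≠ 0 ∧ e.repr v k ≠ 0 ∧ e.repr v l ≠ 0 by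
      intro m hm
      rcases H m with rfl | rfl | rfl | rfl | rfl <;> simp_all
    by_contra hn
    by_cases vi : e.repr v i = 0 <;> by_cases vj : e.repr v j = 0 <;>
      by_cases vk : e.repr v k = 0 <;> by_cases vl : e.repr v l = 0
    all_goals first
      | (refine fv i ?_; rintro _ (rfl | rfl | rfl | rfl) _ <;> first | assumption | contradiction)
      | (refine fv j ?_; rintro _ (rfl | rfl | rfl | rfl) _ <;> first | assumption | contradiction)
      | (refine fv k ?_; rintro _ (rfl | rfl | rfl | rfl) _ <;> first | assumption | contradiction)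
      | (refine fv l ?_; rintro _ (rfl | rfl | rfl | rfl) _ <;> first | assumption | contradiction)
      | exact hn ⟨vi, vj, vk, vl⟩
      | (simp only [vi, vj, vk, vl, sq, ne_eq, not_false_eq_true] at B
         first
          | (refine one_ne_zero (α := F) ?_; linear_combination B)
          | (refine e2 ?_; linear_combination B))
  have all : ∀ d w, e.repr w d = 0 → (∀ m, m ≠ d → e.repr w m ^ 2 = 1) → IR M w :=
    fun d w w1 w2 => by
    by_cases hd : d = c
    · subst hd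
      exact h.ir_sq hv' fun m => by by_cases hm : m = d <;> simp [hm, w1, hc, w2, hc']
    obtain ⟨k, -, l, -, -, -, hk, hl, -, hkl, -⟩ := exists_three_not_mem (I := Finset.univ)
      (s := {c, d}) (by simp [Finset.card_pair (Ne.symm hd)])
    simp only [Finset.mem_insert, Finset.mem_singleton, not_or] at hk hl
    refine h.ir_sq (hv'.map (h.ss (Ne.symm hd) hkl)) fun m => ?_
    rw [OG.mul_apply, h.refl_bsub (Ne.symm hd), h.refl_bsub hkl, repr_pm, repr_pm, Equiv.symm_swap,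
      Equiv.symm_swap]
    have e1 : Equiv.swap k l (Equiv.swap c d d) = c := by
      rw [Equiv.swap_apply_right, Equiv.swap_apply_of_ne_of_ne (Ne.symm hk.1) (Ne.symm hl.1)]
    by_cases hm : m = d
    · rw [hm, e1, w1, hc]
    · rw [w2 m hm, hc' _ fun e' => hm ((Equiv.swap c d).injective ((Equiv.swap k l).injective
        (e'.trans e1.symm)))]
  have R : ∀ x0 x1 x2 x3 x4 : F, ∀ i,
      e.repr (x0 • e 0 + x1 • e 1 + x2 • e 2 + x3 • e 3 + x4 • e 4) i = ![x0, x1, x2, x3, x4] i :=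
    fun _ _ _ _ _ i => by fin_cases i <;> simp [repr_basis]
  have P : ∀ x0 x1 x2 x3 x4 y0 y1 y2 y3 y4 : F,
      polar Q (x0 • e 0 + x1 • e 1 + x2 • e 2 + x3 • e 3 + x4 • e 4)
        (y0 • e 0 + y1 • e 1 + y2 • e 2 + y3 • e 3 + y4 • e 4) =
      2 * (x0 * y0 + x1 * y1 + x2 * y2 + x3 * y3 + x4 * y4) := fun _ _ _ _ _ _ _ _ _ _ => by
    simp only [h.pol, R, Fin.sum_univ_five]
    simp
  have PQ : ∀ x0 x1 x2 x3 x4 : F, Q (x0 • e 0 + x1 • e 1 + x2 • e 2 + x3 • e 3 + x4 • e 4) =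
      x0 * x0 + x1 * x1 + x2 * x2 + x3 * x3 + x4 * x4 := fun _ _ _ _ _ =>
    mul_left_cancel₀ h.two (by rw [← p_self, P])
  obtain ⟨x, hx⟩ : ∃ x, x = (1 : F) • e 0 + (1 : F) • e 1 + (1 : F) • e 2 + (0 : F) • e 3 +
    (0 : F) • e 4 := ⟨_, rfl⟩
  have qx : Q x = 0 := by rw [hx, PQ]; linear_combination h3
  have x0 : x ≠ 0 := fun e' => by
    have := R 1 1 1 0 0 0
    rw [← hx, e'] at this
    simp at this
  have key : ∀ a, polar Q x (e a) = 0 → (∀ c : F, c ≠ 0 → IR M (c • e a - x)) → e a ∈ OE M x :=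
    fun a h1 h2 => ⟨h1, fun c => by
      by_cases hc : c = 0
      · simp [hc]
      have : Q (c • e a) = 1 := by rw [q_smul, h.q, sq c hc, one_mul]
      rw [eich_eq_refl_mul_refl qx (by rw [p_smul_right, h1, mul_zero]) (this ▸ one_ne_zero), this,
        one_smul]
      exact ((h.ir_b a).smul hc).mul (h2 c hc)⟩
  have m3 := key 3 (by rw [polar_comm, h.pb, hx, R]; simp) fun c hc => all 4 _
    (by simp [hx, repr_basis]) fun m hm => by
      fin_cases m <;> simp [hx, repr_basis, sq c hc] at hm ⊢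
  have m4 := key 4 (by rw [polar_comm, h.pb, hx, R]; simp) fun c hc => all 3 _
    (by simp [hx, repr_basis]) fun m hm => by
      fin_cases m <;> simp [hx, repr_basis, sq c hc] at hm ⊢
  have m5 := (all 0 ((0 : F) • e 0 + (1 : F) • e 1 + (-1 : F) • e 2 + (1 : F) • e 3 +
    (1 : F) • e 4) (by rw [R]; simp) fun m hm => by
      rw [R]; fin_cases m <;> simp at hm ⊢).grow qx m3 (by rw [hx, P]; ring)
    (by rw [polar_comm, h.pb, R]; simpa using h.two) (by
      rw [PQ]; exact fun e' => one_ne_zero (α := F) (by linear_combination e' - h3))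
  have m6 : (0 : F) • e 0 + (1 : F) • e 1 + (-1 : F) • e 2 + (0 : F) • e 3 + (0 : F) • e 4 ∈
      OE M x := by
    convert (OE M x).sub_mem ((OE M x).sub_mem m5 m3) m4 using 1
    module
  exact H (h.fin_op (op_of_three h.nd h.two h.dim qx x0 m3 m4 m6 (h.qb_ne 3) (h.qb_ne 4)
    (by rw [PQ]; exact fun e' => h.two (by linear_combination e')) (h.orth _ _ (by simp))
    (by rw [h.pb, R]; simp) (by rw [h.pb, R]; simp)) x0)

theorem main (hg : ∃ g ∈ M, g.1 ∉ mon e) : commutator (OG Q) ≤ M := by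
  by_contra H
  obtain ⟨g, hg, hg'⟩ := hg
  have k1 : ∀ a, Q (g.1 (e a)) = 1 := fun a => (OG.map_Q _ _).trans (h.q a)
  have k2 : ∀ a, IR M (g.1 (e a)) := fun a => (h.ir_b a).map hg
  refine hg' (mem_mon fun a => by_contra fun ha => ?_)
  by_cases h3 : (3 : F) = 0
  · exact ha (h.fv_three h3 H (k1 a) (k2 a))
  obtain ⟨k, hk⟩ := h.spare h3 H (k1 a) (k2 a) ha
  have h6 := h.half h3 H (k1 a) (k2 a) ha
  obtain ⟨i, hi⟩ := exists_repr_ne (e := e) (x := g.1 (e a)) (by
    rw [Ne, OG.apply_eq_zero]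
    exact e.ne_zero a)
  obtain ⟨b, hb⟩ : ∃ b, e.repr (g.1 (e b)) k ≠ 0 := by
    by_contra hc
    push Not at hc
    have := repr_of_basis (e := e) (g := g.1) (l := k) (l' := k) (a := 0) (by simpa)
      ((g⁻¹).1 (e k))
    simp at this
  have hab : a ≠ b := fun e => hb (e ▸ hk)
  have h7 := (h6 i).resolve_left hi
  obtain ⟨s, hs⟩ : ∃ s, e.repr (g.1 (e a)) i = s := ⟨_, rfl⟩
  rw [hs] at hi h7
  have h8 : Q (s • (e a - e b)) = 1 := by
    rw [q_smul, h.q_bsub hab]
    linear_combination h7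
  have h9 := ((h.ir_b a).of_mul (h.le _ (h.nd.refl_mul_refl_mem_commutator
    (h8.trans_ne h.ne) (h8.trans (h.q a).symm)) (by
      rw [refl_smul hi]
      exact mul_mem (h.mon_s hab) (h.mon_b a)))).map hg
  have h10 := h.four_ne h3 H ((OG.map_Q _ _).trans h8) h9
  simp only [map_smul, map_sub, Finsupp.smul_apply, Finsupp.sub_apply, smul_eq_mul] at h10
  by_cases hb' : FV e (g.1 (e b))
  · refine h10 i ?_
    rw [hs, hb'.eq_zero hb fun e' : i = k => hi (by rw [← hs, e', hk])]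
    linear_combination (2 * s ^ 2 + 1) * h7
  · have := (h.half h3 H (k1 b) (k2 b) hb' k).resolve_left hb
    refine h10 k ?_
    rw [hk]
    linear_combination 2 * s ^ 2 * this + h7

end OF5

theorem frameMax [FiniteDimensional F V] [Fintype F] (hQ : ND Q) (h2 : (2 : F) ≠ 0)
    (hp : (Fintype.card F).Prime) : FrameMax Q := fun e h4 h5 => by
  have h : ∀ M : Subgroup (OG Q), (∀ g ∈ commutator (OG Q), g.1 ∈ mon e → g ∈ M) → OF5 Q e 1 M :=
    fun M hM => ⟨hQ, h2, one_ne_zero, exists_nat_cast hp, by simp, h4, h5, hM⟩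
  exact ⟨(h ⊤ fun _ _ _ => trivial).exists_not_mon, fun M hM => (h M hM).main⟩

end Cfsg.Agent.Max3
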