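import Mathlib
import Cfsg.Agent.Max3.P5c

/-!
# Stabilisers of non-degenerate planes in dimension five
-/

set_option autoImplicit false
set_option linter.unusedSectionVars false
set_option linter.unusedSimpArgs false

namespace Cfsg.Agent.Max3

open Module QuadraticMap Orth Cfsg.Agent.Max

variable {F V : Type*} [Field F] [AddCommGroup V] [Module F V]
  {Q : QuadraticForm F V} {M : Subgroup (OG Q)} {P : Submodule F V} {c1 c2 x0 f0 v0 : V}

theorem exists_sq_ne_one [Finite F] (h : 4 ≤ Nat.card F) : ∃ s : F, s ≠ 0 ∧ s ^ 2 ≠ 1 := by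
  classical
  have := Fintype.ofFinite F
  obtain ⟨s, -, hs⟩ := exists_mem_not_mem (I := Finset.univ) (s := ({0, 1, -1} : Finset F))
    (Finset.card_le_three.trans_lt (by rw [Finset.card_univ, ← Nat.card_eq_fintype_card]; omega))
  simp only [Finset.mem_insert, Finset.mem_singleton, not_or] at hs
  exact ⟨s, hs.1, fun e => by simp_all⟩

theorem exists_sq_mul_ne (h2 : (2 : F) ≠ 0) (h : ∃ s : F, s ≠ 0 ∧ s ^ 2 ≠ 1) {w : F} (hw : w ≠ 0) :
    ∃ c : F, c ≠ 0 ∧ c ^ 2 * w ≠ 1 ∧ c ^ 2 * w ≠ 2 := by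
  by_contra hc
  have H : ∀ c : F, c ≠ 0 → c ^ 2 * w = 1 ∨ c ^ 2 * w = 2 := fun c c0 => by
    by_contra e
    push Not at e
    exact hc ⟨c, c0, e⟩
  obtain ⟨s, s0, s1⟩ := h
  have k : ∀ c : F, c ≠ 0 → c ^ 2 = 1 ∨ c ^ 2 = s ^ 2 := fun c c0 => by
    rcases H 1 one_ne_zero with a | a <;> rcases H s s0 with b | b <;> rcases H c c0 with d | d
    all_goals first
      | (refine absurd (mul_right_cancel₀ hw ?_) s1; linear_combination b - a)
      | (refine Or.inl (mul_right_cancel₀ hw ?_); linear_combination d - a)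
      | (refine Or.inr (mul_right_cancel₀ hw ?_); linear_combination d - b)
  have a1 : s ^ 2 = -1 := by
    rcases k (s ^ 2) (pow_ne_zero 2 s0) with e | e
    · exact (sq_eq_one_iff_of_ne_zero' e).resolve_left s1
    · exact absurd (mul_left_cancel₀ (pow_ne_zero 2 s0) (by linear_combination e)) s1
  have a2 : (3 : F) = 0 := by
    rcases H 1 one_ne_zero with a | a <;> rcases H s s0 with b | b
    · exact absurd (by linear_combination -a - b + w * a1) h2
    · linear_combination -a - b + w * a1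
    · linear_combination -a - b + w * a1
    · exact absurd (by linear_combination -a - b + w * a1) (mul_ne_zero h2 h2)
  rcases k (1 + s) (fun e => s1 (by linear_combination (s - 1) * e)) with e | e
  · exact one_ne_zero (α := F) (by
      linear_combination (2 * s + 1) * e - (2 * s + 5) * a1 + 2 * a2)
  · exact one_ne_zero (α := F) (by
      linear_combination (2 * s - 1) * e - 4 * a1 + 2 * a2)
where sq_eq_one_iff_of_ne_zero' {a : F} (e : a ^ 2 = 1) : a = 1 ∨ a = -1 :=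
  mul_self_eq_one_iff.mp ((pow_two a).symm.trans e)

/-- configuration for a plane stabiliser -/
structure PL5 (Q : QuadraticForm F V) (M : Subgroup (OG Q)) (P : Submodule F V)
    (c1 c2 x0 f0 v0 : V) : Prop where
  nd : ND Q
  two : (2 : F) ≠ 0
  dim : finrank F V = 5
  card : 5 ≤ Nat.card F
  nds : NDS Q P
  d2 : finrank F P = 2
  le : ∀ g ∈ commutator (OG Q), (∀ v, v ∈ P ↔ g.1 v ∈ P) → g ∈ M
  m1 : c1 ∈ P
  m2 : c2 ∈ P
  mx : x0 ∈ perp Q P
  mf : f0 ∈ perp Q P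
  mv : v0 ∈ perp Q P
  q1 : Q c1 ≠ 0
  q2 : Q c2 ≠ 0
  o12 : polar Q c1 c2 = 0
  qx : Q x0 = 0
  qf : Q f0 = 0
  xf : polar Q x0 f0 = 1
  xv : polar Q x0 v0 = 0
  fv : polar Q f0 v0 = 0
  qv : Q v0 ≠ 0

theorem st_refl {a : V} (ha : a ∈ P ∨ a ∈ perp Q P) {v : V} (hv : v ∈ P) : (refl Q a).1 v ∈ P := by
  rcases ha with ha | ha
  · rw [refl_apply]
    exact P.sub_mem hv (P.smul_mem _ ha)
  · rwa [refl_apply_of_orth (mem_perp'.mp ha v hv)]

theorem refl_mem_self {W : Submodule F V} {a v : V} (ha : a ∈ W) (hv : v ∈ W) :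
    (refl Q a).1 v ∈ W := by
  rw [refl_apply]
  exact W.sub_mem hv (W.smul_mem _ ha)

namespace PL5
variable (h : PL5 Q M P c1 c2 x0 f0 v0) [FiniteDimensional F V] [Finite F]
include h

theorem d3 : finrank F (perp Q P) = 3 := by
  have := h.nd.finrank_perp_add P
  rw [h.d2, h.dim] at this
  omega

theorem list_mem (l : List V) (h1 : ∀ a ∈ l, Q a ≠ 0) (h2 : ∀ a ∈ l, a ∈ P ∨ a ∈ perp Q P)
    (h3 : Even l.length) (h4 : IsSquare (l.map Q).prod) : (l.map (refl Q)).prod ∈ M := by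
  refine h.le _ ((h.nd.list_mem_commutator_iff (good_of_two_ne_zero h.two) l h1).mpr ⟨h3, h4⟩)
    (mem_iff_of_le ?_)
  clear h1 h3 h4
  induction l with
  | nil => simp
  | cons a l ih =>
    intro v hv
    rw [List.map_cons, List.prod_cons, OG.mul_apply]
    exact st_refl (h2 a (by simp)) (ih (fun b hb => h2 b (by simp [hb])) v hv)

theorem pair_mem {a b : V} (ha : a ∈ P ∨ a ∈ perp Q P) (hb : b ∈ P ∨ b ∈ perp Q P) (a0 : Q a ≠ 0)
    (b0 : Q b ≠ 0) (H : IsSquare (Q a * Q b)) : refl Q a * refl Q b ∈ M := by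
  simpa using h.list_mem [a, b] (by simp [*]) (by simp [*]) (by simp) (by simpa)

theorem pN (a b c a' b' c' : F) : polar Q (a • x0 + b • f0 + c • v0) (a' • x0 + b' • f0 + c' • v0) =
    a * b' + b * a' + 2 * Q v0 * c * c' := by
  simp only [polar_add_left, polar_add_right, p_smul_left, p_smul_right, p_self, h.qx, h.qf, h.xf,
    h.xv, h.fv, polar_comm Q f0 x0, polar_comm Q v0 x0, polar_comm Q v0 f0]
  ring

theorem qN (a b c : F) : Q (a • x0 + b • f0 + c • v0) = a * b + Q v0 * c ^ 2 :=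
  mul_left_cancel₀ h.two (by rw [← p_self, h.pN]; ring)

theorem mN (a b c : F) : a • x0 + b • f0 + c • v0 ∈ perp Q P :=
  add_mem (add_mem (Submodule.smul_mem _ _ h.mx) (Submodule.smul_mem _ _ h.mf))
    (Submodule.smul_mem _ _ h.mv)

theorem spN {n : V} (hn : n ∈ perp Q P) : ∃ a b c : F, n = a • x0 + b • f0 + c • v0 := by
  have li : LinearIndependent F ![x0, f0, v0] := Fintype.linearIndependent_iff.mpr fun s hs => by
    rw [Fin.sum_univ_three] at hs
    have e1 := h.pN (s 0) (s 1) (s 2) 1 0 0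
    have e2 := h.pN (s 0) (s 1) (s 2) 0 1 0
    have e3 := h.pN (s 0) (s 1) (s 2) 0 0 1
    rw [show s 0 • x0 + s 1 • f0 + s 2 • v0 = 0 from hs, polar_zero_left] at e1 e2 e3
    simp [h.two, h.qv, eq_comm (a := (0 : F))] at e1 e2 e3
    intro i
    fin_cases i <;> simp [*]
  rw [← Submodule.eq_of_le_of_finrank_eq (S₁ := Submodule.span F (Set.range ![x0, f0, v0]))
    (S₂ := perp Q P)
    (Submodule.span_le.mpr (by
      rintro _ ⟨i, rfl⟩
      fin_cases i
      exacts [h.mx, h.mf, h.mv])) (by rw [finrank_span_eq_card li, h.d3]; simp),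
    Submodule.mem_span_range_iff_exists_fun] at hn
  obtain ⟨s, rfl⟩ := hn
  exact ⟨s 0, s 1, s 2, by simp [Fin.sum_univ_three]⟩

theorem spP {p : V} (hp : p ∈ P) : ∃ a b : F, a • c1 + b • c2 = p := by
  rwa [← Submodule.mem_span_pair, Submodule.eq_of_le_of_finrank_eq (S₂ := P)
    (Submodule.span_le.mpr (by rintro _ (rfl | rfl); exacts [h.m1, h.m2])) ?_]
  rw [finrank_span_pair_eq (linearIndependent_pair_of_notMem (ne_zero_of_Q_ne_zero h.q1)
    fun e => ?_), h.d2]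
  obtain ⟨a, ha⟩ := Submodule.mem_span_singleton.mp e
  have := h.o12
  rw [← ha, p_smul_right, p_self] at this
  obtain rfl : a = 0 := by simpa [h.two, h.q1] using this
  exact h.q2 (by rw [← ha]; simp)

theorem pP (a b a' b' : F) : polar Q (a • c1 + b • c2) (a' • c1 + b' • c2) =
    2 * (Q c1 * a * a' + Q c2 * b * b') := by
  simp only [polar_add_left, polar_add_right, p_smul_left, p_smul_right, p_self, h.o12,
    polar_comm Q c2 c1]
  ring

theorem qP (a b : F) : Q (a • c1 + b • c2) = Q c1 * a ^ 2 + Q c2 * b ^ 2 :=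
  mul_left_cancel₀ h.two (by rw [← p_self, h.pP]; ring)

theorem ir_of {a : V} (ha : a ∈ perp Q P) (hq : Q a = -(Q c1 * Q c2) * Q v0) : IR M a := by
  have q3 : Q (x0 + f0) = 1 := by simpa using h.qN 1 1 0
  have q4 : Q (x0 - f0) = -1 := by simpa [sub_eq_add_neg] using h.qN 1 (-1) 0
  have m3 := add_mem h.mx h.mf
  have m4 := sub_mem h.mx h.mf
  have o : ∀ i j, i ≠ j → polar Q (![c1, c2, x0 + f0, x0 - f0, v0] i)
      (![c1, c2, x0 + f0, x0 - f0, v0] j) = 0 := fun i j hij => by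
    fin_cases i <;> fin_cases j <;> simp at hij <;>
      simp [h.o12, polar_comm Q c2 c1, mem_perp.mp h.mx _ h.m1, mem_perp.mp h.mx _ h.m2,
        mem_perp.mp h.mf _ h.m1, mem_perp.mp h.mf _ h.m2, mem_perp.mp h.mv _ h.m1,
        mem_perp.mp h.mv _ h.m2, mem_perp'.mp h.mx _ h.m1, mem_perp'.mp h.mx _ h.m2,
        mem_perp'.mp h.mf _ h.m1, mem_perp'.mp h.mf _ h.m2, mem_perp'.mp h.mv _ h.m1,
        mem_perp'.mp h.mv _ h.m2, h.qx, h.qf, h.xf, h.xv, h.fv, polar_comm Q f0 x0,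
        polar_comm Q v0 x0, polar_comm Q v0 f0]
  have q : ∀ i, Q (![c1, c2, x0 + f0, x0 - f0, v0] i) ≠ 0 := fun i => by
    fin_cases i <;> simp [h.q1, h.q2, q3, q4, h.qv]
  have li : LinearIndependent F ![c1, c2, x0 + f0, x0 - f0, v0] :=
    Fintype.linearIndependent_iff.mpr fun c hc i => by
      have := congrArg (polar Q (![c1, c2, x0 + f0, x0 - f0, v0] i)) hc
      rw [p_sum_right, Finset.sum_eq_single i (fun j _ hj => by simp [o i j hj.symm]) (by simp),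
        p_smul_right, p_self] at this
      simpa [h.two, q i] using this
  have := negOne_eq_prod (basisOfLinearIndependentOfCardEqFinrank li (by simp [h.dim]))
    (by simpa using o) (by simpa using q)
  rw [coe_basisOfLinearIndependentOfCardEqFinrank] at this
  have a0 : Q a ≠ 0 := hq ▸ mul_ne_zero (neg_ne_zero.mpr (mul_ne_zero h.q1 h.q2)) h.qv
  have key := h.list_mem [c1, c2, x0 + f0, x0 - f0, v0, a] (by simp [h.q1, h.q2, q3, q4, h.qv, a0])
    (by simp [h.m1, h.m2, m3, m4, h.mv, ha]) ⟨3, rfl⟩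
    ⟨Q c1 * Q c2 * Q v0, by simp [q3, q4, hq]; ring⟩
  rw [IR, this]
  simpa [mul_assoc] using key

theorem exists_mixed (hg : ∃ g ∈ M, ¬ ∀ v, v ∈ P ↔ g.1 v ∈ P) : ∃ p ∈ P, ∃ n ∈ perp Q P,
    p ≠ 0 ∧ n ≠ 0 ∧ IR M (p + n) ∧ Q (p + n) = -(Q c1 * Q c2) * Q v0 := by
  classical
  obtain ⟨g, hg, hg'⟩ := hg
  obtain ⟨α, hα⟩ : ∃ α, α = -(Q c1 * Q c2) * Q v0 := ⟨_, rfl⟩
  have qn : ∀ c : F, Q ((α - c ^ 2 * Q v0) • x0 + (1 : F) • f0 + c • v0) = α := fun c => by
    rw [h.qN]; ring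
  have sp : ∀ (W : Submodule F V) (S : Finset F), 2 < S.card →
      (∀ c ∈ S, (α - c ^ 2 * Q v0) • x0 + (1 : F) • f0 + c • v0 ∈ W) → perp Q P ≤ W :=
    fun W S hS H => by
    obtain ⟨a, b, c, ha, hb, hc, hab, hac, hbc⟩ := Finset.two_lt_card_iff.mp hS
    have k : ∀ b ∈ S, a ≠ b → v0 - ((a + b) * Q v0) • x0 ∈ W := fun b hb hab => by
      refine (W.smul_mem_iff (sub_ne_zero.mpr hab)).mp ?_
      convert W.sub_mem (H a ha) (H b hb) using 1
      module
    have k1 : x0 ∈ W := by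
      refine (W.smul_mem_iff (mul_ne_zero (sub_ne_zero.mpr hbc) h.qv)).mp ?_
      convert W.sub_mem (k c hc hac) (k b hb hab) using 1
      module
    have k2 : v0 ∈ W := (W.sub_mem_iff_left (W.smul_mem _ k1)).mp (k b hb hab)
    have k3 : f0 ∈ W := by
      convert W.sub_mem (W.sub_mem (H a ha) (W.smul_mem a k2)) (W.smul_mem (α - a ^ 2 * Q v0) k1)
        using 1
      module
    intro n hn
    obtain ⟨a, b, c, rfl⟩ := h.spN hn
    exact add_mem (add_mem (W.smul_mem _ k1) (W.smul_mem _ k3)) (W.smul_mem _ k2)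
  obtain ⟨c, hc1, hc2⟩ : ∃ c : F, g.1 ((α - c ^ 2 * Q v0) • x0 + (1 : F) • f0 + c • v0) ∉ P ∧
      g.1 ((α - c ^ 2 * Q v0) • x0 + (1 : F) • f0 + c • v0) ∉ perp Q P := by
    by_contra hc
    push Not at hc
    have := Fintype.ofFinite F
    have h1 := Finset.card_filter_add_card_filter_not (s := Finset.univ)
      fun c : F => g.1 ((α - c ^ 2 * Q v0) • x0 + (1 : F) • f0 + c • v0) ∈ P
    have h2 := h.card
    rw [Finset.card_univ, ← Nat.card_eq_fintype_card] at h1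
    by_cases h3 : 2 < (Finset.univ.filter
      fun c : F => g.1 ((α - c ^ 2 * Q v0) • x0 + (1 : F) • f0 + c • v0) ∈ P).card
    · have := sp (P.comap (g.1 : V →ₗ[F] V)) _ h3 fun c hc => (Finset.mem_filter.mp hc).2
      have := Submodule.finrank_mono (Submodule.map_le_iff_le_comap.mpr this)
      rw [LinearEquiv.finrank_map_eq, h.d3, h.d2] at this
      omega
    · have := sp ((perp Q P).comap (g.1 : V →ₗ[F] V)) _ (show 2 < (Finset.univ.filter fun c : F =>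
        ¬ g.1 ((α - c ^ 2 * Q v0) • x0 + (1 : F) • f0 + c • v0) ∈ P).card by omega)
        fun c hc' => hc c (Finset.mem_filter.mp hc').2
      refine hg' fun v => ?_
      have := stab_perp (mem_iff_of_le (W := perp Q P) (g := g.1) this) v
      rwa [h.nd.perp_perp] at this
  obtain ⟨p, hp, n, hn, e⟩ := h.nds.dec h.nd (g.1 ((α - c ^ 2 * Q v0) • x0 + (1 : F) • f0 + c • v0))
  refine ⟨p, hp, n, hn, ?_, ?_, e ▸ (h.ir_of (h.mN _ _ _) ((qn c).trans hα)).map hg,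
    by rw [e, OG.map_Q, qn, hα]⟩
  · rintro rfl
    exact hc2 (by rwa [← e, zero_add])
  · rintro rfl
    exact hc1 (by rwa [← e, add_zero])

theorem exists_perp {n : V} (hn : n ∈ perp Q P) (n0 : Q n ≠ 0) (t : F) :
    ∃ d ∈ perp Q P, polar Q n d = 0 ∧ Q d = t := by
  have h1 : NDS Q (perp Q P ⊓ perp Q (F ∙ n)) := fun w hw H =>
    h.nds.perp h.nd w hw.1 fun y hy => by
      have := H (y - ((2 * Q n)⁻¹ * polar Q n y) • n) ⟨sub_mem hy (Submodule.smul_mem _ _ hn),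
        mem_perp_singleton.mpr (by
          rw [polar_sub_right, p_smul_right, p_self]
          field_simp [h.two]
          simp)⟩
      rwa [polar_sub_right, p_smul_right, polar_comm Q w n, mem_perp_singleton.mp hw.2, mul_zero,
        sub_zero] at this
  have h2 := Submodule.finrank_sup_add_finrank_inf_eq (perp Q P) (perp Q (F ∙ n))
  have h3 := h.nd.finrank_perp_singleton (ne_zero_of_Q_ne_zero n0)
  have h4 := (perp Q P ⊔ perp Q (F ∙ n)).finrank_le
  have h5 := h.d3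
  have h6 := h.dim
  obtain ⟨d, hd, e⟩ := h1.exists_Q_eq (by omega) t
  exact ⟨d, hd.1, mem_perp_singleton.mp hd.2, e⟩

theorem trans {p n n' : V} (hp : p ∈ P) (hn : n ∈ perp Q P) (hn' : n' ∈ perp Q P) (n0 : Q n ≠ 0)
    (e : Q n = Q n') (H : IR M (p + n)) : IR M (p + n') := by
  have fx : ∀ a ∈ perp Q P, (refl Q a).1 p = p := fun a ha =>
    refl_apply_of_orth (mem_perp'.mp ha p hp)
  by_cases h1 : Q (n' - n) = 0
  · have h2 : Q (n' - -n) = 4 * Q n := by
      rw [q_sub] at h1 ⊢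
      rw [QuadraticMap.map_neg, polar_neg_right]
      linear_combination -h1 - 2 * e
    have h3 : Q (n' - -n) ≠ 0 :=
      h2 ▸ mul_ne_zero (fun e => mul_ne_zero h.two h.two (by linear_combination e)) n0
    convert H.map (h.pair_mem (Or.inr (sub_mem hn' (neg_mem hn))) (Or.inr hn) h3 n0
      ⟨2 * Q n, by rw [h2]; ring⟩) using 1
    rw [OG.mul_apply, map_add, map_add, fx n hn, fx _ (sub_mem hn' (neg_mem hn)), refl_apply_self n0,
      refl_sub_apply ((QuadraticMap.map_neg Q n).trans e) fun e' => h3 (by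
        rw [q_sub_eq_of_eq ((QuadraticMap.map_neg Q n).trans e), e', neg_zero])]
  · obtain ⟨d, hd, d1, d2⟩ := h.exists_perp hn n0 (Q (n' - n))
    convert H.map (h.pair_mem (Or.inr (sub_mem hn' hn)) (Or.inr hd) h1 (d2 ▸ h1)
      ⟨_, by rw [d2]⟩) using 1
    rw [OG.mul_apply, map_add, map_add, fx d hd, fx _ (sub_mem hn' hn),
      refl_apply_of_orth (polar_symm_zero d1),
      refl_sub_apply e fun e' => h1 (by rw [q_sub_eq_of_eq e, e', neg_zero])]

theorem comb {p p' n n' : V} (hp : p ∈ P) (hp' : p' ∈ P) (hn : n ∈ perp Q P) (hn' : n' ∈ perp Q P)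
    (n0 : Q n ≠ 0) (e : Q n' = Q n) (H : IR M (p + n)) (H' : IR M (p' + n'))
    (q0 : Q (p + n) ≠ 0) (q : Q p' = Q p) (u : F) :
    ∃ m ∈ perp Q P, IR M (p - u • p' + m) ∧ Q (p - u • p' + m) = Q (p + n) := by
  obtain ⟨θ, hθ⟩ : ∃ θ, θ = (u * Q (p + n) - polar Q p p') / (2 * Q n) := ⟨_, rfl⟩
  obtain ⟨d, hd, d1, d2⟩ := h.exists_perp hn n0 (Q n - θ ^ 2 * Q n)
  have m1 : θ • n + d ∈ perp Q P := add_mem (Submodule.smul_mem _ _ hn) hd
  have m2 : Q (θ • n + d) = Q n := by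
    rw [q_add, q_smul, p_smul_left, d1, d2]; ring
  have m3 := h.trans hp' hn' m1 (e ▸ n0) (e.trans m2.symm) H'
  have m4 : Q (p' + (θ • n + d)) = Q (p + n) := by
    rw [q_add, q_add Q p, m2, q, mem_perp.mp m1 p' hp', mem_perp.mp hn p hp]
  have m5 : (refl Q (p' + (θ • n + d))).1 (p + n) = p - u • p' + (n - u • (θ • n + d)) := by
    rw [refl_apply, m4, show (Q (p + n))⁻¹ * polar Q (p' + (θ • n + d)) (p + n) = u from ?_]
    · module
    rw [polar_add_left, polar_add_right, polar_add_right, mem_perp.mp hn p' hp',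
      mem_perp'.mp m1 p hp, polar_add_left, p_smul_left, p_self, polar_symm_zero d1, hθ,
      polar_comm Q p' p]
    field_simp [h.two]
    ring
  exact ⟨_, sub_mem hn (Submodule.smul_mem _ _ m1), m5 ▸ H.refl m3, by rw [← m5, OG.map_Q]⟩

theorem refl_P {p n a : V} (hp : p ∈ P) (hn : n ∈ perp Q P) (ha : a ∈ P) (a0 : Q a ≠ 0)
    (H : IR M (p + n)) : ∃ n' ∈ perp Q P, Q n' = Q n ∧ IR M ((refl Q a).1 p + n') := by
  have m := h.mN (Q a) 1 0
  have q : Q (Q a • x0 + (1 : F) • f0 + (0 : F) • v0) = Q a := by rw [h.qN]; ring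
  refine ⟨_, refl_mem_self m hn, OG.map_Q _ _, ?_⟩
  convert H.map (h.pair_mem (Or.inl ha) (Or.inr m) a0 (q.symm ▸ a0) ⟨_, by rw [q]⟩) using 1
  rw [OG.mul_apply, map_add, map_add, refl_apply_of_orth (mem_perp'.mp m p hp),
    refl_apply_of_orth (mem_perp.mp (refl_mem_self m hn) a ha)]

theorem nonsing {p n : V} (hp : p ∈ P) (hn : n ∈ perp Q P) (p0 : p ≠ 0) (n0 : n ≠ 0)
    (H : IR M (p + n)) (q0 : Q (p + n) ≠ 0) : ∃ p' ∈ P, ∃ n' ∈ perp Q P, p' ≠ 0 ∧ Q n' ≠ 0 ∧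
      IR M (p' + n') ∧ Q (p' + n') = Q (p + n) := by
  by_cases hq : Q n = 0
  swap
  · exact ⟨p, hp, n, hn, p0, hq, H, rfl⟩
  obtain ⟨f, hf, f1, f2, f3⟩ : ∃ f ∈ perp Q P, Q f = 0 ∧ polar Q f v0 = 0 ∧ polar Q f n ≠ 0 := by
    obtain ⟨a, b, c, rfl⟩ := h.spN hn
    by_cases ha : a = 0
    · refine ⟨x0, h.mx, h.qx, h.xv, fun hb => n0 ?_⟩
      have := h.pN 1 0 0 a b c
      rw [h.qN] at hq
      simp_all [h.qv]
    · exact ⟨f0, h.mf, h.qf, h.fv, by simpa [ha] using (h.pN 0 1 0 a b c).trans_ne (by simpa)⟩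
  have qp : Q (p + n) = Q p := by rw [q_add, hq, mem_perp.mp hn p hp]; ring
  obtain ⟨c, c0, c1, c2⟩ := exists_sq_mul_ne h.two (exists_sq_ne_one (by have := h.card; omega))
    (div_ne_zero (mul_ne_zero h.qv (pow_ne_zero 2 f3)) q0)
  have f4 : polar Q f (c • v0) = 0 := by rw [p_smul_right, f2, mul_zero]
  have H' := H.map (OE.mem (oe_of_stab h.nd h.dim.ge h.le f1 f4
    (Or.inr ⟨hf, Submodule.smul_mem _ _ h.mv⟩)))
  rw [map_add, eich_apply_of_orth f1 f4 (mem_perp'.mp hf p hp)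
    (mem_perp'.mp (Submodule.smul_mem _ _ h.mv) p hp)] at H'
  have a1 : Q ((eich Q f (c • v0)).1 n) = 0 := (OG.map_Q _ _).trans hq
  have a2 : (eich Q f (c • v0)).1 n ∈ perp Q P := by
    rw [eich_apply f1 f4]
    exact sub_mem (add_mem hn (Submodule.smul_mem _ _ hf))
      (Submodule.smul_mem _ _ (Submodule.smul_mem _ _ h.mv))
  have a3 : polar Q ((eich Q f (c • v0)).1 n) n = -c ^ 2 * (Q v0 * polar Q f n ^ 2) := by
    rw [eich_apply f1 f4]
    simp only [polar_sub_left, polar_add_left, p_smul_left, p_self, hq, q_smul]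
    ring
  generalize (eich Q f (c • v0)).1 n = n' at *
  obtain ⟨u, hu⟩ : ∃ u, u = 2 - c ^ 2 * (Q v0 * polar Q f n ^ 2 / Q (p + n)) := ⟨_, rfl⟩
  have m5 : (refl Q (p + n')).1 (p + n) = (1 - u) • p + (n - u • n') := by
    rw [refl_apply, show (Q (p + n'))⁻¹ * polar Q (p + n') (p + n) = u from ?_]
    · module
    rw [polar_add_left, polar_add_right, polar_add_right, mem_perp.mp hn p hp,
      mem_perp'.mp a2 p hp, a3, p_self, q_add, a1, mem_perp.mp a2 p hp, hu, qp, add_zero, add_zero]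
    rw [qp] at q0
    field_simp
    ring
  refine ⟨_, P.smul_mem (1 - u) hp, _, sub_mem hn (Submodule.smul_mem _ u a2),
    smul_ne_zero (fun e => c1 (by linear_combination e + hu)) p0, ?_, m5 ▸ H.refl H',
    by rw [← m5, OG.map_Q]⟩
  rw [q_sub, q_smul, a1, hq, p_smul_right, polar_comm, a3]
  simpa [c0, h.qv, f3] using fun e : u = 0 => c2 (by linear_combination hu - e)

theorem fin {x z : V} (hx : x ∈ perp Q P) (hx0 : x ≠ 0) (hx1 : Q x = 0) (hz : z ∈ OE M x)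
    (hz' : z ∈ P) (z0 : z ≠ 0) : commutator (OG Q) ≤ M := by
  have hQ := h.nd
  have hn := h.dim.ge
  have hH := h.le
  obtain ⟨f, hf, hf1, hf2, U, hU, hU1, hU2, hU3⟩ := (h.nds.perp hQ).exists_hyp hx hx0 hx1
  obtain ⟨v, hv, hv'⟩ := hU1.exists_nonsing (by have := h.d3; omega)
  have hE : ∀ v ∈ perp Q P, polar Q x v = 0 → v ∈ OE M x := fun v hv h =>
    oe_of_stab hQ hn hH hx1 h (Or.inr ⟨hx, hv⟩)
  have he : ∀ c ∈ P, ∀ e ∈ P, Q c = 0 → polar Q c e = 0 → ∀ y ∈ OE M x ⊓ P,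
      (eich Q c e).1 y ∈ OE M x ⊓ P := fun c hc e he h4 h5 y hy =>
    ⟨OE.map_fix hy.1 (OE.mem (oe_of_stab hQ hn hH h4 h5 (Or.inl ⟨hc, he⟩)))
      (eich_apply_of_orth h4 h5 (mem_perp.mp hx c hc) (mem_perp.mp hx e he)), by
      rw [eich_apply h4 h5]
      exact P.sub_mem (P.add_mem hy.2 (P.smul_mem _ hc)) (P.smul_mem _ he)⟩
  have h4 : P ≤ OE M x ⊓ P := by
    refine h.nds.irr inf_le_right he (fun a ha ha' y hy hay => ⟨?_, ha⟩)
      (fun _ _ => by have := h.card; omega) ⟨hz, hz'⟩ z0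
    obtain ⟨μ, hμ⟩ : ∃ μ, μ = Q a * Q v := ⟨_, rfl⟩
    have μ0 : μ ≠ 0 := hμ ▸ mul_ne_zero ha' hv'
    have q1 : Q (x - f) = -1 := by rw [q_sub, hx1, hf1, hf2]; ring
    have q2 : Q (x - μ • f) = -μ := by rw [q_sub, q_smul, p_smul_right, hx1, hf1, hf2]; ring
    have m1 := sub_mem hx hf
    have m2 := sub_mem hx (Submodule.smul_mem _ μ hf)
    have h5 := h.list_mem [a, v, x - f, x - μ • f] (by simp [ha', hv', q1, q2, μ0])
      (by simp [ha, hU hv, m1, m2]) ⟨2, rfl⟩ ⟨μ, by simp [q1, q2, ← mul_assoc, ← hμ]⟩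
    have h6 := OE.map hy.1 h5
    simp only [List.map_cons, List.map_nil, List.prod_cons, List.prod_nil, mul_one,
      OG.mul_apply] at h6
    rw [refl_apply_of_orth (mem_perp'.mp m2 y hy.2), refl_apply_of_orth (mem_perp'.mp m1 y hy.2),
      refl_apply_of_orth (mem_perp'.mp (hU hv) y hy.2),
      show (refl Q (x - μ • f)).1 x = μ • f by
        rw [refl_apply, q2, polar_sub_left, p_smul_left, p_self, hx1, polar_comm, hf2]
        match_scalars <;> field_simp <;> ring,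
      map_smul, map_smul, map_smul, show (refl Q (x - f)).1 f = x by
        rw [refl_apply, q1, polar_sub_left, p_self, hf1, hf2]
        match_scalars <;> field_simp <;> ring,
      refl_apply_of_orth (polar_symm_zero (hU3 v hv).1),
      refl_apply_of_orth (mem_perp.mp hx a ha), refl_apply] at h6
    have h7 := (OE M x).sub_mem hy.1 (OE.of_smul hx1 μ0 h6)
    rw [sub_sub_cancel] at h7
    exact ((OE M x).smul_mem_iff (mul_ne_zero (inv_ne_zero ha') hay)).mp h7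
  refine om_le_of_eich hQ hn ⟨hx1, fun y hy => ?_⟩ hf1 (hU3 v hv).2 hv'
    (by simp [polar_comm Q f x, hf2]) (OE.mem (oe_of_stab hQ hn hH hf1 (hU3 v hv).2
      (Or.inr ⟨hf, hU hv⟩)))
  obtain ⟨a, ha, b, hb, rfl⟩ := h.nds.dec hQ y
  exact (OE M x).add_mem (h4 ha).1 (hE b hb (by simpa [mem_perp'.mp hx a ha] using hy))

theorem good {p n : V} {y : F} (hp : p ∈ P) (hn : n ∈ perp Q P) (p0 : p ≠ 0) (y0 : y ≠ 0)
    (H : IR M (p + n)) (q0 : Q (p + n) ≠ 0) (e : Q n = Q v0 * y ^ 2) : commutator (OG Q) ≤ M := by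
  obtain ⟨x, hx, x1, x2, x3⟩ : ∃ x ∈ perp Q P, x ≠ 0 ∧ Q x = 0 ∧ polar Q x n = 0 := by
    obtain ⟨a, b, c, rfl⟩ := h.spN hn
    by_cases hb : b = 0
    · exact ⟨x0, h.mx, fun e' => by simpa [e'] using h.xf, h.qx, by simpa [hb] using h.pN 1 0 0 a b c⟩
    rw [h.qN] at e
    refine ⟨_, h.mN (-Q v0 * ((c + y) / b) ^ 2) 1 ((c + y) / b), fun e' => ?_, by rw [h.qN]; ring, ?_⟩
    · have := h.pN (-Q v0 * ((c + y) / b) ^ 2) 1 ((c + y) / b) 1 0 0
      rw [e'] at this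
      simp at this
    · rw [h.pN]
      field_simp
      linear_combination e
  have m1 := oe_of_stab h.nd h.dim.ge h.le x2 x3 (Or.inr ⟨hx, hn⟩)
  have m2 := H.grow x2 m1 (by rw [polar_add_left, mem_perp.mp hx p hp, polar_comm, x3, add_zero])
    (by
      rw [polar_add_left, mem_perp.mp hn p hp, p_self, e, zero_add]
      exact mul_ne_zero h.two (mul_ne_zero h.qv (pow_ne_zero 2 y0))) q0
  exact h.fin hx x1 x2 (((OE M x).add_mem_iff_left m1).mp m2) hp p0

theorem main (hg : ∃ g ∈ M, ¬ ∀ v, v ∈ P ↔ g.1 v ∈ P) : commutator (OG Q) ≤ M := by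
  obtain ⟨p, hp, n, hn, p0, n0, H, e⟩ := h.exists_mixed hg
  obtain ⟨Δ, hΔ⟩ : ∃ Δ, Δ = -(Q c1 * Q c2) := ⟨_, rfl⟩
  have Δ0 : Δ ≠ 0 := hΔ ▸ neg_ne_zero.mpr (mul_ne_zero h.q1 h.q2)
  have α0 := mul_ne_zero Δ0 h.qv
  rw [← hΔ] at e
  obtain ⟨p, hp, n, hn, p0, n0, H, e'⟩ := h.nonsing hp hn p0 n0 H (e ▸ α0)
  replace e := e'.trans e
  clear e'
  obtain ⟨μ, μ0, μ1⟩ := exists_sq_ne_one (F := F) (by have := h.card; omega)
  have qa : ∀ {p n}, p ∈ P → n ∈ perp Q P → Q (p + n) = Q p + Q n := fun hp hn => by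
    rw [q_add, mem_perp.mp hn _ hp, add_zero]
  by_cases hs : IsSquare Δ
  · obtain ⟨m, hm⟩ := hs
    have m0 : m ≠ 0 := by rintro rfl; simp [Δ0] at hm
    have fin : ∀ p ∈ P, ∀ n ∈ perp Q P, p ≠ 0 → Q p = 0 → IR M (p + n) → Q (p + n) = Δ * Q v0 →
        commutator (OG Q) ≤ M := fun p hp n hn p0 p1 H e =>
      h.good hp hn p0 m0 H (e ▸ α0) (by rw [qa hp hn] at e; linear_combination e - p1 + Q v0 * hm)
    by_cases p1 : Q p = 0
    · exact fin p hp n hn p0 p1 H e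
    have e1 : Q (m • c1 + Q c1 • c2) = 0 := by
      rw [h.qP]; linear_combination Q c1 * hΔ - Q c1 * hm
    have e2 : m • c1 + Q c1 • c2 ∈ P := add_mem (P.smul_mem _ h.m1) (P.smul_mem _ h.m2)
    have e3 : polar Q p (m • c1 + Q c1 • c2) ≠ 0 := fun e' => p1 (by
      obtain ⟨a, b, rfl⟩ := h.spP hp
      rw [h.pP] at e'
      rw [h.qP]
      have : a * m + Q c2 * b = 0 := mul_left_cancel₀ (mul_ne_zero h.two h.q1) (by
        linear_combination e')
      exact mul_left_cancel₀ h.q2 (by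
        linear_combination (Q c2 * b - a * m) * this + a ^ 2 * hΔ - a ^ 2 * hm))
    have e4 : m • c1 + Q c1 • c2 ≠ 0 := fun e' => e3 (by rw [e', polar_zero_right])
    generalize m • c1 + Q c1 • c2 = w at *
    obtain ⟨l, hl⟩ : ∃ l, l = Q p * (1 - μ ^ 2) / polar Q p w := ⟨_, rfl⟩
    have μ2 : μ - 1 ≠ 0 := fun e' => μ1 (by rw [sub_eq_zero.mp e', one_pow])
    have a1 : Q p = Q (μ⁻¹ • (p - l • w)) := by
      rw [q_smul, q_sub, q_smul, e1, p_smul_right, hl]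
      field_simp
      ring
    have a2 : polar Q p (μ⁻¹ • (p - l • w) - p) = μ⁻¹ * (μ - 1) ^ 2 * Q p := by
      rw [polar_sub_right, p_smul_right, polar_sub_right, p_smul_right, p_self, hl]
      field_simp
      ring
    have a3 := a2 ▸ mul_ne_zero (mul_ne_zero (inv_ne_zero μ0) (pow_ne_zero 2 μ2)) p1
    have a4 : μ⁻¹ • (p - l • w) ∈ P := P.smul_mem _ (sub_mem hp (P.smul_mem _ e2))
    obtain ⟨n', hn', q', H'⟩ := h.refl_P hp hn (sub_mem a4 hp)
      (by rw [q_sub_eq_of_eq a1]; exact neg_ne_zero.mpr a3) H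
    rw [refl_sub_apply a1 a3] at H'
    obtain ⟨k, hk, k1, k2⟩ := h.comb hp a4 hn hn' n0 q' H H' (e ▸ α0) a1.symm μ
    rw [smul_inv_smul₀ μ0, sub_sub_cancel] at k1 k2
    exact fin _ (P.smul_mem _ e2) k hk (smul_ne_zero (hl ▸ div_ne_zero (mul_ne_zero p1
      (sub_ne_zero.mpr μ1.symm)) e3) e4) (by rw [q_smul, e1, mul_zero]) k1 (k2.trans e)
  have p1 : Q p ≠ 0 := fun e' => by
    obtain ⟨a, b, rfl⟩ := h.spP hp
    rw [h.qP] at e'
    by_cases hb : b = 0
    · exact p0 (by simp_all [h.q1])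
    · exact hs ⟨Q c1 * a / b, by field_simp; linear_combination b ^ 2 * hΔ - Q c1 * e'⟩
  obtain ⟨c, y, y0, hcy⟩ : ∃ c y : F, y ≠ 0 ∧ Q p * c ^ 2 + Q v0 * y ^ 2 = Δ * Q v0 := by
    obtain ⟨c, y, hcy⟩ := exists_binary_eq h.two p1 h.qv (Δ * Q v0)
    by_cases y0 : y = 0
    swap
    · exact ⟨c, y, y0, hcy⟩
    obtain ⟨τ, τ0, τ1⟩ : ∃ τ : F, τ ≠ 0 ∧ Δ * τ ^ 2 + 1 ≠ 0 := by
      by_cases hd : Δ + 1 = 0
      · exact ⟨μ, μ0, fun e' => μ1 (by linear_combination μ ^ 2 * hd - e')⟩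
      · exact ⟨1, one_ne_zero, by simpa using hd⟩
    refine ⟨c * ((Δ * τ ^ 2 - 1) / (Δ * τ ^ 2 + 1)), 2 * Δ * τ / (Δ * τ ^ 2 + 1),
      div_ne_zero (mul_ne_zero (mul_ne_zero h.two Δ0) τ0) τ1, ?_⟩
    rw [y0] at hcy
    field_simp
    linear_combination (Δ * τ ^ 2 - 1) ^ 2 * hcy
  have c0 : c ≠ 0 := by
    rintro rfl
    exact hs ⟨y, mul_right_cancel₀ h.qv (by linear_combination -hcy)⟩
  obtain ⟨k, hk, k1, k2⟩ := h.comb hp hp hn hn n0 rfl H H (e ▸ α0) rfl (1 - c)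
  rw [show p - (1 - c) • p = c • p by module] at k1 k2
  refine h.good (P.smul_mem _ hp) hk (smul_ne_zero c0 p0) y0 k1 (by rw [k2, e]; exact α0) ?_
  rw [e, qa (P.smul_mem _ hp) hk, q_smul] at k2
  linear_combination k2 - hcy

end PL5

theorem planeMax [FiniteDimensional F V] [Finite F] (hQ : ND Q) (h2 : (2 : F) ≠ 0)
    (hn : finrank F V = 5) (hq : 5 ≤ Nat.card F) : PlaneMax Q := fun P hP hd M hH hg => by
  obtain ⟨b, b1, b2⟩ := hP.nd.exists_orth_basis h2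
  have h3 : finrank F (perp Q P) = 3 := by
    have := hQ.finrank_perp_add P
    omega
  obtain ⟨x, hx, x1, x2⟩ := (hP.perp hQ).exists_sing h3.ge (X := ⊥) (fun e => by
    rw [le_bot_iff.mp e] at h3
    simp at h3)
  obtain ⟨f, hf, hf1, hf2, U, hU, hU1, hU2, hU3⟩ := (hP.perp hQ).exists_hyp hx x2 x1
  obtain ⟨v, hv, hv'⟩ := hU1.exists_nonsing (by omega)
  exact PL5.main (c1 := b ⟨0, by omega⟩) (c2 := b ⟨1, by omega⟩) ⟨hQ, h2, hn, hq, hP, hd, hH,
    (b _).2, (b _).2, hx, hf, hU hv, b2 _, b2 _, by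
      rw [← polar_restrict]; exact b1 _ _ (by simp), x1, hf1, hf2, (hU3 v hv).1, (hU3 v hv).2,
    hv'⟩ hg

end Cfsg.Agent.Max3
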