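import Mathlib
import Cfsg.Agent.Max.Frame6

/-!
# The reduction theorem for six frame vectors, abstract form
-/

set_option autoImplicit false

namespace Cfsg.Agent.Max3

open Module Cfsg.Agent.Max

variable {F V κ : Type*} [Field F] [AddCommGroup V] [Module F V] [Fintype κ] [DecidableEq κ]
  {e : Basis κ F V}

/-- The hypotheses of `Fr` together with control of conjugates of small sign changes. -/
structure Fr6 (e : Basis κ F V) (M : Subgroup (V ≃ₗ[F] V)) : Prop where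
  fr : Fr e M
  conj_two : ∀ {g : V ≃ₗ[F] V}, g ∈ M → ∀ {J : Finset κ}, J.card = 2 →
    g * sg e J * g⁻¹ ∈ mon e → g ∈ mon e

namespace Fr6
variable {M : Subgroup (V ≃ₗ[F] V)} (h : Fr6 e M) {g : V ≃ₗ[F] V} {I : Finset κ}
include h

theorem sg_mem' {J : Finset κ} (hJ : J.card = 2) : sg e J ∈ M := by
  obtain ⟨a, b, hab, rfl⟩ := Finset.card_eq_two.mp hJ
  exact h.fr.sg2 a b hab

theorem conj_symm (hn : Fintype.card κ = 6) (hg : g ∈ M) {J K : Finset κ} (hJ : J.card = 2)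
    (hK : K.card = 2) (hJK : J ≠ K) (H : g * (sg e J * sg e K) * g⁻¹ ∈ mon e) : g ∈ mon e := by
  rw [Fr.sg_mul'] at H
  have h1 : (symmDiff J K).card + 2 * (J ∩ K).card = 4 := by
    have := Finset.card_sdiff_add_card_inter J K
    have := Finset.card_sdiff_add_card_inter K J
    rw [Finset.inter_comm K] at this
    rw [symmDiff_def, Finset.sup_eq_union, Finset.card_union_of_disjoint disjoint_sdiff_sdiff]
    omega
  have h2 : 0 < (symmDiff J K).card := Finset.card_pos.mpr (Finset.nonempty_iff_ne_empty.mpr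
    fun e' => hJK (symmDiff_eq_bot.mp e'))
  by_cases h3 : (symmDiff J K).card = 2
  · exact h.conj_two hg h3 H
  refine h.conj_two hg (J := (symmDiff J K)ᶜ) (by rw [Finset.card_compl]; omega) ?_
  convert mul_mem H (sg_mem Finset.univ) using 1
  have h4 : ∀ x, sg e Finset.univ x = -x := fun x => e.ext_elem fun i => by simp
  refine LinearEquiv.ext fun x => ?_
  simp only [LinearEquiv.mul_apply, h4, map_neg]
  rw [← map_neg]
  refine congrArg g (e.ext_elem fun i => ?_)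
  generalize symmDiff J K = L
  by_cases hi : i ∈ L <;> simp [hi]

theorem odd [Finite (V ≃ₗ[F] V)] (hn : Fintype.card κ = 6) (hg : g ∈ M) (hg' : g ∉ mon e)
    {J K : Finset κ} (hJ : J.card = 2) (hK : K.card = 2) :
    Odd (orderOf (sg e J * (g * sg e K * g⁻¹))) := by
  have A : ∀ {L : Finset κ} {z}, L.card = 2 → z ∈ M → z * sg e L = sg e L * z → z ∈ mon e :=
    fun hL hz H => h.conj_two hz hL (by rw [H, mul_inv_cancel_right]; exact sg_mem _)
  have B : ∀ {L : Finset κ} {z x y}, L.card = 2 → z ∈ M → z ≠ 1 → z * sg e L = sg e L * z →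
      x ∈ M → x * sg e J * x⁻¹ = z * sg e L → y ∈ M → y * z * y⁻¹ ∈ mon e → y ∈ mon e :=
    fun {L z x y} hL hz h1 H hx H' hy H2 => by
      obtain ⟨L', h2, h3⟩ := Fr.conj_sg (h.conj_two hx hJ
        (H' ▸ mul_mem (A hL hz H) (sg_mem _))) J
      have h4 : z = sg e L' * sg e L := by rw [← h3, H', mul_assoc, sgn_sq, mul_one]
      exact h.conj_symm hn hy (h2.trans hJ) hL (fun e' => h1 (by rw [h4, e', sgn_sq])) (h4 ▸ H2)
  refine (dih_even (h.sg_mem' hJ) (mul_mem (mul_mem hg (h.sg_mem' hK)) (inv_mem hg)) (sgn_sq J) (by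
    rw [show g * sg e K * g⁻¹ * (g * sg e K * g⁻¹) = g * (sg e K * sg e K) * g⁻¹ by group, sgn_sq]
    simp)).resolve_right ?_
  rintro ⟨z, hz, h1, h2, h3, x, hx, H⟩
  have hw : g⁻¹ * z * g ∈ M := mul_mem (mul_mem (inv_mem hg) hz) hg
  have h4 : g⁻¹ * z * g * sg e K = sg e K * (g⁻¹ * z * g) := by
    rw [show sg e K * (g⁻¹ * z * g) = g⁻¹ * (g * sg e K * g⁻¹ * z) * g by group, ← h3]
    group
  rcases H with H | H
  · exact hg' ((inv_mem_iff (x := g)).mp (B hJ hz h1 h2 hx H (inv_mem hg)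
      (by simpa using A hK hw h4)))
  · refine hg' (B hK hw (fun e' => h1 ?_) h4 (mul_mem (inv_mem hg) hx) ?_ hg ?_)
    · rw [show z = g * (g⁻¹ * z * g) * g⁻¹ by group, e']
      simp
    · rw [show g⁻¹ * x * sg e J * (g⁻¹ * x)⁻¹ = g⁻¹ * (x * sg e J * x⁻¹) * g by group, H]
      group
    · rw [show g * (g⁻¹ * z * g) * g⁻¹ = z by group]
      exact A hJ hz h2

end Fr6

/-- The reduction theorem for six frame vectors. -/
theorem Fr6.le_mon [Finite F] {e : Basis (Fin 6) F V} {M : Subgroup (V ≃ₗ[F] V)}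
    (h : Fr6 e M) : M ≤ mon e := fun g hg => by
  haveI := Module.Finite.of_basis e
  haveI := Module.finite_of_finite F (M := V)
  haveI : Finite (V ≃ₗ[F] V) := Finite.of_injective _ DFunLike.coe_injective
  by_contra hg'
  let U := {u : V ≃ₗ[F] V // g⁻¹ * u ∈ mon e ∧ ∃ k ∈ M, ∃ L : Finset (Fin 6), L.card = 2 ∧
    u = k * sg e L * k⁻¹}
  choose s hs using fun u : U => exists_conj_sg u.2.1
  have A : ∀ u : U, ∀ p, p.card = 2 → Odd (orderOf (sg e p * u.1)) ∧ (sg e p * u.1) ^ 2 =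
      sg e p * (g * sg e (p.image (s u)) * g⁻¹) := fun u p hp => by
    obtain ⟨h1, k, hk, L, hL, h2⟩ := u.2
    refine ⟨h2 ▸ h.odd (by simp) hk (fun h3 => hg' ?_) hp hL, ?_⟩
    · rw [h2] at h1
      exact (inv_mem_iff (x := g)).mp ((mul_mem_cancel_right
        (mul_mem (mul_mem h3 (sg_mem _)) (inv_mem h3))).mp h1)
    · have h3 : u.1⁻¹ = u.1 := inv_eq_of_mul_eq_one_right (by
        rw [h2, show k * sg e L * k⁻¹ * (k * sg e L * k⁻¹) = k * (sg e L * sg e L) * k⁻¹ by group,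
          sgn_sq]
        simp)
      rw [← hs u p, _root_.mul_inv_rev, h3, sq]
      group
  refine no_sharp s fun p q hp hq => ?_
  obtain ⟨k, hk, h1⟩ := dih_swap (h.sg_mem' hp) (mul_mem (mul_mem hg (h.sg_mem' hq)) (inv_mem hg))
    (sgn_sq p) (by
      rw [show g * sg e q * g⁻¹ * (g * sg e q * g⁻¹) = g * (sg e q * sg e q) * g⁻¹ by group, sgn_sq]
      simp) (h.odd (by simp) hg hg' hp hq)
  have h2 : g⁻¹ * (k * sg e p * k⁻¹) * sg e p * (g⁻¹ * (k * sg e p * k⁻¹))⁻¹ = sg e q := by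
    rw [show sg e q = g⁻¹ * (g * sg e q * g⁻¹) * g by group, ← h1]
    group
  obtain ⟨u, hu⟩ : ∃ u : U, u.1 = k * sg e p * k⁻¹ := ⟨⟨_, h.conj_two (mul_mem (inv_mem hg)
    (mul_mem (mul_mem hk (h.sg_mem' hp)) (inv_mem hk))) hp (h2 ▸ sg_mem _), k, hk, p, hp, rfl⟩, rfl⟩
  have h3 : p.image (s u) = q := sg_inj (e := e) h.fr.two (by rw [← hs, hu, h2])
  exact ⟨u, h3, fun v hv => Subtype.ext (mul_left_cancel (eq_of_sq_eq_of_odd (A v p hp).1
    (A u p hp).1 (by rw [(A v p hp).2, (A u p hp).2, h3, hv])))⟩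

end Cfsg.Agent.Max3
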