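import Mathlib
import Cfsg.Agent.Max.OFrame5

/-!
# Six-dimensional orthogonal frames: elements fixing a frame vector
-/

set_option autoImplicit false
set_option linter.unusedSectionVars false

namespace Cfsg.Agent.Max3

open Module QuadraticMap Orth Cfsg.Agent.Max

variable {F V : Type*} [Field F] [AddCommGroup V] [Module F V] [FiniteDimensional F V] [Finite F]
  {Q : QuadraticForm F V}

section ext
variable (hQ : ND Q) {U : Submodule F V} (hU : U ⊓ perp Q U = ⊥)

/-- extension by the identity -/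
noncomputable def ext6 : OG (Q.restrict (perp Q U)) →* OG Q :=
  (sumHom (splitIso (hQ.isCompl_perp hU))).comp (MonoidHom.inr _ _)

theorem ext6_add (h : OG (Q.restrict (perp Q U))) (x : U) (w : perp Q U) :
    (ext6 hQ hU h).1 (x + w) = x + h.1 w :=
  sumHom_apply (splitIso (hQ.isCompl_perp hU)) (1, h) x w

theorem ext6_coe (h : OG (Q.restrict (perp Q U))) (w : perp Q U) :
    (ext6 hQ hU h).1 w = h.1 w := by
  simpa using ext6_add hQ hU h 0 w

theorem ext6_left (h : OG (Q.restrict (perp Q U))) {x : V} (hx : x ∈ U) :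
    (ext6 hQ hU h).1 x = x := by
  simpa using ext6_add hQ hU h ⟨x, hx⟩ 0

theorem exists_ext6 {g : OG Q} (hfix : ∀ x ∈ U, g.1 x = x) : ∃ h, ext6 hQ hU h = g := by
  have hs : g ∈ stab Q U := mem_stab_of_le fun v hv => by rwa [hfix v hv]
  rw [← hQ.range_sumHom_splitIso hU] at hs
  obtain ⟨⟨g₁, g₂⟩, rfl⟩ := hs
  obtain rfl : g₁ = 1 := OG.ext fun x => Subtype.ext (by
    have := sumHom_apply (splitIso (hQ.isCompl_perp hU)) (g₁, g₂) x 0
    simp only [splitIso_apply, map_zero, ZeroMemClass.coe_zero, add_zero] at this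
    rw [← this, hfix _ x.2]; rfl)
  exact ⟨g₂, rfl⟩

theorem mem_of_ext6 (h2 : (2 : F) ≠ 0) {g : OG (Q.restrict (perp Q U))}
    (hm : ext6 hQ hU g ∈ commutator (OG Q)) : g ∈ commutator _ := by
  have hW' := hQ.nd_perp hU
  obtain ⟨h3, h4⟩ := (hQ.mem_commutator_iff (good_of_two_ne_zero h2) _).1 hm
  change Even (rk (sumHom _ (1, g))) at h3
  rw [rk_sumHom] at h3
  have h5 : rk (1 : OG (Q.restrict U)) = 0 := by
    have : mov (1 : OG (Q.restrict U)) = ⊥ := by
      rw [eq_bot_iff]; intro x hx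
      obtain ⟨w, rfl⟩ := mem_mov.1 hx
      simp
    simp [rk, this]
  rw [h5, zero_add] at h3
  exact (hW'.mem_commutator_iff (good_of_two_ne_zero h2) _).2
    ⟨h3, (sqSpin_sumHom_right _ hQ hW' (good_of_two_ne_zero h2) _).1 h4⟩

end ext

variable {e : Basis (Fin 6) F V} {α : F} {M : Subgroup (OG Q)}

theorem om_of_fix (h : OF5 Q e α M) {g : OG Q} (hg : g ∈ M) {l : Fin 6} (h1 : g.1 (e l) = e l)
    (h2 : g.1 ∉ mon e) : ∀ z ∈ commutator (OG Q), z.1 (e l) = e l → z ∈ M := by
  have hU := span_inf_perp_of_nonsingular h.two (h.qb_ne l)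
  have fx : ∀ z : OG Q, z.1 (e l) = e l → ∀ x ∈ Submodule.span F {e l}, z.1 x = x :=
    fun z hz x hx => by
      obtain ⟨c, rfl⟩ := Submodule.mem_span_singleton.mp hx
      rw [map_smul, hz]
  let v : Fin 5 → perp Q (Submodule.span F {e l}) := fun i =>
    ⟨e (l.succAbove i), mem_perp_singleton.mpr (h.orth _ _ (Fin.succAbove_ne l i).symm)⟩
  have li : LinearIndependent F v := LinearIndependent.of_comp (Submodule.subtype _)
    (e.linearIndependent.comp _ Fin.succAbove_right_injective)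
  have hd := h.nd.finrank_perp_singleton (e.ne_zero l)
  rw [finrank_eq_card_basis e, Fintype.card_fin] at hd
  let e' := basisOfLinearIndependentOfCardEqFinrank li (by simp; omega)
  have he : ∀ i, (e' i : V) = e (l.succAbove i) := fun i => by simp [e', v]
  have mm : ∀ z, (ext6 h.nd hU z).1 ∈ mon e ↔ z.1 ∈ mon e' := fun z => by
    refine ⟨fun hz => mem_mon fun i => ?_, fun hz => mem_mon fun i => ?_⟩
    · obtain ⟨j, a, ha, hj⟩ := mon_basis hz (l.succAbove i)
      rw [← he, ext6_coe] at hj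
      obtain ⟨k, rfl⟩ := Fin.exists_succAbove_eq (x := j) (y := l) (by
        rintro rfl
        have := mem_perp_singleton.mp (z.1 (e' i)).2
        rw [hj, p_smul_right, p_self, h.q] at this
        exact mul_ne_zero ha h.ne2 this)
      rw [show z.1 (e' i) = a • e' k from Subtype.ext (by rw [hj, ← he]; rfl)]
      exact (FV.basis k).smul a
    · by_cases hi : i = l
      · rw [hi, ext6_left _ _ _ (Submodule.mem_span_singleton_self _)]
        exact FV.basis l
      obtain ⟨k, rfl⟩ := Fin.exists_succAbove_eq hi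
      obtain ⟨j, a, -, hj⟩ := mon_basis hz k
      rw [← he, ext6_coe, hj, Submodule.coe_smul, he]
      exact (FV.basis _).smul a
  have h' : OF5 (Q.restrict _) e' α (M.comap (ext6 h.nd hU)) :=
    ⟨h.nd.nd_perp hU, h.two, h.ne, h.nat, fun i => (congrArg Q (he i)).trans (h.q _),
      fun i j hij => by
        rw [polar_restrict, he, he]
        exact h.orth _ _ (Fin.succAbove_right_injective.ne hij),
      fun z hz hz' => h.le _ (map_mem_commutator _ hz) ((mm z).mpr hz')⟩
  obtain ⟨g', rfl⟩ := exists_ext6 h.nd hU (fx g h1)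
  have := h'.main ⟨g', hg, fun e => h2 ((mm _).mpr e)⟩
  intro z hz hz'
  obtain ⟨z', rfl⟩ := exists_ext6 h.nd hU (fx z hz')
  exact this (mem_of_ext6 h.nd hU h.two hz)

theorem ex6_two : ∀ l m : Fin 6, ∃ a b : Fin 6, a ≠ b ∧ a ≠ l ∧ b ≠ l ∧ a ≠ m ∧ b ≠ m := by decide

theorem om_of_fix' (h : OF5 Q e α M) {l : Fin 6}
    (H : ∀ z ∈ commutator (OG Q), z.1 (e l) = e l → z ∈ M) : commutator (OG Q) ≤ M := by
  have A : ∀ m, ∀ z ∈ commutator (OG Q), z.1 (e m) = e m → z ∈ M := fun m z hz hz' => by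
    by_cases hm : l = m
    · exact H z hz (hm ▸ hz')
    obtain ⟨a, b, hab, h1, h2, h3, h4⟩ := ex6_two l m
    have hn := h.ss hm hab
    have e1 : (refl Q (e l - e m) * refl Q (e a - e b)).1 (e l) = e m := by
      rw [OG.mul_apply, h.fix_s (i := a) (by simp [h1, h2, h1.symm, h2.symm]), h.refl_bsub hm]
      simp
    generalize refl Q (e l - e m) * refl Q (e a - e b) = n at hn e1
    have := H (n⁻¹ * z * n⁻¹⁻¹) (Subgroup.Normal.conj_mem inferInstance z hz _) (by
      rw [inv_inv, OG.mul_apply, OG.mul_apply, e1, hz', ← e1, OG.inv_apply_self])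
    simpa [mul_assoc] using mul_mem (mul_mem hn this) (inv_mem hn)
  obtain ⟨u, hu, uc, hu'⟩ := h.exists_sing3 (a := 0) (b := 1) (c := 2) (by decide) (by decide)
    (by decide)
  have u3 : ∀ i, i ∉ ({0, 1, 2} : Finset (Fin 6)) → e.repr u i = 0 := fun i hi =>
    by_contra fun e => hi (hu' i e)
  have p3 : ∀ i, i ∉ ({0, 1, 2} : Finset (Fin 6)) → polar Q u (e i) = 0 := fun i hi => by
    rw [polar_comm, h.pb, u3 i hi, mul_zero]
  have B : ∀ i v, i ∉ ({0, 1, 2} : Finset (Fin 6)) → polar Q u v = 0 → e.repr v i = 0 →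
      v ∈ OE M u := fun i v hi h1 h2 => ⟨h1, fun c => A i _
    (h.nd.eich_mem_commutator (good_of_two_ne_zero h.two) _ _)
    (eich_apply_of_orth hu (by simp [h1]) (p3 i hi) (by rw [polar_comm, h.pb]; simp [h2]))⟩
  have h6 : OP M u := ⟨hu, fun v hv => by
    have e1 := B 3 (v - e.repr v 3 • e 3) (by decide) (by simp [hv, p3 3 (by decide)]) (by simp)
    have e2 := B 4 (e.repr v 3 • e 3) (by decide) (by simp [p3 3 (by decide)])
      (by simp)
    simpa using (OE M u).add_mem e1 e2⟩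
  refine om_le_of_pair h.nd (by rw [finrank_eq_card_basis e]; simp) h6 (h6.map (h.rr 2 3)) ?_
  rw [OG.mul_apply, h.fix_b (u3 3 (by decide)), refl_apply, polar_sub_right, p_self, hu,
    p_smul_right, polar_comm Q u, h.pb, uc, h.q]
  simp [h.ne, h.two]

theorem fix6 (h : OF5 Q e α M) (H : ¬ commutator (OG Q) ≤ M) {g : OG Q} (hg : g ∈ M) {l : Fin 6}
    (h1 : g.1 (e l) = e l) : g.1 ∈ mon e :=
  by_contra fun h2 => H (om_of_fix' h (om_of_fix h hg h1 h2))

theorem fix6' (h : OF5 Q e α M) (H : ¬ commutator (OG Q) ≤ M) {g : OG Q} (hg : g ∈ M) {l : Fin 6}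
    (h1 : FV e (g.1 (e l))) : g.1 ∈ mon e := by
  obtain ⟨m, c, hc⟩ := h1.exists_eq
  have h2 : c * c = 1 := mul_right_cancel₀ h.ne (by
    have := OG.map_Q g (e l)
    rw [hc, q_smul, h.q, h.q] at this
    linear_combination this)
  obtain ⟨a, b, hab, h3, h4, h5, h6⟩ := ex6_two l m
  obtain ⟨n, hn, hn', e1⟩ : ∃ n ∈ M, n.1 ∈ mon e ∧ n.1 (e m) = e l := by
    by_cases hm : m = l
    · exact ⟨1, one_mem _, one_mem _, by simp [hm]⟩
    refine ⟨_, h.ss hm hab, mul_mem (h.mon_s hm) (h.mon_s hab), ?_⟩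
    rw [OG.mul_apply, h.fix_s (i := a) (by simp [h5, h6, h5.symm, h6.symm]), h.refl_bsub hm]
    simp
  refine (mul_mem_cancel_left hn').mp ?_
  rcases mul_self_eq_one_iff.mp h2 with rfl | rfl
  · exact fix6 h H (mul_mem hn hg) (l := l) (by rw [OG.mul_apply, hc, one_smul, e1])
  · refine (mul_mem_cancel_left (mul_mem (h.mon_b a) (h.mon_b l))).mp
      (fix6 h H (mul_mem (h.rr a l) (mul_mem hn hg)) (l := l) ?_)
    rw [OG.mul_apply, OG.mul_apply, OG.mul_apply, hc, neg_smul, one_smul, map_neg, e1, map_neg,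
      refl_apply_self (h.qb_ne l), neg_neg, h.fix_b (by simp [h3.symm])]

end Cfsg.Agent.Max3
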