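import Mathlib
import Cfsg.Agent.Max3.P6b

/-!
# Six-dimensional orthogonal frames: elements preserving a coordinate plane
-/

set_option autoImplicit false
set_option linter.unusedSectionVars false

namespace Cfsg.Agent.Max3

open Module QuadraticMap Orth Cfsg.Agent.Max

variable {F V : Type*} [Field F] [AddCommGroup V] [Module F V] [FiniteDimensional F V] [Finite F]
  {Q : QuadraticForm F V} {e : Basis (Fin 6) F V} {α : F} {M : Subgroup (OG Q)}

/-- support of size at most two -/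
def S2 (e : Basis (Fin 6) F V) (x : V) : Prop :=
  ∀ j k l, j ≠ k → j ≠ l → k ≠ l → e.repr x j = 0 ∨ e.repr x k = 0 ∨ e.repr x l = 0

set_option synthInstance.maxSize 2000 in
set_option synthInstance.maxHeartbeats 200000 in
theorem ex6_four : ∀ a b : Fin 6, a ≠ b → ∃ c d f g : Fin 6, (c ≠ a ∧ c ≠ b) ∧ (d ≠ a ∧ d ≠ b) ∧
    (f ≠ a ∧ f ≠ b) ∧ (g ≠ a ∧ g ≠ b) ∧ c ≠ d ∧ c ≠ f ∧ c ≠ g ∧ d ≠ f ∧ d ≠ g ∧ f ≠ g ∧
    ∀ i, i = a ∨ i = b ∨ i = c ∨ i = d ∨ i = f ∨ i = g := by decide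

theorem refl_comm6 {v w : V} (h : polar Q v w = 0) : refl Q v * refl Q w = refl Q w * refl Q v := by
  rw [← mul_inv_eq_iff_eq_mul, refl_conj, refl_apply_of_orth h]

theorem eq_two6 {x : V} {a b : Fin 6} (hab : a ≠ b) (hx : ∀ i, i ≠ a → i ≠ b → e.repr x i = 0) :
    x = e.repr x a • e a + e.repr x b • e b := e.ext_elem fun i => by
  by_cases h1 : i = a
  · simp [h1, hab]
  by_cases h2 : i = b
  · simp [h2, hab.symm]
  simp [h1, h2, hx]

theorem S2.two {x : V} (h : S2 e x) (h' : ¬ FV e x) : ∃ i j, i ≠ j ∧ e.repr x i ≠ 0 ∧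
    e.repr x j ≠ 0 ∧ ∀ k, k ≠ i → k ≠ j → e.repr x k = 0 := by
  obtain ⟨i, hi⟩ := exists_repr_ne (e := e) (x := x) fun e' => h' ⟨0, by simp [e']⟩
  obtain ⟨j, hj, hj'⟩ : ∃ j, j ≠ i ∧ e.repr x j ≠ 0 := by
    by_contra hc
    push Not at hc
    exact h' ⟨i, hc⟩
  exact ⟨i, j, hj.symm, hi, hj', fun k h1 h2 =>
    ((h i j k hj.symm h1.symm h2.symm).resolve_left hi).resolve_left hj'⟩

theorem s2_of {x : V} {a b : Fin 6} (hx : ∀ i, i ≠ a → i ≠ b → e.repr x i = 0) : S2 e x :=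
  fun j k l h1 h2 h3 => by
    by_contra hc
    push Not at hc
    have A : ∀ i, e.repr x i ≠ 0 → i = a ∨ i = b := fun i hi => by
      by_contra h
      push Not at h
      exact hi (hx i h.1 h.2)
    rcases A j hc.1 with rfl | rfl <;> rcases A k hc.2.1 with rfl | rfl <;>
      rcases A l hc.2.2 with rfl | rfl <;> contradiction

variable (h : OF5 Q e α M) {a b c d i j k l : Fin 6} {u v w x y : V}
include h

theorem rb6 (j i : Fin 6) : e.repr ((refl Q w).1 (e j)) i =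
    e.repr (e j) i - (Q w)⁻¹ * (2 * α * e.repr w j) * e.repr w i := by
  rw [refl_apply, polar_comm, h.pb]
  simp

theorem s2_refl (hw : Q w ≠ 0) (H : ∀ j, e.repr w j ≠ 0 → FV e ((refl Q w).1 (e j))) : S2 e w :=
  fun j k l h1 h2 h3 => by
    by_contra hc
    push Not at hc
    have A : ∀ i, j ≠ i → e.repr w i ≠ 0 → e.repr ((refl Q w).1 (e j)) i ≠ 0 := fun i hi hi' => by
      rw [rb6 h]
      simp [hi.symm, hw, h.two, h.ne, hc.1, hi']
    exact A l h2 hc.2.2 ((H j hc.1).eq_zero (A k h1 hc.2.1) h3.symm)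

theorem plane6 (hab : a ≠ b) {s t : F} (hst : s ^ 2 + t ^ 2 ≠ 0) :
    refl Q (-s • e a + t • e b) * refl Q (t • e a + s • e b) = refl Q (e a) * refl Q (e b) := by
  have q : ∀ s t : F, Q (s • e a + t • e b) = α * (s ^ 2 + t ^ 2) := fun s t => by
    rw [q_add, q_smul, q_smul, p_smul_left, p_smul_right, h.orth _ _ hab, h.q, h.q]
    ring
  refine OG.ext fun x => ?_
  have := h.ne
  simp only [OG.mul_apply, refl_apply, q, polar_sub_right, polar_add_left, p_smul_left,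
    p_smul_right, polar_add_right, h.q,
    neg_sq, h.orth _ _ hab, h.orth _ _ hab.symm, p_self]
  simp only [h.pb]
  rw [add_comm (t ^ 2)]
  match_scalars <;> field_simp <;> ring

theorem q_e6 (hij : i ≠ j) {ε : F} (hε : ε * ε = 1) : Q (e i - ε • e j) = 2 * α := by
  rw [q_sub, q_smul, p_smul_right, h.orth _ _ hij, h.q, h.q]
  linear_combination α * hε

theorem mon_e6 (hij : i ≠ j) {ε : F} (hε : ε * ε = 1) : (refl Q (e i - ε • e j)).1 ∈ mon e := by
  rcases mul_self_eq_one_iff.mp hε with rfl | rfl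
  · simpa using h.mon_s hij
  · rw [neg_smul, one_smul, sub_neg_eq_add, h.refl_badd hij]
    exact mul_mem (mul_mem (h.mon_b j) (h.mon_s hij)) (h.mon_b j)

theorem es6 (hij : i ≠ j) {ε : F} (hε : ε * ε = 1) (hkl : k ≠ l) :
    refl Q (e i - ε • e j) * refl Q (e k - e l) ∈ M :=
  h.le _ (h.nd.refl_mul_refl_mem_commutator (q_e6 h hij hε ▸ h.ne2)
    ((q_e6 h hij hε).trans (h.q_bsub hkl).symm)) (mul_mem (mon_e6 h hij hε) (h.mon_s hkl))

theorem row6 (g : OG Q) (i j : Fin 6) : e.repr ((g⁻¹).1 (e i)) j = e.repr (g.1 (e j)) i :=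
  mul_left_cancel₀ h.ne2 (by rw [← h.pb, ← h.pb, OG.polar_inv_right, polar_comm])

theorem exists_row6 (g : OG Q) (k : Fin 6) : ∃ b, e.repr (g.1 (e b)) k ≠ 0 := by
  obtain ⟨b, hb⟩ := exists_repr_ne (e := e) (x := (g⁻¹).1 (e k)) (by
    rw [Ne, OG.apply_eq_zero]
    exact e.ne_zero k)
  exact ⟨b, row6 h g k b ▸ hb⟩

theorem rr_apply6 (hab : a ≠ b) (x : V) (i : Fin 6) : e.repr ((refl Q (e a) * refl Q (e b)).1 x) i =
    if i = a ∨ i = b then -e.repr x i else e.repr x i := by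
  simp only [OG.mul_apply, h.refl_b, repr_sgn, Finset.mem_singleton]
  by_cases h1 : i = a <;> by_cases h2 : i = b <;> simp_all

variable (H : ¬ commutator (OG Q) ≤ M)
include H

theorem key6 (hab : a ≠ b) (hu : ∀ i, i ≠ a → i ≠ b → e.repr u i = 0) (u0 : Q u ≠ 0)
    (xa : e.repr x a = 0) (xb : e.repr x b = 0) (x0 : Q x ≠ 0) (hm : refl Q u * refl Q x ∈ M) :
    ∃ i, i ≠ a ∧ i ≠ b ∧ e.repr x i = 0 := by
  by_contra hc
  push Not at hc
  have uo : ∀ y, e.repr y a = 0 → e.repr y b = 0 → polar Q u y = 0 := fun y ya yb => by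
    rw [eq_two6 hab hu, polar_add_left, p_smul_left, p_smul_left, h.pb, h.pb, ya, yb]
    simp
  obtain ⟨κ, hκ⟩ : ∃ κ, κ = (Q x)⁻¹ * (2 * α) := ⟨_, rfl⟩
  have κ0 : κ ≠ 0 := hκ ▸ mul_ne_zero (inv_ne_zero x0) h.ne2
  have rx : ∀ j, (refl Q x).1 (e j) = e j - (κ * e.repr x j) • x := fun j => by
    rw [refl_apply, polar_comm, h.pb, hκ, mul_assoc _ (2 * α)]
  have fa : (refl Q x).1 (e a) = e a := by simp [rx, xa]
  have rbx : ∀ j, (refl Q (e j)).1 x = x - (2 * e.repr x j) • e j := fun j => by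
    rw [refl_apply, h.pb, h.q]
    congr 2
    have := h.ne
    field_simp
  have A : ∀ j k l, j ≠ a ∧ j ≠ b → k ≠ a ∧ k ≠ b → l ≠ a ∧ l ≠ b → j ≠ k → l ≠ j → l ≠ k →
      κ * (e.repr x j ^ 2 + e.repr x k ^ 2) = 1 := fun j k l hj hk hl hjk hlj hlk => by
    have m1 := mul_mem (mul_mem hm (h.rr j k)) (inv_mem hm)
    have c1 : ∀ j, j ≠ a ∧ j ≠ b → (refl Q u * refl Q x).1 (e j) = (refl Q x).1 (e j) :=
      fun j hj => refl_apply_of_orth (uo _ (by simp [rx, xa, hj.1.symm]) (by simp [rx, xb, hj.2.symm]))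
    rw [← conj_mul, refl_conj, refl_conj, c1 j hj, c1 k hk, ← refl_conj, ← refl_conj, conj_mul,
      refl_inv] at m1
    have m2 := (fix6 h H m1 (l := a) (by
      rw [OG.mul_apply, fa, OG.mul_apply, OG.mul_apply, h.fix_b (i := k) (by simp [hk.1]),
        h.fix_b (i := j) (by simp [hj.1]), fa]) (e l)).mp (FV.basis l)
    have e1 : (refl Q x * (refl Q (e j) * refl Q (e k)) * refl Q x).1 (e l) =
        e l + (2 * κ * e.repr x l) • ((1 - κ * (e.repr x j ^ 2 + e.repr x k ^ 2)) • x -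
          x + e.repr x j • e j + e.repr x k • e k) := by
      simp only [OG.mul_apply, rx, map_sub, map_smul, rbx, refl_apply_self x0,
        h.fix_b (i := k) (x := e l) (by simp [hlk.symm]),
        h.fix_b (i := j) (x := e l) (by simp [hlj.symm]),
        h.fix_b (i := j) (x := e k) (by simp [hjk])]
      module
    rw [e1] at m2
    by_contra h1
    have h2 := sub_ne_zero.mpr (Ne.symm h1)
    refine absurd (m2.eq_zero (i := j) ?_ hjk.symm) ?_
    · refine ne_of_eq_of_ne ?_ (mul_ne_zero (mul_ne_zero (mul_ne_zero h.two κ0) (hc _ hl.1 hl.2))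
        (mul_ne_zero h2 (hc _ hj.1 hj.2)))
      simp [hlj.symm, hjk]
      ring
    · refine ne_of_eq_of_ne ?_ (mul_ne_zero (mul_ne_zero (mul_ne_zero h.two κ0) (hc _ hl.1 hl.2))
        (mul_ne_zero h2 (hc _ hk.1 hk.2)))
      simp [hlk.symm, hjk.symm]
      ring
  obtain ⟨c, d, f, g, h1, h2, h3, h4, hcd, hcf, hcg, hdf, hdg, hfg, -⟩ := ex6_four a b hab
  have a1 := A c d g h1 h2 h4 hcd hcg.symm hdg.symm
  have a2 := A c f g h1 h3 h4 hcf hcg.symm hfg.symm
  obtain ⟨ε, hε, a3⟩ : ∃ ε : F, ε * ε = 1 ∧ e.repr x d = ε * e.repr x f := by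
    rcases sq_eq_sq_iff_eq_or_eq_neg.mp (show e.repr x d ^ 2 = e.repr x f ^ 2 from
      mul_left_cancel₀ κ0 (by linear_combination a1 - a2)) with a | a
    exacts [⟨1, by simp, by simpa⟩, ⟨-1, by simp, by simpa⟩]
  obtain ⟨s, hs⟩ : ∃ s, s = e.repr u a := ⟨_, rfl⟩
  obtain ⟨t, ht⟩ : ∃ t, t = e.repr u b := ⟨_, rfl⟩
  have hu' : u = s • e a + t • e b := hs ▸ ht ▸ eq_two6 hab hu
  have hst : s ^ 2 + t ^ 2 ≠ 0 := fun e' => u0 (by
    rw [hu', q_add, q_smul, q_smul, p_smul_left, p_smul_right, h.orth _ _ hab, h.q, h.q]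
    linear_combination α * e')
  have m1 := es6 h hdf hε hab
  have m2 := mul_mem (mul_mem m1 hm) (inv_mem m1)
  have b1 : (refl Q (e d - ε • e f) * refl Q (e a - e b)).1 u = t • e a + s • e b := by
    rw [OG.mul_apply, h.refl_bsub hab, hu', map_add, map_smul, map_smul, pm_basis, pm_basis,
      Equiv.swap_apply_left, Equiv.swap_apply_right, add_comm, refl_apply_of_orth]
    simp [h.pb, h2.1, h2.2, h3.1, h3.2]
  have b2 : (refl Q (e d - ε • e f) * refl Q (e a - e b)).1 x = x := by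
    rw [OG.mul_apply, h.fix_s (xa.trans xb.symm), refl_apply_of_orth]
    rw [polar_sub_left, p_smul_left, h.pb, h.pb, a3]
    ring
  rw [← conj_mul, refl_conj, refl_conj, b1, b2] at m2
  have b3 : (refl Q (e a)).1 u = -s • e a + t • e b := by
    rw [hu', map_add, map_smul, map_smul, refl_apply_self (h.qb_ne a), h.fix_b (by simp [hab])]
    simp
  have m3 : refl Q u * refl Q (e a) * (refl Q u * refl Q (e a)) ∈ M := by
    have b4 := refl_conj (refl Q (e a)) u
    have b5 := congrArg (·⁻¹) (plane6 h hab hst)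
    simp only [_root_.mul_inv_rev, refl_inv] at b5
    rw [b3, refl_inv, ← refl_cancel (t • e a + s • e b) (refl Q (-s • e a + t • e b)), b5] at b4
    rw [mul_assoc, ← mul_assoc (refl Q (e a)), b4]
    simpa [mul_assoc, refl_cancel] using mul_mem (mul_mem hm (inv_mem m2)) (h.rr b a)
  have d1 : Commute (refl Q (e a)) (refl Q x) := refl_comm6 (by rw [h.pb, xa, mul_zero])
  have d2 : Commute (refl Q u * refl Q (e a)) (refl Q x * refl Q (e c)) :=
    (Commute.mul_right (refl_comm6 (uo x xa xb)) (refl_comm6 (uo _ (by simp [h1.1.symm])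
      (by simp [h1.2.symm])))).mul_left (d1.mul_right (refl_comm6 (h.orth _ _ h1.1.symm)))
  have m4 : refl Q u * refl Q (e a) * (refl Q x * refl Q (e c)) ∈ M := by
    rw [mul_assoc, ← mul_assoc (refl Q (e a)), d1.eq, mul_assoc, ← mul_assoc]
    exact mul_mem hm (h.rr a c)
  have m5 := mul_mem m4 m4
  rw [← d2.mul_mul_mul_comm, mul_mem_cancel_left m3] at m5
  have fc : (refl Q (e c)).1 (e a) = e a := h.fix_b (by simp [h1.1])
  have m6 := (fix6 h H m5 (l := a) (by simp only [OG.mul_apply, fa, fc]) (e c)).mp (FV.basis c)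
  have e1 : (refl Q x * refl Q (e c) * (refl Q x * refl Q (e c))).1 (e c) =
      (1 - 2 * κ * e.repr x c ^ 2) • e c + (2 * κ * e.repr x c * (κ * e.repr x c ^ 2 - 1)) • x := by
    simp only [OG.mul_apply, rx, map_sub, map_smul, map_neg, rbx, refl_apply_self x0,
      refl_apply_self (h.qb_ne c)]
    module
  rw [e1] at m6
  have n1 : 2 * κ * e.repr x c * (κ * e.repr x c ^ 2 - 1) ≠ 0 :=
    mul_ne_zero (mul_ne_zero (mul_ne_zero h.two κ0) (hc _ h1.1 h1.2)) fun e' =>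
      mul_ne_zero κ0 (pow_ne_zero 2 (hc _ h2.1 h2.2)) (by linear_combination a1 - e')
  refine absurd (m6.eq_zero (i := d) ?_ hdf.symm) ?_
  · exact ne_of_eq_of_ne (by simp [hcd.symm]) (mul_ne_zero n1 (hc _ h2.1 h2.2))
  · exact ne_of_eq_of_ne (by simp [hcf.symm]) (mul_ne_zero n1 (hc _ h3.1 h3.2))

theorem key6' (hab : a ≠ b) (hu : ∀ i, i ≠ a → i ≠ b → e.repr u i = 0) (u0 : Q u ≠ 0)
    (xa : e.repr x a = 0) (xb : e.repr x b = 0) (x0 : Q x ≠ 0) (hm : refl Q u * refl Q x ∈ M) :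
    S2 e x := by
  obtain ⟨i, h1, h2, h3⟩ := key6 h H hab hu u0 xa xb x0 hm
  have uo : ∀ y, e.repr y a = 0 → e.repr y b = 0 → polar Q u y = 0 := fun y ya yb => by
    rw [eq_two6 hab hu, polar_add_left, p_smul_left, p_smul_left, h.pb, h.pb, ya, yb]
    simp
  have m := fix6 h H hm (l := i) (by
    rw [OG.mul_apply, refl_apply_of_orth (v := x) (by rw [polar_comm, h.pb, h3, mul_zero]),
      refl_apply_of_orth (uo _ (by simp [h1.symm]) (by simp [h2.symm]))])
  refine s2_refl h x0 fun j hj => ?_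
  have := (m (e j)).mp (FV.basis j)
  rwa [OG.mul_apply, refl_apply_of_orth (uo _ (by
    simp [rb6 h, xa, show a ≠ j from fun e' => hj (e' ▸ xa)]) (by
    simp [rb6 h, xb, show b ≠ j from fun e' => hj (e' ▸ xb)]))] at this

omit H in
theorem sep6 (hx : ∀ m, m ≠ i → m ≠ j → e.repr x m = 0) (hij : i ≠ j) (hi : e.repr x i ≠ 0)
    (hj : e.repr x j ≠ 0) (hy : S2 e y) (ho : polar Q x y = 0) (hki : k ≠ i) (hkj : k ≠ j)
    (hk : e.repr y k ≠ 0) : ¬ S2 e (x - y) := fun H => by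
  rw [eq_two6 hij hx, polar_add_left, p_smul_left, p_smul_left, h.pb, h.pb] at ho
  have h1 : e.repr y i = 0 ∧ e.repr y j = 0 := by
    rcases (hy k i j hki hkj hij).resolve_left hk with e1 | e1
    · simpa [e1, hj, h.two, h.ne] using ho
    · simpa [e1, hi, h.two, h.ne] using ho
  simpa [h1, hi, hj, hk, hx k hki hkj] using H k i j hki hkj hij

theorem plane_mon6 {g : OG Q} (hg : g ∈ M) (hab : a ≠ b) (hcd : c ≠ d)
    (hc : g * (refl Q (e a) * refl Q (e b)) * g⁻¹ = refl Q (e c) * refl Q (e d)) :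
    g.1 ∈ mon e := by
  by_contra hg'
  have A : ∀ i m, e.repr (g.1 ((refl Q (e a) * refl Q (e b)).1 (e i))) m =
      if m = c ∨ m = d then -e.repr (g.1 (e i)) m else e.repr (g.1 (e i)) m := fun i m => by
    rw [← rr_apply6 h hcd, ← hc, OG.mul_apply (_ * _), OG.inv_apply_self, OG.mul_apply g]
  have n2 : ∀ {z : F}, -z = z → z = 0 := fun e' =>
    (mul_eq_zero.mp (by linear_combination -e')).resolve_left h.two
  have B : ∀ i, i = a ∨ i = b → ∀ m, m ≠ c → m ≠ d → e.repr (g.1 (e i)) m = 0 :=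
    fun i hi m h1 h2 => n2 (by
      have := A i m
      rwa [show (refl Q (e a) * refl Q (e b)).1 (e i) = -e i from e.ext_elem fun n => by
        rw [rr_apply6 h hab]
        by_cases hn : n = i <;> simp [hn, hi], if_neg (by simp [h1, h2]), map_neg, map_neg] at this)
  have C : ∀ i, i ≠ a → i ≠ b → ∀ m, m = c ∨ m = d → e.repr (g.1 (e i)) m = 0 :=
    fun i h1 h2 m hm => n2 (by
      have := A i m
      rw [OG.mul_apply, h.fix_b (i := b) (by simp [h2.symm]), h.fix_b (i := a) (by simp [h1.symm]),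
        if_pos hm] at this
      exact this.symm)
  have q0 : ∀ i, Q (g.1 (e i)) ≠ 0 := fun i => by simpa using h.qb_ne i
  have D : ∀ i, i ≠ a → i ≠ b → S2 e (g.1 (e i)) := fun i h1 h2 =>
    key6' h H hcd (B a (.inl rfl)) (q0 a) (C i h1 h2 c (.inl rfl)) (C i h1 h2 d (.inr rfl)) (q0 i)
      (by
        rw [← refl_conj, ← refl_conj, conj_mul]
        exact mul_mem (mul_mem hg (h.rr _ _)) (inv_mem hg))
  obtain ⟨p, -, -, -, hp, -⟩ := ex6_four a b hab
  obtain ⟨i, j, hij, hi, hj, hx⟩ := (D p hp.1 hp.2).two fun e' => hg' (fix6' h H hg e')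
  obtain ⟨k, -, hk⟩ := exists_mem_not_mem (I := Finset.univ) (s := {c, d, i, j})
    (Finset.card_le_four.trans_lt (by simp))
  simp only [Finset.mem_insert, Finset.mem_singleton, not_or] at hk
  obtain ⟨r, hr⟩ := exists_row6 h g k
  have ra : r ≠ a := fun e' => hr (B r (.inl e') k hk.1 hk.2.1)
  have rb : r ≠ b := fun e' => hr (B r (.inr e') k hk.1 hk.2.1)
  have pr : p ≠ r := fun e' => hr (e' ▸ hx k hk.2.2.1 hk.2.2.2)
  refine sep6 h hx hij hi hj (D r ra rb) (by simpa using h.orth _ _ pr) hk.2.2.1 hk.2.2.2 hr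
    (key6' h H hcd (u := g.1 (e a - e b)) (fun m h1 h2 => by
      simp [B a (.inl rfl) m h1 h2, B b (.inr rfl) m h1 h2]) (by
        rw [OG.map_Q, h.q_bsub hab]; exact h.ne2)
      (by simp [C p hp.1 hp.2 c, C r ra rb c]) (by simp [C p hp.1 hp.2 d, C r ra rb d])
      (by rw [← map_sub, OG.map_Q, h.q_bsub pr]; exact h.ne2) ?_)
  rw [← map_sub g.1, ← refl_conj, ← refl_conj, conj_mul]
  exact mul_mem (mul_mem hg (h.ss hab pr)) (inv_mem hg)

theorem s2_mon6 {g : OG Q} (hg : g ∈ M) (hk : S2 e (g.1 (e k))) : g.1 ∈ mon e := by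
  by_contra hg'
  have nf : ∀ i, ¬ FV e (g.1 (e i)) := fun i e' => hg' (fix6' h H hg e')
  have q0 : ∀ i, Q (g.1 (e i)) ≠ 0 := fun i => by simpa using h.qb_ne i
  obtain ⟨a, b, hab, ha, hb, hu⟩ := hk.two (nf k)
  obtain ⟨s, hs⟩ : ∃ s, s = e.repr (g.1 (e k)) a := ⟨_, rfl⟩
  obtain ⟨t, ht⟩ : ∃ t, t = e.repr (g.1 (e k)) b := ⟨_, rfl⟩
  have hu' : g.1 (e k) = s • e a + t • e b := hs ▸ ht ▸ eq_two6 hab hu
  have q : ∀ s t : F, Q (s • e a + t • e b) = α * (s ^ 2 + t ^ 2) := fun s t => by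
    rw [q_add, q_smul, q_smul, p_smul_left, p_smul_right, h.orth _ _ hab, h.q, h.q]
    ring
  have hst : t ^ 2 + s ^ 2 ≠ 0 := fun e' => q0 k (by rw [hu', q]; linear_combination α * e')
  obtain ⟨w, hw⟩ : ∃ w, g.1 w = -t • e a + s • e b := ⟨_, OG.apply_inv_self g _⟩
  have w0 : Q w ≠ 0 := by
    rw [← OG.map_Q g, hw, q, neg_sq]
    exact mul_ne_zero h.ne hst
  have e1 : g * (refl Q w * refl Q (e k)) * g⁻¹ = refl Q (e a) * refl Q (e b) := by
    rw [← conj_mul, refl_conj, refl_conj, hw, hu', plane6 h hab hst]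
  have wk : e.repr w k = 0 := by
    have := OG.map_polar g (e k) w
    rw [hw, hu', h.pb] at this
    simp only [polar_add_left, p_smul_left, h.pb] at this
    refine (mul_eq_zero.mp ?_).resolve_left h.ne2
    rw [← this]
    simp [hab, hab.symm]
    ring
  obtain ⟨c, d, f, r, h1, h2, h3, h4, hcd, hcf, hcr, hdf, hdr, hfr, hall⟩ := ex6_four a b hab
  have Z : ∀ c d, c ≠ a ∧ c ≠ b → d ≠ a ∧ d ≠ b →
      (g⁻¹ * (refl Q (e c) * refl Q (e d)) * g).1 ∈ mon e := fun c d hc hd =>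
    fix6 h H (mul_mem (mul_mem (inv_mem hg) (h.rr c d)) hg) (l := k) (by
      rw [OG.mul_apply, OG.mul_apply, OG.mul_apply, h.fix_b (hu d hd.1 hd.2),
        h.fix_b (hu c hc.1 hc.2), OG.inv_apply_self])
  have Y : (refl Q w).1 ∈ mon e := by
    refine (mul_mem_cancel_right (h.mon_b k)).mp (mem_mon fun j => ?_)
    have := ((mul_mem (Z c d h1 h2) (Z f r h3 h4) (e j)).mp (FV.basis j)).smul (-1)
    convert this using 1
    apply g.1.injective
    change (g * (refl Q w * refl Q (e k))).1 (e j) = _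
    rw [eq_mul_of_mul_inv_eq e1, OG.mul_apply, map_smul]
    simp only [LinearEquiv.mul_apply, OG.mul_apply (_ * _) g, OG.mul_apply g⁻¹,
      OG.apply_inv_self]
    refine e.ext_elem fun m => ?_
    simp only [rr_apply6 h hab, rr_apply6 h hcd, rr_apply6 h hfr, map_smul, Finsupp.smul_apply]
    rcases hall m with rfl | rfl | rfl | rfl | rfl | rfl <;> simp [*, Ne.symm]
  have hw2 : S2 e w := s2_refl h w0 fun j _ => (Y _).mp (FV.basis j)
  by_cases hf : FV e w
  · obtain ⟨i, c, hc⟩ := hf.exists_eq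
    have c0 : c ≠ 0 := fun e' => w0 (by simp [hc, e'])
    rw [hc, refl_smul c0] at e1
    exact hg' (plane_mon6 h H hg (fun e' => c0 (by simpa [hc, e'] using wk)) hab e1)
  obtain ⟨i, j, hij, hi, hj, hx⟩ := hw2.two hf
  have sq : ∀ i j, i ≠ j → e.repr w i ≠ 0 → e.repr w j ≠ 0 →
      (Q w)⁻¹ * (2 * α * e.repr w i) * e.repr w i = 1 := fun i j hij hi hj => by
    have := ((Y _).mp (FV.basis i)).eq_zero (i := j) (by
      rw [rb6 h]
      simp [hij.symm, w0, h.two, h.ne, hi, hj]) hij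
    rw [rb6 h, sub_eq_zero] at this
    simpa using this.symm
  obtain ⟨ε, hε, a3⟩ : ∃ ε : F, ε * ε = 1 ∧ e.repr w j = -(e.repr w i * ε) := by
    rcases sq_eq_sq_iff_eq_or_eq_neg.mp (show e.repr w j ^ 2 = e.repr w i ^ 2 from
      mul_left_cancel₀ (mul_ne_zero (inv_ne_zero w0) h.ne2) (by
        linear_combination sq j i hij.symm hj hi - sq i j hij hi hj)) with a | a
    exacts [⟨-1, by simp, by simpa⟩, ⟨1, by simp, by simpa⟩]
  have e2 : refl Q w = refl Q (e i - ε • e j) := by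
    rw [← refl_smul hi (e i - _), eq_two6 hij hx, a3]
    congr 1
    simp only [map_add, map_smul, Finsupp.add_apply, Finsupp.smul_apply, repr_basis, if_true,
      if_neg hij.symm]
    module
  obtain ⟨l, -, m, -, n, -, hl, hm, hn, hlm, hln, hmn⟩ := exists_three_not_mem (I := Finset.univ)
    (s := {i, j, k}) (by have := Finset.card_le_three (a := i) (b := j) (c := k); simp; omega)
  have A : ∀ l, l ∉ ({i, j, k} : Finset (Fin 6)) →
      e.repr (g.1 (e l)) a = 0 ∧ e.repr (g.1 (e l)) b = 0 := fun l hl => by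
    simp only [Finset.mem_insert, Finset.mem_singleton, not_or] at hl
    have a1 := OG.map_polar g (e k) (e l)
    have a2 := OG.map_polar g w (e l)
    rw [hu', h.orth _ _ (Ne.symm hl.2.2)] at a1
    rw [hw, polar_comm Q w, h.pb, hx l hl.1 hl.2.1] at a2
    simp only [polar_add_left, p_smul_left, h.pb] at a1 a2
    exact ⟨(mul_eq_zero.mp (by linear_combination s * a1 - t * a2)).resolve_left
      (mul_ne_zero h.ne2 hst), (mul_eq_zero.mp (by linear_combination t * a1 + s * a2)).resolve_left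
      (mul_ne_zero h.ne2 hst)⟩
  have B : ∀ l, l ∉ ({i, j, k} : Finset (Fin 6)) → S2 e (g.1 (e l)) := fun l hl =>
    key6' h H hab hu (q0 k) (A l hl).1 (A l hl).2 (q0 l) (by
      rw [← refl_conj, ← refl_conj, conj_mul]
      exact mul_mem (mul_mem hg (h.rr _ _)) (inv_mem hg))
  obtain ⟨c, d, hcd, hc, hd, hy⟩ := (B l hl).two (nf l)
  have C : ∀ m, m ∉ ({i, j, k} : Finset (Fin 6)) → l ≠ m → ∀ r, r ≠ c → r ≠ d →
      e.repr (g.1 (e m)) r = 0 := fun m hm hlm r h1 h2 => by_contra fun h3 => by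
    refine sep6 h hy hcd hc hd (B m hm) (by simpa using h.orth _ _ hlm) h1 h2 h3
      (key6' h H hab (u := g.1 w) (fun m h1 h2 => by simp [hw, h1, h2]) (by simpa using w0)
        (by simp [A l hl, A m hm]) (by simp [A l hl, A m hm])
        (by rw [← map_sub, OG.map_Q, h.q_bsub hlm]; exact h.ne2) ?_)
    rw [← map_sub g.1, ← refl_conj, ← refl_conj, conj_mul, e2]
    exact mul_mem (mul_mem hg (es6 h hij hε hlm)) (inv_mem hg)
  have P : ∀ {x y : V}, (∀ r, r ≠ c → r ≠ d → e.repr x r = 0) → polar Q x y =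
      2 * α * (e.repr x c * e.repr y c + e.repr x d * e.repr y d) := fun {x y} hx => by
    conv_lhs => rw [eq_two6 hcd hx]
    rw [polar_add_left, p_smul_left, p_smul_left, h.pb, h.pb]
    ring
  have b1 := P hy (y := g.1 (e m))
  have b2 := P hy (y := g.1 (e n))
  have b3 := P (C m hm hlm) (y := g.1 (e n))
  have b4 := P hy (y := g.1 (e l))
  have b5 := P (C m hm hlm) (y := g.1 (e m))
  have b6 := P (C n hn hln) (y := g.1 (e n))
  rw [OG.map_polar, h.orth _ _ (by assumption), eq_comm, mul_eq_zero_iff_left h.ne2] at b1 b2 b3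
  rw [OG.map_polar, p_self, h.q, eq_comm, mul_eq_left₀ h.ne2] at b4 b5 b6
  grind

end Cfsg.Agent.Max3
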