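import Mathlib
import Cfsg.Agent.Max3.P6a
import Cfsg.Agent.Max3.P6c

/-!
# Stabilisers of orthogonal frames over prime fields in dimension six
-/

set_option autoImplicit false
set_option linter.unusedSectionVars false

namespace Cfsg.Agent.Max3

open Module QuadraticMap Orth Cfsg.Agent.Max

variable {F V : Type*} [Field F] [AddCommGroup V] [Module F V] [FiniteDimensional F V] [Finite F]
  {Q : QuadraticForm F V} {e : Basis (Fin 6) F V} {α : F} {M : Subgroup (OG Q)}

theorem s2_of_four {x : V} {a b c d : Fin 6} (h1 : a ≠ b) (h2 : a ≠ c) (h3 : a ≠ d) (h4 : b ≠ c)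
    (h5 : b ≠ d) (h6 : c ≠ d) (ha : e.repr x a = 0) (hb : e.repr x b = 0) (hc : e.repr x c = 0)
    (hd : e.repr x d = 0) : S2 e x := fun j k l e1 e2 e3 => by
  by_contra H
  push Not at H
  have A : ∀ i, e.repr x i ≠ 0 → i ∉ ({a, b, c, d} : Finset (Fin 6)) := fun i hi hm => by
    simp only [Finset.mem_insert, Finset.mem_singleton] at hm
    rcases hm with rfl | rfl | rfl | rfl <;> contradiction
  have := Finset.card_le_univ (insert j (insert k (insert l ({a, b, c, d} : Finset (Fin 6)))))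
  rw [Finset.card_insert_of_notMem (by simp only [Finset.mem_insert (a := j) (b := k),
      Finset.mem_insert (a := j) (b := l), e1, e2, A j H.1]; simp),
    Finset.card_insert_of_notMem (by
      simp only [Finset.mem_insert (a := k) (b := l), e3, A k H.2.1]; simp),
    Finset.card_insert_of_notMem (A l H.2.2), Finset.card_insert_of_notMem (by simp [*]),
    Finset.card_insert_of_notMem (by simp [*]), Finset.card_pair h6] at this
  simp at this

variable (h : OF5 Q e α M) (H : ¬ commutator (OG Q) ≤ M) {a b i : Fin 6} {g : OG Q}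
include h H

theorem move6 (hg : g ∈ M) (hg' : g.1 ∉ mon e) (hab : a ≠ b)
    (hy : (g * (refl Q (e a) * refl Q (e b)) * g⁻¹).1 ∈ mon e)
    (hi : e.repr (g.1 (e a)) i ≠ 0 ∨ e.repr (g.1 (e b)) i ≠ 0) : ∃ j, ∃ c : F, j ≠ i ∧ c * c = 1 ∧
      (g * (refl Q (e a) * refl Q (e b)) * g⁻¹).1 (e i) = c • e j ∧
      (g * (refl Q (e a) * refl Q (e b)) * g⁻¹).1 (e j) = c • e i := by
  obtain ⟨j, c, -, hc⟩ := mon_basis hy i
  have c1 : c * c = 1 := mul_right_cancel₀ h.ne (by
    have := OG.map_Q (g * (refl Q (e a) * refl Q (e b)) * g⁻¹) (e i)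
    rw [hc, q_smul, h.q, h.q] at this
    linear_combination this)
  have n2 : ∀ {z : F}, -z = z → z = 0 := fun e' =>
    (mul_eq_zero.mp (by linear_combination -e')).resolve_left h.two
  have c2 : ∀ m, e.repr ((refl Q (e a) * refl Q (e b)).1 (g⁻¹.1 (e i))) m =
      c * e.repr (g⁻¹.1 (e j)) m := fun m => by
    rw [← smul_eq_mul c, ← Finsupp.smul_apply, ← map_smul, ← map_smul, ← hc, OG.mul_apply (_ * _),
      OG.mul_apply g, OG.inv_apply_self]
  refine ⟨j, c, ?_, c1, hc, ?_⟩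
  · rintro rfl
    rcases mul_self_eq_one_iff.mp c1 with rfl | rfl
    · have a1 := c2 a
      have a2 := c2 b
      simp only [rr_apply6 h hab, true_or, or_true, if_true, one_mul, row6 h] at a1 a2
      exact hi.elim (· (n2 a1)) (· (n2 a2))
    · refine hg' ((inv_mem_iff (x := g.1)).mp (s2_mon6 h H (inv_mem hg) (k := j)
        (s2_of (a := a) (b := b) fun m h1 h2 => n2 ?_)))
      have := c2 m
      rw [rr_apply6 h hab, if_neg (by simp [h1, h2]), neg_one_mul] at this
      exact this.symm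
  · have : ∀ x, (g * (refl Q (e a) * refl Q (e b)) * g⁻¹).1
        ((g * (refl Q (e a) * refl Q (e b)) * g⁻¹).1 x) = x := fun x => by
      rw [← OG.mul_apply, conj_mul, mul_assoc (refl Q (e a)), ← mul_assoc (refl Q (e b)),
        ← refl_comm6 (h.orth _ _ hab)]
      simp [mul_assoc]
    rw [← this (e i), hc, map_smul, smul_smul, c1, one_smul]

theorem pair6 (hg : g ∈ M) (hg' : g.1 ∉ mon e) (hab : a ≠ b)
    (hy : (g * (refl Q (e a) * refl Q (e b)) * g⁻¹).1 ∈ mon e)
    (hi : e.repr (g.1 (e a)) i ≠ 0) : ∃ j, ∃ c s t : F, j ≠ i ∧ c * c = 1 ∧ s * s = 1 ∧ t * t = 1 ∧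
      s • g.1 (e a) + t • g.1 (e b) = e i - c • e j := by
  obtain ⟨j, c, hj, c1, h1, h2⟩ := move6 h H hg hg' hab hy (.inl hi)
  have c0 : c ≠ 0 := left_ne_zero_of_mul_eq_one c1
  have n2 : ∀ {z : F}, -z = z → z = 0 := fun e' =>
    (mul_eq_zero.mp (by linear_combination -e')).resolve_left h.two
  have hg1 : (g⁻¹).1 ∉ mon e := fun e' => hg' ((inv_mem_iff (x := g.1)).mp e')
  have e1 : Commute (g * (refl Q (e a) * refl Q (e b)) * g⁻¹) (refl Q (e i) * refl Q (e j)) := by
    rw [Commute, SemiconjBy, ← mul_inv_eq_iff_eq_mul, ← conj_mul, refl_conj, refl_conj, h1, h2,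
      refl_smul c0, refl_smul c0, refl_comm6 (h.orth _ _ hj)]
  have e2 : (g⁻¹ * (refl Q (e i) * refl Q (e j)) * g⁻¹⁻¹).1 ∈ mon e :=
    plane_mon6 h H (mul_mem (mul_mem (inv_mem hg) (h.rr _ _)) (inv_mem (inv_mem hg))) hab hab (by
      rw [mul_inv_eq_iff_eq_mul]
      simpa [mul_assoc] using (e1.conj g⁻¹).symm.eq)
  obtain ⟨p, d, hp, d1, h3, -⟩ := move6 h H (inv_mem hg) hg1 hj.symm e2 (i := a)
    (.inl (row6 h g i a ▸ hi))
  obtain ⟨v, hv⟩ : ∃ v, g.1 v = e i - c • e j := ⟨_, OG.apply_inv_self g _⟩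
  have v1 : ∀ m, m ≠ a → m ≠ b → e.repr v m = 0 := fun m h4 h5 => n2 (by
    have : (refl Q (e a) * refl Q (e b)).1 v = -v := g.1.injective (by
      have : (g * (refl Q (e a) * refl Q (e b)) * g⁻¹).1 (g.1 v) = -g.1 v := by
        rw [hv, map_sub, map_smul, h1, h2, smul_smul, c1, one_smul, neg_sub]
      rwa [OG.mul_apply, OG.inv_apply_self, OG.mul_apply, ← map_neg] at this)
    have := congrArg (e.repr · m) this
    simp only [rr_apply6 h hab, h4, h5, or_self, if_false, map_neg, Finsupp.neg_apply] at this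
    exact this.symm)
  have v2 : (g⁻¹ * (refl Q (e i) * refl Q (e j)) * g⁻¹⁻¹).1 v = -v := by
    rw [inv_inv, OG.mul_apply, OG.mul_apply, hv, show (refl Q (e i) * refl Q (e j)).1
      (e i - c • e j) = -(e i - c • e j) from e.ext_elem fun m => by
        rw [rr_apply6 h hj.symm]
        by_cases h4 : m = i <;> by_cases h5 : m = j <;> simp [h4, h5], ← hv, map_neg,
      OG.inv_apply_self]
  have v3 := repr_mon e2 h3 v
  have v4 := eq_two6 hab v1
  have v5 : e.repr v a • g.1 (e a) + e.repr v b • g.1 (e b) = e i - c • e j := by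
    rw [← hv, ← map_smul g.1, ← map_smul g.1, ← map_add, ← v4]
  have s0 : e.repr v a ≠ 0 := fun e' => hg' (s2_mon6 h H hg (k := b) (s2_of (a := i) (b := j)
    fun m h4 h5 => by
      have a1 := congrArg (e.repr · i) v5
      have a2 := congrArg (e.repr · m) v5
      simp [e', h4, h5, hj] at a1 a2
      exact a2.resolve_left (left_ne_zero_of_mul_eq_one a1)))
  rw [v2, map_neg, Finsupp.neg_apply] at v3
  obtain rfl : p = b := by_contra fun e' => mul_ne_zero (left_ne_zero_of_mul_eq_one d1) s0 (by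
    rw [← v3, v1 p hp e', neg_zero])
  have v6 := OG.map_Q g v
  rw [hv, q_e6 h hj.symm c1, v4, q_add, q_smul, q_smul, p_smul_left, p_smul_right, h.orth _ _ hab,
    h.q, h.q] at v6
  have v7 : e.repr v a * e.repr v a = 1 := mul_left_cancel₀ h.ne2 (by
    linear_combination -v6 - α * (d * e.repr v a - e.repr v p) * v3 - α * e.repr v a ^ 2 * d1)
  exact ⟨j, c, _, _, hj, c1, v7, by
    linear_combination (d * e.repr v a - e.repr v p) * v3 + e.repr v a ^ 2 * d1 + v7, v5⟩

theorem conj_two6 (hg : g ∈ M) (hab : a ≠ b)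
    (hy : (g * (refl Q (e a) * refl Q (e b)) * g⁻¹).1 ∈ mon e) : g.1 ∈ mon e := by
  by_contra hg'
  obtain ⟨i, hi⟩ := exists_repr_ne (e := e) (x := g.1 (e a)) (by
    rw [Ne, OG.apply_eq_zero]
    exact e.ne_zero a)
  obtain ⟨j, c, s, t, hj, c1, s1, t1, h1⟩ := pair6 h H hg hg' hab hy hi
  obtain ⟨k, hki, hkj, hk⟩ : ∃ k, k ≠ i ∧ k ≠ j ∧ e.repr (g.1 (e a)) k ≠ 0 := by
    by_contra hc
    push Not at hc
    exact hg' (s2_mon6 h H hg (s2_of hc))
  obtain ⟨l, c', s', t', hl, c2, s2, t2, h2⟩ := pair6 h H hg hg' hab hy hk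
  have o1 : s * s' + t * t' = 0 := by
    have a1 := congrArg (e.repr · k) h1
    have a2 := congrArg (e.repr · k) h2
    simp [hki, hkj, hl] at a1 a2
    grind
  have o2 : polar Q (e i - c • e j) (e k - c' • e l) = 0 := by
    rw [← h1, ← h2]
    simp only [polar_add_left, polar_add_right, p_smul_left, p_smul_right, OG.map_polar, p_self,
      OG.map_Q, h.q, h.orth _ _ hab, h.orth _ _ hab.symm]
    linear_combination 2 * α * o1
  have c0 : c ≠ 0 := left_ne_zero_of_mul_eq_one c1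
  have c0' : c' ≠ 0 := left_ne_zero_of_mul_eq_one c2
  have hli : l ≠ i := fun e' => by
    simp [polar_sub_left, h.pb, e', hki, hkj, hj, h.two, h.ne, c0'] at o2
  have hlj : l ≠ j := fun e' => by
    simp [polar_sub_left, h.pb, e', hki, hkj, hj, h.two, h.ne, c0', c0] at o2
  obtain ⟨δ, hδ⟩ : ∃ δ, δ = s * s' := ⟨_, rfl⟩
  have δ1 : δ * δ = 1 := by grind
  have xa : (2 * s) • g.1 (e a) = e i - c • e j + δ • (e k - c' • e l) := by
    rw [← h1, ← h2]
    match_scalars <;> grind
  have xb : (2 * t) • g.1 (e b) = e i - c • e j - δ • (e k - c' • e l) := by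
    rw [← h1, ← h2]
    match_scalars <;> grind
  have s0 : 2 * s ≠ 0 := mul_ne_zero h.two (left_ne_zero_of_mul_eq_one s1)
  have t0 : 2 * t ≠ 0 := mul_ne_zero h.two (left_ne_zero_of_mul_eq_one t1)
  obtain ⟨m, hm, n, hn, hmn⟩ := Finset.one_lt_card.mp (show 1 < ({i, j, k, l} : Finset _)ᶜ.card by
    have := Finset.card_le_four (a := i) (b := j) (c := k) (d := l)
    rw [Finset.card_compl, Fintype.card_fin]
    omega)
  simp only [Finset.mem_compl, Finset.mem_insert, Finset.mem_singleton, not_or] at hm hn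
  have A : ∀ r, ∀ ε : F, i ≠ r → ε * ε = 1 → m ≠ r → n ≠ r →
      e.repr (e i - c • e j + δ • (e k - c' • e l)) r = ε →
      e.repr (e i - c • e j - δ • (e k - c' • e l)) r = -ε → ∃ p, ∃ μ : F, μ • g.1 (e p) =
        e i - c • e j - δ • (e k - c' • e l) - (2 : F) • (e i - ε • e r) :=
    fun r ε hir hε hmr hnr a1 a2 => by
    have f1 : ∀ z, e.repr z m = 0 → e.repr z n = 0 →
        (refl Q (e i - ε • e r) * refl Q (e m - e n)).1 z =
          z - (e.repr z i - ε * e.repr z r) • (e i - ε • e r) := fun z z1 z2 => by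
      rw [OG.mul_apply, h.fix_s (z1.trans z2.symm), refl_apply, q_e6 h hir hε, polar_sub_left,
        p_smul_left, h.pb, h.pb]
      congr 2
      have := h.ne
      have := h.two
      field_simp
    have f2 := es6 h hir hε hmn
    generalize refl Q (e i - ε • e r) * refl Q (e m - e n) = ρ at f1 f2
    have f3 := fix6 h H (mul_mem (mul_mem (inv_mem hg) f2) hg) (l := a) (by
      refine smul_right_injective V s0 ?_
      simp only [OG.mul_apply, ← map_smul]
      rw [map_smul g.1, xa, f1 _ (by simp [hm]) (by simp [hn]), a1, hε,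
        show e.repr (e i - c • e j + δ • (e k - c' • e l)) i = 1 by simp [hj, hki, hli], sub_self,
        zero_smul, sub_zero, ← xa, ← map_smul g.1, OG.inv_apply_self])
    obtain ⟨p, μ, -, hp⟩ := mon_basis f3 b
    refine ⟨p, 2 * t * μ, ?_⟩
    rw [mul_smul, ← map_smul, ← hp, OG.mul_apply, OG.mul_apply, OG.apply_inv_self, ← map_smul, xb,
      f1 _ (by simp [hm]) (by simp [hn]), a2]
    simp [hj, hki, hli, hε, one_add_one_eq_two]
  obtain ⟨p, μ, hp⟩ := A k δ hki.symm δ1 hm.2.2.1 hn.2.2.1 (by simp [hki, hkj, hl])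
    (by simp [hki, hkj, hl])
  obtain ⟨q, ν, hq⟩ := A l (-(δ * c')) hli.symm (by grind) hm.2.2.2 hn.2.2.2
    (by simp [hli, hlj, hl.symm]) (by simp [hli, hlj, hl.symm])
  have co := fun (x y : V) (e' : x = y) => And.intro (congrArg (e.repr · i) e') (And.intro
    (congrArg (e.repr · j) e') (And.intro (congrArg (e.repr · k) e') (congrArg (e.repr · m) e')))
  have b1 := co _ _ xa
  have b2 := co _ _ xb
  have b3 := co _ _ hp
  have b4 := co _ _ hq
  simp [hj, hki, hkj, hj.symm, hki.symm, hkj.symm, hli.symm, hlj.symm, hl.symm, hm]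
    at b1 b2 b3 b4
  have h2 := h.two
  refine hg' ((inv_mem_iff (x := g.1)).mp (s2_mon6 h H (inv_mem hg) (k := m)
    (s2_of_four (a := a) (b := b) (c := p) (d := q) hab ?_ ?_ ?_ ?_ ?_ ?_ ?_ ?_ ?_)))
  all_goals first | (rintro rfl; grind) | (rw [row6 h]; grind)

omit H in
theorem frame6 (hg : ∃ g ∈ M, g.1 ∉ mon e) : commutator (OG Q) ≤ M := by
  by_contra H
  obtain ⟨g, hg, hg'⟩ := hg
  have A : ∀ a b, a ≠ b → (refl Q (e a) * refl Q (e b)).1 = sg e {a, b} := fun a b hab =>
    LinearEquiv.ext fun x => e.ext_elem fun m => by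
      rw [rr_apply6 h hab]
      simp
  refine hg' (Fr6.le_mon (M := M.map (OG Q).subtype) ⟨⟨h.two, fun a b hab => ⟨_, h.rr a b, A a b hab⟩,
    fun a b c hab hac => ⟨_, h.ss hab hac, ?_⟩, ?_⟩, ?_⟩ ⟨g, hg, rfl⟩)
  · rw [map_mul, Subgroup.subtype_apply, Subgroup.subtype_apply, h.refl_bsub hab, h.refl_bsub hac]
  · rintro _ ⟨g, hg, rfl⟩ l h1 -
    exact fix6' h H hg ⟨l, h1⟩
  · rintro _ ⟨g, hg, rfl⟩ J hJ h1
    obtain ⟨a, b, hab, rfl⟩ := Finset.card_eq_two.mp hJ
    exact conj_two6 h H hg hab (by rwa [← A a b hab] at h1)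

omit H in
theorem exists_not_mon6 : ∃ g ∈ commutator (OG Q), g.1 ∉ mon e := by
  obtain ⟨u, hu, uc, hu'⟩ := h.exists_sing3 (a := 0) (b := 1) (c := 2) (by decide) (by decide)
    (by decide)
  have ud : e.repr u 3 = 0 := by_contra fun e => absurd (hu' 3 e) (by decide)
  have h1 : polar Q u (e 3) = 0 := by rw [polar_comm, h.pb, ud, mul_zero]
  refine ⟨eich Q u (e 3), h.nd.eich_mem_commutator (good_of_two_ne_zero h.two) _ _, fun hm => ?_⟩
  have := (hm (e 3)).mp (FV.basis 3)
  rw [eich_apply hu h1, h1, h.pb] at this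
  have hcd : (2 : Fin 6) ≠ 3 := by decide
  simpa [repr_basis, hcd.symm, uc, h.ne, h.two] using this.eq_zero (i := 3) (by simp [ud]) hcd

end Cfsg.Agent.Max3
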