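import Mathlib
import Cfsg.Agent.Max3.P6d
import Cfsg.Agent.Orth.Exc3
import Cfsg.Agent.Elu.Nor4
import Cfsg.Agent.Asch.Extra

/-!
# The Klein correspondence and normalisers of `4 ∘ 2^{1+4}` in `SL₄`
-/

set_option autoImplicit false
set_option linter.unusedSimpArgs false

namespace Cfsg.Agent.Max3

open Module QuadraticMap Orth Cfsg.Agent.Max Matrix
open scoped MatrixGroups

variable {F : Type*} [Field F]

/-- the exterior square on the special linear group -/
def phi6 (F : Type*) [Field F] : Geo.specialLinear (Fin 4) F →* OG (plusQ 3 F) :=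
  ofRep ((lam F).comp ((Units.coeHom _).comp (Subgroup.subtype _))) fun g v =>
    (plusQ_lam _ _).trans (by
      rw [show ((Units.coeHom _).comp (Subgroup.subtype _) g).det = 1 from Nor.mem_SL.mp g.2,
        one_mul])

theorem phi6_apply (g : Geo.specialLinear (Fin 4) F) (v : Fin 3 ⊕ Fin 3 → F) :
    (phi6 F g).1 v = lam F g.1.1 v := rfl

theorem range_phi6 [Finite F] : (phi6 F).range = commutator (OG (plusQ 3 F)) := by
  let j : SL(4, F) →* Geo.specialLinear (Fin 4) F :=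
    (Matrix.SpecialLinearGroup.toGL).codRestrict _ fun g => Nor.mem_SL.mpr g.2
  have hj : Function.Surjective j := fun g => ⟨⟨g.1.1, Nor.mem_SL.mp g.2⟩, Subtype.ext (Units.ext rfl)⟩
  rw [MonoidHom.range_eq_map, ← Subgroup.map_top_of_surjective j hj, Subgroup.map_map,
    ← MonoidHom.range_eq_map]
  have hp : commutator SL(4, F) = ⊤ := Classical.SLBasic.commutator_SL_eq_top (by simp)
  refine spin_range (nd_plusQ 3) (by simp) _ (sqGen_of_perfect hp) (fun _ => hp)
    (slNeg 4 F (by decide)) (fun h hh => ?_) (slNeg_eq_one _) ?_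
  · exact (lam_eq_one h.2 (LinearMap.ext fun v => congrArg (fun x : OG _ => x.1 v) hh)).imp Subtype.ext Subtype.ext
  · have h1 := Classical.SLBasic.card_SL (F := F) 4 (by norm_num)
    have h2 := Classical.SLBasic.one_lt_card (F := F)
    rw [card_OG_plusQ]
    refine Nat.eq_of_mul_eq_mul_left (n := Nat.card F - 1) (by omega) ?_
    rw [mul_left_comm _ 2 (Nat.card SL(4, F)), h1]
    simp only [Fin.prod_univ_four, Finset.prod_range_succ, Finset.range_zero, Finset.prod_empty]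
    have h3 : ∀ i j : ℕ, i ≤ j → Nat.card F ^ i ≤ Nat.card F ^ j := fun i j h =>
      Nat.pow_le_pow_right (by omega) h
    have h4 : ∀ j : ℕ, 1 ≤ Nat.card F ^ j := fun j => Nat.one_le_pow _ _ (by omega)
    simp only [Fin.isValue, Fin.val_zero, Fin.val_one, Fin.val_two, show ((3 : Fin 4) : ℕ) = 3 from rfl]
    zify [h3 1 4 (by omega), h3 2 4 (by omega), h3 3 4 (by omega), h3 0 4 (by omega), h4, h2.le]
    ring

theorem max_of_hom {G K : Type*} [Group G] [Group K] {S H : Subgroup G} (φ : S →* K) (P : K → Prop)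
    {Ω : Subgroup K} (hΩ : φ.range = Ω) (hH : ∀ g : S, g.1 ∈ H ↔ P (φ g)) (h1 : ∃ g ∈ Ω, ¬ P g)
    (h3 : ∀ M : Subgroup K, (∀ g ∈ Ω, P g → g ∈ M) → (∃ g ∈ M, ¬ P g) → Ω ≤ M) :
    Geo.IsMaximalIn S (H ⊓ S) := by
  subst hΩ
  refine ⟨lt_of_le_of_ne inf_le_right fun e => ?_, fun M hM hM' => ?_⟩
  · obtain ⟨_, ⟨g, rfl⟩, hx'⟩ := h1
    exact hx' ((hH g).mp (e.ge g.2).1)
  by_cases hc : M ≤ H
  · exact Or.inl (le_antisymm (le_inf hc hM') hM)
  obtain ⟨x, hx, hx'⟩ := SetLike.not_le_iff_exists.mp hc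
  refine Or.inr (le_antisymm hM' fun y hy => ?_)
  obtain ⟨z, hz, e⟩ := h3 ((M.subgroupOf _).map φ) (by
    rintro _ ⟨g, rfl⟩ hz'
    exact ⟨g, hM ⟨(hH g).mpr hz', g.2⟩, rfl⟩)
    ⟨_, ⟨⟨x, hM' hx⟩, hx, rfl⟩, fun e => hx' ((hH _).mpr e)⟩ ⟨⟨y, hy⟩, rfl⟩
  have hz1 : z.1 ∈ M := hz
  have h5 := (hH (z⁻¹ * ⟨y, hy⟩)).mpr (by
    rw [map_mul, map_inv, e, inv_mul_cancel, ← map_one φ]
    exact (hH 1).mp (one_mem _))
  simpa using mul_mem hz1 (hM ⟨h5, (z⁻¹ * ⟨y, hy⟩).2⟩)

theorem al_mul_swap (x : Fin 3 ⊕ Fin 3 → F) :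
    al F x * al F (x ∘ Sum.swap) = (-plusQ 3 F x) • (1 : Matrix (Fin 4) (Fin 4) F) := by
  ext i j
  fin_cases i <;> fin_cases j <;>
    simp [al_apply, plusQ_apply, Matrix.mul_apply, Fin.sum_univ_four, Fin.sum_univ_three] <;> ring

theorem al_anti (x y : Fin 3 ⊕ Fin 3 → F) :
    al F x * al F (y ∘ Sum.swap) + al F y * al F (x ∘ Sum.swap) =
      (-polar (plusQ 3 F) x y) • (1 : Matrix (Fin 4) (Fin 4) F) := by
  have := al_mul_swap (x + y)
  rw [show (x + y) ∘ Sum.swap = x ∘ Sum.swap + y ∘ Sum.swap from rfl, map_add, map_add, add_mul,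
    mul_add, mul_add, al_mul_swap, al_mul_swap, q_add] at this
  linear_combination (norm := module) this

theorem al_skew (x : Fin 3 ⊕ Fin 3 → F) : (al F x)ᵀ = -al F x := by
  ext i j
  fin_cases i <;> fin_cases j <;> simp [al_apply]

theorem al_co (h2 : (2 : F) ≠ 0) {X : Matrix (Fin 4) (Fin 4) F} (h : Xᵀ = -X) :
    al F (co F X) = X := by
  have e : ∀ i j, X j i = -X i j := fun i j => congrFun (congrFun h i) j
  have e0 : ∀ i, X i i = 0 := fun i => (mul_eq_zero.mp (by linear_combination e i i)).resolve_left h2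
  ext i j
  fin_cases i <;> fin_cases j <;> simp [al_apply, co_apply, e0] <;>
    exact (e _ _).symm

theorem al_inj : Function.Injective (al F) := Function.LeftInverse.injective co_al

theorem lam_smul (c : F) (A : Matrix (Fin 4) (Fin 4) F) : lam F (c • A) = (c * c) • lam F A :=
  LinearMap.ext fun v => by simp [lam_apply, smul_smul]

theorem lam_neg (A : Matrix (Fin 4) (Fin 4) F) : lam F (-A) = lam F A := by
  simpa using lam_smul (-1) A

theorem tr_lam (A : Matrix (Fin 4) (Fin 4) F) :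
    2 * LinearMap.trace F _ (lam F A) = A.trace ^ 2 - (A * A).trace := by
  rw [LinearMap.trace_eq_matrix_trace F (Pi.basisFun F _)]
  simp [Matrix.trace, lam_apply, co_apply, al_apply, Matrix.mul_apply,
    Fin.sum_univ_four, Fin.sum_univ_three]
  ring

theorem span_of_sch {ι : Type} [Fintype ι] [DecidableEq ι] {R : Subgroup (GL ι F)} [Finite R]
    (hS : Nor.Sch R) (hn : (Fintype.card ι : F) ≠ 0) (hR : (Nat.card R : F) ≠ 0) :
    Asch.spanA R = ⊤ := by
  have := Fintype.ofFinite R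
  have A : ∀ b j : ι, ∑ g : R, g.1.1 * single b j 1 * (g.1⁻¹).1 =
      (if b = j then (Nat.card R : F) / Fintype.card ι else 0) • (1 : Matrix ι ι F) := fun b j => by
    obtain ⟨c, hc⟩ := hS (∑ g : R, g.1.1 * single b j 1 * (g.1⁻¹).1) fun h hh => by
      rw [Finset.sum_mul, Finset.mul_sum, ← Equiv.sum_comp (Equiv.mulLeft (⟨h, hh⟩ : R))]
      refine Finset.sum_congr rfl fun g _ => ?_
      simp [mul_assoc]
    have h1 := congrArg trace hc
    simp only [trace_sum, Nor.trace_conj, Finset.sum_const, Finset.card_univ, nsmul_eq_mul,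
      trace_smul, trace_one, smul_eq_mul] at h1
    rw [hc, ← eq_div_of_mul_eq hn h1.symm |>.symm, Nat.card_eq_fintype_card]
    split_ifs with h
    · simp [h]
    · simp [h]
  refine eq_top_iff.mpr fun X _ => ?_
  rw [matrix_eq_sum_single X]
  refine Subalgebra.sum_mem _ fun i _ => Subalgebra.sum_mem _ fun j _ => ?_
  have : single i j (X i j) = (X i j * Fintype.card ι / Nat.card R) •
      ∑ g : R, (g.1⁻¹).1 j i • g.1.1 := by
    ext a b
    have := congrFun (congrFun (A b j) a) i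
    have e : ∀ g : R, (g.1.1 * single b j (1 : F) * (g.1⁻¹).1 : Matrix ι ι F) a i =
         (g.1⁻¹).1 j i * g.1.1 a b :=
      fun g => by simp [Matrix.mul_apply, single_apply, ite_and, mul_comm]
    simp only [Matrix.sum_apply, e, Matrix.smul_apply, smul_eq_mul] at this ⊢
    rw [this]
    generalize (Nat.card R : F) = n at hR
    by_cases h1 : a = i <;> by_cases h2 : b = j <;> simp [h1, h2, Ne.symm, one_apply]
    field_simp
  rw [this]
  exact Subalgebra.smul_mem _ (Subalgebra.sum_mem _ fun g _ =>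
    Subalgebra.smul_mem _ (Asch.coe_mem_spanA g.2) _) _

theorem e2_of_four [Finite F] {R : Subgroup (GL (Fin 4) F)} (hs : Geo.IsSymplecticTypeGroup 2 R)
    (hi : Geo.ActsAbsolutelyIrreducibly (Geo.matrixSet R)) (h2 : (2 : F) ≠ 0)
    (hz : Nat.card (Subgroup.center R) = 4) : Nor.E2 R ∧ Asch.spanA R = ⊤ := by
  have := Fact.mk Nat.prime_two
  obtain ⟨n, hn⟩ := IsPGroup.iff_card.mp hs.pGroup
  have h1 := span_of_sch (Nor.Sch.of hi) (by
    rw [Fintype.card_fin, show ((4 : ℕ) : F) = 2 * 2 by norm_num]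
    exact mul_ne_zero h2 h2) (by simp [hn, h2])
  refine ⟨Nor.e2_of hs hi h2 (by simp) ?_ (.inr hz), h1⟩
  obtain ⟨z, hz2⟩ := exists_prime_orderOf_dvd_card' (G := Subgroup.center R) 2 (by simp [hz])
  have z1 : z.1 ≠ 1 := fun e => by simp [show z = 1 from Subtype.ext e] at hz2
  have z2 : z.1 * z.1 = 1 := by rw [← pow_two, ← hz2, ← Subgroup.orderOf_coe, pow_orderOf_eq_one]
  obtain ⟨c, hc'⟩ := (Nor.Sch.of hi).gl (x := z.1.1) fun g hg =>
    (congrArg Subtype.val (Subgroup.mem_center_iff.1 z.2 ⟨g, hg⟩)).symm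
  have c2 : c * c = 1 := Nor.smul_inj (ι := Fin 4) (by simp) (by
    have := congrArg (fun g : R => g.1.1) z2
    simpa [hc', smul_smul] using this)
  have e : z.1.1 = -1 := Units.ext (by
    rcases mul_self_eq_one_iff.1 c2 with rfl | rfl
    · exact absurd (Subtype.ext (Units.ext (by simpa using hc'))) z1
    · simpa using hc')
  have sq : ∀ x ∈ R, x * x = 1 ∨ x * x = -1 := fun x hx => by
    have := Inv.symp_sq ⟨hs.pGroup, hs.cyclic_of_characteristic⟩ (fun x => by
      have := Monoid.pow_exponent_eq_one x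
      rwa [hs.exponent_eq] at this) z.2 z1 z2 ⟨x, hx⟩
    simp only [Subtype.ext_iff, e] at this
    exact this
  have := Asch.card_quot h1 fun x hx y hy => by
    rcases Nor.pm sq hy hx with e | e
    exacts [⟨1, by simpa using e⟩, ⟨-1, e.trans (Units.ext (by simp))⟩]
  rw [Subgroup.card_eq_card_quotient_mul_card_subgroup (Subgroup.center R), Asch.center_eq h1, this]
  simp

theorem exists_fix6 {u v s t : GL (Fin 4) F} {R : Subgroup (GL (Fin 4) F)} (h2 : (2 : F) ≠ 0)
    (g : Nor.Gen R u v s t) : ∃ x, x ≠ 0 ∧ lam F u.1 x = x ∧ lam F v.1 x = x ∧ lam F s.1 x = x ∧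
      lam F t.1 x = x := by
  let L : GL (Fin 4) F →* End F _ := (lam F).comp (Units.coeHom _)
  have L1 : ∀ x, L (-x) = L x := fun x => lam_neg _
  have c1 : ∀ x, u * (u * x) = x := fun x => by rw [← mul_assoc, g.uu, one_mul]
  have c2 : ∀ x, v * (v * x) = x := fun x => by rw [← mul_assoc, g.vv, one_mul]
  have c3 : ∀ x, s * (s * x) = -x := fun x => by rw [← mul_assoc, g.ss, neg_one_mul]
  have c4 : ∀ x, t * (t * x) = -x := fun x => by rw [← mul_assoc, g.tt, neg_one_mul]
  have c5 : ∀ x, v * (u * x) = -(u * (v * x)) := fun x => by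
    rw [← mul_assoc, g.vu, neg_mul, mul_assoc]
  have c6 : ∀ x, t * (s * x) = -(s * (t * x)) := fun x => by
    rw [← mul_assoc, g.ts, neg_mul, mul_assoc]
  have c7 : ∀ x, s * (u * x) = u * (s * x) := fun x => by rw [← mul_assoc, g.su, mul_assoc]
  have c8 : ∀ x, s * (v * x) = v * (s * x) := fun x => by rw [← mul_assoc, g.sv, mul_assoc]
  have c9 : ∀ x, t * (u * x) = u * (t * x) := fun x => by rw [← mul_assoc, g.tu, mul_assoc]
  have c10 : ∀ x, t * (v * x) = v * (t * x) := fun x => by rw [← mul_assoc, g.tv, mul_assoc]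
  have T : ∀ (w a : GL (Fin 4) F) (ε : F), a * w = -(w * a) → (w * w).1 = ε • 1 →
      LinearMap.trace F _ (L w) = -2 * ε := fun w a ε h1 h3 => mul_left_cancel₀ h2 (by
    rw [show L w = lam F w.1 from rfl, tr_lam, Nor.tr_anti h2 a (congrArg Units.val h1),
      ← Units.val_mul, h3]
    simp
    ring)
  obtain ⟨P, hP⟩ : ∃ P, P = (1 + L u) * (1 + L v) * (1 + L s) * (1 + L t) := ⟨_, rfl⟩
  have P0 : P ≠ 0 := fun e => by
    have := congrArg (LinearMap.trace F _) e
    simp only [hP, add_mul, mul_add, one_mul, mul_one, ← map_mul, map_add, mul_assoc] at this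
    rw [T u v 1, T v u 1, T s t (-1), T t s (-1), T (u * v) v (-1), T (u * s) v (-1),
      T (u * t) v (-1), T (v * s) u (-1), T (v * t) u (-1), T (s * t) t (-1), T (u * (v * s)) v 1,
      T (u * (v * t)) v 1, T (u * (s * t)) v (-1), T (v * (s * t)) u (-1),
      T (u * (v * (s * t))) v 1] at this
    · simp at this
      exact pow_ne_zero 4 h2 (by linear_combination this)
    all_goals simp [mul_assoc, c2, c5, c6, c7, c8, c9, c10, g.uu, g.vv, g.ss,
      g.tt, g.vu, g.ts, g.su, g.sv, g.tu, g.tv]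
  obtain ⟨y, hy⟩ : ∃ y, P y ≠ 0 := by
    by_contra hc
    push Not at hc
    exact P0 (LinearMap.ext hc)
  have A : L u * P = P ∧ L v * P = P ∧ L s * P = P ∧ L t * P = P := by
    simp only [hP, add_mul, mul_add, one_mul, mul_one, ← map_mul, mul_assoc, c1, c2, c3, c5,
      c6, c7, c8, c9, c10, g.uu, g.vv, g.ss, g.tt, g.vu, g.ts, g.su, g.sv, g.tu, g.tv, mul_neg,
      L1, map_one]
    refine ⟨?_, ?_, ?_, ?_⟩ <;> abel
  exact ⟨P y, hy, LinearMap.congr_fun A.1 y, LinearMap.congr_fun A.2.1 y,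
    LinearMap.congr_fun A.2.2.1 y, LinearMap.congr_fun A.2.2.2 y⟩

theorem exists_frame6 [Finite F] {R : Subgroup (GL (Fin 4) F)} (h : Nor.E2 R)
    (hsp : Asch.spanA R = ⊤) (hz : Nat.card (Nor.Zs R) = 4) :
    ∃ (e : Basis (Fin 6) F (Fin 3 ⊕ Fin 3 → F)) (α : F), α ≠ 0 ∧ (∀ i, plusQ 3 F (e i) = α) ∧
      (∀ i j, i ≠ j → polar (plusQ 3 F) (e i) (e j) = 0) ∧
      (∀ x, FV e x ↔ ∀ r ∈ R, ∃ c : F, lam F r.1 x = c • x) ∧
      ∀ g : GL (Fin 4) F, g.1.det = 1 →
        (g ∈ Subgroup.normalizer (R : Set (GL (Fin 4) F)) ↔ ∀ i, FV e (lam F g.1 (e i))) := by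
  have h2 := h.two
  obtain ⟨j, ι, hj, hj', ι1, jj⟩ := h.exists_i hz
  obtain ⟨u, v, s, t, g⟩ := h.gen_of_i hj jj
  obtain ⟨x, x0, xu, xv, xs, xt⟩ := exists_fix6 h2 g
  have c1 : ∀ x, u * (u * x) = x := fun x => by rw [← mul_assoc, g.uu, one_mul]
  have c2 : ∀ x, v * (v * x) = x := fun x => by rw [← mul_assoc, g.vv, one_mul]
  have c3 : ∀ x, s * (s * x) = -x := fun x => by rw [← mul_assoc, g.ss, neg_one_mul]
  have c4 : ∀ x, t * (t * x) = -x := fun x => by rw [← mul_assoc, g.tt, neg_one_mul]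
  have c5 : ∀ x, v * (u * x) = -(u * (v * x)) := fun x => by
    rw [← mul_assoc, g.vu, neg_mul, mul_assoc]
  have c6 : ∀ x, t * (s * x) = -(s * (t * x)) := fun x => by
    rw [← mul_assoc, g.ts, neg_mul, mul_assoc]
  have c7 : ∀ x, s * (u * x) = u * (s * x) := fun x => by rw [← mul_assoc, g.su, mul_assoc]
  have c8 : ∀ x, s * (v * x) = v * (s * x) := fun x => by rw [← mul_assoc, g.sv, mul_assoc]
  have c9 : ∀ x, t * (u * x) = u * (t * x) := fun x => by rw [← mul_assoc, g.tu, mul_assoc]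
  have c10 : ∀ x, t * (v * x) = v * (t * x) := fun x => by rw [← mul_assoc, g.tv, mul_assoc]
  obtain ⟨γ, hγ⟩ : ∃ γ : Fin 5 → GL (Fin 4) F, γ = ![u, v, u * v * s, u * v * t, u * v * s * t] :=
    ⟨_, rfl⟩
  have γR : ∀ i, γ i ∈ R := fun i => by
    have := mul_mem g.mu g.mv
    fin_cases i <;> simp only [hγ]
    exacts [g.mu, g.mv, mul_mem this g.ms, mul_mem this g.mt, mul_mem (mul_mem this g.ms) g.mt]
  have γ1 : ∀ i, γ i * γ i = 1 := fun i => by
    fin_cases i <;> simp [hγ, mul_assoc, c1, c2, c3, c4, c5, c6, c7, c8, c9, c10, g.uu, g.vv, g.ss,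
      g.tt, g.vu, g.ts, g.su, g.sv, g.tu, g.tv]
  have γ2 : ∀ i j, i ≠ j → γ i * γ j = -(γ j * γ i) := fun i j hij => by
    fin_cases i <;> fin_cases j <;> simp at hij <;>
      simp [hγ, mul_assoc, c1, c2, c3, c4, c5, c6, c7, c8, c9, c10, g.uu, g.vv, g.ss,
        g.tt, g.vu, g.ts, g.su, g.sv, g.tu, g.tv]
  have γ3 : ∀ i, (γ i).1 * al F x * (γ i).1ᵀ = al F x := fun i => by
    rw [← al_lam]
    fin_cases i <;> simp [hγ, xu, xv, xs, xt]
  have γ4 : ∀ i, (γ i).1 * (γ i).1 = 1 := fun i => congrArg Units.val (γ1 i)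
  have γ5 : ∀ i, (γ i).1.trace = 0 := fun i => by
    obtain ⟨k, hk⟩ := exists_ne i
    exact h.tr (γR i) (h.not_zs (γ2 i k hk.symm))
  have xR : ∀ r ∈ R, ∃ c : F, c * c = 1 ∧ r.1 * al F x * r.1ᵀ = c • al F x := by
    let K : Subgroup (GL (Fin 4) F) :=
      { carrier := {r | ∃ c : F, c * c = 1 ∧ lam F r.1 x = c • x}
        one_mem' := ⟨1, by simp⟩
        mul_mem' := by
          rintro a b ⟨c, h1, h2⟩ ⟨d, h3, h4⟩
          exact ⟨d * c, by linear_combination c * c * h3 + h1, by simp [h4, h2, smul_smul]⟩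
        inv_mem' := by
          rintro a ⟨c, h1, h2⟩
          refine ⟨c, h1, ?_⟩
          have : lam F a⁻¹.1 (lam F a.1 x) = x := by
            rw [← End.mul_apply, ← map_mul, Units.inv_mul, map_one, End.one_apply]
          conv_rhs => rw [← this, h2, map_smul, smul_smul, h1, one_smul] }
    intro r hr
    obtain ⟨c, h1, h3⟩ := h.ind g (K := K) ⟨1, by simpa⟩ ⟨1, by simpa⟩ ⟨1, by simpa⟩ ⟨1, by simpa⟩
      (fun z hz => by
        obtain ⟨c, hc⟩ := h.sch.zs hz
        refine ⟨c * c, Nor.smul_inj (ι := Fin 4) (by simp) ?_, by simp [hc, lam_smul]⟩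
        simpa [hc, pow_succ, smul_smul, mul_assoc] using congrArg Units.val (h.pow4 hz.1)) hr
    exact ⟨c, h1, by rw [← al_lam, h3, map_smul]⟩
  have q0 : plusQ 3 F x ≠ 0 := fun e => x0 (by
    have a1 := congrArg transpose (al_mul_swap x)
    rw [e, neg_zero, zero_smul, transpose_mul, al_skew, al_skew, neg_mul_neg, transpose_zero] at a1
    have a2 : ∀ A, al F (x ∘ Sum.swap) * A * al F x = 0 := fun A =>
      Asch.spanA_induction (N := R) (p := fun A => al F (x ∘ Sum.swap) * A * al F x = 0)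
        (fun r hr => by
          obtain ⟨c, -, hc⟩ := xR r hr
          rw [mul_assoc, ← mul_one (r.1 * _), ← transpose_one, ← r.inv_mul, transpose_mul,
            ← mul_assoc (r.1 * _), hc, smul_mul_assoc, mul_smul_comm, ← mul_assoc, a1]
          simp) (by simp) (fun a b ha hb => by rw [mul_add, add_mul, ha, hb, add_zero])
        (fun c a ha => by rw [mul_smul_comm, smul_mul_assoc, ha, smul_zero]) (hsp ▸ Algebra.mem_top)
    by_contra x1
    obtain ⟨a, b, hab⟩ : ∃ a b, al F x a b ≠ 0 := by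
      by_contra hc
      push Not at hc
      exact x1 (al_inj ((Matrix.ext hc).trans (map_zero _).symm))
    have a3 : al F (x ∘ Sum.swap) = al F 0 := by
      ext c d
      simpa [Matrix.mul_apply, single_apply, ite_and, hab] using
        congrFun (congrFun (a2 (single d a 1)) c) b
    exact x1 (funext fun k => by simpa using congrFun (al_inj a3) k.swap))
  obtain ⟨ρ, hρ⟩ : ∃ ρ : Fin 6 → GL (Fin 4) F, ρ = Fin.cons 1 fun k => j * γ k := ⟨_, rfl⟩
  have ρ0 : ρ 0 = 1 := by simp [hρ]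
  have ρ1 : ∀ k : Fin 5, (ρ k.succ).1 = ι • (γ k).1 := fun k => by simp [hρ, hj']
  have ρR : ∀ k, ρ k ∈ R := fun k => by
    cases k using Fin.cases
    · exact ρ0 ▸ one_mem R
    · simpa [hρ] using mul_mem hj.1 (γR _)
  obtain ⟨y, hy⟩ : ∃ y : Fin 6 → _, ∀ k, al F (y k) = (ρ k).1 * al F x :=
    ⟨fun k => co F ((ρ k).1 * al F x), fun k => al_co h2 (by
      cases k using Fin.cases
      · simp [ρ0, al_skew]
      · rw [ρ1, smul_mul_assoc, transpose_smul, transpose_mul, al_skew, neg_mul, smul_neg,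
          ← one_mul (al F x * _), ← γ4, mul_assoc, ← mul_assoc _ (al F x), γ3])⟩
  have y0 : y 0 = x := al_inj (by simp [hy, ρ0])
  have y1 : ∀ k : Fin 5, al F x * al F (y k.succ ∘ Sum.swap) =
      (plusQ 3 F (y k.succ) * ι) • (γ k).1 := fun k => by
    have := congrArg ((-ι) • (γ k).1 * ·) (al_mul_swap (y k.succ))
    simp only [hy, ρ1, smul_mul_assoc, mul_smul_comm, ← mul_assoc, γ4, one_mul, mul_one,
      smul_smul, ι1, neg_mul, mul_neg, neg_neg, one_smul] at this
    exact this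
  have y2 : ∀ k : Fin 5, polar (plusQ 3 F) x (y k.succ) = 0 ∧ plusQ 3 F (y k.succ) = plusQ 3 F x :=
    fun k => by
    have := al_anti x (y k.succ)
    rw [y1, hy, ρ1, mul_assoc, al_mul_swap, mul_smul_comm, mul_one, smul_smul, ← add_smul] at this
    have a1 := congrArg trace this
    simp only [trace_smul, γ5, trace_one, smul_eq_mul, mul_zero, Fintype.card_fin] at a1
    have a2 : polar (plusQ 3 F) x (y k.succ) = 0 :=
      (mul_eq_zero.mp (by push_cast at a1; linear_combination a1)).resolve_left (mul_ne_zero h2 h2)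
    rw [a2, neg_zero, zero_smul, smul_eq_zero, or_iff_left (γ k).ne_zero] at this
    exact ⟨a2, by linear_combination -ι * this + (plusQ 3 F (y k.succ) - plusQ 3 F x) * ι1⟩
  have q1 : ∀ k, plusQ 3 F (y k) = plusQ 3 F x := fun k => by
    cases k using Fin.cases
    exacts [by rw [y0], (y2 _).2]
  have q2 : ∀ k l, k ≠ l → polar (plusQ 3 F) (y k) (y l) = 0 := fun k l hkl => by
    cases k using Fin.cases <;> cases l using Fin.cases
    · exact absurd rfl hkl
    · exact y0 ▸ (y2 _).1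
    · rw [polar_comm, y0]
      exact (y2 _).1
    · rename_i k l
      have := al_anti (y k.succ) (y l.succ)
      rw [hy, hy, mul_assoc, mul_assoc, y1, y1, q1, q1, ρ1, ρ1] at this
      simp only [smul_mul_assoc, mul_smul_comm, ← smul_add, ← Units.val_mul,
        γ2 k l fun e => hkl (by rw [e]), Units.val_neg, neg_add_cancel, smul_zero] at this
      simpa using (congrFun (congrFun this 0) 0).symm
  have li : LinearIndependent F y := Fintype.linearIndependent_iff.mpr fun c hc i => by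
    have := congrArg (polar (plusQ 3 F) (y i)) hc
    rw [p_sum_right, Finset.sum_eq_single i (fun j _ hj => by simp [q2 i j hj.symm]) (by simp),
      p_smul_right, p_self, q1] at this
    simpa [h2, q0] using this
  let e := basisOfLinearIndependentOfCardEqFinrank li (by simp)
  have he : ∀ i, e i = y i := fun i => by simp [e]
  have E : ∀ x, FV e x ↔ ∀ r ∈ R, ∃ c : F, lam F r.1 x = c • x := fun z => by
    refine ⟨fun hz r hr => ?_, fun hz => ?_⟩
    · obtain ⟨k, a, rfl⟩ := hz.exists_eq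
      obtain ⟨c, -, hc⟩ := xR r hr
      rcases Nor.pm h.sq hr (ρR k) with e' | e'
      · refine ⟨c, al_inj ?_⟩
        rw [al_lam, smul_comm, map_smul, map_smul, map_smul, he, hy, mul_smul_comm, smul_mul_assoc,
          ← mul_assoc, ← Units.val_mul, e', Units.val_mul, mul_assoc (ρ k).1, mul_assoc (ρ k).1, hc,
          mul_smul_comm]
      · refine ⟨-c, al_inj ?_⟩
        rw [al_lam, smul_comm, map_smul, map_smul, map_smul, he, hy, mul_smul_comm, smul_mul_assoc,
          ← mul_assoc, ← Units.val_mul, e', Units.val_neg, Units.val_mul, neg_mul, neg_mul,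
          mul_assoc (ρ k).1, mul_assoc (ρ k).1, hc, mul_smul_comm, neg_smul]
    have B : ∀ (m : Fin 5) (k : Fin 6), lam F (γ m).1 (e k) =
        (if k = 0 ∨ k = m.succ then (1 : F) else -1) • e k := fun m k => al_inj (by
      rw [al_lam, map_smul, he, hy]
      cases k using Fin.cases
      · simp [ρ0, γ3]
      · rename_i k
        rw [ρ1, smul_mul_assoc, mul_smul_comm, smul_mul_assoc, ← mul_assoc]
        by_cases hk : k = m
        · rw [hk, mul_assoc (γ m).1 (γ m).1, mul_assoc (γ m).1 (_ * _), γ3]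
          simp
        · rw [← Units.val_mul, γ2 m k (Ne.symm hk)]
          simp [hk, mul_assoc (γ k).1, γ3])
    have C : ∀ (m : Fin 5) (k : Fin 6), e.repr (lam F (γ m).1 z) k =
        (if k = 0 ∨ k = m.succ then (1 : F) else -1) * e.repr z k := fun m k =>
      LinearMap.congr_fun (e.ext (f₁ := e.coord k ∘ₗ lam F (γ m).1)
        (f₂ := (if k = 0 ∨ k = m.succ then (1 : F) else -1) • e.coord k) fun i => by
          rw [LinearMap.comp_apply, B, map_smul, LinearMap.smul_apply]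
          by_cases hi : i = k <;> simp [hi]) z
    by_cases z0 : z = 0
    · exact ⟨0, by simp [z0]⟩
    obtain ⟨k, hk⟩ := exists_repr_ne (e := e) z0
    refine ⟨k, fun l hl => by_contra fun hl' => ?_⟩
    obtain ⟨m, hm⟩ := (by decide : ∀ k l : Fin 6, l ≠ k → ∃ m : Fin 5,
      (k = 0 ∨ k = m.succ) ↔ ¬ (l = 0 ∨ l = m.succ)) k l hl
    obtain ⟨c, hc⟩ := hz _ (γR m)
    have a1 := C m k
    have a2 := C m l
    rw [hc, map_smul, Finsupp.smul_apply, smul_eq_mul, mul_left_inj' (by assumption)] at a1 a2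
    by_cases h3 : l = 0 ∨ l = m.succ
    · rw [if_neg (by tauto)] at a1
      rw [if_pos h3] at a2
      exact h2 (by linear_combination a1 - a2)
    · rw [if_pos (by tauto)] at a1
      rw [if_neg h3] at a2
      exact h2 (by linear_combination a2 - a1)
  refine ⟨e, _, q0, fun i => by rw [he, q1], fun i j hij => by rw [he, he, q2 i j hij], E,
    fun z hz => ⟨fun hn i => (E _).mpr fun r hr => ?_, fun hn => ?_⟩⟩
  · obtain ⟨c, hc⟩ := (E _).mp (FV.basis i) _ (Nor.conj_mem (inv_mem hn) hr)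
    refine ⟨c, ?_⟩
    rw [← map_smul, ← hc, ← End.mul_apply, ← End.mul_apply, ← map_mul, ← map_mul]
    simp [mul_assoc]
  have A : ∀ k, ∃ l, ∃ c : F, c * c = 1 ∧ z.1 * ((ρ k).1 * al F x) * z.1ᵀ =
      c • ((ρ l).1 * al F x) := fun k => by
    obtain ⟨l, c, hc⟩ := (hn k).exists_eq
    have a1 := plusQ_lam z.1 (e k)
    rw [hc, q_smul, hz, he, he, q1, q1, mul_left_inj' q0] at a1
    exact ⟨l, c, pow_two c ▸ a1, by rw [← hy, ← hy, ← al_lam, ← he, hc, map_smul, he]⟩
  have key : ∀ k, z * ρ k * z⁻¹ ∈ R := fun k => by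
    obtain ⟨l, c, c1, hc⟩ := A k
    obtain ⟨m, d, d1, hd⟩ := A 0
    have a1 : (z * ρ k * z⁻¹ * ρ m).1 = (c * d) • (ρ l).1 := by
      have a2 : (z * ρ k * z⁻¹ * ρ m).1 * al F x = (c * d) • (ρ l).1 * al F x := by
        rw [smul_mul_assoc, mul_comm c, mul_smul, ← hc, Units.val_mul, mul_assoc,
          ← one_smul F ((ρ m).1 * _), ← d1, mul_smul, ← hd, ρ0]
        simp [mul_assoc]
      have a3 := congrArg (· * al F (x ∘ Sum.swap)) a2
      simp only [mul_assoc _ (al F x), al_mul_swap, mul_smul_comm, mul_one] at a3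
      exact smul_right_injective _ (neg_ne_zero.mpr q0) a3
    rw [← mul_mem_cancel_right (ρR m)]
    rcases mul_self_eq_one_iff.mp (show c * d * (c * d) = 1 by
      linear_combination d * d * c1 + d1) with e' | e' <;> rw [e'] at a1
    · exact (Units.ext (by simpa using a1.symm) : ρ l = z * ρ k * z⁻¹ * ρ m) ▸ ρR l
    · exact (Units.ext (by simpa using a1.symm) : -1 * ρ l = z * ρ k * z⁻¹ * ρ m) ▸
        mul_mem h.neg (ρR l)
  have key' : ∀ k, z * γ k * z⁻¹ ∈ R := fun k => by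
    have := key k.succ
    simp only [hρ, Fin.cons_succ] at this
    rwa [← mul_assoc, ← h.sch.zs_comm hj, mul_assoc, mul_assoc, R.mul_mem_cancel_left hj.1,
      ← mul_assoc] at this
  have k0 : z * u * z⁻¹ ∈ R := by simpa [hγ] using key' 0
  have k1 : z * v * z⁻¹ ∈ R := by simpa [hγ] using key' 1
  refine h.norm_of g k0 k1 ?_ ?_
  · simpa [hγ, mul_assoc, c1, c2] using mul_mem k1 (mul_mem k0 (key' 2))
  · simpa [hγ, mul_assoc, c1, c2] using mul_mem k1 (mul_mem k0 (key' 3))

theorem max_sl4_c6 [Fintype F] (hp : (Fintype.card F).Prime) (h2 : (2 : F) ≠ 0)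
    {R : Subgroup (GL (Fin 4) F)} (hR : Geo.IsLinearSymplecticTypeData 2 R) :
    Geo.IsMaximalIn (Geo.specialLinear (Fin 4) F)
      (Geo.subgroupNormalizer R ⊓ Geo.specialLinear (Fin 4) F) := by
  have h4 : Nat.card (Subgroup.center R) = 4 := by
    obtain ⟨_, _, -, -, ⟨a, -⟩ | a | ⟨-, -, a, -⟩⟩ := hR.field
    exacts [absurd a (by decide), a.2.2.1, absurd a (by simp)]
  obtain ⟨h, hs⟩ := e2_of_four hR.symplecticType hR.absIrred h2 h4
  obtain ⟨e, α, h0, h1, h3, -, h5⟩ := exists_frame6 h hs ((Nor.card_center' R).symm.trans h4)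
  have H : ∀ M, (∀ g ∈ commutator (OG (plusQ 3 F)), g.1 ∈ mon e → g ∈ M) → OF5 _ e α M :=
    fun M hM => ⟨nd_plusQ 3, h2, h0, exists_nat_cast hp, h1, h3, hM⟩
  exact max_of_hom (phi6 F) (·.1 ∈ mon e) range_phi6 (fun g => (h5 g.1 (Nor.mem_SL.mp g.2)).trans
    ⟨fun h => mem_mon h, fun h i => (h _).mp (FV.basis i)⟩)
    (exists_not_mon6 (H ⊤ fun _ _ _ => trivial)) fun M hM => frame6 (H M hM)

end Cfsg.Agent.Max3
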