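import Mathlib
import Cfsg.Agent.Max3.P6f

/-!
# The Klein correspondence for `SU₄` and normalisers of `4 ∘ 2^{1+4}`
-/

set_option autoImplicit false
set_option linter.unusedSimpArgs false

namespace Cfsg.Agent.Max3

open Module QuadraticMap Orth Cfsg.Agent.Max Matrix
open scoped MatrixGroups

variable {F : Type*} [Field F]

theorem exists_frame6' [Finite F] {R : Subgroup (GL (Fin 4) F)} (h : Nor.E2 R)
    (hsp : Asch.spanA R = ⊤) (hz : Nat.card (Nor.Zs R) = 4) :
    ∃ (e : Basis (Fin 6) F (Fin 3 ⊕ Fin 3 → F)) (α : F), α ≠ 0 ∧ (∀ i, plusQ 3 F (e i) = α) ∧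
      (∀ i j, i ≠ j → polar (plusQ 3 F) (e i) (e j) = 0) ∧
      (∀ x, FV e x ↔ ∀ r ∈ R, ∃ c : F, lam F r.1 x = c • x) ∧
      (∀ r ∈ R, ∃ c : F, c * c = 1 ∧ lam F r.1 (e 0) = c • e 0) ∧
      (∀ k, ∃ r ∈ R, al F (e k) = r.1 * al F (e 0)) ∧
      ∀ g : GL (Fin 4) F, g.1.det = 1 →
        (g ∈ Subgroup.normalizer (R : Set (GL (Fin 4) F)) ↔ ∀ i, FV e (lam F g.1 (e i))) := by
  have h2 := h.two
  obtain ⟨j, ι, hj, hj', ι1, jj⟩ := h.exists_i hz
  obtain ⟨u, v, s, t, g⟩ := h.gen_of_i hj jj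
  obtain ⟨x, x0, xu, xv, xs, xt⟩ := exists_fix6 h2 g
  have c1 : ∀ x, u * (u * x) = x := fun x => by rw [← mul_assoc, g.uu, one_mul]
  have c2 : ∀ x, v * (v * x) = x := fun x => by rw [← mul_assoc, g.vv, one_mul]
  have c3 : ∀ x, s * (s * x) = -x := fun x => by rw [← mul_assoc, g.ss, neg_one_mul]
  have c4 : ∀ x, t * (t * x) = -x := fun x => by rw [← mul_assoc, g.tt, neg_one_mul]
  have c5 : ∀ x, v * (u * x) = -(u * (v * x)) := fun x => by
    rw [← mul_assoc, g.vu, neg_mul, mul_assoc]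
  have c6 : ∀ x, t * (s * x) = -(s * (t * x)) := fun x => by
    rw [← mul_assoc, g.ts, neg_mul, mul_assoc]
  have c7 : ∀ x, s * (u * x) = u * (s * x) := fun x => by rw [← mul_assoc, g.su, mul_assoc]
  have c8 : ∀ x, s * (v * x) = v * (s * x) := fun x => by rw [← mul_assoc, g.sv, mul_assoc]
  have c9 : ∀ x, t * (u * x) = u * (t * x) := fun x => by rw [← mul_assoc, g.tu, mul_assoc]
  have c10 : ∀ x, t * (v * x) = v * (t * x) := fun x => by rw [← mul_assoc, g.tv, mul_assoc]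
  obtain ⟨γ, hγ⟩ : ∃ γ : Fin 5 → GL (Fin 4) F, γ = ![u, v, u * v * s, u * v * t, u * v * s * t] :=
    ⟨_, rfl⟩
  have γR : ∀ i, γ i ∈ R := fun i => by
    have := mul_mem g.mu g.mv
    fin_cases i <;> simp only [hγ]
    exacts [g.mu, g.mv, mul_mem this g.ms, mul_mem this g.mt, mul_mem (mul_mem this g.ms) g.mt]
  have γ1 : ∀ i, γ i * γ i = 1 := fun i => by
    fin_cases i <;> simp [hγ, mul_assoc, c1, c2, c3, c4, c5, c6, c7, c8, c9, c10, g.uu, g.vv, g.ss,
      g.tt, g.vu, g.ts, g.su, g.sv, g.tu, g.tv]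
  have γ2 : ∀ i j, i ≠ j → γ i * γ j = -(γ j * γ i) := fun i j hij => by
    fin_cases i <;> fin_cases j <;> simp at hij <;>
      simp [hγ, mul_assoc, c1, c2, c3, c4, c5, c6, c7, c8, c9, c10, g.uu, g.vv, g.ss,
        g.tt, g.vu, g.ts, g.su, g.sv, g.tu, g.tv]
  have γ3 : ∀ i, (γ i).1 * al F x * (γ i).1ᵀ = al F x := fun i => by
    rw [← al_lam]
    fin_cases i <;> simp [hγ, xu, xv, xs, xt]
  have γ4 : ∀ i, (γ i).1 * (γ i).1 = 1 := fun i => congrArg Units.val (γ1 i)
  have γ5 : ∀ i, (γ i).1.trace = 0 := fun i => by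
    obtain ⟨k, hk⟩ := exists_ne i
    exact h.tr (γR i) (h.not_zs (γ2 i k hk.symm))
  have xR : ∀ r ∈ R, ∃ c : F, c * c = 1 ∧ r.1 * al F x * r.1ᵀ = c • al F x := by
    let K : Subgroup (GL (Fin 4) F) :=
      { carrier := {r | ∃ c : F, c * c = 1 ∧ lam F r.1 x = c • x}
        one_mem' := ⟨1, by simp⟩
        mul_mem' := by
          rintro a b ⟨c, h1, h2⟩ ⟨d, h3, h4⟩
          exact ⟨d * c, by linear_combination c * c * h3 + h1, by simp [h4, h2, smul_smul]⟩
        inv_mem' := by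
          rintro a ⟨c, h1, h2⟩
          refine ⟨c, h1, ?_⟩
          have : lam F a⁻¹.1 (lam F a.1 x) = x := by
            rw [← End.mul_apply, ← map_mul, Units.inv_mul, map_one, End.one_apply]
          conv_rhs => rw [← this, h2, map_smul, smul_smul, h1, one_smul] }
    intro r hr
    obtain ⟨c, h1, h3⟩ := h.ind g (K := K) ⟨1, by simpa⟩ ⟨1, by simpa⟩ ⟨1, by simpa⟩ ⟨1, by simpa⟩
      (fun z hz => by
        obtain ⟨c, hc⟩ := h.sch.zs hz
        refine ⟨c * c, Nor.smul_inj (ι := Fin 4) (by simp) ?_, by simp [hc, lam_smul]⟩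
        simpa [hc, pow_succ, smul_smul, mul_assoc] using congrArg Units.val (h.pow4 hz.1)) hr
    exact ⟨c, h1, by rw [← al_lam, h3, map_smul]⟩
  have q0 : plusQ 3 F x ≠ 0 := fun e => x0 (by
    have a1 := congrArg transpose (al_mul_swap x)
    rw [e, neg_zero, zero_smul, transpose_mul, al_skew, al_skew, neg_mul_neg, transpose_zero] at a1
    have a2 : ∀ A, al F (x ∘ Sum.swap) * A * al F x = 0 := fun A =>
      Asch.spanA_induction (N := R) (p := fun A => al F (x ∘ Sum.swap) * A * al F x = 0)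
        (fun r hr => by
          obtain ⟨c, -, hc⟩ := xR r hr
          rw [mul_assoc, ← mul_one (r.1 * _), ← transpose_one, ← r.inv_mul, transpose_mul,
            ← mul_assoc (r.1 * _), hc, smul_mul_assoc, mul_smul_comm, ← mul_assoc, a1]
          simp) (by simp) (fun a b ha hb => by rw [mul_add, add_mul, ha, hb, add_zero])
        (fun c a ha => by rw [mul_smul_comm, smul_mul_assoc, ha, smul_zero]) (hsp ▸ Algebra.mem_top)
    by_contra x1
    obtain ⟨a, b, hab⟩ : ∃ a b, al F x a b ≠ 0 := by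
      by_contra hc
      push Not at hc
      exact x1 (al_inj ((Matrix.ext hc).trans (map_zero _).symm))
    have a3 : al F (x ∘ Sum.swap) = al F 0 := by
      ext c d
      simpa [Matrix.mul_apply, single_apply, ite_and, hab] using
        congrFun (congrFun (a2 (single d a 1)) c) b
    exact x1 (funext fun k => by simpa using congrFun (al_inj a3) k.swap))
  obtain ⟨ρ, hρ⟩ : ∃ ρ : Fin 6 → GL (Fin 4) F, ρ = Fin.cons 1 fun k => j * γ k := ⟨_, rfl⟩
  have ρ0 : ρ 0 = 1 := by simp [hρ]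
  have ρ1 : ∀ k : Fin 5, (ρ k.succ).1 = ι • (γ k).1 := fun k => by simp [hρ, hj']
  have ρR : ∀ k, ρ k ∈ R := fun k => by
    cases k using Fin.cases
    · exact ρ0 ▸ one_mem R
    · simpa [hρ] using mul_mem hj.1 (γR _)
  obtain ⟨y, hy⟩ : ∃ y : Fin 6 → _, ∀ k, al F (y k) = (ρ k).1 * al F x :=
    ⟨fun k => co F ((ρ k).1 * al F x), fun k => al_co h2 (by
      cases k using Fin.cases
      · simp [ρ0, al_skew]
      · rw [ρ1, smul_mul_assoc, transpose_smul, transpose_mul, al_skew, neg_mul, smul_neg,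
          ← one_mul (al F x * _), ← γ4, mul_assoc, ← mul_assoc _ (al F x), γ3])⟩
  have y0 : y 0 = x := al_inj (by simp [hy, ρ0])
  have y1 : ∀ k : Fin 5, al F x * al F (y k.succ ∘ Sum.swap) =
      (plusQ 3 F (y k.succ) * ι) • (γ k).1 := fun k => by
    have := congrArg ((-ι) • (γ k).1 * ·) (al_mul_swap (y k.succ))
    simp only [hy, ρ1, smul_mul_assoc, mul_smul_comm, ← mul_assoc, γ4, one_mul, mul_one,
      smul_smul, ι1, neg_mul, mul_neg, neg_neg, one_smul] at this
    exact this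
  have y2 : ∀ k : Fin 5, polar (plusQ 3 F) x (y k.succ) = 0 ∧ plusQ 3 F (y k.succ) = plusQ 3 F x :=
    fun k => by
    have := al_anti x (y k.succ)
    rw [y1, hy, ρ1, mul_assoc, al_mul_swap, mul_smul_comm, mul_one, smul_smul, ← add_smul] at this
    have a1 := congrArg trace this
    simp only [trace_smul, γ5, trace_one, smul_eq_mul, mul_zero, Fintype.card_fin] at a1
    have a2 : polar (plusQ 3 F) x (y k.succ) = 0 :=
      (mul_eq_zero.mp (by push_cast at a1; linear_combination a1)).resolve_left (mul_ne_zero h2 h2)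
    rw [a2, neg_zero, zero_smul, smul_eq_zero, or_iff_left (γ k).ne_zero] at this
    exact ⟨a2, by linear_combination -ι * this + (plusQ 3 F (y k.succ) - plusQ 3 F x) * ι1⟩
  have q1 : ∀ k, plusQ 3 F (y k) = plusQ 3 F x := fun k => by
    cases k using Fin.cases
    exacts [by rw [y0], (y2 _).2]
  have q2 : ∀ k l, k ≠ l → polar (plusQ 3 F) (y k) (y l) = 0 := fun k l hkl => by
    cases k using Fin.cases <;> cases l using Fin.cases
    · exact absurd rfl hkl
    · exact y0 ▸ (y2 _).1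
    · rw [polar_comm, y0]
      exact (y2 _).1
    · rename_i k l
      have := al_anti (y k.succ) (y l.succ)
      rw [hy, hy, mul_assoc, mul_assoc, y1, y1, q1, q1, ρ1, ρ1] at this
      simp only [smul_mul_assoc, mul_smul_comm, ← smul_add, ← Units.val_mul,
        γ2 k l fun e => hkl (by rw [e]), Units.val_neg, neg_add_cancel, smul_zero] at this
      simpa using (congrFun (congrFun this 0) 0).symm
  have li : LinearIndependent F y := Fintype.linearIndependent_iff.mpr fun c hc i => by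
    have := congrArg (polar (plusQ 3 F) (y i)) hc
    rw [p_sum_right, Finset.sum_eq_single i (fun j _ hj => by simp [q2 i j hj.symm]) (by simp),
      p_smul_right, p_self, q1] at this
    simpa [h2, q0] using this
  let e := basisOfLinearIndependentOfCardEqFinrank li (by simp)
  have he : ∀ i, e i = y i := fun i => by simp [e]
  have E : ∀ x, FV e x ↔ ∀ r ∈ R, ∃ c : F, lam F r.1 x = c • x := fun z => by
    refine ⟨fun hz r hr => ?_, fun hz => ?_⟩
    · obtain ⟨k, a, rfl⟩ := hz.exists_eq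
      obtain ⟨c, -, hc⟩ := xR r hr
      rcases Nor.pm h.sq hr (ρR k) with e' | e'
      · refine ⟨c, al_inj ?_⟩
        rw [al_lam, smul_comm, map_smul, map_smul, map_smul, he, hy, mul_smul_comm, smul_mul_assoc,
          ← mul_assoc, ← Units.val_mul, e', Units.val_mul, mul_assoc (ρ k).1, mul_assoc (ρ k).1, hc,
          mul_smul_comm]
      · refine ⟨-c, al_inj ?_⟩
        rw [al_lam, smul_comm, map_smul, map_smul, map_smul, he, hy, mul_smul_comm, smul_mul_assoc,
          ← mul_assoc, ← Units.val_mul, e', Units.val_neg, Units.val_mul, neg_mul, neg_mul,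
          mul_assoc (ρ k).1, mul_assoc (ρ k).1, hc, mul_smul_comm, neg_smul]
    have B : ∀ (m : Fin 5) (k : Fin 6), lam F (γ m).1 (e k) =
        (if k = 0 ∨ k = m.succ then (1 : F) else -1) • e k := fun m k => al_inj (by
      rw [al_lam, map_smul, he, hy]
      cases k using Fin.cases
      · simp [ρ0, γ3]
      · rename_i k
        rw [ρ1, smul_mul_assoc, mul_smul_comm, smul_mul_assoc, ← mul_assoc]
        by_cases hk : k = m
        · rw [hk, mul_assoc (γ m).1 (γ m).1, mul_assoc (γ m).1 (_ * _), γ3]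
          simp
        · rw [← Units.val_mul, γ2 m k (Ne.symm hk)]
          simp [hk, mul_assoc (γ k).1, γ3])
    have C : ∀ (m : Fin 5) (k : Fin 6), e.repr (lam F (γ m).1 z) k =
        (if k = 0 ∨ k = m.succ then (1 : F) else -1) * e.repr z k := fun m k =>
      LinearMap.congr_fun (e.ext (f₁ := e.coord k ∘ₗ lam F (γ m).1)
        (f₂ := (if k = 0 ∨ k = m.succ then (1 : F) else -1) • e.coord k) fun i => by
          rw [LinearMap.comp_apply, B, map_smul, LinearMap.smul_apply]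
          by_cases hi : i = k <;> simp [hi]) z
    by_cases z0 : z = 0
    · exact ⟨0, by simp [z0]⟩
    obtain ⟨k, hk⟩ := exists_repr_ne (e := e) z0
    refine ⟨k, fun l hl => by_contra fun hl' => ?_⟩
    obtain ⟨m, hm⟩ := (by decide : ∀ k l : Fin 6, l ≠ k → ∃ m : Fin 5,
      (k = 0 ∨ k = m.succ) ↔ ¬ (l = 0 ∨ l = m.succ)) k l hl
    obtain ⟨c, hc⟩ := hz _ (γR m)
    have a1 := C m k
    have a2 := C m l
    rw [hc, map_smul, Finsupp.smul_apply, smul_eq_mul, mul_left_inj' (by assumption)] at a1 a2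
    by_cases h3 : l = 0 ∨ l = m.succ
    · rw [if_neg (by tauto)] at a1
      rw [if_pos h3] at a2
      exact h2 (by linear_combination a1 - a2)
    · rw [if_pos (by tauto)] at a1
      rw [if_neg h3] at a2
      exact h2 (by linear_combination a2 - a1)
  refine ⟨e, _, q0, fun i => by rw [he, q1], fun i j hij => by rw [he, he, q2 i j hij], E,
    fun r hr => (xR r hr).imp fun c hc => ⟨hc.1, al_inj (by rw [al_lam, map_smul, he, y0, hc.2])⟩,
    fun k => ⟨_, ρR k, by rw [he, he, y0, hy]⟩,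
    fun z hz => ⟨fun hn i => (E _).mpr fun r hr => ?_, fun hn => ?_⟩⟩
  · obtain ⟨c, hc⟩ := (E _).mp (FV.basis i) _ (Nor.conj_mem (inv_mem hn) hr)
    refine ⟨c, ?_⟩
    rw [← map_smul, ← hc, ← End.mul_apply, ← End.mul_apply, ← map_mul, ← map_mul]
    simp [mul_assoc]
  have A : ∀ k, ∃ l, ∃ c : F, c * c = 1 ∧ z.1 * ((ρ k).1 * al F x) * z.1ᵀ =
      c • ((ρ l).1 * al F x) := fun k => by
    obtain ⟨l, c, hc⟩ := (hn k).exists_eq
    have a1 := plusQ_lam z.1 (e k)
    rw [hc, q_smul, hz, he, he, q1, q1, mul_left_inj' q0] at a1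
    exact ⟨l, c, pow_two c ▸ a1, by rw [← hy, ← hy, ← al_lam, ← he, hc, map_smul, he]⟩
  have key : ∀ k, z * ρ k * z⁻¹ ∈ R := fun k => by
    obtain ⟨l, c, c1, hc⟩ := A k
    obtain ⟨m, d, d1, hd⟩ := A 0
    have a1 : (z * ρ k * z⁻¹ * ρ m).1 = (c * d) • (ρ l).1 := by
      have a2 : (z * ρ k * z⁻¹ * ρ m).1 * al F x = (c * d) • (ρ l).1 * al F x := by
        rw [smul_mul_assoc, mul_comm c, mul_smul, ← hc, Units.val_mul, mul_assoc,
          ← one_smul F ((ρ m).1 * _), ← d1, mul_smul, ← hd, ρ0]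
        simp [mul_assoc]
      have a3 := congrArg (· * al F (x ∘ Sum.swap)) a2
      simp only [mul_assoc _ (al F x), al_mul_swap, mul_smul_comm, mul_one] at a3
      exact smul_right_injective _ (neg_ne_zero.mpr q0) a3
    rw [← mul_mem_cancel_right (ρR m)]
    rcases mul_self_eq_one_iff.mp (show c * d * (c * d) = 1 by
      linear_combination d * d * c1 + d1) with e' | e' <;> rw [e'] at a1
    · exact (Units.ext (by simpa using a1.symm) : ρ l = z * ρ k * z⁻¹ * ρ m) ▸ ρR l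
    · exact (Units.ext (by simpa using a1.symm) : -1 * ρ l = z * ρ k * z⁻¹ * ρ m) ▸
        mul_mem h.neg (ρR l)
  have key' : ∀ k, z * γ k * z⁻¹ ∈ R := fun k => by
    have := key k.succ
    simp only [hρ, Fin.cons_succ] at this
    rwa [← mul_assoc, ← h.sch.zs_comm hj, mul_assoc, mul_assoc, R.mul_mem_cancel_left hj.1,
      ← mul_assoc] at this
  have k0 : z * u * z⁻¹ ∈ R := by simpa [hγ] using key' 0
  have k1 : z * v * z⁻¹ ∈ R := by simpa [hγ] using key' 1
  refine h.norm_of g k0 k1 ?_ ?_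
  · simpa [hγ, mul_assoc, c1, c2] using mul_mem k1 (mul_mem k0 (key' 2))
  · simpa [hγ, mul_assoc, c1, c2] using mul_mem k1 (mul_mem k0 (key' 3))

theorem gu_mul {K : Type*} [Field K] [Finite K] {q n : ℕ} (hK : Nat.card K = q ^ 2)
    {g : GL (Fin n) K} (hg : g ∈ Cfsg.GU n K q) : g.1ᵀ * g.1.map (Herm.frob hK) = 1 := by
  ext i j
  have := (Herm.mem_GU hK _).1 hg (Pi.single j 1) (Pi.single i 1)
  rw [Herm.stdB_single_left] at this
  simpa [Herm.stdB_apply, Matrix.mul_apply, mul_comm, Pi.single_apply, one_apply, eq_comm]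
    using this

/-- the semilinear involution of the exterior square -/
def tau6 {K : Type*} [Field K] (σ : K →+* K) : (Fin 3 ⊕ Fin 3 → K) →+ (Fin 3 ⊕ Fin 3 → K) where
  toFun v := σ ∘ v ∘ Sum.swap
  map_zero' := by ext; simp
  map_add' u v := by ext; simp

theorem tau6_apply {K : Type*} [Field K] (σ : K →+* K) (v : Fin 3 ⊕ Fin 3 → K) (i) :
    tau6 σ v i = σ (v i.swap) := rfl

theorem tau6_smul {K : Type*} [Field K] (σ : K →+* K) (c : K) (v : Fin 3 ⊕ Fin 3 → K) :
    tau6 σ (c • v) = σ c • tau6 σ v := by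
  ext; simp [tau6_apply]

theorem tau6_lam {K : Type*} [Field K] [Finite K] {q : ℕ} (hK : Nat.card K = q ^ 2)
    {g : GL (Fin 4) K} (hg : g ∈ Cfsg.GU 4 K q) (h1 : g.1.det = 1) (v : Fin 3 ⊕ Fin 3 → K) :
    tau6 (Herm.frob hK) (lam K g.1 v) = lam K g.1 (tau6 (Herm.frob hK) v) := by
  change (Herm.frob hK ∘ lam K g.1 v) ∘ Sum.swap = lam K g.1 ((Herm.frob hK ∘ v) ∘ Sum.swap)
  rw [lam_map, lam_swap h1 (gu_mul hK hg)]

theorem al_tau6 {K : Type*} [Field K] (σ : K →+* K) (v : Fin 3 ⊕ Fin 3 → K) :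
    al K (tau6 σ v) = (al K (v ∘ Sum.swap)).map σ := by
  ext i j
  fin_cases i <;> fin_cases j <;> simp [al_apply, tau6_apply]

theorem klein_su [Finite F] {K : Type*} [Field K] [Finite K] {q : ℕ} (hF : Nat.card F = q)
    (hK : Nat.card K = q ^ 2) [Algebra F K] (hσ : Herm.IsFix F (Herm.frob hK)) :
    ∃ (W : Submodule F (Fin 3 ⊕ Fin 3 → K)) (Q' : QuadraticForm F W)
      (φ : (Cfsg.GU 4 K q ⊓ Geo.specialLinear (Fin 4) K : Subgroup _) →* OG Q'), ND Q' ∧
      finrank F W = 6 ∧ ¬ IsPlus Q' ∧ φ.range = commutator (OG Q') ∧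
      (∀ x, x ∈ W ↔ tau6 (Herm.frob hK) x = x) ∧
      (∀ x : W, algebraMap F K (Q' x) = plusQ 3 K x) ∧
      (∀ x, ∃ (u w : W) (c d : K), x = c • (u : Fin 3 ⊕ Fin 3 → K) + d • (w : _ → K)) ∧
      ∀ g (x : W), ((φ g).1 x : Fin 3 ⊕ Fin 3 → K) = lam K g.1.1 x := by
  set σ := Herm.frob hK
  set τ := tau6 σ
  have hq := Herm.two_le_of_card hK
  have h1 : ∀ x, τ (τ x) = x := fun x => by ext; simp [τ, tau6_apply, hσ.invol]
  have h2 : ∀ (a : K) x, τ (a • x) = σ a • τ x := tau6_smul σ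
  have h3 : ∀ x, plusQ 3 K (τ x) = σ (plusQ 3 K x) := fun x => by
    simp [plusQ_apply, τ, tau6_apply, mul_comm]
  let W : Submodule F (Fin 3 ⊕ Fin 3 → K) :=
    { carrier := {x | τ x = x}
      add_mem' := fun {a b} ha hb => by rw [Set.mem_ofPred, map_add, ha, hb]
      zero_mem' := map_zero τ
      smul_mem' := fun c x hx => by
        rw [Set.mem_ofPred, ← algebraMap_smul K, h2, hσ.map_alg, hx] }
  obtain ⟨a, ha⟩ := hσ.toInv.exists_trace_one
  let Q' : QuadraticForm F W :=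
    ((hσ.tr ∘ₗ LinearMap.mulLeft F a).compQuadraticMap' (plusQ 3 K)).comp W.subtype
  have hQ' : ∀ x : W, algebraMap F K (Q' x) = plusQ 3 K x := fun x => by
    change algebraMap F K (hσ.tr (a * plusQ 3 K x)) = _
    rw [hσ.alg_tr, map_mul, ← h3, x.2, ← add_mul, ha, one_mul]
  have hsp : ∀ x, ∃ (u w : W) (c d : K), x = c • (u : Fin 3 ⊕ Fin 3 → K) + d • (w : _ → K) :=
    fun x => by
    obtain ⟨θ, hθ⟩ := hσ.ne
    refine ⟨⟨x + τ x, ?_⟩, ⟨θ • x + τ (θ • x), ?_⟩, -σ θ / (θ - σ θ), 1 / (θ - σ θ), ?_⟩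
    · change τ _ = _; rw [map_add, h1, add_comm]
    · change τ _ = _; rw [map_add, h1, add_comm]
    · have : θ - σ θ ≠ 0 := sub_ne_zero.2 hθ.symm
      dsimp only
      rw [h2]
      match_scalars <;> field_simp <;> ring
  let ρ' : (Cfsg.GU 4 K q ⊓ Geo.specialLinear (Fin 4) K : Subgroup _) →*
      End F (Fin 3 ⊕ Fin 3 → K) :=
    { toFun := fun g => (lam K g.1.1).restrictScalars F
      map_one' := by ext; simp
      map_mul' := fun a b => by ext; simp }
  let φ : _ →* OG Q' := ofRep (resRep ρ' W fun g v hv =>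
    (tau6_lam hK g.2.1 (Nor.mem_SL.mp g.2.2) v).trans (congrArg _ hv)) fun g v =>
      (algebraMap F K).injective (by
        rw [hQ', hQ']
        exact (plusQ_lam g.1.1 v).trans (by rw [Nor.mem_SL.mp g.2.2, one_mul]))
  have hW : ND Q' := fun x hx => by
    have h4 : ∀ y : W, polar (plusQ 3 K) x y = 0 := fun y => by
      have := congrArg (algebraMap F K) (hx y)
      simpa [polar, hQ'] using this
    refine Subtype.ext (nd_plusQ 3 x.1 fun y => ?_)
    obtain ⟨u, w, c, d, rfl⟩ := hsp y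
    simp [h4]
  have hd : finrank F W = 6 := by
    have h4 := Conj.card_fix_sq hσ.toInv τ h1 h2
    have h5 : Nat.card W = Nat.card F ^ finrank F W := Module.natCard_eq_pow_finrank
    change Nat.card W ^ 2 = _ at h4
    rw [h5, Nat.card_pi, Finset.prod_const, hK, hF, ← pow_mul, ← pow_mul] at h4
    have := Nat.pow_right_injective hq h4
    simp at this
    omega
  let j : Cfsg.SU 4 K q →* (Cfsg.GU 4 K q ⊓ Geo.specialLinear (Fin 4) K : Subgroup _) :=
    ((Matrix.SpecialLinearGroup.toGL).comp (Cfsg.SU 4 K q).subtype).codRestrict _ fun g =>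
      ⟨g.2, Nor.mem_SL.mpr g.1.2⟩
  have hj : Function.Surjective j := fun g =>
    ⟨⟨⟨g.1.1, Nor.mem_SL.mp g.2.2⟩, g.2.1⟩, Subtype.ext (Units.ext rfl)⟩
  have hp : commutator (Cfsg.SU 4 K q) = ⊤ := Classical.SpMat.commutator_eq_top_congr
    (Herm.toSUG hK 4) ((Herm.hf_sB hK 4).SUG_perfect hK (by simp) (by simp))
  have hz : slNeg 4 K (by decide) ∈ Cfsg.SU 4 K q := fun u v => by
    change Cfsg.hermForm 4 K q ((-1 : Matrix _ _ K) *ᵥ u) ((-1 : Matrix _ _ K) *ᵥ v) = _
    simp [Herm.hermForm_eq hK, neg_mulVec]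
  have hk : ∀ h, φ.comp j h = 1 → h = 1 ∨ h = ⟨_, hz⟩ := fun h hh => by
    refine (lam_eq_one h.1.2 (LinearMap.ext fun v => ?_)).imp (fun h => Subtype.ext (Subtype.ext h))
      (fun h => Subtype.ext (Subtype.ext h))
    have h4 : ∀ u : W, lam K h.1.1 u = u := fun u =>
      congrArg Subtype.val (congrArg (fun x : OG Q' => x.1 u) hh)
    obtain ⟨u, w, c, d, rfl⟩ := hsp v
    simp [h4]
  have hz2 : (2 : F) = 0 → (⟨_, hz⟩ : Cfsg.SU 4 K q) = 1 := fun h =>
    Subtype.ext (slNeg_eq_one (by decide) (two_eq_zero_alg h))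
  obtain ⟨b, hab⟩ := exists_aniso (F := F)
  have hc : Nat.card (OG (minusQ 2 F 1 b)) = 2 * Nat.card (Cfsg.SU 4 K q) := by
    refine Nat.eq_of_mul_eq_mul_left (n := q + 1) (by omega) ?_
    rw [mul_left_comm _ 2 (Nat.card _), card_SU hK (by norm_num), card_OG_minusQ 2 hab, hF,
      Herm.ordU]
    simp [Finset.prod_range_succ, Nat.even_iff]
    ring
  have h5 : ¬ IsPlus Q' := fun h => by
    obtain ⟨e⟩ := hW.iso_plusQ h (m := 2 + 1) hd
    have := spin_le hW (by omega) _ (sqGen_of_perfect hp) (fun _ => hp) _ hk hz2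
    rw [← card_OG_iso e, ← hc] at this
    exact (card_plus_lt_minus 2 hab).not_ge this
  obtain ⟨e⟩ := hW.iso_minusQ h5 (m := 2) hd hab
  refine ⟨W, Q', φ, hW, hd, h5, ?_, fun _ => Iff.rfl, hQ', hsp, fun _ _ => rfl⟩
  rw [MonoidHom.range_eq_map, ← Subgroup.map_top_of_surjective j hj, Subgroup.map_map,
    ← MonoidHom.range_eq_map]
  exact spin_range hW (by omega) _ (sqGen_of_perfect hp) (fun _ => hp) _ hk hz2
    (by rw [← card_OG_iso e, hc])

theorem max_su4_c6 {K : Type*} [Field K] [Finite K] {p : ℕ} (hp : p.Prime) (h2 : (2 : K) ≠ 0)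
    (hK : Nat.card K = p ^ 2) {R : Subgroup (GL (Fin 4) K)} (hs : Geo.IsSymplecticTypeGroup 2 R)
    (hi : Geo.ActsAbsolutelyIrreducibly (Geo.matrixSet R)) (hR : R ≤ Cfsg.GU 4 K p)
    (h4 : Nat.card (Subgroup.center R) = 4) :
    Geo.IsMaximalIn (Cfsg.GU 4 K p ⊓ Geo.specialLinear (Fin 4) K)
      (Geo.subgroupNormalizer R ⊓ (Cfsg.GU 4 K p ⊓ Geo.specialLinear (Fin 4) K)) := by
  have := Fact.mk hp
  obtain ⟨_, hσ⟩ := exists_isFix (F := ZMod p) (by simp) hK
  obtain ⟨W, Q', φ, hW, hd, -, hφ, w1, w2, -, w3⟩ := klein_su (F := ZMod p) (by simp) hK hσ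
  set σ := Herm.frob hK
  obtain ⟨h, hs⟩ := e2_of_four hs hi h2 h4
  obtain ⟨e, α, h0, h1, h3, E, e1, e2, h5⟩ := exists_frame6' h hs ((Nor.card_center' R).symm.trans h4)
  have d1 : ∀ r ∈ R, r.1.det = 1 := fun r hr => by
    obtain ⟨c, c1, hc⟩ := e1 r hr
    have := plusQ_lam r.1 (e 0)
    rw [hc, q_smul, h1, mul_left_inj' h0] at this
    rw [← this, pow_two, c1]
  have d2 : ∀ r ∈ R, ∃ c, lam K r.1 (e 0) = c • e 0 ∧
      lam K r.1 (tau6 σ (e 0)) = c • tau6 σ (e 0) := fun r hr => by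
    obtain ⟨c, c1, hc⟩ := e1 r hr
    refine ⟨c, hc, ?_⟩
    rw [← tau6_lam hK (hR hr) (d1 r hr), hc, tau6_smul]
    rcases mul_self_eq_one_iff.mp c1 with rfl | rfl <;> simp [σ]
  obtain ⟨d, hd0⟩ : ∃ d : K, tau6 σ (e 0) = d • e 0 := by
    obtain ⟨l, c, hc⟩ := ((E _).mpr fun r hr => (d2 r hr).imp fun _ => And.right).exists_eq
    by_cases hl : l = 0
    · exact ⟨c, hl ▸ hc⟩
    have := ((E (e 0 + tau6 σ (e 0))).mpr fun r hr => (d2 r hr).imp fun c hc => by
      rw [map_add, hc.1, hc.2, smul_add]).eq_zero (i := 0) (by simp [hc, Ne.symm hl]) hl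
    exact ⟨0, by simpa [hc, hl] using Or.inl (by simpa [hc, hl] using this)⟩
  have hu : ∀ k, IsUnit (al K (e k)) := fun k => (isUnit_iff_isUnit_det _).mpr (by
    have := congrArg det (al_mul_swap (e k))
    rw [det_mul, h1, det_smul, det_one, mul_one] at this
    exact (left_ne_zero_of_mul (this ▸ pow_ne_zero _ (neg_ne_zero.mpr h0))).isUnit)
  have t1 : ∀ k, tau6 σ (e k) = d • e k := fun k => al_inj (by
    obtain ⟨r, hr, hk⟩ := e2 k
    have a1 : al K (e k ∘ Sum.swap) * r.1 = al K (e 0 ∘ Sum.swap) := (hu 0).mul_left_cancel (by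
      rw [al_mul_swap, ← mul_assoc, h1]
      refine r.isUnit.mul_left_cancel ?_
      rw [← mul_assoc, ← mul_assoc, ← hk, al_mul_swap, h1]
      simp)
    have a2 := congrArg (al K) hd0
    rw [al_tau6, ← a1, Matrix.map_mul, map_smul] at a2
    have a3 := al_skew (e k)
    rw [hk, transpose_mul, al_skew, neg_mul, neg_inj] at a3
    rw [al_tau6, map_smul, hk, ← a3, ← smul_mul_assoc, ← a2, mul_assoc,
      mul_eq_one_comm.mp (gu_mul hK (hR hr)), mul_one])
  have t2 : σ d * d = 1 := by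
    have : tau6 σ (tau6 σ (e 0)) = e 0 := by ext; simp [tau6_apply, hσ.invol]
    rw [t1, tau6_smul, t1, smul_smul] at this
    simpa using congrArg (e.repr · 0) this
  obtain ⟨a, a0, ha⟩ : ∃ a : K, a ≠ 0 ∧ σ a * d = a := by
    by_cases h6 : 1 + d = 0
    · obtain ⟨θ, hθ⟩ := hσ.ne
      refine ⟨θ - σ θ, sub_ne_zero.mpr hθ.symm, ?_⟩
      rw [map_sub, hσ.invol]
      linear_combination (σ θ - θ) * h6
    · exact ⟨1 + d, h6, by rw [map_add, map_one]; linear_combination t2⟩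
  let f : Fin 6 → W := fun k => ⟨a • e k, (w1 _).mpr (by rw [tau6_smul, t1, smul_smul, ha])⟩
  have inj := (algebraMap (ZMod p) K).injective
  have q1 : ∀ k, Q' (f k) = Q' (f 0) := fun k => inj (by simp [w2, f, q_smul, h1])
  have q0 : Q' (f 0) ≠ 0 := fun e' => by simpa [w2, f, q_smul, h1, a0, h0] using congrArg (algebraMap _ K) e'
  have q2 : ∀ k l, k ≠ l → polar Q' (f k) (f l) = 0 := fun k l hkl => inj (by
    have := h3 k l hkl
    simp only [polar, map_sub, w2, f, Submodule.coe_add, ← smul_add, q_smul, map_zero] at this ⊢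
    linear_combination a ^ 2 * this)
  have h2' : (2 : ZMod p) ≠ 0 := fun e' => h2 (two_eq_zero_alg e')
  have li : LinearIndependent (ZMod p) f := Fintype.linearIndependent_iff.mpr fun c hc i => by
    have := congrArg (polar Q' (f i)) hc
    rw [p_sum_right, Finset.sum_eq_single i (fun j _ hj => by simp [q2 i j hj.symm]) (by simp),
      p_smul_right, p_self, q1] at this
    simpa [h2', q0] using this
  let b := basisOfLinearIndependentOfCardEqFinrank li (by simp [hd])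
  have hb : ∀ i, b i = f i := fun i => by simp [b]
  have H : ∀ M, (∀ g ∈ commutator (OG Q'), g.1 ∈ mon b → g ∈ M) → OF5 _ b (Q' (f 0)) M :=
    fun M hM => ⟨hW, h2', q0, exists_nat_cast (by simpa using hp), fun i => hb i ▸ q1 i,
      fun i j hij => by rw [hb, hb, q2 i j hij], hM⟩
  refine max_of_hom φ (·.1 ∈ mon b) hφ (fun g => (h5 g.1 (Nor.mem_SL.mp g.2.2)).trans
    ⟨fun h => mem_mon fun i => ?_, fun h i => ?_⟩)
    (exists_not_mon6 (H ⊤ fun _ _ _ => trivial)) fun M hM => frame6 (H M hM)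
  · obtain ⟨l, c, hc⟩ := (h i).exists_eq
    have a1 := plusQ_lam g.1.1 (e i)
    rw [hc, q_smul, Nor.mem_SL.mp g.2.2, h1, h1, mul_left_inj' h0] at a1
    rcases mul_self_eq_one_iff.mp (pow_two c ▸ a1) with rfl | rfl
    · rw [show (φ g).1 (b i) = b l from Subtype.ext (by simp [w3, hb, f, hc])]
      exact FV.basis l
    · rw [show (φ g).1 (b i) = (-1 : ZMod p) • b l from Subtype.ext (by simp [w3, hb, f, hc])]
      exact (FV.basis l).smul _
  · obtain ⟨l, c, -, hc⟩ := mon_basis h i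
    have := congrArg Subtype.val hc
    rw [w3, hb, hb, Submodule.coe_smul, ← algebraMap_smul K, smul_comm, map_smul,
      smul_right_inj a0] at this
    exact this ▸ (FV.basis l).smul _

end Cfsg.Agent.Max3
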