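import Mathlib
import Cfsg.Agent.Max.SubO6

/-!
# Subfield subgroups of orthogonal type in `SU₄(q)`
-/

set_option autoImplicit false
set_option linter.unusedSectionVars false
set_option linter.unusedSimpArgs false

namespace Cfsg.Agent.Max3

open Module Cfsg.Agent.Herm Cfsg.Agent.Max

variable {F V : Type*} [Field F] [AddCommGroup V] [Module F V] [FiniteDimensional F V]
  {σ : F →+* F} {B : V →ₛₗ[σ] V →ₗ[F] F} {hB : HF B} {M : Subgroup (UG B)} {ι : Type}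
  {K : Subfield F} {e : Basis ι F V} [Finite F] [Fintype ι]

theorem rk_lt_sup {K V : Type*} [Field K] [AddCommGroup V] [Module K V] [FiniteDimensional K V]
    {X : Submodule K V} {v : V} (h : v ∉ X) : finrank K X + 1 ≤ finrank K ↥(X ⊔ K ∙ v) :=
  Submodule.finrank_lt_finrank_of_lt (left_lt_sup.mpr fun e' =>
    h (e' (Submodule.mem_span_singleton_self v)))

/-- The hypotheses of the subfield argument for orthogonal groups in `SU₄`. -/
structure SyO (hB : HF B) (M : Subgroup (UG B)) (K : Subfield F) (e : Basis ι F V) : Prop where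
  hn : Fintype.card ι = 4
  fix : ∀ c, σ c = c ↔ c ∈ K
  two : (2 : F) ≠ 0
  big : ∃ m ∈ K, m ≠ 0 ∧ m ^ 2 ≠ 1
  rat : ∀ u ∈ Rt K e, ∀ v ∈ Rt K e, B u v ∈ K
  le : M ≤ SUG B
  mem : ∀ g ∈ SUG B, g.1 ∈ NR K e → g ∈ M

namespace SyO
variable (h : SyO hB M K e) {a b c d f p r v w x y z : V} {θ u : F}
include h

theorem sym (hx : x ∈ Rt K e) (hy : y ∈ Rt K e) : B x y = B y x := by
  rw [← hB.symm, (h.fix _).mpr (h.rat y hy x hx)]

theorem dual {U : Submodule K V} (hU : U ≤ Rt K e) (ha : a ∈ Rt K e) (h1 : a ∉ U) :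
    ∃ c ∈ Rt K e, (∀ u ∈ U, B c u = 0) ∧ B c a = 1 := by
  obtain ⟨φ, h2, h3, h4⟩ := exists_RD hU ha h1
  obtain ⟨c, h5, rfl⟩ := exists_Rt_dual (Θ := fun y => B y) (fun x y e1 =>
    sub_eq_zero.mp (hB.nd _ fun z => by
      rw [map_sub, show B x = B y from e1, sub_self, LinearMap.zero_apply]))
    (fun x hx v hv => h.rat x hx v hv) h2
  exact ⟨c, h5, h3, h4⟩

theorem dual1 (ha : a ∈ Rt K e) (hc : c ∈ Rt K e) (h1 : c ∉ K ∙ a) :
    ∃ d ∈ Rt K e, B d a = 0 ∧ B d c = 1 := by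
  obtain ⟨d, h2, h3, h4⟩ := h.dual ((Submodule.span_singleton_le_iff_mem _ _).mpr ha) hc h1
  exact ⟨d, h2, h3 a (Submodule.mem_span_singleton_self a), h4⟩

theorem rk {U : Submodule K V} (hU : U ≤ Rt K e) (hx : x ∈ Rt K e) :
    finrank K U ≤ finrank K ↥(U ⊓ kr K (B x)) + 1 :=
  finrank_le_kr' hU fun v hv => h.rat x hx v hv

theorem iso0 : ∃ x ∈ Rt K e, x ≠ 0 ∧ B x x = 0 :=
  exists_iso_sub (U := Rt K e) (by rw [finrank_Rt, h.hn]; norm_num) hB fun x hx => h.rat x hx x hx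

theorem polar0 (ha : a ∈ Rt K e) (hb : b ∈ Rt K e) (h1 : B a a = 0) (h2 : B b b = 0)
    (h3 : B (a + b) (a + b) = 0) : B a b = 0 := by
  simp only [map_add, LinearMap.add_apply, h1, h2, h.sym hb ha] at h3
  exact (mul_eq_zero.mp (by linear_combination h3 : 2 * B a b = 0)).resolve_left h.two

theorem nons (hx : x ∈ Rt K e) : ∃ b ∈ Rt K e, B b b ≠ 0 ∧ B x b = 0 := by
  by_contra hc
  push Not at hc
  set U := Rt K e ⊓ kr K (B x) with hU
  have hc' : ∀ b ∈ U, B b b = 0 := fun b hb => by_contra fun e' => hc b hb.1 e' hb.2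
  have h6 := Submodule.finrank_mono (show Submodule.span F (U : Set V) ≤
      perp B (Submodule.span F (U : Set V)) from Submodule.span_le.mpr fun w hw =>
    mem_perp_span.mpr fun b hb => h.polar0 hb.1 hw.1 (hc' b hb) (hc' w hw) (hc' _ (add_mem hb hw)))
  have h7 := hB.finrank_perp_add (Submodule.span F (U : Set V))
  rw [finrank_eq_card_basis e] at h7
  have := finrank_le_span (U := U) inf_le_left
  have h8 := h.rk le_rfl hx
  have := h.hn
  rw [finrank_Rt, ← hU] at h8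
  omega

theorem two_mem : (2 : F) ∈ K := by simpa using natCast_mem K 2

theorem htr (hv : v ∈ Rt K e) : B v v / 2 + σ (B v v / 2) = B v v := by
  rw [(h.fix _).mpr (div_mem (h.rat v hv v hv) h.two_mem)]
  have := h.two
  field_simp
  ring

theorem eich_nr (hx : x ∈ Rt K e) (h1 : B x x = 0) (hv : v ∈ Rt K e) (h2 : B x v = 0) :
    (hB.eich x v (B v v / 2)).1 ∈ NR K e := nr_of' fun w hw => by
  rw [hB.eich_apply h1 h2 (h.htr hv)]
  exact sub_mem (add_mem hw (smul_mem_Rt (sub_mem (h.rat v hv w hw)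
    (mul_mem (div_mem (h.rat v hv v hv) h.two_mem) (h.rat x hx w hw))) hx))
    (smul_mem_Rt (h.rat x hx w hw) hv)

theorem eich_mem (hx : x ∈ Rt K e) (h1 : B x x = 0) (hv : v ∈ Rt K e) (h2 : B x v = 0) :
    hB.eich x v (B v v / 2) ∈ M :=
  h.mem _ (hB.eich_mem_SUG _ _ _) (h.eich_nr hx h1 hv h2)

theorem ua (hx : x ∈ Rt K e) (h1 : B x x = 0) (hv : v ∈ Rt K e) (h2 : B x v = 0) :
    v ∈ UA hB M x := ⟨h2, _, h.htr hv, h.eich_mem hx h1 hv h2⟩

theorem refl (ha : a ∈ Rt K e) (hb : b ∈ Rt K e) (h1 : B a a ≠ 0) (h2 : B b b ≠ 0) :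
    ∃ g ∈ M, ∀ x, g.1 x = (x + (-2 / B b b * B b x) • b) +
      (-2 / B a a * B a (x + (-2 / B b b * B b x) • b)) • a := by
  have key : ∀ {a}, B a a ≠ 0 → -2 / B a a + σ (-2 / B a a) +
      -2 / B a a * σ (-2 / B a a) * B a a = 0 := fun {a} h1 => by
    rw [map_div₀, map_neg, map_ofNat, hB.fix]
    field_simp
    ring
  have k2 : ∀ {a}, a ∈ Rt K e → B a a ≠ 0 → (hB.qr a (-2 / B a a)).1 ∈ NR K e := fun {a} ha h1 =>
    nr_of' fun w hw => by
      rw [hB.qr_apply (key h1)]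
      exact add_mem hw (smul_mem_Rt (mul_mem (div_mem (neg_mem h.two_mem) (h.rat a ha a ha))
        (h.rat a ha w hw)) ha)
  refine ⟨hB.qr a (-2 / B a a) * hB.qr b (-2 / B b b), h.mem _ ?_ (mul_mem (k2 ha h1) (k2 hb h2)),
    fun x => by rw [UG.mul_apply, hB.qr_apply (key h2), hB.qr_apply (key h1)]⟩
  rw [mem_SUG, map_mul, Units.val_mul, hB.detU_qr (key h1), hB.detU_qr (key h2)]
  field_simp
  ring

theorem half (hc : c ∈ Rt K e) (hz : z ∈ Rt K e) (h1 : B c c = 0) (h2 : B c z ≠ 0) :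
    ∃ k ∈ K, B (z - k • c) (z - k • c) = 0 := by
  have h3 := div_mem (h.rat z hz z hz) (mul_mem h.two_mem (h.rat c hc z hz))
  refine ⟨_, h3, ?_⟩
  have := h.two
  simp only [map_sub, map_smul, LinearMap.sub_apply, b_smul_left, smul_eq_mul, h1,
    (h.fix _).mpr h3, h.sym hz hc]
  field_simp
  ring

theorem hyp (hx : x ∈ Rt K e) (h0 : x ≠ 0) (h1 : B x x = 0) :
    ∃ f ∈ Rt K e, B f f = 0 ∧ B x f = 1 := by
  obtain ⟨d, hd, -, h2⟩ := h.dual bot_le hx (by simpa using h0)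
  replace h2 := hB.one_symm h2
  obtain ⟨k, hk, h3⟩ := h.half hx hd h1 (by simp [h2])
  exact ⟨_, sub_mem hd (smul_mem_Rt hk hx), h3, by simp [h1, h2]⟩

theorem diag (hx : x ∈ Rt K e) (h1 : B x x = 0) (hf : f ∈ Rt K e) (h2 : B f f = 0)
    (h3 : B x f = 1) {k : F} (hk : k ∈ K) (k0 : k ≠ 0) : ∃ g ∈ M, g.1 x = k • x ∧
      ∀ w, g.1 w = w + ((k - 1) * B f w) • x + ((k⁻¹ - 1) * B x w) • f := by
  obtain ⟨g, h4, h5⟩ := hB.exists_diag h1 h2 h3 k0
  rw [(h.fix _).mpr hk] at h4 h5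
  refine ⟨g, h.mem g (by rw [mem_SUG, h4, mul_inv_cancel₀ k0]) (nr_of' fun w hw => ?_), ?_, h5⟩
  · rw [h5]
    exact add_mem (add_mem hw (smul_mem_Rt (mul_mem (sub_mem hk K.one_mem) (h.rat f hf w hw)) hx))
      (smul_mem_Rt (mul_mem (sub_mem (inv_mem hk) K.one_mem) (h.rat x hx w hw)) hf)
  · rw [h5, h1, hB.one_symm h3]
    module

theorem scal (hx : x ∈ Rt K e) (h0 : x ≠ 0) (h1 : B x x = 0) (hz : z ∈ UA hB M x) {k : F}
    (hk : k ∈ K) : k • z ∈ UA hB M x := by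
  by_cases k0 : k = 0
  · simp [k0]
  obtain ⟨f, hf, h2, h3⟩ := h.hyp hx h0 h1
  obtain ⟨g, hg, h4, h5⟩ := h.diag hx h1 hf h2 h3 hk k0
  have h6 := UA.map_smul h1 hz hg k0 h4
  rw [(h.fix _).mpr hk, h5, hz.1] at h6
  convert sub_mem h6 (UA.self h1 (k * ((k - 1) * B f z))) using 1
  module

theorem ut_of_tv (hx : x ∈ Rt K e) (h0 : x ≠ 0) (h1 : B x x = 0) (hu : u + σ u = 0) (u0 : u ≠ 0)
    (hT : hB.qr x u ∈ M) : UT hB M x := by
  obtain ⟨f, hf, h2, h3⟩ := h.hyp hx h0 h1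
  have sk : ∀ k ∈ K, k * u + σ (k * u) = 0 := fun k hk => by
    rw [map_mul, (h.fix _).mpr hk]
    linear_combination k * hu
  have key : ∀ k ∈ K, hB.qr x (k ^ 2 * u) ∈ M := fun k hk => by
    by_cases k0 : k = 0
    · simp [k0, hB.qr_zero]
    obtain ⟨g, hg, h4, -⟩ := h.diag hx h1 hf h2 h3 hk k0
    have := mul_mem (mul_mem hg hT) (inv_mem hg)
    rwa [hB.qr_conj, h4, hB.qr_smul _ _ _ k0, (h.fix _).mpr hk, ← pow_two] at this
  refine ⟨h1, fun s => ?_⟩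
  by_cases hs : s + σ s = 0
  swap
  · rw [hB.qr_of_not (by simpa [h1] using hs)]
    exact one_mem M
  have hk : s / u ∈ K := (h.fix _).mp (by
    rw [map_div₀, eq_neg_of_add_eq_zero_right hs, eq_neg_of_add_eq_zero_right hu, neg_div_neg_eq])
  obtain ⟨p, r, e1⟩ := exists_sq_sub_sq (⟨_, hk⟩ : K)
  have e2 : s / u = (p : F) ^ 2 - (r : F) ^ 2 := congrArg Subtype.val e1
  have e3 := hB.tv_mul h1 hs (sk _ (pow_mem r.2 2))
  rw [show s + (r : F) ^ 2 * u = (p : F) ^ 2 * u by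
    rw [← div_mul_cancel₀ s u0, e2]; ring] at e3
  rw [← mul_inv_cancel_right (hB.qr x s) (hB.qr x ((r : F) ^ 2 * u)), e3]
  exact mul_mem (key _ p.2) (inv_mem (key _ r.2))

theorem spans (hz : ∀ w ∈ Rt K e, B w w = 0 → B z w = 0) : z = 0 := by
  obtain ⟨a, ha, a0, h2⟩ := h.iso0
  obtain ⟨f, hf, -, f1⟩ := h.hyp ha a0 h2
  refine hB.nd _ fun v => LinearMap.congr_fun (ext_Rt (K := K) (e := e) (g := 0) fun w hw => ?_) v
  refine forall_of_add (F := K) (W := Rt K e) (X := kr K (B a)) (P := fun w => B z w = 0)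
    (fun x y h h' => by simp [h, h']) hf (by simp [f1]) (fun y hy hy' => ?_) hw
  obtain ⟨k, hk, h7⟩ := h.half ha hy h2 hy'
  simpa [hz a ha h2] using hz _ (sub_mem hy (smul_mem_Rt hk ha)) h7

variable (h0 : θ ≠ 0) (hθ : θ + σ θ = 0)
include h0 hθ

theorem not_mem : θ ∉ K := fun e' => h0 ((mul_eq_zero.mp (by
  rw [(h.fix _).mpr e'] at hθ
  linear_combination hθ : 2 * θ = 0)).resolve_left h.two)

theorem split {s t : F} (hs : s ∈ K) (ht : t ∈ K) (e' : s + θ * t = 0) : s = 0 ∧ t = 0 := by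
  have : t = 0 := by_contra fun t0 => h.not_mem h0 hθ (by
    convert neg_mem (div_mem hs ht) using 1
    field_simp
    linear_combination e')
  exact ⟨by simpa [this] using e', this⟩

theorem dec (v : V) : ∃ a ∈ Rt K e, ∃ b ∈ Rt K e, v = a + θ • b := by
  have h2 := h.two
  have h3 : σ θ = -θ := eq_neg_of_add_eq_zero_right hθ
  refine ⟨∑ i, ((e.repr v i + σ (e.repr v i)) / 2) • e i, Submodule.sum_mem _ fun i _ =>
    smul_mem_Rt ((h.fix _).mp ?_) (basis_mem_Rt i),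
    ∑ i, ((e.repr v i - σ (e.repr v i)) / (2 * θ)) • e i, Submodule.sum_mem _ fun i _ =>
    smul_mem_Rt ((h.fix _).mp ?_) (basis_mem_Rt i), ?_⟩
  · rw [map_div₀, map_add, hB.invol, map_ofNat, add_comm]
  · rw [map_div₀, map_sub, hB.invol, map_mul, map_ofNat, h3]
    field_simp
    ring
  · rw [Finset.smul_sum, ← Finset.sum_add_distrib]
    conv_lhs => rw [← e.sum_repr v]
    refine Finset.sum_congr rfl fun i _ => ?_
    rw [smul_smul, ← add_smul]
    congr 1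
    field_simp
    ring

theorem ut_le (hx : x ∈ Rt K e) (x0 : x ≠ 0) (hT : UT hB M x) : SUG B ≤ M := by
  have h1 := hT.1
  have h2 := h.two
  have h3 : σ θ = -θ := eq_neg_of_add_eq_zero_right hθ
  obtain ⟨f, hf, f0, f1⟩ := h.hyp hx x0 h1
  obtain ⟨u, hu, u0, u1⟩ := h.nons hx
  have h7 : B (x - f) (x - f) = -2 := by
    simp [h1, f0, f1, hB.one_symm f1]
    ring
  obtain ⟨g, hg, hg'⟩ := h.refl (sub_mem hx hf) hu (by simp only [h7]; simpa using h.two) u0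
  have h8 := hT.map hg
  rw [hg' x, hB.zero_symm u1, h7, div_self (by simpa using h.two)] at h8
  replace h8 : UT hB M f := by
    convert h8 using 1
    simp [h1, hB.one_symm f1]
  have A : ∀ w ∈ Rt K e, B x w = 0 → B w w ≠ 0 → θ • w ∈ UA hB M x := fun w hw w1 w0 => by
    have k1 := div_mem (h.rat w hw w hw) h.two_mem
    have h9 := h8.add (h8.map (h.eich_mem hx h1 hw w1)) hθ
    rw [hB.eich_apply h1 w1 (h.htr hw), f1] at h9
    have k2 : B w w / 2 ≠ 0 := div_ne_zero w0 h2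
    generalize B w w / 2 = l at k1 k2 h9
    have k3 : 1 - θ * l ≠ 0 := fun e' => by
      simpa using (h.split h0 hθ K.one_mem (neg_mem k1) (by linear_combination e')).1
    have k4 : 1 + θ * l ≠ 0 := fun e' => by
      simpa using (h.split h0 hθ K.one_mem k1 e').1
    have h10 := hT.ua_of_three h8 (h9.smul (1 - θ * l)⁻¹) f1 (by
      simp [f1, h1, w1, f0, hB.one_symm f1, h.sym hf hw]
      field_simp
      ring) (b := -1) (by simp) (by simp)
    have k5 : (1 - θ * l) * (1 + θ * l) ∈ K := (h.fix _).mp (by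
      simp only [map_mul, map_sub, map_add, map_one, h3, (h.fix _).mpr k1]
      ring)
    have h11 := h.scal hx x0 h1 h10 (div_mem k5 (mul_mem h.two_mem k1))
    convert add_mem (sub_mem h11 (h.scal hx x0 h1 (h.ua hx h1 hw w1) (inv_mem k1)))
      (UA.self h1 ((1 + θ * l) / l * (B w f - l))) using 1
    simp only [map_add, map_sub, map_smul, smul_eq_mul, f0, hB.one_symm f1, h.sym hf hw]
    match_scalars <;> field_simp <;> ring
  have H : ∀ w ∈ Rt K e, B x w = 0 → θ • w ∈ UA hB M x := fun w hw w1 => by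
    by_cases w0 : B w w = 0
    swap
    · exact A w hw w1 w0
    by_cases h9 : B (u + w) (u + w) = 0
    · have := A _ (sub_mem hu hw) (by simp [u1, w1]) fun e' => by
        simp only [map_add, map_sub, LinearMap.add_apply, LinearMap.sub_apply, w0] at h9 e'
        exact mul_ne_zero h2 u0 (by linear_combination h9 + e')
      simpa [smul_sub] using sub_mem (A u hu u1 u0) this
    · simpa using sub_mem (A _ (add_mem hu hw) (by simp [u1, w1]) h9) (A u hu u1 u0)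
  refine un_le_of_ut (by rw [finrank_eq_card_basis e, h.hn]; norm_num) ⟨h1, fun z hz => ?_⟩ h8
    (by simp [hB.one_symm f1])
  obtain ⟨a, ha, b, hb, rfl⟩ := h.dec h0 hθ z
  obtain ⟨h4, h5⟩ := h.split h0 hθ (h.rat x hx a ha) (h.rat x hx b hb) (by simpa using hz)
  exact add_mem (h.ua hx h1 ha h4) (H b hb h5)

theorem exists_not : ∃ g ∈ SUG B, g.1 ∉ NR K e := by
  obtain ⟨x, hx, x0, h1⟩ := h.iso0
  obtain ⟨f, hf, -, h2⟩ := h.hyp hx x0 h1
  refine ⟨_, hB.tv_mem_SUG h1 θ, fun ⟨c, hc, h7⟩ => h.not_mem h0 hθ ?_⟩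
  have h8 : c ∈ K := mem_of_smul_mem hx x0 (by simpa [hB.tv_apply h1 hθ, h1] using (h7 x).mp hx)
  have h9 := sub_mem ((h7 f).mp hf) (smul_mem_Rt h8 hf)
  rw [hB.tv_apply h1 hθ, h2, mul_one, smul_add, add_sub_cancel_left, smul_smul] at h9
  simpa [hc] using div_mem (mem_of_smul_mem hx x0 h9) h8

variable (hc : ¬ SUG B ≤ M)
include hc

theorem no_tv (hx : x ∈ Rt K e) (x0 : x ≠ 0) (h1 : B x x = 0) (hu : u + σ u = 0)
    (hT : hB.qr x u ∈ M) : u = 0 :=
  by_contra fun u0 => hc (h.ut_le h0 hθ hx x0 (h.ut_of_tv hx x0 h1 hu u0 hT))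

theorem coef (hx : x ∈ Rt K e) (x0 : x ≠ 0) (h1 : B x x = 0) (hz : z ∈ UA hB M x) :
    ∃ a ∈ Rt K e, B x a = 0 ∧ ∃ μ : F, z = a + μ • x := by
  obtain ⟨a, ha, b, hb, rfl⟩ := h.dec h0 hθ z
  obtain ⟨h4, h5⟩ := h.split h0 hθ (h.rat x hx a ha) (h.rat x hx b hb) (by simpa using hz.1)
  by_cases h3 : b ∈ K ∙ x
  · obtain ⟨k, rfl⟩ := Submodule.mem_span_singleton.mp h3
    exact ⟨a, ha, h4, θ * k, by rw [mul_smul]; rfl⟩
  obtain ⟨h6, l, h7, h8⟩ : θ • b ∈ UA hB M x := by simpa using sub_mem hz (h.ua hx h1 ha h4)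
  obtain ⟨d, hd, h9, h10⟩ := h.dual1 hx hb h3
  have h11 := h.eich_mem hx h1 hd (hB.zero_symm h9)
  have h12 := hB.eich_commutator h1 h6 h7 (hB.zero_symm h9) (h.htr hd)
  have h13 : hB.qr x (B d (θ • b) - B (θ • b) d) ∈ M := by
    rw [← h12]
    exact mul_mem (mul_mem (mul_mem h8 h11) (inv_mem h8)) (inv_mem h11)
  have h14 := h.no_tv h0 hθ hc hx x0 h1 (by rw [map_sub, hB.symm, hB.symm]; ring) h13
  simp only [map_smul, b_smul_left, h10, hB.one_symm h10, smul_eq_mul, mul_one] at h14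
  exact (mul_ne_zero h.two h0 (by linear_combination h14 + hθ)).elim

theorem eich_real (hx : x ∈ Rt K e) (x0 : x ≠ 0) (h1 : B x x = 0) {l : F}
    (hE : hB.eich x w l ∈ M) : (hB.eich x w l).1 ∈ NR K e := by
  by_cases h2 : B x x = 0 ∧ B x w = 0 ∧ l + σ l = B w w
  swap
  · rw [hB.eich_of_not h2]
    exact one_mem (NR K e)
  obtain ⟨-, h2, h3⟩ := h2
  obtain ⟨a, ha, h4, μ, rfl⟩ := h.coef h0 hθ hc hx x0 h1 ⟨h2, l, h3, hE⟩
  have h5 : l + σ l = B a a := by simpa [h1, h4, hB.zero_symm h4] using h3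
  rw [hB.eich_add_smul h1 h4 h5] at hE ⊢
  have h6 : B a a / 2 - (l + μ - σ μ) + σ (B a a / 2 - (l + μ - σ μ)) = 0 := by
    have := h.htr ha
    simp only [map_sub, map_add, hB.invol] at this ⊢
    linear_combination this - h5
  have h7 := hB.eich_mul (w := 0) (m := -(B a a / 2 - (l + μ - σ μ))) h1 h4 (h.htr ha) (by simp)
    (by rw [map_neg, map_zero]; linear_combination -h6)
  rw [hB.eich_zero h1, neg_neg, add_zero, map_zero, add_zero, show B a a / 2 +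
    -(B a a / 2 - (l + μ - σ μ)) = l + μ - σ μ by ring] at h7
  have h8 := h.no_tv h0 hθ hc hx x0 h1 h6 (by
    have := mul_mem (inv_mem (h.eich_mem hx h1 ha h4)) (h7 ▸ hE)
    rwa [inv_mul_cancel_left] at this)
  rw [← sub_eq_zero.mp h8]
  exact h.eich_nr hx h1 ha h4

theorem common {g : UG B} (hg : g ∈ M) (ha : a ∈ Rt K e) (a0 : a ≠ 0) (a1 : B a a = 0)
    (hx : x ∈ Rt K e) (x0 : x ≠ 0) (h1 : B x x = 0) {c : F} (e1 : g.1 a = c • x) :
    g.1 ∈ NR K e := by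
  have c0 : c ≠ 0 := by
    rintro rfl
    simp [a0] at e1
  have c1 : σ c ≠ 0 := by simpa using c0
  obtain ⟨f, hf, f0, f1⟩ := h.hyp ha a0 a1
  obtain ⟨f', hf', f2, f3⟩ := h.hyp hx x0 h1
  have h2 : B x (σ c • g.1 f) = 1 := by
    rw [map_smul, smul_eq_mul, ← b_smul_left, ← e1, UG.map_b, f1]
  obtain ⟨w, l, h3⟩ := hB.eich_trans_opp h1 (x := σ c • g.1 f) (by simp [f0]) f2 (by simp [h2])
    (by simp [f3])
  rw [h2, f3, div_one, one_smul] at h3
  have h4 : ∀ v, B x v = 0 → ∃ μ : F, (hB.eich x w l)⁻¹.1 v = v + μ • x := fun v hv => by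
    by_cases h5 : B x x = 0 ∧ B x w = 0 ∧ l + σ l = B w w
    · rw [hB.eich_inv h1 h5.2.1 h5.2.2, hB.eich_apply h1 (by simp [h5.2.1]) (by
        rw [hB.invol, add_comm, h5.2.2]; simp), hv]
      exact ⟨_, by rw [zero_smul, sub_zero]⟩
    · exact ⟨0, by simp [hB.eich_of_not h5]⟩
  have h5 : (hB.eich x w l)⁻¹.1 x = x := by
    simpa only [hB.eich_apply_left] using UG.inv_apply_self (hB.eich x w l) x
  have h6 : σ c • ((hB.eich x w l)⁻¹ * g).1 f = f' := by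
    rw [UG.mul_apply, ← map_smul, ← h3, UG.inv_apply_self]
  have h7 : ((hB.eich x w l)⁻¹ * g).1 ∈ NR K e := nr_of c1 fun v hv => by
    have k1 := h.rat a ha v hv
    have k2 := h.rat f hf v hv
    have h8 := sub_mem (sub_mem hv (smul_mem_Rt k2 ha)) (smul_mem_Rt k1 hf)
    have h9 : B a (v - B f v • a - B a v • f) = 0 := by simp [a1, f1]
    have h10 : B f (v - B f v • a - B a v • f) = 0 := by simp [f0, hB.one_symm f1]
    have e2 : v = (v - B f v • a - B a v • f) + B f v • a + B a v • f := by abel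
    generalize v - B f v • a - B a v • f = y at h8 h9 h10 e2
    have h11 := UA.of_smul h1 c0 (e1 ▸ UA.map (h.ua ha a1 h8 h9) hg)
    obtain ⟨y', hy', h12, μ, h13⟩ := h.coef h0 hθ hc hx x0 h1 h11
    obtain ⟨ν, h14⟩ := h4 y' h12
    have h15 : σ c • ((hB.eich x w l)⁻¹ * g).1 y = y' + (ν + μ) • x := by
      rw [UG.mul_apply, ← map_smul, h13, map_add, map_smul, h14, h5, add_smul, add_assoc]
    have h16 : B f' (y' + (ν + μ) • x) = 0 := by
      rw [← h15, ← h6]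
      simp only [map_smul, b_smul_left, UG.map_b, h10, smul_eq_mul, mul_zero]
    have h17 : ν + μ ∈ K := by
      rw [map_add, map_smul, hB.one_symm f3, smul_eq_mul, mul_one] at h16
      rw [eq_neg_of_add_eq_zero_right h16]
      exact neg_mem (h.rat _ hf' _ hy')
    rw [e2, map_add, map_add, map_smul, map_smul, smul_add, smul_add, h15, smul_comm (σ c) (B a v),
      h6, UG.mul_apply, e1, map_smul, h5, smul_smul, smul_smul]
    refine add_mem (add_mem (add_mem hy' (smul_mem_Rt h17 hx)) (smul_mem_Rt ?_ hx))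
      (smul_mem_Rt k1 hf')
    rw [mul_right_comm]
    exact mul_mem ((h.fix _).mp (by rw [map_mul, hB.invol, mul_comm])) k2
  have h8 := h.mem _ (mul_mem (inv_mem (hB.eich_mem_SUG x w l)) (h.le hg)) h7
  have h9 : hB.eich x w l ∈ M := by simpa using mul_mem hg (inv_mem h8)
  have := mul_mem (h.eich_real h0 hθ hc hx x0 h1 h9) h7
  rwa [← Subgroup.coe_mul, mul_inv_cancel_left] at this

omit hc in
theorem exists_J {W : Submodule K V} (hy : ∀ t ∈ M, t.1 y = y → ∀ w ∈ W, t.1 w ∈ W) :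
    ∃ a ∈ Rt K e, ∃ b ∈ Rt K e, b ∉ K ∙ a ∧ a ≠ 0 ∧ B y a = 0 ∧ B y b = 0 ∧
      ∀ w ∈ W, B a w • b - B b w • a ∈ W := by
  obtain ⟨p, hp, r, hr, e1⟩ := h.dec h0 hθ y
  set N := Rt K e ⊓ kr K (B p) ⊓ kr K (B r) with hN
  have hN1 : N ≤ Rt K e := inf_le_left.trans inf_le_left
  have hN2 : 2 ≤ finrank K N := by
    have h1 := h.rk le_rfl hp
    have h2 := h.rk (U := Rt K e ⊓ kr K (B p)) inf_le_left hr
    rw [finrank_Rt, h.hn] at h1
    rw [← hN] at h2
    omega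
  have hN3 : ∀ v ∈ N, B y v = 0 := fun v hv => by
    simp [e1, mem_kr.mp hv.1.2, mem_kr.mp hv.2]
  have h2 := h.two
  have sm : ∀ {k : F}, k ∈ K → ∀ {w}, w ∈ W → k • w ∈ W := fun hk _ hw =>
    W.smul_mem ⟨_, hk⟩ hw
  by_cases h1 : ∀ v ∈ N, B v v = 0
  · obtain ⟨a, ha, a0⟩ := exists_not_mem_of_finrank_lt (W := ⊥) (U := N) (by
      rw [finrank_bot]; omega)
    obtain ⟨b, hb, b0⟩ := exists_not_mem_of_finrank_lt (W := K ∙ a) (U := N) (by
      have := finrank_span_one_le (F := K) a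
      omega)
    have h3 := h.polar0 (hN1 ha) (hN1 hb) (h1 a ha) (h1 b hb) (h1 _ (add_mem ha hb))
    refine ⟨a, hN1 ha, b, hN1 hb, b0, by simpa using a0, hN3 a ha, hN3 b hb, fun w hw => ?_⟩
    have h4 := hy _ (h.eich_mem (hN1 ha) (h1 a ha) (hN1 hb) h3) (hB.eich_apply_of_orth _
      (hB.zero_symm (hN3 a ha)) (hB.zero_symm (hN3 b hb))) w hw
    rw [hB.eich_apply (h1 a ha) h3 (h.htr (hN1 hb)), h1 b hb] at h4
    convert sub_mem hw h4 using 1
    simp only [zero_div, zero_mul, sub_zero]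
    abel
  push Not at h1
  obtain ⟨a, ha, a0⟩ := h1
  obtain ⟨b, ⟨hb, b1⟩, b0⟩ := exists_not_mem_of_finrank_lt (W := ⊥) (U := N ⊓ kr K (B a)) (by
    have := h.rk hN1 (hN1 ha)
    rw [finrank_bot]; omega)
  replace b1 : B a b = 0 := b1
  obtain ⟨m, hm, m0, m1⟩ : ∃ m ∈ K, m ≠ 0 ∧ B a a + m ^ 2 * B b b ≠ 0 := by
    obtain ⟨m, hm, m0, m1⟩ := h.big
    by_cases h3 : B a a + 1 ^ 2 * B b b = 0
    · refine ⟨m, hm, m0, fun h4 => a0 ?_⟩
      have h5 : B b b = 0 := (mul_eq_zero.mp (by linear_combination h4 - h3 :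
        (m ^ 2 - 1) * B b b = 0)).resolve_left (sub_ne_zero.mpr m1)
      simpa [h5] using h3
    · exact ⟨1, K.one_mem, one_ne_zero, h3⟩
  have hm' := (h.fix _).mpr hm
  have hd := add_mem ha (N.smul_mem ⟨m, hm⟩ hb)
  replace hd : a + m • b ∈ N := hd
  have d1 : B (a + m • b) (a + m • b) = B a a + m ^ 2 * B b b := by
    simp [b1, hB.zero_symm b1, hm']
    ring
  have d2 : B a (a + m • b) = B a a := by simp [b1]
  have d3 : B (a + m • b) a = B a a := by simp [hB.zero_symm b1]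
  obtain ⟨g, hg, hg'⟩ := h.refl (hN1 ha) (hN1 hd) a0 (d1 ▸ m1)
  obtain ⟨g', hk, hk'⟩ := h.refl (hN1 hd) (hN1 ha) (d1 ▸ m1) a0
  refine ⟨a, hN1 ha, b, hN1 hb, fun e' => ?_, by rintro rfl; simp at a0, hN3 a ha, hN3 b hb,
    fun w hw => ?_⟩
  · obtain ⟨k, rfl⟩ := Submodule.mem_span_singleton.mp e'
    have : (k : F) = 0 := by simpa [Subfield.smul_def, a0] using b1
    simp [Subfield.smul_def, this] at b0
  have h4 := hy g hg (by
    rw [hg', hB.zero_symm (hN3 _ hd)]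
    simp [hB.zero_symm (hN3 _ ha)]) w hw
  have h5 := hy g' hk (by
    rw [hk', hB.zero_symm (hN3 _ ha)]
    simp [hB.zero_symm (hN3 _ ha), hB.zero_symm (hN3 _ hb)]) w hw
  have h6 := sm (div_mem (h.rat _ (hN1 hd) _ (hN1 hd)) (mul_mem (pow_mem h.two_mem 2) hm))
    (sub_mem h5 h4)
  rw [hg', hk', map_add (B a), map_add (B (a + m • b)) w, map_smul (B a),
    map_smul (B (a + m • b)), d1, d2, d3] at h6
  convert h6 using 1
  simp only [map_add, LinearMap.add_apply, b_smul_left, hm', smul_eq_mul]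
  match_scalars <;> field_simp <;> ring

omit hc in
theorem step {W : Submodule K V} (W1 : ∀ u ∈ W, ∀ v ∈ W, B u v ∈ K)
    (W2 : ∀ z, (∀ w ∈ W, B z w = 0) → z = 0) (hy : ∀ t ∈ M, t.1 y = y → ∀ w ∈ W, t.1 w ∈ W)
    (hn : ∀ x ∈ Rt K e, B x x = 0 → ∀ κ : F, κ ≠ 0 → κ • x ∈ W → x = 0) :
    ∃ κ : F, κ ≠ 0 ∧ ∃ a ∈ Rt K e, ∃ b ∈ Rt K e, B a a ≠ 0 ∧ B b b ≠ 0 ∧ B a b = 0 ∧
      B y a = 0 ∧ B y b = 0 ∧ κ • a ∈ W ∧ κ • b ∈ W := by
  obtain ⟨a, ha, b, hb, b0, a0, a1, b1, hJ⟩ := h.exists_J h0 hθ hy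
  have ind : ∀ s ∈ K, ∀ t ∈ K, s • b - t • a = 0 → s = 0 ∧ t = 0 := fun s hs t ht e' => by
    have s0 : s = 0 := by_contra fun s0 => b0 (Submodule.mem_span_singleton.mpr
      ⟨⟨t / s, div_mem ht hs⟩, by
        change (t / s) • a = b
        rw [div_eq_inv_mul, mul_smul, ← sub_eq_zero.mp e', inv_smul_smul₀ s0]⟩)
    exact ⟨s0, by simpa [s0, a0] using e'⟩
  obtain ⟨κ, κ0, s, hs, t, ht, st, h1⟩ : ∃ κ : F, κ ≠ 0 ∧ ∃ s ∈ K, ∃ t ∈ K, ¬ (s = 0 ∧ t = 0) ∧
      κ • (s • b - t • a) ∈ W := by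
    obtain ⟨w, hw, h1⟩ : ∃ w ∈ W, B a w ≠ 0 := by
      by_contra h1
      push Not at h1
      exact a0 (W2 a h1)
    have h2 := W1 w hw _ (hJ w hw)
    have h3 := (h.fix _).mpr h2
    simp only [map_sub, map_smul, smul_eq_mul, map_mul, hB.symm] at h3
    have h4 : σ (B a w) ≠ 0 := by simpa using h1
    refine ⟨B a w, h1, 1, K.one_mem, B b w / B a w, (h.fix _).mp ?_, by simp, ?_⟩
    · rw [map_div₀, div_eq_div_iff h4 h1, hB.symm, hB.symm]
      apply mul_left_cancel₀ h.two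
      linear_combination -h3
    · convert hJ w hw using 1
      match_scalars <;> field_simp
  have h2 := sub_mem (smul_mem_Rt hs hb) (smul_mem_Rt ht ha)
  have h3 : s • b - t • a ≠ 0 := fun e' => st (ind s hs t ht e')
  have h4 : B y (s • b - t • a) = 0 := by simp [a1, b1]
  have h5 : B (s • b - t • a) (s • b - t • a) =
      s * B b (s • b - t • a) - t * B a (s • b - t • a) := by
    rw [b_sub_left, b_smul_left, b_smul_left, (h.fix _).mpr hs, (h.fix _).mpr ht]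
  generalize s • b - t • a = c at h1 h2 h3 h4 h5
  have h6 : B c c ≠ 0 := fun e' => h3 (hn c h2 e' κ κ0 h1)
  have h7 := sub_mem (smul_mem_Rt (h.rat a ha c h2) hb) (smul_mem_Rt (h.rat b hb c h2) ha)
  have h8 : κ • (B a c • b - B b c • a) ∈ W := by
    convert hJ _ h1 using 1
    simp only [map_smul, smul_eq_mul]
    module
  refine ⟨κ, κ0, c, h2, _, h7, h6, fun e' => h6 ?_, ?_, h4, by simp [a1, b1], h1, h8⟩
  · obtain ⟨h9, h10⟩ := ind _ (h.rat a ha c h2) _ (h.rat b hb c h2) (hn _ h7 e' κ κ0 h8)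
    rw [h5, h9, h10]
    simp
  · simp only [map_sub, map_smul, smul_eq_mul, h.sym h2 ha, h.sym h2 hb]
    ring

omit hc in
theorem exists_common {W : Submodule K V} (W1 : ∀ u ∈ W, ∀ v ∈ W, B u v ∈ K)
    (W4 : ∀ z, (∀ w ∈ W, B w w = 0 → B z w = 0) → z = 0)
    (W3 : ∀ y ∈ W, y ≠ 0 → B y y = 0 → ∀ t ∈ M, t.1 y = y → ∀ w ∈ W, t.1 w ∈ W) :
    ∃ x ∈ Rt K e, x ≠ 0 ∧ B x x = 0 ∧ ∃ κ : F, κ ≠ 0 ∧ κ • x ∈ W := by
  by_contra hn
  have hn' : ∀ x ∈ Rt K e, B x x = 0 → ∀ κ : F, κ ≠ 0 → κ • x ∈ W → x = 0 :=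
    fun x hx h1 κ h2 h3 => by_contra fun x0 => hn ⟨x, hx, x0, h1, κ, h2, h3⟩
  have W2 : ∀ z, (∀ w ∈ W, B z w = 0) → z = 0 := fun z hz => W4 z fun w hw _ => hz w hw
  have ex : ∀ z, z ≠ 0 → ∃ y ∈ W, y ≠ 0 ∧ B y y = 0 ∧ B z y ≠ 0 := fun z z0 => by
    by_contra h1
    push Not at h1
    refine z0 (W4 z fun w hw h2 => ?_)
    by_cases w0 : w = 0
    · simp [w0]
    · exact h1 w hw w0 h2
  have : Finite V := Module.finite_of_finite F
  obtain ⟨x, -, x0, -⟩ := h.iso0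
  obtain ⟨y, hy, y0, y1, -⟩ := ex x x0
  obtain ⟨κ, κ0, a, ha, b, hb, a0, b0, ab, ya, yb, aW, bW⟩ :=
    h.step h0 hθ W1 W2 (W3 y hy y0 y1) hn'
  obtain ⟨y', hy', y0', y1', y2'⟩ := ex a (by rintro rfl; simp at a0)
  obtain ⟨κ', κ0', a', ha', b', hb', a0', b0', ab', ya', yb', aW', bW'⟩ :=
    h.step h0 hθ W1 W2 (W3 y' hy' y0' y1') hn'
  by_cases h1 : B a a' = 0 ∧ B a b' = 0 ∧ B b a' = 0 ∧ B b b' = 0
  · obtain ⟨h1, h2, h3, h4⟩ := h1
    have h5 : y - (B a' y / B a' a') • a' - (B b' y / B b' b') • b' = 0 := by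
      have e1 : ∀ {X : Submodule F V} {v}, (∀ x ∈ X, B v x = 0) → B v v ≠ 0 →
          finrank F X + 1 ≤ finrank F ↥(X ⊔ F ∙ v) := fun hX hv =>
        rk_lt_sup fun e' => hv (hX _ e')
      have e2 : ∀ {X : Submodule F V} {v z}, (∀ x ∈ X, B z x = 0) → B z v = 0 →
          ∀ x ∈ X ⊔ F ∙ v, B z x = 0 := fun hX hv x hx => by
        obtain ⟨p, hp, _, hr, rfl⟩ := Submodule.mem_sup.mp hx
        obtain ⟨k, rfl⟩ := Submodule.mem_span_singleton.mp hr
        simp [hX p hp, hv]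
      have e0 : ∀ z, ∀ x ∈ (⊥ : Submodule F V), B z x = 0 := fun z x hx => by
        simp [(Submodule.mem_bot F).mp hx]
      have r1 := e1 (e0 a) a0
      have r2 := e1 (e2 (e0 b) (hB.zero_symm ab)) b0
      have r3 := e1 (e2 (e2 (e0 a') (hB.zero_symm h1)) (hB.zero_symm h3)) a0'
      have r4 := e1 (e2 (e2 (e2 (e0 b') (hB.zero_symm h2)) (hB.zero_symm h4))
        (hB.zero_symm ab')) b0'
      have r5 : ⊥ ⊔ (F ∙ a) ⊔ (F ∙ b) ⊔ (F ∙ a') ⊔ (F ∙ b') = ⊤ :=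
        Submodule.eq_top_of_finrank_eq (le_antisymm (Submodule.finrank_le _) (by
          rw [finrank_eq_card_basis e, h.hn]; omega))
      refine hB.nd _ fun v => e2 (e2 (e2 (e2 (e0 _) ?_) ?_) ?_) ?_ v (r5 ▸ Submodule.mem_top)
      all_goals apply hB.zero_symm
      · simp [hB.zero_symm ya, h1, h2]
      · simp [hB.zero_symm yb, h3, h4]
      · simp [ab', a0']
      · simp [hB.zero_symm ab', b0']
    have h6 : σ κ' ≠ 0 := by simpa using κ0'
    refine y0 ((smul_eq_zero.mp (hn' (σ κ' • y) ?_ (by simp [y1]) (σ κ')⁻¹ (inv_ne_zero h6)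
      (by rwa [inv_smul_smul₀ h6]))).resolve_left h6)
    rw [sub_sub, sub_eq_zero] at h5
    rw [h5, smul_add, smul_smul, smul_smul, ← mul_div_assoc, ← mul_div_assoc, ← b_smul_left,
      ← b_smul_left]
    exact add_mem (smul_mem_Rt (div_mem (W1 _ aW' _ hy) (h.rat _ ha' _ ha')) ha')
      (smul_mem_Rt (div_mem (W1 _ bW' _ hy) (h.rat _ hb' _ hb')) hb')
  have h2 : κ / κ' ∈ K := by
    have key : ∀ u ∈ Rt K e, ∀ v ∈ Rt K e, κ • u ∈ W → κ' • v ∈ W → B u v ≠ 0 → κ / κ' ∈ K :=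
      fun u hu v hv h2 h3 h4 => by
        have h5 : σ κ ≠ 0 := by simpa using κ0
        have h6 : κ * σ κ ∈ K := (h.fix _).mp (by rw [map_mul, hB.invol, mul_comm])
        convert div_mem (mul_mem h6 (h.rat u hu v hv)) (W1 _ h2 _ h3) using 1
        simp only [map_smul, b_smul_left, smul_eq_mul]
        field_simp
    by_contra h2
    exact h1 ⟨by_contra fun e' => h2 (key a ha a' ha' aW aW' e'),
      by_contra fun e' => h2 (key a ha b' hb' aW bW' e'),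
      by_contra fun e' => h2 (key b hb a' ha' bW aW' e'),
      by_contra fun e' => h2 (key b hb b' hb' bW bW' e')⟩
  have h3 : ∀ v, κ' • v ∈ W → κ • v ∈ W := fun v hv => by
    have := W.smul_mem ⟨_, h2⟩ hv
    rwa [Subfield.smul_def, smul_smul, div_mul_cancel₀ _ κ0'] at this
  let U : Submodule K V :=
    { carrier := {v | v ∈ Rt K e ∧ κ • v ∈ W}
      add_mem' := fun a b => ⟨add_mem a.1 b.1, by rw [smul_add]; exact add_mem a.2 b.2⟩
      zero_mem' := ⟨zero_mem _, by simp⟩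
      smul_mem' := fun k v a => ⟨(Rt K e).smul_mem k a.1, by
        rw [smul_comm]; exact W.smul_mem k a.2⟩ }
  have e2 : ∀ {X : Submodule K V} {v z}, (∀ x ∈ X, B z x = 0) → B z v = 0 →
      ∀ x ∈ X ⊔ K ∙ v, B z x = 0 := fun hX hv x hx => by
    obtain ⟨p, hp, _, hr, rfl⟩ := Submodule.mem_sup.mp hx
    obtain ⟨k, rfl⟩ := Submodule.mem_span_singleton.mp hr
    simp [Subfield.smul_def, hX p hp, hv]
  have e0 : ∀ z, ∀ x ∈ (⊥ : Submodule K V), B z x = 0 := fun z x hx => by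
    simp [(Submodule.mem_bot K).mp hx]
  have r1 := rk_lt_sup (X := (⊥ : Submodule K V)) fun e' => a0' (e0 a' _ e')
  have r2 := rk_lt_sup (X := (⊥ : Submodule K V) ⊔ K ∙ a') fun e' =>
    b0' (e2 (e0 b') (hB.zero_symm ab') _ e')
  have r3 := rk_lt_sup (X := (⊥ : Submodule K V) ⊔ (K ∙ a') ⊔ K ∙ b') fun e' =>
    y2' (hB.zero_symm (e2 (e2 (e0 y') ya') yb' _ e'))
  have r4 := Submodule.finrank_mono (show (⊥ : Submodule K V) ⊔ (K ∙ a') ⊔ (K ∙ b') ⊔ K ∙ a ≤ U from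
    sup_le (sup_le (sup_le bot_le ((Submodule.span_singleton_le_iff_mem _ _).mpr ⟨ha', h3 _ aW'⟩))
      ((Submodule.span_singleton_le_iff_mem _ _).mpr ⟨hb', h3 _ bW'⟩))
      ((Submodule.span_singleton_le_iff_mem _ _).mpr ⟨ha, aW⟩))
  obtain ⟨x, hx, x0, x1⟩ := exists_iso_sub (U := U) (by omega) hB fun x hx => h.rat x hx.1 x hx.1
  exact x0 (hn' x hx.1 x1 κ κ0 hx.2)

theorem nr {g : UG B} (hg : g ∈ M) : g.1 ∈ NR K e := by
  let W : Submodule K V :=
    { carrier := {v | g⁻¹.1 v ∈ Rt K e}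
      add_mem' := fun a b => by simpa only [Set.mem_ofPred_eq, map_add] using add_mem a b
      zero_mem' := by simp
      smul_mem' := fun k v a => by
        simpa only [Set.mem_ofPred_eq, Subfield.smul_def, map_smul] using smul_mem_Rt k.2 a }
  have hW : ∀ {v}, v ∈ W ↔ g⁻¹.1 v ∈ Rt K e := Iff.rfl
  obtain ⟨x, hx, x0, x1, κ, κ0, h1⟩ := h.exists_common h0 hθ (W := W) (fun u hu v hv => by
    simpa only [UG.map_b] using h.rat _ hu _ hv) (fun z hz => by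
      have := h.spans (z := g⁻¹.1 z) fun w hw h1 => by
        rw [UG.b_inv_left]
        exact hz _ (hW.mpr (by rwa [UG.inv_apply_self])) (by simp [h1])
      simpa using this) fun y hy y0 y1 t ht h1 w hw => by
    have h2 : (g⁻¹ * t * g).1 (g⁻¹.1 y) = g⁻¹.1 y := by
      rw [UG.mul_apply, UG.mul_apply, UG.apply_inv_self, h1]
    have h3 : g⁻¹.1 y ≠ 0 := by simpa using y0
    obtain ⟨c, c0, h4⟩ := h.common h0 hθ hc (mul_mem (mul_mem (inv_mem hg) ht) hg) hy h3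
      (by simp only [UG.map_b, y1]) hy h3 (by simp only [UG.map_b, y1]) (c := 1)
      (by rw [h2, one_smul])
    have h5 : c ∈ K := mem_of_smul_mem hy h3 (by simpa only [h2] using (h4 _).mp hy)
    have h6 := smul_mem_Rt (inv_mem h5) ((h4 _).mp hw)
    rwa [inv_smul_smul₀ c0, UG.mul_apply, UG.mul_apply, UG.apply_inv_self] at h6
  exact h.common h0 hθ hc hg h1 (by simp [κ0, x0]) (by simp only [UG.map_b]; simp [x1]) hx x0 x1
    (c := κ) (UG.apply_inv_self g _)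

end SyO

theorem max_un_orth4 {q : ℕ} (hF : Nat.card F = q ^ 2) (h2 : (2 : F) ≠ 0) (h5 : 5 ≤ q)
    (hq : Nat.card F = Nat.card K ^ 2) (P : GL (Fin 4) F)
    (hP : Geo.IsFormRationalStructure (hermForm 4 F q) K 1 P) :
    Geo.IsMaximalIn (Cfsg.GU 4 F q ⊓ Geo.specialLinear (Fin 4) F)
      (Geo.subfieldSubgroup K P ⊓ (Cfsg.GU 4 F q ⊓ Geo.specialLinear (Fin 4) F)) := by
  have key : ∀ w, (P : Matrix _ _ F).mulVec (fun i =>
      ((Pi.basisFun F _).map (Orth.glEquiv _ F P)).repr w i) = w :=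
    (Orth.glEquiv _ F P).apply_symm_apply
  have hK : Nat.card K = q := Nat.pow_left_injective two_ne_zero (hq.symm.trans hF)
  have big : ∃ m ∈ K, m ≠ 0 ∧ m ^ 2 ≠ 1 := by
    classical
    have := Fintype.ofFinite K
    obtain ⟨m, -, hm⟩ := Finset.exists_mem_notMem_of_card_lt_card
      (s := ({0, 1, -1} : Finset K)) (t := Finset.univ) (by
        have := Finset.card_le_three (a := (0 : K)) (b := 1) (c := -1)
        rw [Finset.card_univ, ← Nat.card_eq_fintype_card]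
        omega)
    simp only [Finset.mem_insert, Finset.mem_singleton, not_or] at hm
    refine ⟨m, m.2, fun e' => hm.1 (Subtype.ext e'), fun e' => ?_⟩
    rcases sq_eq_one_iff.mp e' with e' | e'
    · exact hm.2.1 (Subtype.ext e')
    · exact hm.2.2 (Subtype.ext e')
  have hh : ∀ M ≤ SUG (sB hF 4), (∀ g ∈ SUG (sB hF 4),
      g.1 ∈ NR K ((Pi.basisFun F _).map (Orth.glEquiv _ F P)) → g ∈ M) →
      SyO (hf_sB hF 4) M K ((Pi.basisFun F _).map (Orth.glEquiv _ F P)) := fun M h' h =>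
    ⟨by simp, fun c => by rw [mem_iff_pow, hK, frob_apply], h2, big, fun u hu v hv => by
      simpa only [key, hermForm_eq hF, one_mul] using hP _ _ (mem_Rt.mp hv) (mem_Rt.mp hu), h', h⟩
  obtain ⟨θ, h0, hθ⟩ := (inv_frob hF).exists_skew
  exact isMaximalIn_SU hF _ (mem_subfield_iff P) ((hh _ le_rfl fun _ h _ => h).exists_not h0 hθ)
    fun M h5 h6 ⟨g, hg, hg'⟩ => by_contra fun hc => hg' ((hh M h6 h5).nr h0 hθ hc hg)

end Cfsg.Agent.Max3
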