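import Mathlib
import Cfsg.Agent.Max.SubUn6

/-!
# Subfield subgroups of odd prime index in unitary groups of dimension at least four
-/

set_option autoImplicit false
set_option linter.unusedSectionVars false
set_option linter.unusedSimpArgs false

namespace Cfsg.Agent.Max3

open Module Cfsg.Agent.Herm Cfsg.Agent.Max

variable {F V : Type*} [Field F] [AddCommGroup V] [Module F V] [FiniteDimensional F V]
  {σ : F →+* F} {B : V →ₛₗ[σ] V →ₗ[F] F} {hB : HF B} {M : Subgroup (UG B)} {ι : Type}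
  {K : Subfield F} {e : Basis ι F V} [Finite F] [Fintype ι]

/-- The hypotheses of the subfield argument for `SU` in dimension at least four. -/
structure SyU (hB : HF B) (M : Subgroup (UG B)) (K : Subfield F) (e : Basis ι F V) (t : F) :
    Prop where
  hn : 4 ≤ Fintype.card ι
  rat : ∀ u ∈ Rt K e, ∀ v ∈ Rt K e, B u v ∈ K
  tK : t ∈ K
  tσ : σ t ≠ t
  mem : ∀ g ∈ SUG B, g.1 ∈ NR K e → g ∈ M

theorem ua_act {x y c : V} {u : F} (h1 : B c c = 0) (hu : u + σ u = 0) (hT : hB.qr c u ∈ M)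
    (h2 : B c x = 0) (hy : y ∈ UA hB M x) : (u * B c y) • c ∈ UA hB M x := by
  have := sub_mem (UA.map_fix hy hT (hB.qr_apply_of_orth u h2)) hy
  rwa [hB.tv_apply h1 hu, add_sub_cancel_left] at this

namespace SyU
variable {t : F} (h : SyU hB M K e t) {a b c d v w x y z : V} {s u : F}
include h

theorem sK (ha : s ∈ K) : σ s ∈ K := map_mem_subfield hB.toInv ha

theorem θ0 : t - σ t ≠ 0 := sub_ne_zero.mpr h.tσ.symm

theorem θK : t - σ t ∈ K := sub_mem h.tK (h.sK h.tK)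

theorem θs : t - σ t + σ (t - σ t) = 0 := by simp [hB.invol]

theorem ex {U : Submodule K V} (hU : U ≤ Rt K e) (h2 : 2 ≤ finrank K U) :
    ∃ x ∈ U, x ≠ 0 ∧ B x x = 0 :=
  exists_iso_sub2 h2 hB (fun x hx y hy => h.rat x (hU hx) y (hU hy)) h.tK h.tσ

theorem halfl (hw : w ∈ Rt K e) : ∃ l ∈ K, l + σ l = B w w := by
  refine ⟨B w w * (t / (t - σ t)), mul_mem (h.rat w hw w hw) (div_mem h.tK h.θK), ?_⟩
  have h1 := h.θ0
  have h2 : σ t - t ≠ 0 := sub_ne_zero.mpr h.tσ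
  rw [map_mul, map_div₀, map_sub, hB.invol, hB.fix]
  field_simp
  ring

theorem dual {U : Submodule K V} (hU : U ≤ Rt K e) (ha : a ∈ Rt K e) (h1 : a ∉ U) :
    ∃ c ∈ Rt K e, (∀ u ∈ U, B c u = 0) ∧ B c a = 1 := by
  obtain ⟨φ, h2, h3, h4⟩ := exists_RD hU ha h1
  obtain ⟨c, h5, rfl⟩ := exists_Rt_dual (Θ := fun y => B y) (fun x y e1 =>
    sub_eq_zero.mp (hB.nd _ fun z => by
      rw [map_sub, show B x = B y from e1, sub_self, LinearMap.zero_apply]))
    (fun x hx v hv => h.rat x hx v hv) h2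
  exact ⟨c, h5, h3, h4⟩

theorem dual1 (ha : a ∈ Rt K e) (hc : c ∈ Rt K e) (h1 : c ∉ K ∙ a) :
    ∃ d ∈ Rt K e, B d a = 0 ∧ B d c = 1 := by
  obtain ⟨d, h2, h3, h4⟩ := h.dual ((Submodule.span_singleton_le_iff_mem _ _).mpr ha) hc h1
  exact ⟨d, h2, h3 a (Submodule.mem_span_singleton_self a), h4⟩

theorem rk {U : Submodule K V} (hU : U ≤ Rt K e) (hx : x ∈ Rt K e) :
    finrank K U ≤ finrank K ↥(U ⊓ kr K (B x)) + 1 :=
  finrank_le_kr' hU fun v hv => h.rat x hx v hv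

theorem iso2 (ha : a ∈ Rt K e) (hb : b ∈ Rt K e) :
    ∃ x ∈ Rt K e, x ≠ 0 ∧ B x x = 0 ∧ B a x = 0 ∧ B b x = 0 := by
  obtain ⟨x, ⟨⟨h1, h2⟩, h3⟩, h4, h5⟩ := h.ex (U := Rt K e ⊓ kr K (B a) ⊓ kr K (B b))
    (inf_le_left.trans inf_le_left) (by
      have := h.rk le_rfl ha
      have := h.rk (U := Rt K e ⊓ kr K (B a)) inf_le_left hb
      have := h.hn
      rw [finrank_Rt] at *
      omega)
  exact ⟨x, h1, h4, h5, h2, h3⟩

theorem third (ha : a ∈ Rt K e) : ∃ x ∈ Rt K e, B x x = 0 ∧ B a x = 0 ∧ x ∉ K ∙ a := by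
  by_cases h0 : a = 0
  · obtain ⟨x, h1, h2, h3, h4, -⟩ := h.iso2 ha ha
    exact ⟨x, h1, h3, h4, by simpa [h0] using h2⟩
  obtain ⟨f, hf, -, h1⟩ := h.dual bot_le ha (by simpa using h0)
  obtain ⟨x, h2, h3, h4, h5, h6⟩ := h.iso2 ha hf
  refine ⟨x, h2, h4, h5, fun e' => h3 ?_⟩
  obtain ⟨k, rfl⟩ := Submodule.mem_span_singleton.mp e'
  have : (k : F) = 0 := by simpa [Subfield.smul_def, h1] using h6
  simp [Subfield.smul_def, this]

theorem half (hc : c ∈ Rt K e) (hz : z ∈ Rt K e) (h1 : B c c = 0) (h2 : B c z ≠ 0) :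
    ∃ k ∈ K, B (z - k • c) (z - k • c) = 0 := by
  obtain ⟨l, h3, h4⟩ := h.halfl hz
  refine ⟨σ (l / B c z), h.sK (div_mem h3 (h.rat c hc z hz)), ?_⟩
  have h5 : σ (B c z) ≠ 0 := by simpa using h2
  simp only [map_sub, map_smul, LinearMap.sub_apply, b_smul_left, smul_eq_mul, h1, hB.invol,
    ← h4, ← hB.symm c z, map_div₀]
  field_simp
  ring

theorem hyp (hx : x ∈ Rt K e) (h0 : x ≠ 0) (h1 : B x x = 0) :
    ∃ f ∈ Rt K e, B f f = 0 ∧ B x f = 1 := by
  obtain ⟨d, hd, -, h2⟩ := h.dual bot_le hx (by simpa using h0)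
  replace h2 := hB.one_symm h2
  obtain ⟨k, hk, h3⟩ := h.half hx hd h1 (by simp [h2])
  exact ⟨_, sub_mem hd (smul_mem_Rt hk hx), h3, by simp [h1, h2]⟩

theorem hyp2 (hx : x ∈ Rt K e) (hc : c ∈ Rt K e) (h1 : B c c = 0) (h2 : B x c = 0)
    (h3 : c ∉ K ∙ x) : ∃ d ∈ Rt K e, B d d = 0 ∧ B x d = 0 ∧ B c d = 1 := by
  obtain ⟨d, hd, h4, h5⟩ := h.dual1 hx hc h3
  replace h5 := hB.one_symm h5
  obtain ⟨k, hk, h6⟩ := h.half hc hd h1 (by simp [h5])
  exact ⟨_, sub_mem hd (smul_mem_Rt hk hc), h6, by simp [h2, hB.zero_symm h4], by simp [h1, h5]⟩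

theorem ua (hx : x ∈ Rt K e) (h1 : B x x = 0) (hv : v ∈ Rt K e) (h2 : B x v = 0) :
    v ∈ UA hB M x := by
  obtain ⟨l, h3, h4⟩ := h.halfl hv
  refine ⟨h2, _, h4, h.mem _ (hB.eich_mem_SUG _ _ _) (nr_of' fun w hw => ?_)⟩
  rw [hB.eich_apply h1 h2 h4]
  exact sub_mem (add_mem hw (smul_mem_Rt (sub_mem (h.rat v hv w hw)
    (mul_mem h3 (h.rat x hx w hw))) hx)) (smul_mem_Rt (h.rat x hx w hw) hv)

theorem tvr (hs : s + σ s = 0) (hs' : s ∈ K) (ha : a ∈ Rt K e) (h1 : B a a = 0) :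
    (hB.qr a s).1 ∈ NR K e := nr_of' fun w hw => by
  rw [hB.tv_apply h1 hs]
  exact add_mem hw (smul_mem_Rt (mul_mem hs' (h.rat a ha w hw)) ha)

theorem tv (ha : a ∈ Rt K e) (h1 : B a a = 0) : hB.qr a (t - σ t) ∈ M :=
  h.mem _ (hB.tv_mem_SUG h1 _) (h.tvr h.θs h.θK ha h1)

theorem scal (hx : x ∈ Rt K e) (x0 : x ≠ 0) (hI : B x x = 0) (hc : c ∈ Rt K e) (h1 : B c c = 0)
    (h2 : B x c = 0) (h3 : c ∉ K ∙ x) (hs : s • c ∈ UA hB M x) {k : F} (hk : k ∈ K) :
    (k * s) • c ∈ UA hB M x := by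
  have key : ∀ k ∈ K, (k ^ 2 * s) • c ∈ UA hB M x := fun k hk => by
    by_cases k0 : k = 0
    · simp [k0]
    have k1 : σ k ≠ 0 := by simpa using k0
    obtain ⟨f, hf, h4, h5⟩ := h.hyp hx x0 hI
    obtain ⟨d, hd, h6, h7, h8⟩ := h.hyp2 hx hc h1 h2 h3
    obtain ⟨g, h9, h10⟩ := hB.exists_diag hI h4 h5 k1
    obtain ⟨g', h11, h12⟩ := hB.exists_diag h1 h6 h8 k0
    rw [hB.invol] at h9 h10
    have hg : g * g' ∈ M := h.mem _ (by
      rw [mem_SUG, map_mul, Units.val_mul, h9, h11]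
      field_simp) (mul_mem (nr_of' fun w hw => by
        rw [h10]
        exact add_mem (add_mem hw (smul_mem_Rt (mul_mem (sub_mem (h.sK hk) K.one_mem)
          (h.rat f hf w hw)) hx))
          (smul_mem_Rt (mul_mem (sub_mem (inv_mem hk) K.one_mem) (h.rat x hx w hw)) hf))
        (nr_of' fun w hw => by
        rw [h12]
        exact add_mem (add_mem hw (smul_mem_Rt (mul_mem (sub_mem hk K.one_mem)
          (h.rat d hd w hw)) hc))
          (smul_mem_Rt (mul_mem (sub_mem (inv_mem (h.sK hk)) K.one_mem) (h.rat c hc w hw)) hd)))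
    have h13 := UA.map_smul hI hs hg k1 (by
      rw [UG.mul_apply, h12, hB.zero_symm h7, hB.zero_symm h2, mul_zero, mul_zero, zero_smul,
        zero_smul, add_zero, add_zero, h10, hI, hB.one_symm h5]
      module)
    rw [hB.invol, UG.mul_apply, h12, h10] at h13
    convert sub_mem h13 (UA.self hI (k * ((σ k - 1) * (k * s * B f c)))) using 1
    simp only [map_add, map_smul, smul_eq_mul, h1, h2, h7, hB.one_symm h8, mul_zero, zero_smul,
      add_zero, mul_one]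
    module
  obtain ⟨p, r, e1⟩ := exists_sq_sub_sq (⟨k, hk⟩ : K)
  have e2 : k = (p : F) ^ 2 - (r : F) ^ 2 := congrArg Subtype.val e1
  rw [e2, sub_mul, sub_smul]
  exact sub_mem (key _ p.2) (key _ r.2)

theorem spread (hx : x ∈ Rt K e) (x0 : x ≠ 0) (hI : B x x = 0) (hc : c ∈ Rt K e) (h1 : B c c = 0)
    (h2 : B x c = 0) (h3 : c ∉ K ∙ x) (hs : s • c ∈ UA hB M x) (hw : w ∈ Rt K e)
    (h4 : B x w = 0) : s • w ∈ UA hB M x := by
  obtain ⟨d, hd, -, h5, h6⟩ := h.hyp2 hx hc h1 h2 h3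
  refine forall_of_add (F := K) (W := Rt K e ⊓ kr K (B x)) (X := kr K (B c))
    (P := fun w => s • w ∈ UA hB M x) (fun x y h h' => by simpa only [smul_sub] using sub_mem h h')
    (a := d) ⟨hd, h5⟩ (by simp [h6]) (fun z hz hz' => ?_) ⟨hw, h4⟩
  replace hz' : B c z ≠ 0 := hz'
  obtain ⟨k, hk, h7⟩ := h.half hc hz.1 h1 hz'
  have h8 := sub_mem hz.1 (smul_mem_Rt hk hc)
  have h9 : B x (z - k • c) = 0 := by simp [mem_kr.mp hz.2, h2]
  have h10 : B c (z - k • c) ≠ 0 := by simpa [h1] using hz'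
  have h11 := h.scal hx x0 hI hc h1 h2 h3 hs hk
  have e1 : z = (z - k • c) + k • c := by abel
  rw [e1, smul_add, smul_smul, mul_comm s k]
  refine add_mem ?_ h11
  generalize z - k • c = y at h7 h8 h9 h10
  have h12 := ua_act h7 h.θs (h.tv h8 h7) (hB.zero_symm h9) hs
  have h13 : B y c ≠ 0 := fun e' => h10 (hB.zero_symm e')
  have h14 := h.scal hx x0 hI h8 h7 h9 (fun e' => h10 (by
    obtain ⟨j, rfl⟩ := Submodule.mem_span_singleton.mp e'
    simp [Subfield.smul_def, hB.zero_symm h2])) h12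
    (inv_mem (mul_mem h.θK (h.rat y h8 c hc)))
  convert h14 using 2
  have := h.θ0
  simp only [map_smul, smul_eq_mul]
  field_simp

variable {r : ℕ} (hr : r.Prime) (hq : Nat.card F = Nat.card K ^ r)
include hr hq

theorem full (hx : x ∈ Rt K e) (x0 : x ≠ 0) (hI : B x x = 0) (hu : u + σ u = 0)
    (hT : hB.qr x u ∈ M) (hu' : u ∉ K) (hc : c ∈ Rt K e) (h1 : B c c = 0) (h2 : B x c = 0)
    (h3 : c ∉ K ∙ x) : UP hB M c := by
  have c0 : c ≠ 0 := by rintro rfl; simp at h3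
  have h4 := not_mem_span_swap x0 h3
  let L : Subalgebra K F :=
    { carrier := {z | ∀ s : F, s • x ∈ UA hB M c → True → (∀ w ∈ Rt K e, B c w = 0 →
        s • w ∈ UA hB M c) → ∀ w ∈ Rt K e, B c w = 0 → (z * s) • w ∈ UA hB M c}
      mul_mem' := fun {p z} hp hz s h5 _ h6 => by
        have h7 := hz s h5 trivial h6
        simpa only [mul_assoc] using hp _ (h7 x hx (hB.zero_symm h2)) trivial h7
      add_mem' := fun {p z} hp hz s h5 _ h6 w hw h7 => by
        simpa only [add_mul, add_smul] using add_mem (hp s h5 trivial h6 w hw h7)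
          (hz s h5 trivial h6 w hw h7)
      algebraMap_mem' := fun k s _ _ h6 w hw h7 => by
        have := h6 _ (smul_mem_Rt k.2 hw) (by simp [h7])
        rwa [smul_smul, mul_comm] at this }
  have hL : u ∈ L := fun s _ _ h6 w hw h7 => by
    obtain ⟨d, hd, h8, h9⟩ := h.dual1 hc hx h4
    have h10 := ua_act hI hu hT h2 (h6 d hd (hB.zero_symm h8))
    rw [map_smul, hB.one_symm h9, smul_eq_mul, mul_one] at h10
    exact h.spread hc c0 h1 hx hI (hB.zero_symm h2) h4 h10 hw h7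
  replace hL : ∀ s, s ∈ L := fun s => (subalgebra_eq_top hr hq L hL hu').ge trivial
  refine ⟨h1, fun z h5 => ?_⟩
  obtain ⟨f, hf, -, h7⟩ := h.hyp hc c0 h1
  have h8 : z = ∑ i, e.repr z i • (e i - (B c (e i)) • f) := by
    have h9 := congrArg (B c) (e.sum_repr z)
    simp only [map_sum, map_smul, smul_eq_mul, h5] at h9
    simp only [smul_sub, Finset.sum_sub_distrib, e.sum_repr, smul_smul, ← Finset.sum_smul, h9]
    simp
  rw [h8]
  refine sum_mem fun i _ => ?_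
  simpa using hL (e.repr z i) 1 (by simpa using h.ua hc h1 hx (hB.zero_symm h2)) trivial
    (fun w hw h9 => by simpa using h.ua hc h1 hw h9) _ (sub_mem (basis_mem_Rt i)
    (smul_mem_Rt (h.rat c hc _ (basis_mem_Rt i)) hf)) (by simp [h7])

variable (hc : ¬ SUG B ≤ M)
include hc

theorem levT (hx : x ∈ Rt K e) (x0 : x ≠ 0) (hI : B x x = 0) (hu : u + σ u = 0)
    (hT : hB.qr x u ∈ M) : u ∈ K := by
  by_contra hu'
  obtain ⟨c, hc', h1, h2, h3⟩ := h.third hx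
  obtain ⟨d, hd, h4, h5, h6⟩ := h.hyp2 hx hc' h1 h2 h3
  refine hc (un_le_of_pair (hB := hB) (by rw [finrank_eq_card_basis e]; have := h.hn; omega)
    (h.full hr hq hx x0 hI hu hT hu' hc' h1 h2 h3) (h.full hr hq hx x0 hI hu hT hu' hd h4 h5
      fun e' => ?_) (by simp [h6]))
  obtain ⟨j, rfl⟩ := Submodule.mem_span_singleton.mp e'
  simp [Subfield.smul_def, hB.zero_symm h2] at h6

theorem lev (hx : x ∈ Rt K e) (x0 : x ≠ 0) (hI : B x x = 0) (hv : v ∈ Rt K e) (h1 : B v v = 0)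
    (h2 : B x v = 0) (h3 : v ∉ K ∙ x) (hs : s • v ∈ UA hB M x) : s ∈ K := by
  obtain ⟨d, hd, -, h5, h6⟩ := h.hyp2 hx hv h1 h2 h3
  have key : ∀ k ∈ K, σ k * s - σ s * k ∈ K := fun k hk => by
    obtain ⟨h7, l, h8, h9⟩ := hs
    obtain ⟨h10, m, h11, h12⟩ := h.ua hx hI (smul_mem_Rt hk hd) (by simp [h5])
    have h13 := hB.eich_commutator hI h7 h8 h10 h11
    have h14 : hB.qr x (B (k • d) (s • v) - B (s • v) (k • d)) ∈ M := by
      rw [← h13]
      exact mul_mem (mul_mem (mul_mem h9 h12) (inv_mem h9)) (inv_mem h12)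
    simpa [h6, hB.one_symm h6, mul_comm] using h.levT hr hq hc hx x0 hI (by
      rw [map_sub, hB.symm, hB.symm]; ring) h14
  have h7 := key 1 K.one_mem
  have h8 := key t h.tK
  have := h.θ0
  convert div_mem (sub_mem (mul_mem h.tK h7) h8) h.θK using 1
  simp only [map_one]
  field_simp
  ring

theorem vec (hx : x ∈ Rt K e) (x0 : x ≠ 0) (hI : B x x = 0) (hz : z ∈ UA hB M x)
    (hd : d ∈ Rt K e) (h2 : B x d = 0) : B d z ∈ K := by
  have A : ∀ c ∈ Rt K e, B c c = 0 → B x c = 0 → B c z ∈ K := fun c hc' h3 h4 => by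
    by_cases h0 : c ∈ K ∙ x
    · obtain ⟨k, rfl⟩ := Submodule.mem_span_singleton.mp h0
      simp [Subfield.smul_def, hz.1]
    have h5 := h.lev hr hq hc hx x0 hI hc' h3 h4 h0
      (ua_act h3 h.θs (h.tv hc' h3) (hB.zero_symm h4) hz)
    simpa [h.θ0] using mul_mem (inv_mem h.θK) h5
  obtain ⟨c, hc', h3, h4, h5⟩ := h.third hx
  obtain ⟨f, hf, -, h6, h7⟩ := h.hyp2 hx hc' h3 h4 h5
  refine forall_of_add (F := K) (W := Rt K e ⊓ kr K (B x)) (X := kr K (B c))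
    (P := fun d => B d z ∈ K) (fun x y h h' => by simpa only [b_sub_left] using sub_mem h h')
    (a := f) ⟨hf, h6⟩ (by simp [h7]) (fun w hw hw' => ?_) ⟨hd, h2⟩
  obtain ⟨k, hk, h8⟩ := h.half hc' hw.1 h3 hw'
  simpa using add_mem (A _ (sub_mem hw.1 (smul_mem_Rt hk hc')) h8 (by simp [mem_kr.mp hw.2, h4]))
    (mul_mem (h.sK hk) (A c hc' h3 h4))

theorem rat_of (hy : B y y = 0) (hu : u + σ u = 0) (u0 : u ≠ 0) (hT : hB.qr y u ∈ M)
    (hx : x ∈ Rt K e) (x0 : x ≠ 0) (hI : B x x = 0) (h2 : B x y = 0) :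
    ∃ c : F, c ≠ 0 ∧ c • y ∈ Rt K e := by
  obtain ⟨f, hf, -, h3⟩ := h.hyp hx x0 hI
  by_cases h4 : ∀ d ∈ Rt K e, B x d = 0 → B y d = 0
  · have h5 : y = B f y • x := sub_eq_zero.mp (hB.nd _ fun v => by
      refine LinearMap.congr_fun (ext_Rt (K := K) (e := e) (g := 0) fun w hw => ?_) v
      have := h4 _ (sub_mem hw (smul_mem_Rt (h.rat x hx w hw) hf)) (by simp [h3])
      simp only [map_sub, map_smul, b_sub_left, b_smul_left, hB.symm, smul_eq_mul,
        LinearMap.sub_apply, LinearMap.zero_apply] at this ⊢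
      linear_combination this)
    by_cases h6 : B f y = 0
    · exact ⟨1, one_ne_zero, by rw [h5, h6]; simp⟩
    · exact ⟨(B f y)⁻¹, inv_ne_zero h6, by rw [h5]; simpa [smul_smul, h6, hB.one_symm h3] using hx⟩
  push Not at h4
  obtain ⟨d, hd, h4, h5⟩ := h4
  have h6 := ua_act hy hu hT (hB.zero_symm h2) (h.ua hx hI hd h4)
  have c0 : u * B y d ≠ 0 := mul_ne_zero u0 h5
  have hT' : hB.qr ((u * B y d) • y) (u / ((u * B y d) * σ (u * B y d))) ∈ M := by
    have : σ (u * B y d) ≠ 0 := by simpa using c0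
    rw [hB.qr_smul _ _ _ c0, mul_div_cancel₀ _ (mul_ne_zero c0 this)]
    exact hT
  have hu' : u / ((u * B y d) * σ (u * B y d)) + σ (u / ((u * B y d) * σ (u * B y d))) = 0 := by
    rw [map_div₀, map_mul σ (u * B y d), hB.invol, mul_comm (σ (u * B y d)), ← add_div, hu,
      zero_div]
  have u0' : u / ((u * B y d) * σ (u * B y d)) ≠ 0 :=
    div_ne_zero u0 (mul_ne_zero c0 (by simpa using c0))
  suffices ∃ c : F, c ≠ 0 ∧ c • (u * B y d) • y ∈ Rt K e by
    obtain ⟨c, h7, h8⟩ := this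
    exact ⟨c * (u * B y d), mul_ne_zero h7 c0, by rwa [mul_smul]⟩
  have hy' : B ((u * B y d) • y) ((u * B y d) • y) = 0 := by simp [hy]
  have h5' : B ((u * B y d) • y) d ≠ 0 := by simpa [u0] using h5
  generalize u / ((u * B y d) * σ (u * B y d)) = u' at hT' hu' u0'
  generalize (u * B y d) • y = y at hT' hy' h6 h5'
  clear hT hu u0 c0 h5 h2 hy
  have h7 : y - B f y • x ∈ Rt K e := mem_Rt_of fun φ hφ => by
    obtain ⟨p, h8, rfl⟩ := exists_Rt_dual (Θ := fun y => B y) (fun x y e1 =>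
      sub_eq_zero.mp (hB.nd _ fun z => by
        rw [map_sub, show B x = B y from e1, sub_self, LinearMap.zero_apply]))
      (fun x hx v hv => h.rat x hx v hv) hφ
    have := h.vec hr hq hc hx x0 hI h6 (sub_mem h8 (smul_mem_Rt (h.rat x hx p h8) hf))
      (by simp [h3])
    simpa [hB.symm, mul_comm] using this
  have h8 : y = (y - B f y • x) + B f y • x := by abel
  have h9 : B x (y - B f y • x) = 0 := by simp [h6.1, hI]
  generalize y - B f y • x = w at h7 h8 h9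
  generalize B f y = μ at h8
  subst h8
  have h10 : B w w = 0 := by simpa [hI, h9, hB.zero_symm h9] using hy'
  have h11 : w ∉ K ∙ x := fun e' => h5' (by
    obtain ⟨k, rfl⟩ := Submodule.mem_span_singleton.mp e'
    simp [Subfield.smul_def, h4])
  have key : ∀ p ∈ Rt K e, ∀ v ∈ Rt K e, v ≠ 0 → B v v = 0 → B p p = 0 → B v p = 0 → p ∉ K ∙ v →
      ∀ α β : F, w + μ • x = α • p + β • v → u' * (σ β * β) ∈ K :=
    fun p hp v hv v0 v1 p1 p2 p3 α β e1 => by
      have p4 := not_mem_span_swap v0 p3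
      obtain ⟨d', hd', h12, h13⟩ := h.dual1 hp hv p4
      have h14 := ua_act hy' hu' hT' (by simp [e1, p1, p2]) (h.ua hp p1 hd' (hB.zero_symm h12))
      rw [e1] at h14
      have h15 := sub_mem h14 (UA.self p1 (u' * σ β * α))
      refine h.lev hr hq hc hp (by rintro rfl; simp at p3) p1 hv v1 (hB.zero_symm p2) p4 ?_
      convert h15 using 1
      simp only [map_add, LinearMap.add_apply, b_smul_left, hB.zero_symm h12, hB.one_symm h13]
      module
  have w0 : w ≠ 0 := by rintro rfl; simp at h11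
  have k0 : u' ∈ K := by
    simpa using key x hx w h7 w0 h10 hI (hB.zero_symm h9) (not_mem_span_swap x0 h11) μ 1
      (by rw [one_smul, add_comm])
  have k1 : ∀ k ∈ K, σ (μ - k) * (μ - k) ∈ K := fun k hk => by
    have := key (w + k • x) (add_mem h7 (smul_mem_Rt hk hx)) x hx x0 hI
      (by simp [hI, h9, h10, hB.zero_symm h9]) (by simp [hI, h9]) (fun e' => h11 (by
        simpa [Subfield.smul_def] using sub_mem e' (Submodule.smul_mem _ (⟨k, hk⟩ : K)
          (Submodule.mem_span_singleton_self x)))) 1 (μ - k) (by module)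
    simpa [u0'] using mul_mem (inv_mem k0) this
  have k2 : ∀ k ∈ K, σ μ * k + σ k * μ ∈ K := fun k hk => by
    convert sub_mem (add_mem (k1 0 K.zero_mem) (mul_mem (h.sK hk) hk)) (k1 k hk) using 1
    simp only [map_sub, map_zero]
    ring
  refine ⟨1, one_ne_zero, by
    rw [one_smul]
    refine add_mem h7 (smul_mem_Rt ?_ hx)
    have := h.θ0
    convert div_mem (sub_mem (mul_mem h.tK (k2 1 K.one_mem)) (k2 t h.tK)) h.θK using 1
    simp only [map_one]
    field_simp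
    ring⟩

omit hr hq hc in
theorem nr_of_iso {g : V ≃ₗ[F] V}
    (h1 : ∀ a ∈ Rt K e, B a a = 0 → ∃ c : F, c ≠ 0 ∧ c • g a ∈ Rt K e) : g ∈ NR K e := by
  have key : ∀ a ∈ Rt K e, ∀ v ∈ Rt K e, a ≠ 0 → B a a = 0 → B v v = 0 → B a v = 0 → ∀ c : F,
      c ≠ 0 → c • g a ∈ Rt K e → c • g v ∈ Rt K e := fun a ha v hv ha0 h2 h3 h4 c hc h5 => by
    obtain ⟨b, hb, h6⟩ := h1 v hv h3
    obtain ⟨d, hd, h7⟩ := h1 _ (add_mem ha hv) (by simp [h2, h3, h4, hB.zero_symm h4])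
    exact nr_step ha hv hc hb hd ha0 h5 h6 h7
  obtain ⟨a, ha, a0, h2, -⟩ := h.iso2 (zero_mem _) (zero_mem _)
  obtain ⟨c, c0, h4⟩ := h1 a ha h2
  have all : ∀ v ∈ Rt K e, B v v = 0 → c • g v ∈ Rt K e := fun v hv h5 => by
    obtain ⟨d, hd, d0, h6, h7, h8⟩ := h.iso2 ha hv
    exact key d hd v hv d0 h6 h5 (hB.zero_symm h8) c c0 (key a ha d hd a0 h2 h6 h7 c c0 h4)
  obtain ⟨f, hf, -, f1⟩ := h.hyp ha a0 h2
  refine nr_of c0 fun v hv => forall_of_add (F := K) (W := Rt K e) (X := kr K (B a))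
    (P := fun v => c • g v ∈ Rt K e) (fun x y h h' => by
      simpa only [map_sub, smul_sub] using sub_mem h h') hf (by simp [f1]) (fun z hz hz' => ?_) hv
  obtain ⟨k, hk, h7⟩ := h.half ha hz h2 hz'
  have := add_mem (all _ (sub_mem hz (smul_mem_Rt hk ha)) h7) (smul_mem_Rt hk h4)
  rwa [map_sub, map_smul, smul_sub, smul_comm c k, sub_add_cancel] at this

theorem nr {g : UG B} (hg : g ∈ M) (ha : a ∈ Rt K e) (ha0 : a ≠ 0) (h1 : B a a = 0)
    (hx : x ∈ Rt K e) (hx0 : x ≠ 0) (h2 : B x x = 0) (h3 : B x (g.1 a) = 0) : g.1 ∈ NR K e := by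
  have R : ∀ a ∈ Rt K e, B a a = 0 → ∀ x ∈ Rt K e, x ≠ 0 → B x x = 0 → B x (g.1 a) = 0 →
      ∃ c : F, c ≠ 0 ∧ c • g.1 a ∈ Rt K e := fun a ha h1 x hx hx0 h2 h3 =>
    h.rat_of hr hq hc (by simp [h1]) h.θs h.θ0 (by
      rw [← hB.qr_conj]
      exact mul_mem (mul_mem hg (h.tv ha h1)) (inv_mem hg)) hx hx0 h2 h3
  have key : ∀ x ∈ Rt K e, B x x = 0 → ∀ y : V, y ≠ 0 → B y y = 0 →
      (∃ c : F, c ≠ 0 ∧ c • g.1 y ∈ Rt K e) → B y x = 0 → ∃ c : F, c ≠ 0 ∧ c • g.1 x ∈ Rt K e :=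
    fun x hx h4 y hy h5 ⟨c, h6, h7⟩ h8 =>
      R x hx h4 _ h7 (by simp [h6, hy]) (by simp [h5]) (by simp [h8])
  refine h.nr_of_iso fun v hv h4 => ?_
  obtain ⟨d, hd, d0, h5, h6, h7⟩ := h.iso2 ha hv
  exact key v hv h4 d d0 h5 (key d hd h5 a ha0 h1 (R a ha h1 x hx hx0 h2 h3) h6)
    (hB.zero_symm h7)

theorem odd (hro : Odd r) (h2 : (2 : F) ≠ 0) {g : UG B} (hg : g ∈ M) : g.1 ∈ NR K e := by
  have hs := h.θs
  have hs0 := h.θ0
  have hs' := h.θK
  have hT : ∀ u ∈ Rt K e, B u u = 0 → hB.qr u (t - σ t) ∈ M := fun u => h.tv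
  generalize t - σ t = s at hs hs0 hs' hT
  obtain ⟨a, ha, ha0, h1, -⟩ := h.iso2 (zero_mem _) (zero_mem _)
  have h3 : B (g.1 a) (g.1 a) = 0 := by simp [h1]
  have key : ∀ u ∈ Rt K e, B u u = 0 → B (g.1 a) u * σ (B (g.1 a) u) ∈ K := fun u hu h4 => by
    by_cases h0 : u = 0
    · simp [h0]
    have h5 := dk (K := K) (M := M.map (UG B).subtype) h2 (N := (s • B u).smulRight u)
      (N' := (s • B (g.1 a)).smulRight (g.1 a)) (l := s ^ 2 * (B (g.1 a) u * σ (B (g.1 a) u)))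
      (by simp [h4]) (by simp [h3]) (fun x => by simp [hB.symm]; module)
      (fun x => by simp [hB.symm]; module) (fun t ht => ?_)
      ⟨_, ⟨_, hT u hu h4, rfl⟩, hB.tv_apply h4 hs⟩
      ⟨_, ⟨_, mul_mem (mul_mem hg (hT a ha h1)) (inv_mem hg), rfl⟩, by
        rw [hB.qr_conj]; exact hB.tv_apply h3 hs⟩
    · simpa [hs0] using mul_mem (inv_mem (pow_mem hs' 2)) (mem_of_K2_odd hro hq h5)
    · obtain ⟨_, ⟨k, hk, rfl⟩, hk'⟩ := ht
      obtain ⟨x, hx, h6, h7, h8⟩ := h.third hu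
      have hx0 : x ≠ 0 := by rintro rfl; simp at h8
      have h9 := not_mem_span_swap h0 h8
      obtain ⟨d, hd, h10, h11⟩ := h.dual1 hx hu h9
      have h12 := h.ua hx h6 hd (hB.zero_symm h10)
      have := sub_mem (UA.map_fix h12 hk ((hk' x).trans (by simp [h7]))) h12
      rw [show k.1 _ = _ from hk' _, add_sub_cancel_left] at this
      have h13 := h.lev hr hq hc hx hx0 h6 hu h4 (hB.zero_symm h7) h9 (s := t * s) (by
        simpa [hB.one_symm h11, smul_smul] using this)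
      simpa [hs0] using mul_mem h13 (inv_mem hs')
  obtain ⟨u, hu, h4, h5, h6⟩ := h.third ha
  have fin : ∀ x ∈ Rt K e, x ≠ 0 → B x x = 0 → B (g.1 a) x = 0 → g.1 ∈ NR K e :=
    fun x hx hx0 h7 h8 => h.nr hr hq hc hg ha ha0 h1 hx hx0 h7 (hB.zero_symm h8)
  by_cases h7 : B (g.1 a) a = 0
  · exact fin a ha ha0 h1 h7
  have h8 : B (g.1 a) u / B (g.1 a) a ∈ K := by
    have k0 := key a ha h1
    have k1 := key u hu h4
    have k2 := key _ (add_mem ha hu) (by simp [h1, h4, h5, hB.zero_symm h5])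
    have k3 := key _ (add_mem ha (smul_mem_Rt hs' hu)) (by simp [h1, h4, h5, hB.zero_symm h5])
    have h9 : σ (B (g.1 a) a) ≠ 0 := by simpa using h7
    convert div_mem (add_mem (sub_mem (sub_mem k2 k0) k1) (div_mem (add_mem (sub_mem k3 k0)
      (mul_mem (pow_mem hs' 2) k1)) hs')) (mul_mem (natCast_mem K 2) k0) using 1
    simp only [map_add, map_smul, smul_eq_mul, map_mul, eq_neg_of_add_eq_zero_right hs,
      Nat.cast_ofNat]
    field_simp
    ring
  exact fin _ (sub_mem hu (smul_mem_Rt h8 ha)) (fun e => h6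
    (Submodule.mem_span_singleton.mpr ⟨⟨_, h8⟩, (sub_eq_zero.mp e).symm⟩))
    (by simp [h1, h4, h5, hB.zero_symm h5]) (by simp [h7])

theorem even (h2 : (2 : F) = 0) : M ≤ (NR K e).comap (UG B).subtype := by
  have hs := h.θs
  have hs0 := h.θ0
  have hs' := h.θK
  generalize t - σ t = s at hs hs0 hs'
  have : Finite V := Module.finite_of_finite F
  obtain ⟨a, ha, ha0, h1, -⟩ := h.iso2 (zero_mem _) (zero_mem _)
  obtain ⟨c, hc₁, h3, h4, h5⟩ := h.third ha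
  obtain ⟨x, -, h6, h7⟩ := h.dual1 ha hc₁ h5
  obtain ⟨y, -, h8, h9⟩ := h.dual1 hc₁ ha (not_mem_span_swap ha0 h5)
  have h0 : ∀ x : V, x + x = 0 := fun x => by rw [← two_smul F, h2, zero_smul]
  have e0 : (0 : F) + σ 0 = B c c := by simp [h3]
  have e1 := h.tvr hs hs' ha h1
  have e2 : (hB.eich a c 0).1 ∈ NR K e := nr_of' fun w hw => by
    rw [hB.eich_apply h1 h4 e0]
    exact sub_mem (add_mem hw (smul_mem_Rt (sub_mem (h.rat c hc₁ w hw)
      (mul_mem K.zero_mem (h.rat a ha w hw))) ha)) (smul_mem_Rt (h.rat a ha w hw) hc₁)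
  have iso : ∀ {z : UG B}, z * z = 1 → ∀ v w, B (z.1 v - v) (z.1 w - w) = 0 := fun {z} hz v w => by
    rw [b_sub_left, ← UG.map_b z v, invol_fix h2 (congrArg Subtype.val hz), sub_self]
  refine se2 (fun g hg z hz hz' hz1 hz2 h3 => ?_) (h.mem _ (hB.tv_mem_SUG h1 s) e1)
    (h.mem _ (hB.eich_mem_SUG _ _ _) e2) e1 e2 (fun e1 => ?_) (fun e1 => ?_) ?_ ?_ fun g _ e1 => ?_
  · have h4 : g⁻¹ * z * g * (g⁻¹ * z * g) = 1 := by
      rw [show g⁻¹ * z * g * (g⁻¹ * z * g) = g⁻¹ * (z * z) * g by group, hz2]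
      simp
    obtain ⟨v, hv, h5⟩ := exists_moved (K := K) (e := e) (z := (g⁻¹ * z * g).1) fun e =>
      hz1 (by simpa [mul_eq_one_iff_eq_inv', inv_mul_eq_iff_eq_mul] using
        (Subtype.ext e : g⁻¹ * z * g = 1))
    obtain ⟨w, hw, h8⟩ := exists_moved (K := K) (e := e) (z := z.1) fun e => hz1 (Subtype.ext e)
    refine h.nr hr hq hc hg
      (sub_mem (nr_invol h2 h3 (congrArg Subtype.val h4) hv) hv) h5 (iso h4 v v)
      (sub_mem (nr_invol h2 hz' (congrArg Subtype.val hz2) hw) hw) h8 (iso hz2 w w) ?_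
    simpa using iso hz2 w (g.1 v)
  · simpa [hB.tv_apply h1 hs, hB.one_symm h9, hs0, ha0] using congrArg (fun g : UG B => g.1 y) e1
  · simpa [hB.eich_apply h1 h4 e0, hB.one_symm h7, hB.zero_symm h6, ha0] using
      congrArg (fun g : UG B => g.1 x) e1
  · rw [hB.tv_mul h1 hs hs, ← two_mul, h2, zero_mul, hB.qr_zero]
  · rw [hB.eich_mul h1 h4 e0 h4 e0, h0, h3, hB.eich_zero h1]
    simp
  · rw [hB.qr_conj] at e1
    have h10 := congrArg (fun g : UG B => g.1 x) e1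
    have h11 := congrArg (fun g : UG B => g.1 y) e1
    simp only [hB.tv_apply (show B (g.1 a) (g.1 a) = 0 by simp [h1]) hs, hB.eich_apply h1 h4 e0,
      hB.one_symm h7, hB.zero_symm h6, hB.one_symm h9, hB.zero_symm h8, zero_mul, sub_zero,
      one_smul, zero_smul, add_zero, add_right_inj] at h10 h11
    rw [sub_eq_add_neg, add_right_inj] at h11
    have h12 := congrArg (B x) h10
    have h13 := congrArg (B y) h10
    have h14 := congrArg (B x) h11
    rw [map_smul, smul_eq_mul, h6] at h12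
    rw [map_smul, smul_eq_mul, h9] at h13
    simp only [map_smul, smul_eq_mul, map_add, map_neg, h6, h7] at h14
    rcases mul_eq_zero.mp h12 with h15 | h15
    · simp [h15] at h13
    · simp [h15] at h14

omit hc in
theorem exists_not : ∃ g ∈ SUG B, g.1 ∉ NR K e := by
  obtain ⟨s, hs⟩ := exists_not_mem_subfield hr hq
  obtain ⟨x, hx, hx0, h1, -⟩ := h.iso2 (zero_mem _) (zero_mem _)
  obtain ⟨w, hw, -, h3, h4⟩ := h.third hx
  obtain ⟨v, hv, h5, h6⟩ := h.dual1 hx hw h4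
  obtain ⟨l, hl⟩ := hB.toInv.exists_trace (hB.fix (σ s • v))
  refine ⟨_, hB.eich_mem_SUG x (σ s • v) l, fun ⟨c, hc, h7⟩ => hs ?_⟩
  have h8 : c ∈ K := mem_of_smul_mem hx hx0 (by simpa [hB.eich_apply_left] using (h7 x).mp hx)
  have h9 := sub_mem ((h7 w).mp hw) (smul_mem_Rt h8 hw)
  rw [hB.eich_apply h1 (by simp [hB.zero_symm h5]) hl, b_smul_left, h6, h3, hB.invol] at h9
  simp only [mul_one, mul_zero, sub_zero, zero_smul, smul_add, add_sub_cancel_left] at h9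
  rw [smul_smul] at h9
  simpa [hc] using div_mem (mem_of_smul_mem hx hx0 h9) h8

end SyU

theorem max_un_subfield4 {n q : ℕ} (hF : Nat.card F = q ^ 2) (hn : 4 ≤ n) {r : ℕ} (hr : r.Prime)
    (h2 : Odd r) (hq : Nat.card F = Nat.card K ^ r) (P : GL (Fin n) F)
    (hP : Geo.IsFormRationalStructure (hermForm n F q) K 1 P) :
    Geo.IsMaximalIn (Cfsg.GU n F q ⊓ Geo.specialLinear (Fin n) F)
      (Geo.subfieldSubgroup K P ⊓ (Cfsg.GU n F q ⊓ Geo.specialLinear (Fin n) F)) := by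
  have key : ∀ w, (P : Matrix _ _ F).mulVec (fun i =>
      ((Pi.basisFun F _).map (Orth.glEquiv _ F P)).repr w i) = w :=
    (Orth.glEquiv _ F P).apply_symm_apply
  obtain ⟨t, ht, ht'⟩ := exists_frob_ne hF h2 hq
  have hh : ∀ M, (∀ g ∈ SUG (sB hF n), g.1 ∈ NR K ((Pi.basisFun F _).map (Orth.glEquiv _ F P)) →
      g ∈ M) → SyU (hf_sB hF n) M K ((Pi.basisFun F _).map (Orth.glEquiv _ F P)) t := fun M h =>
    ⟨by simpa using hn, fun u hu v hv => by
      simpa only [key, hermForm_eq hF, one_mul] using hP _ _ (mem_Rt.mp hv) (mem_Rt.mp hu),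
      ht, ht', h⟩
  refine isMaximalIn_SU hF _ (mem_subfield_iff P) ((hh ⊤ fun _ _ _ => trivial).exists_not hr hq)
    fun M h5 _ ⟨g, hg, hg'⟩ => by_contra fun hc => hg' ?_
  by_cases h9 : (2 : F) = 0
  · exact (hh M h5).even hr hq hc h9 hg
  · exact (hh M h5).odd hr hq hc h2 h9 hg

end Cfsg.Agent.Max3
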